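import Mathlib
import Cfsg.Prelude.Def_Classical
import Cfsg.Prelude.Def_GeometricClasses
import Cfsg.Agent.Lib.Helper37.HypStmt

/-!
# S5989 (call by helper94): statement pieces

`POmega^+_(2d)(q)`, `q` odd, elements of prime order `r` (modulo scalars) and nondegenerate
`m`-spaces of ODD dimension `m < d` isometric to a given `W₀`.  Everything is about the standard
plus form `Cfsg.quadFormPlus d F` on `P d → F`, `P d = Fin d ⊕ Fin d`, dimension `2 d`.

Transfer remark: `Cfsg.quadFormOdd d F v = v (inl ()) ^ 2 + Cfsg.quadFormPlus d F (v ∘ inr)`, so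
an isometry `x` of the plus form gives the isometry `fromBlocks 1 0 0 x` of the odd form, which
fixes `w0 = single (inl ()) 1`; the landed S5992 pieces (`Cfsg.Agent.Lib.Helper37.HypStmt`:
`FixND DimObs Blocks TypeEven DerElt ...`) can be transferred along `v ↦ Sum.elim 0 v`.
-/

set_option autoImplicit false

universe u

open scoped Matrix

namespace Cfsg.Agent.Lib.Helper94.OPStmt

open Cfsg.Agent.Lib.Helper37.HypStmt (cc)

/-- index type of the standard plus form -/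
abbrev P (d : ℕ) : Type := Fin d ⊕ Fin d

/-- `N = x - 1` as a linear map -/
def NP {F : Type u} [Field F] {d : ℕ} (x : Matrix (P d) (P d) F) :
    (P d → F) →ₗ[F] (P d → F) :=
  Matrix.toLin' x - LinearMap.id

/-- fixed space of a matrix -/
def FxP {F : Type u} [Field F] {d : ℕ} (x : Matrix (P d) (P d) F) : Submodule F (P d → F) :=
  LinearMap.ker (Matrix.toLin' x - LinearMap.id)

theorem mem_FxP {F : Type u} [Field F] {d : ℕ} (x : Matrix (P d) (P d) F) (v : P d → F) :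
    v ∈ FxP x ↔ x *ᵥ v = v := by
  unfold FxP
  rw [LinearMap.mem_ker, LinearMap.sub_apply, Matrix.toLin'_apply, LinearMap.id_apply, sub_eq_zero]

/-- the polar form of the standard plus form is nondegenerate on `W` -/
def NDegP (d : ℕ) (F : Type u) [Field F] (W : Submodule F (P d → F)) : Prop :=
  Cfsg.Geo.IsNondegenerateOn (QuadraticMap.polar (Cfsg.quadFormPlus d F)) W

/-- `x W ≤ W` -/
def StabP {F : Type u} [Field F] {d : ℕ} (x : Matrix (P d) (P d) F)
    (W : Submodule F (P d → F)) : Prop :=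
  W.map (Matrix.toLin' x) ≤ W

/-- `W` is a nondegenerate `m`-space isometric to `W₀` -/
def Mem (d : ℕ) (F : Type u) [Field F] (m : ℕ) (W₀ W : Submodule F (P d → F)) : Prop :=
  Module.finrank F ↥W = m ∧
    Cfsg.Geo.IsNondegenerateOn (QuadraticMap.polar (Cfsg.quadFormPlus d F)) W ∧
    Cfsg.Geo.AreIsometricFor (Cfsg.quadFormPlus d F) W W₀

/-- abstract version: `W` is a nondegenerate subspace of `(V, Q)` isometric to `(M, QM)` -/
def AMem {F : Type u} [Field F] {V : Type u} [AddCommGroup V] [Module F V]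
    (Q : QuadraticForm F V) {M : Type u} [AddCommGroup M] [Module F M] (QM : QuadraticForm F M)
    (W : Submodule F V) : Prop :=
  (∀ x ∈ W, (∀ y ∈ W, QuadraticMap.polar Q x y = 0) → x = 0) ∧
    ∃ e : ↥W ≃ₗ[F] M, ∀ w : ↥W, QM (e w) = Q (w : V)

/-! ## Ports of the S5992 pieces to the plus form -/

/-- TOPNDP: the plus form is nondegenerate. -/
def TopNDP : Prop :=
  ∀ (F : Type u) [Field F] [Fintype F], Odd (Fintype.card F) → ∀ d : ℕ, NDegP d F ⊤

/-- FIXNDP: the fixed space of an isometry of order prime to `p` is nondegenerate. -/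
def FixNDP : Prop :=
  ∀ (F : Type u) [Field F] [Fintype F] (p : ℕ) [Fact p.Prime] [CharP F p],
    Odd (Fintype.card F) → ∀ (d : ℕ) (r : ℕ) [Fact r.Prime], r ≠ p →
    ∀ x : Matrix.GeneralLinearGroup (P d) F, x ∈ Cfsg.isometryGroup F (Cfsg.quadFormPlus d F) →
    x ^ r = 1 → NDegP d F (FxP (x : Matrix (P d) (P d) F))

/-- DIMOBSP: `c` divides `dim W - dim (W ∩ Fix x)` for `x`-invariant nondegenerate `W`. -/
def DimObsP : Prop :=
  ∀ (F : Type u) [Field F] [Fintype F] (p : ℕ) [Fact p.Prime] [CharP F p],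
    Odd (Fintype.card F) → ∀ (d : ℕ) (r : ℕ) [Fact r.Prime], r ≠ 2 → r ≠ p →
    ∀ x : Matrix.GeneralLinearGroup (P d) F, x ∈ Cfsg.isometryGroup F (Cfsg.quadFormPlus d F) →
    x ^ r = 1 → ∀ W : Submodule F (P d → F), StabP (x : Matrix (P d) (P d) F) W → NDegP d F W →
    cc (orderOf ((Fintype.card F : ℕ) : ZMod r)) ∣
      Module.finrank F ↥W - Module.finrank F ↥(W ⊓ FxP (x : Matrix (P d) (P d) F))

/-- BLOCKSP: invariant nondegenerate subspaces of dimension `j c` without fixed vectors,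
orthogonal to the fixed space, for every `j` with `j c + dim Fix x ≤ 2 d`. -/
def BlocksP : Prop :=
  ∀ (F : Type u) [Field F] [Fintype F] (p : ℕ) [Fact p.Prime] [CharP F p],
    Odd (Fintype.card F) → ∀ (d : ℕ) (r : ℕ) [Fact r.Prime], r ≠ 2 → r ≠ p →
    ∀ x : Matrix.GeneralLinearGroup (P d) F, x ∈ Cfsg.isometryGroup F (Cfsg.quadFormPlus d F) →
    x ^ r = 1 → ∀ j : ℕ,
    j * cc (orderOf ((Fintype.card F : ℕ) : ZMod r)) +
      Module.finrank F ↥(FxP (x : Matrix (P d) (P d) F)) ≤ 2 * d →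
    ∃ E : Submodule F (P d → F), StabP (x : Matrix (P d) (P d) F) E ∧ NDegP d F E ∧
      Module.finrank F ↥E = j * cc (orderOf ((Fintype.card F : ℕ) : ZMod r)) ∧
      E ⊓ FxP (x : Matrix (P d) (P d) F) = ⊥ ∧
      ∀ u ∈ E, ∀ v ∈ FxP (x : Matrix (P d) (P d) F),
        QuadraticMap.polar (Cfsg.quadFormPlus d F) u v = 0

/-- NOFREEP: `i` even: an isometry of order `r` of the plus form without fixed vectors exists
only if `2 d / i` is even. -/
def NoFreeP : Prop :=
  ∀ (F : Type u) [Field F] [Fintype F] (p : ℕ) [Fact p.Prime] [CharP F p],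
    Odd (Fintype.card F) → ∀ (d : ℕ), 1 ≤ d → ∀ (r : ℕ) [Fact r.Prime], r ≠ 2 → r ≠ p →
    Even (orderOf ((Fintype.card F : ℕ) : ZMod r)) →
    ∀ x : Matrix.GeneralLinearGroup (P d) F, x ∈ Cfsg.isometryGroup F (Cfsg.quadFormPlus d F) →
    x ^ r = 1 → FxP (x : Matrix (P d) (P d) F) = ⊥ →
    Even (2 * d / orderOf ((Fintype.card F : ℕ) : ZMod r))

/-- DERELTP: an element of `Omega^+` of order `r` whose fixed space has dimension `(2d) % c`,
provided `(2d) % c > 0` or `i` is odd or `2 d / i` is even. -/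
def DerEltP : Prop :=
  ∀ (F : Type u) [Field F] [Fintype F] (p : ℕ) [Fact p.Prime] [CharP F p],
    Odd (Fintype.card F) → ∀ (d : ℕ), 2 ≤ d → ∀ (r : ℕ) [Fact r.Prime], r ≠ 2 → r ≠ p →
    cc (orderOf ((Fintype.card F : ℕ) : ZMod r)) ≤ 2 * d →
    (0 < (2 * d) % cc (orderOf ((Fintype.card F : ℕ) : ZMod r)) ∨
      Odd (orderOf ((Fintype.card F : ℕ) : ZMod r)) ∨
      Even (2 * d / orderOf ((Fintype.card F : ℕ) : ZMod r))) →
    ∃ x : Matrix.GeneralLinearGroup (P d) F, x ∈ Cfsg.Geo.omegaGL (Cfsg.quadFormPlus d F) ∧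
      orderOf x = r ∧
      Module.finrank F ↥(FxP (x : Matrix (P d) (P d) F)) =
        (2 * d) % cc (orderOf ((Fintype.card F : ℕ) : ZMod r))

/-! ## Geometry -/

/-- ODDSUB: completing a nondegenerate even-dimensional `E` to a nondegenerate `m`-space
(`m` odd) isometric to `W₀` inside `E ⊥ Y`. -/
def OddSub : Prop :=
  ∀ (F : Type u) [Field F] [Fintype F], Odd (Fintype.card F) → ∀ (d m : ℕ), Odd m →
    ∀ W₀ : Submodule F (P d → F), Module.finrank F ↥W₀ = m → NDegP d F W₀ →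
    ∀ E Y : Submodule F (P d → F), NDegP d F E → NDegP d F Y →
    (∀ u ∈ E, ∀ v ∈ Y, QuadraticMap.polar (Cfsg.quadFormPlus d F) u v = 0) →
    Even (Module.finrank F ↥E) → Module.finrank F ↥E < m →
    m - Module.finrank F ↥E < Module.finrank F ↥Y →
    ∃ W₁ : Submodule F (P d → F), W₁ ≤ Y ∧ Mem d F m W₀ (E ⊔ W₁)

/-- INVOLP: an isometry with `x * x = 1` fixes a member. -/
def InvolP : Prop :=
  ∀ (F : Type u) [Field F] [Fintype F], Odd (Fintype.card F) → ∀ (d m : ℕ), Odd m → m < d →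
    ∀ W₀ : Submodule F (P d → F), Module.finrank F ↥W₀ = m → NDegP d F W₀ →
    ∀ x : Matrix.GeneralLinearGroup (P d) F, x ∈ Cfsg.isometryGroup F (Cfsg.quadFormPlus d F) →
    (x : Matrix (P d) (P d) F) * (x : Matrix (P d) (P d) F) = 1 →
    ∃ W : Submodule F (P d → F), Mem d F m W₀ W ∧ StabP (x : Matrix (P d) (P d) F) W

/-- SCAL: a scalar isometry is `± 1`. -/
def Scal : Prop :=
  ∀ (F : Type u) [Field F] [Fintype F] (d : ℕ), 1 ≤ d →
    ∀ y : Matrix.GeneralLinearGroup (P d) F, y ∈ Cfsg.isometryGroup F (Cfsg.quadFormPlus d F) →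
    ∀ z : F, (y : Matrix (P d) (P d) F) = z • (1 : Matrix (P d) (P d) F) → z = 1 ∨ z = -1

/-- NEGRED: an isometry `x` with `x ^ r = -1`, `r` odd, has the same invariant subspaces as the
isometry `y = -x`, and `y ^ r = 1`. -/
def NegRed : Prop :=
  ∀ (F : Type u) [Field F] [Fintype F] (d : ℕ) (r : ℕ), Odd r →
    ∀ x : Matrix.GeneralLinearGroup (P d) F, x ∈ Cfsg.isometryGroup F (Cfsg.quadFormPlus d F) →
    ((x ^ r : Matrix.GeneralLinearGroup (P d) F) : Matrix (P d) (P d) F) = -1 →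
    ∃ y : Matrix.GeneralLinearGroup (P d) F, y ∈ Cfsg.isometryGroup F (Cfsg.quadFormPlus d F) ∧
      y ^ r = 1 ∧ ∀ W : Submodule F (P d → F),
        StabP (y : Matrix (P d) (P d) F) W ↔ StabP (x : Matrix (P d) (P d) F) W

/-! ## `r = 2`: elements with `x * x = -1` -/

/-- NEGSQNOFIX: an isometry with `x * x = -1` stabilises no nondegenerate subspace of odd
dimension (determinant of `x` on `W`). -/
def NegSqNoFix : Prop :=
  ∀ (F : Type u) [Field F] [Fintype F], Odd (Fintype.card F) → ∀ (d m : ℕ), Odd m →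
    ∀ x : Matrix.GeneralLinearGroup (P d) F, x ∈ Cfsg.isometryGroup F (Cfsg.quadFormPlus d F) →
    (x : Matrix (P d) (P d) F) * (x : Matrix (P d) (P d) F) = -1 →
    ∀ W : Submodule F (P d → F), Module.finrank F ↥W = m → NDegP d F W →
    ¬ StabP (x : Matrix (P d) (P d) F) W

/-- NEGSQEX: if `d` is even or `q ≡ 1 (mod 8)`, `Omega^+` contains an element with
`x * x = -1`. -/
def NegSqEx : Prop :=
  ∀ (F : Type u) [Field F] [Fintype F], Odd (Fintype.card F) → ∀ (d : ℕ), 2 ≤ d →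
    (Even d ∨ Fintype.card F % 8 = 1) →
    ∃ x : Matrix.GeneralLinearGroup (P d) F, x ∈ Cfsg.Geo.omegaGL (Cfsg.quadFormPlus d F) ∧
      (x : Matrix (P d) (P d) F) * (x : Matrix (P d) (P d) F) = -1

/-- NEGSQNON3: `d` odd, `q ≡ 3 (mod 4)`: no element of `Omega^+` has `x * x = -1`
(`-1 ∉ Omega^+`). -/
def NegSqNon3 : Prop :=
  ∀ (F : Type u) [Field F] [Fintype F], Fintype.card F % 4 = 3 → ∀ (d : ℕ), 2 ≤ d → Odd d →
    ∀ x : Matrix.GeneralLinearGroup (P d) F, x ∈ Cfsg.Geo.omegaGL (Cfsg.quadFormPlus d F) →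
    (x : Matrix (P d) (P d) F) * (x : Matrix (P d) (P d) F) ≠ -1

/-- NEGSQNON5: `d` odd, `q ≡ 5 (mod 8)`: no element of `Omega^+` has `x * x = -1`
(spinor norm `ι ^ d`, `ι ^ 2 = -1`, is a nonsquare). -/
def NegSqNon5 : Prop :=
  ∀ (F : Type u) [Field F] [Fintype F], Fintype.card F % 8 = 5 → ∀ (d : ℕ), 2 ≤ d → Odd d →
    ∀ x : Matrix.GeneralLinearGroup (P d) F, x ∈ Cfsg.Geo.omegaGL (Cfsg.quadFormPlus d F) →
    (x : Matrix (P d) (P d) F) * (x : Matrix (P d) (P d) F) ≠ -1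

/-! ## `r = p`: unipotent elements -/

/-- PELTA: a Siegel element: `x ∈ Omega^+` of order `p` with `(x - 1) V ≤ Fix x` and
`dim (x - 1) V = ρ`, for every even `ρ` with `2 ≤ ρ ≤ d`. -/
def PEltA : Prop :=
  ∀ (F : Type u) [Field F] [Fintype F] (p : ℕ) [Fact p.Prime] [CharP F p],
    Odd (Fintype.card F) → ∀ (d ρ : ℕ), Even ρ → 2 ≤ ρ → ρ ≤ d →
    ∃ x : Matrix.GeneralLinearGroup (P d) F, x ∈ Cfsg.Geo.omegaGL (Cfsg.quadFormPlus d F) ∧
      orderOf x = p ∧
      LinearMap.range (NP (x : Matrix (P d) (P d) F)) ≤ FxP (x : Matrix (P d) (P d) F) ∧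
      Module.finrank F ↥(LinearMap.range (NP (x : Matrix (P d) (P d) F))) = ρ

/-- PELTB: `d ≥ 3` odd: `x ∈ Omega^+` of order `p` with `Fix x ≤ (x - 1) V`, `(x - 1) ^ 3 = 0`
and `dim (x - 1) ^ 2 V ≤ 2` (Jordan type `J_3 ^ 2 + J_2 ^ (d - 3)`). -/
def PEltB : Prop :=
  ∀ (F : Type u) [Field F] [Fintype F] (p : ℕ) [Fact p.Prime] [CharP F p],
    Odd (Fintype.card F) → ∀ (d : ℕ), 3 ≤ d → Odd d →
    ∃ x : Matrix.GeneralLinearGroup (P d) F, x ∈ Cfsg.Geo.omegaGL (Cfsg.quadFormPlus d F) ∧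
      orderOf x = p ∧
      FxP (x : Matrix (P d) (P d) F) ≤ LinearMap.range (NP (x : Matrix (P d) (P d) F)) ∧
      (∀ v, NP (x : Matrix (P d) (P d) F) (NP (x : Matrix (P d) (P d) F)
        (NP (x : Matrix (P d) (P d) F) v)) = 0) ∧
      Module.finrank F ↥(LinearMap.range
        (NP (x : Matrix (P d) (P d) F) ∘ₗ NP (x : Matrix (P d) (P d) F))) ≤ 2

/-- PFIXA: an isometry `x` with `(x - 1) V ≤ Fix x` stabilising a nondegenerate subspace of odd
dimension `m` has `dim (x - 1) V ≤ d - 1`, and `m ≡ 1 (mod 4)` in case of equality. -/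
def PFixA : Prop :=
  ∀ (F : Type u) [Field F] [Fintype F], Odd (Fintype.card F) → ∀ (d m : ℕ), 1 ≤ d → Odd m →
    ∀ x : Matrix.GeneralLinearGroup (P d) F, x ∈ Cfsg.isometryGroup F (Cfsg.quadFormPlus d F) →
    LinearMap.range (NP (x : Matrix (P d) (P d) F)) ≤ FxP (x : Matrix (P d) (P d) F) →
    ∀ W : Submodule F (P d → F), Module.finrank F ↥W = m → NDegP d F W →
    StabP (x : Matrix (P d) (P d) F) W →
    Module.finrank F ↥(LinearMap.range (NP (x : Matrix (P d) (P d) F))) ≤ d - 1 ∧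
      (Module.finrank F ↥(LinearMap.range (NP (x : Matrix (P d) (P d) F))) = d - 1 → m % 4 = 1)

/-- PFIXB: an isometry `x` with `Fix x ≤ (x - 1) V`, `(x - 1) ^ 3 = 0` and
`dim (x - 1) ^ 2 V ≤ 2` stabilising a nondegenerate subspace of odd dimension `m` forces
`m ≡ 3 (mod 4)`. -/
def PFixB : Prop :=
  ∀ (F : Type u) [Field F] [Fintype F], Odd (Fintype.card F) → ∀ (d m : ℕ), Odd m →
    ∀ x : Matrix.GeneralLinearGroup (P d) F, x ∈ Cfsg.isometryGroup F (Cfsg.quadFormPlus d F) →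
    FxP (x : Matrix (P d) (P d) F) ≤ LinearMap.range (NP (x : Matrix (P d) (P d) F)) →
    (∀ v, NP (x : Matrix (P d) (P d) F) (NP (x : Matrix (P d) (P d) F)
      (NP (x : Matrix (P d) (P d) F) v)) = 0) →
    Module.finrank F ↥(LinearMap.range
      (NP (x : Matrix (P d) (P d) F) ∘ₗ NP (x : Matrix (P d) (P d) F))) ≤ 2 →
    ∀ W : Submodule F (P d → F), Module.finrank F ↥W = m → NDegP d F W →
    StabP (x : Matrix (P d) (P d) F) W → m % 4 = 3

/-! ## Counting pieces (for `NDivP`) -/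

/-- FIXCONGP: fixed point congruence for `⟨x⟩`, `x ^ r = 1`, acting on the members. -/
def FixCongP : Prop :=
  ∀ (F : Type u) [Field F] [Fintype F] (d m : ℕ) (W₀ : Submodule F (P d → F))
    (r : ℕ) [Fact r.Prime]
    (x : Matrix.GeneralLinearGroup (P d) F), x ∈ Cfsg.isometryGroup F (Cfsg.quadFormPlus d F) →
    x ^ r = 1 →
    Nat.card {W : Submodule F (P d → F) // Mem d F m W₀ W} ≡
      Nat.card {W : Submodule F (P d → F) //
        Mem d F m W₀ W ∧ StabP (x : Matrix (P d) (P d) F) W} [MOD r]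

/-- ACARDI: in a nondegenerate quadratic space of dimension `< c` containing a nondegenerate
subspace isometric to `(M, QM)`, `r` does not divide the number of such subspaces. -/
def ACardI : Prop :=
  ∀ (F : Type u) [Field F] [Fintype F] (p : ℕ) [Fact p.Prime] [CharP F p],
    Odd (Fintype.card F) →
    ∀ (V : Type u) [AddCommGroup V] [Module F V] [FiniteDimensional F V] (Q : QuadraticForm F V),
    (∀ x, (∀ y, QuadraticMap.polar Q x y = 0) → x = 0) →
    ∀ (M : Type u) [AddCommGroup M] [Module F M] (QM : QuadraticForm F M),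
    ∀ (r : ℕ) [Fact r.Prime], r ≠ 2 → r ≠ p →
    Module.finrank F V < cc (orderOf ((Fintype.card F : ℕ) : ZMod r)) →
    (∃ W : Submodule F V, AMem Q QM W) →
    ¬ r ∣ Nat.card {W : Submodule F V // AMem Q QM W}

/-- UCARDP: for a nondegenerate subspace `U` with `m < dim U < c`, `r` does not divide the
number of members contained in `U`. -/
def UCardP : Prop :=
  ∀ (F : Type u) [Field F] [Fintype F] (p : ℕ) [Fact p.Prime] [CharP F p],
    Odd (Fintype.card F) → ∀ (d m : ℕ), Odd m →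
    ∀ W₀ : Submodule F (P d → F), Module.finrank F ↥W₀ = m → NDegP d F W₀ →
    ∀ (r : ℕ) [Fact r.Prime], r ≠ 2 → r ≠ p →
    ∀ U : Submodule F (P d → F), NDegP d F U → m < Module.finrank F ↥U →
    Module.finrank F ↥U < cc (orderOf ((Fintype.card F : ℕ) : ZMod r)) →
    ¬ r ∣ Nat.card {W : Submodule F (P d → F) // Mem d F m W₀ W ∧ W ≤ U}

/-- NDIVP: `r ∣ #members` forces `c ≤ m` or `(2d) % c < m` (`r` odd, `r ≠ p`). -/
def NDivP : Prop :=
  ∀ (F : Type u) [Field F] [Fintype F] (p : ℕ) [Fact p.Prime] [CharP F p],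
    Odd (Fintype.card F) → ∀ (d m : ℕ), 4 ≤ d → Odd m → m < d →
    ∀ W₀ : Submodule F (P d → F), Module.finrank F ↥W₀ = m → NDegP d F W₀ →
    ∀ (r : ℕ) [Fact r.Prime], r ≠ 2 → r ≠ p →
    r ∣ Nat.card {W : Submodule F (P d → F) // Mem d F m W₀ W} →
    cc (orderOf ((Fintype.card F : ℕ) : ZMod r)) ≤ m ∨
      (2 * d) % cc (orderOf ((Fintype.card F : ℕ) : ZMod r)) < m

/-! ## Assembly pieces -/

/-- the arithmetic condition of S5989 for odd `r ≠ p` -/
def CondP (d m i : ℕ) : Prop :=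
  (Odd i ∧ cc i ≤ m ∧ 0 < m % cc i ∧ m % cc i < (2 * d) % cc i) ∨
  (Even i ∧ (((2 * d) % cc i = 0 ∧ Odd ((2 * d) / i)) ∨
    (i ≤ m ∧ 0 < m % cc i ∧ m % cc i < (2 * d) % cc i)))

/-- B1P: under `CondP`, every isometry `y` with `y ^ r = 1` fixes a member. -/
def B1P : Prop :=
  ∀ (F : Type u) [Field F] [Fintype F] (p : ℕ) [Fact p.Prime] [CharP F p],
    Odd (Fintype.card F) → ∀ (d m : ℕ), 4 ≤ d → Odd m → m < d →
    ∀ W₀ : Submodule F (P d → F), Module.finrank F ↥W₀ = m → NDegP d F W₀ →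
    ∀ (r : ℕ) [Fact r.Prime], r ≠ 2 → r ≠ p →
    CondP d m (orderOf ((Fintype.card F : ℕ) : ZMod r)) →
    ∀ y : Matrix.GeneralLinearGroup (P d) F, y ∈ Cfsg.isometryGroup F (Cfsg.quadFormPlus d F) →
    y ^ r = 1 →
    ∃ W : Submodule F (P d → F), Mem d F m W₀ W ∧ StabP (y : Matrix (P d) (P d) F) W

/-- B2P: if `CondP` fails and (`c ≤ m` or `(2d) % c < m`), some element of order `r` of
`Omega^+` fixes no member. -/
def B2P : Prop :=
  ∀ (F : Type u) [Field F] [Fintype F] (p : ℕ) [Fact p.Prime] [CharP F p],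
    Odd (Fintype.card F) → ∀ (d m : ℕ), 4 ≤ d → Odd m → m < d →
    ∀ W₀ : Submodule F (P d → F), Module.finrank F ↥W₀ = m → NDegP d F W₀ →
    ∀ (r : ℕ) [Fact r.Prime], r ≠ 2 → r ≠ p →
    (cc (orderOf ((Fintype.card F : ℕ) : ZMod r)) ≤ m ∨
      (2 * d) % cc (orderOf ((Fintype.card F : ℕ) : ZMod r)) < m) →
    ¬ CondP d m (orderOf ((Fintype.card F : ℕ) : ZMod r)) →
    ∃ x : Matrix.GeneralLinearGroup (P d) F, x ∈ Cfsg.Geo.omegaGL (Cfsg.quadFormPlus d F) ∧
      orderOf x = r ∧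
      ∀ W : Submodule F (P d → F), Mem d F m W₀ W → ¬ StabP (x : Matrix (P d) (P d) F) W

end Cfsg.Agent.Lib.Helper94.OPStmt
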