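import Mathlib
import Cfsg.Prelude.Def_Classical
import Cfsg.Prelude.Def_GeometricClasses
import Cfsg.Agent.Lib.Helper37.HypStmt

/-!
# S5993 (call by helper94): statement pieces

`Omega_(2d+1)(q)`, `q` odd, elements of prime order `r` and ELLIPTIC `m`-spaces.  Sibling of
S5992 (helper37, `Cfsg.Agent.Lib.Helper37.HypStmt`): the pieces `IPos TopND FxLt FixND DimObs
Blocks TypeOdd TypeEven DerElt` of that call are reused unchanged.  Notation as there:
`I d = Unit ⊕ (Fin d ⊕ Fin d)`, `Fx x` fixed space, `NDeg d F W`, `Stab x W`, `cc i`.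
-/

set_option autoImplicit false

universe u

open scoped Matrix

namespace Cfsg.Agent.Lib.Helper94.EllStmt

open Cfsg.Agent.Lib.Helper37.HypStmt

/-- `W` is an elliptic `m`-space -/
def Ell (d : ℕ) (F : Type u) [Field F] (m : ℕ) (W : Submodule F (I d → F)) : Prop :=
  Module.finrank F ↥W = m ∧
    Cfsg.Geo.IsNondegenerateOn (QuadraticMap.polar (Cfsg.quadFormOdd d F)) W ∧
    ¬ Cfsg.Geo.IsPlusTypeOn (Cfsg.quadFormOdd d F) W

/-- abstract version: `W` is an elliptic `m`-subspace of the quadratic space `(V, Q)` -/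
def AEll {F : Type u} [Field F] {V : Type u} [AddCommGroup V] [Module F V]
    (Q : QuadraticForm F V) (m : ℕ) (W : Submodule F V) : Prop :=
  Module.finrank F ↥W = m ∧
    (∀ x ∈ W, (∀ y ∈ W, QuadraticMap.polar Q x y = 0) → x = 0) ∧
    ¬ ∃ T : Submodule F V, T ≤ W ∧ (∀ t ∈ T, Q t = 0) ∧
      2 * Module.finrank F ↥T = Module.finrank F ↥W

/-! ## Geometry pieces -/

/-- ELLSUB: completing a nondegenerate even-dimensional `E` (of either type) to an ELLIPTIC
`m`-space inside `E ⊥ Y`.  (Elliptic analogue of `HypSub`.) -/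
def EllSub : Prop :=
  ∀ (F : Type u) [Field F] [Fintype F], Odd (Fintype.card F) → ∀ (d m : ℕ), Even m →
    ∀ E Y : Submodule F (I d → F), NDeg d F E → NDeg d F Y →
    (∀ u ∈ E, ∀ v ∈ Y, QuadraticMap.polar (Cfsg.quadFormOdd d F) u v = 0) →
    Even (Module.finrank F ↥E) → Module.finrank F ↥E < m →
    m - Module.finrank F ↥E < Module.finrank F ↥Y →
    ∃ W₁ : Submodule F (I d → F), W₁ ≤ Y ∧ Ell d F m (E ⊔ W₁)

/-- INVOLE: every involution of `Omega` fixes an elliptic `m`-space. -/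
def InvolE : Prop :=
  ∀ (F : Type u) [Field F] [Fintype F], Odd (Fintype.card F) → ∀ (d m : ℕ), 3 ≤ d → 2 ≤ m →
    Even m → m ≤ 2 * d →
    ∀ x : Matrix.GeneralLinearGroup (I d) F, x ∈ Cfsg.Geo.omegaGL (Cfsg.quadFormOdd d F) →
    orderOf x = 2 →
    ∃ W : Submodule F (I d → F), Ell d F m W ∧ Stab (x : Matrix (I d) (I d) F) W

/-! ## `r = p` -/

/-- PFIX: an isometry `x` such that `(x - 1) V ∩ Fix x` has dimension at least `d` stabilises no
elliptic `m`-space (`m` even). -/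
def PFix : Prop :=
  ∀ (F : Type u) [Field F] [Fintype F], Odd (Fintype.card F) → ∀ (d m : ℕ), Even m →
    ∀ x : Matrix.GeneralLinearGroup (I d) F, x ∈ Cfsg.isometryGroup F (Cfsg.quadFormOdd d F) →
    d ≤ Module.finrank F
      ↥(LinearMap.range (Matrix.toLin' (x : Matrix (I d) (I d) F) - LinearMap.id) ⊓
        Fx (x : Matrix (I d) (I d) F)) →
    ∀ W : Submodule F (I d → F), Ell d F m W → ¬ Stab (x : Matrix (I d) (I d) F) W

/-- PELT: an element `x` of order `p` of `Omega` such that `(x - 1) V ∩ Fix x` has dimension at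
least `d`. -/
def PElt : Prop :=
  ∀ (F : Type u) [Field F] [Fintype F] (p : ℕ) [Fact p.Prime] [CharP F p],
    Odd (Fintype.card F) → ∀ (d : ℕ), 3 ≤ d →
    ∃ x : Matrix.GeneralLinearGroup (I d) F, x ∈ Cfsg.Geo.omegaGL (Cfsg.quadFormOdd d F) ∧
      orderOf x = p ∧
      d ≤ Module.finrank F
        ↥(LinearMap.range (Matrix.toLin' (x : Matrix (I d) (I d) F) - LinearMap.id) ⊓
          Fx (x : Matrix (I d) (I d) F))

/-! ## Counting pieces (for `NDivE`) -/

/-- FIXCONG: fixed point congruence for `⟨x⟩`, `x ^ r = 1`, acting on the elliptic `m`-spaces. -/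
def FixCong : Prop :=
  ∀ (F : Type u) [Field F] [Fintype F] (d m : ℕ) (r : ℕ) [Fact r.Prime]
    (x : Matrix.GeneralLinearGroup (I d) F), x ∈ Cfsg.isometryGroup F (Cfsg.quadFormOdd d F) →
    x ^ r = 1 →
    Nat.card {W : Submodule F (I d → F) // Ell d F m W} ≡
      Nat.card {W : Submodule F (I d → F) // Ell d F m W ∧ Stab (x : Matrix (I d) (I d) F) W}
      [MOD r]

/-- ATRANS: the isometry group of a nondegenerate quadratic space (`q` odd) is transitive on the
elliptic `m`-subspaces (`m` even). -/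
def ATrans : Prop :=
  ∀ (F : Type u) [Field F] [Fintype F], Odd (Fintype.card F) →
    ∀ (V : Type u) [AddCommGroup V] [Module F V] [FiniteDimensional F V] (Q : QuadraticForm F V),
    (∀ x, (∀ y, QuadraticMap.polar Q x y = 0) → x = 0) → ∀ (m : ℕ), Even m →
    ∀ W W' : Submodule F V, AEll Q m W → AEll Q m W' →
    ∃ g : V ≃ₗ[F] V, (∀ v, Q (g v) = Q v) ∧ W.map (g : V →ₗ[F] V) = W'

/-- ACAUCHY: a nondegenerate quadratic space of dimension `< c` has no isometry of order `r`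
(`r` odd prime `≠ p`). -/
def ACauchy : Prop :=
  ∀ (F : Type u) [Field F] [Fintype F] (p : ℕ) [Fact p.Prime] [CharP F p],
    Odd (Fintype.card F) →
    ∀ (V : Type u) [AddCommGroup V] [Module F V] [FiniteDimensional F V] (Q : QuadraticForm F V),
    (∀ x, (∀ y, QuadraticMap.polar Q x y = 0) → x = 0) →
    ∀ (r : ℕ) [Fact r.Prime], r ≠ 2 → r ≠ p →
    Module.finrank F V < cc (orderOf ((Fintype.card F : ℕ) : ZMod r)) →
    ∀ g : V ≃ₗ[F] V, (∀ v, Q (g v) = Q v) → g ^ r = 1 → g = 1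

/-- ACARD: in a nondegenerate quadratic space of dimension `< c` containing an elliptic
`m`-subspace, `r` does not divide the number of elliptic `m`-subspaces. -/
def ACard : Prop :=
  ∀ (F : Type u) [Field F] [Fintype F] (p : ℕ) [Fact p.Prime] [CharP F p],
    Odd (Fintype.card F) →
    ∀ (V : Type u) [AddCommGroup V] [Module F V] [FiniteDimensional F V] (Q : QuadraticForm F V),
    (∀ x, (∀ y, QuadraticMap.polar Q x y = 0) → x = 0) → ∀ (m : ℕ), Even m →
    ∀ (r : ℕ) [Fact r.Prime], r ≠ 2 → r ≠ p →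
    Module.finrank F V < cc (orderOf ((Fintype.card F : ℕ) : ZMod r)) →
    (∃ W : Submodule F V, AEll Q m W) →
    ¬ r ∣ Nat.card {W : Submodule F V // AEll Q m W}

/-- UCARD: for a nondegenerate subspace `U` with `m < dim U < c`, `r` does not divide the number
of elliptic `m`-spaces contained in `U`. -/
def UCard : Prop :=
  ∀ (F : Type u) [Field F] [Fintype F] (p : ℕ) [Fact p.Prime] [CharP F p],
    Odd (Fintype.card F) → ∀ (d m : ℕ), 2 ≤ m → Even m →
    ∀ (r : ℕ) [Fact r.Prime], r ≠ 2 → r ≠ p →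
    ∀ U : Submodule F (I d → F), NDeg d F U → m < Module.finrank F ↥U →
    Module.finrank F ↥U < cc (orderOf ((Fintype.card F : ℕ) : ZMod r)) →
    ¬ r ∣ Nat.card {W : Submodule F (I d → F) // Ell d F m W ∧ W ≤ U}

/-- NDIVE: `r ∣ #elliptic m-spaces` forces `(2d+1) % c < m` (`r` odd, `r ≠ p`). -/
def NDivE : Prop :=
  ∀ (F : Type u) [Field F] [Fintype F] (p : ℕ) [Fact p.Prime] [CharP F p],
    Odd (Fintype.card F) → ∀ (d m : ℕ), 3 ≤ d → 2 ≤ m → Even m → m ≤ 2 * d →
    ∀ (r : ℕ) [Fact r.Prime], r ≠ 2 → r ≠ p →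
    r ∣ Nat.card {W : Submodule F (I d → F) // Ell d F m W} →
    (2 * d + 1) % cc (orderOf ((Fintype.card F : ℕ) : ZMod r)) < m

/-! ## Assembly pieces -/

/-- the arithmetic condition of S5993 for odd `r ≠ p` -/
def CondE (d m i : ℕ) : Prop :=
  (Odd i ∧ cc i ≤ m ∧ 0 < m % cc i ∧ m % cc i < (2 * d + 1) % cc i) ∨
  (Even i ∧ i ≤ m ∧ m % cc i < (2 * d + 1) % cc i ∧ (0 < m % cc i ∨ Odd (m / i)))

/-- B1E: under `CondE`, every element of order `r` of `Omega` fixes an elliptic `m`-space. -/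
def B1E : Prop :=
  ∀ (F : Type u) [Field F] [Fintype F] (p : ℕ) [Fact p.Prime] [CharP F p],
    Odd (Fintype.card F) → ∀ (d m : ℕ), 3 ≤ d → 2 ≤ m → Even m → m ≤ 2 * d →
    ∀ (r : ℕ) [Fact r.Prime], r ≠ 2 → r ≠ p →
    CondE d m (orderOf ((Fintype.card F : ℕ) : ZMod r)) →
    ∀ x : Matrix.GeneralLinearGroup (I d) F, x ∈ Cfsg.Geo.omegaGL (Cfsg.quadFormOdd d F) →
    orderOf x = r →
    ∃ W : Submodule F (I d → F), Ell d F m W ∧ Stab (x : Matrix (I d) (I d) F) W

/-- B2E: if `CondE` fails and `(2d+1) % c < m`, some element of order `r` of `Omega` fixes no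
elliptic `m`-space. -/
def B2E : Prop :=
  ∀ (F : Type u) [Field F] [Fintype F] (p : ℕ) [Fact p.Prime] [CharP F p],
    Odd (Fintype.card F) → ∀ (d m : ℕ), 3 ≤ d → 2 ≤ m → Even m → m ≤ 2 * d →
    ∀ (r : ℕ) [Fact r.Prime], r ≠ 2 → r ≠ p →
    (2 * d + 1) % cc (orderOf ((Fintype.card F : ℕ) : ZMod r)) < m →
    ¬ CondE d m (orderOf ((Fintype.card F : ℕ) : ZMod r)) →
    ∃ x : Matrix.GeneralLinearGroup (I d) F, x ∈ Cfsg.Geo.omegaGL (Cfsg.quadFormOdd d F) ∧
      orderOf x = r ∧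
      ∀ W : Submodule F (I d → F), Ell d F m W → ¬ Stab (x : Matrix (I d) (I d) F) W

end Cfsg.Agent.Lib.Helper94.EllStmt
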