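import Mathlib
import Cfsg.Agent.Lib.Helper37.HypStmt
import Cfsg.Agent.Lib.Helper94.EllStmt
import Cfsg.Agent.Lib.Helper44.NegPairs
import Cfsg.Agent.Lib.Helper44.WittND2
import Cfsg.Agent.Lib.Helper44.Inv7
import Cfsg.Agent.Lib.Helper10.HypINVOL

/-!
# S5993 / PFIX: an isometry `x` with `dim ((x - 1) V ∩ Fix x) ≥ d` stabilises no elliptic
`m`-space (`m` even).
-/

set_option autoImplicit false

namespace Cfsg.Agent.Lib.Helper94.EllPFIX

open Module QuadraticMap
open Cfsg.Agent.Lib.Helper44.QSpace Cfsg.Agent.Lib.Helper44.NegPairs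
open Cfsg.Agent.Lib.Helper44.WittND Cfsg.Agent.Lib.Helper44.WittND2
open Cfsg.Agent.Lib.Helper37.HypStmt Cfsg.Agent.Lib.Helper94.EllStmt

universe u

section gen

variable {F : Type*} [Field F] {V : Type u} [AddCommGroup V] [Module F V] [FiniteDimensional F V]

/-- a totally singular subspace of a nondegenerate subspace has at most half its dimension -/
theorem ts_half (Q : QuadraticForm F V) {W T : Submodule F V} (hW : NDsub Q W) (hTW : T ≤ W)
    (hT : ∀ t ∈ T, Q t = 0) : 2 * finrank F T ≤ finrank F W := by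
  have hS : Sep (res Q W) := sep_res_of_ndsub hW
  have h1 := Cfsg.Agent.Lib.Helper44.Inv7.two_finrank_le_of_sing hS (W := T.comap W.subtype)
    (fun w hw => hT _ hw)
  have h2 : finrank F (T.comap W.subtype) = finrank F T := by
    rw [← Submodule.finrank_map_subtype_eq W (T.comap W.subtype), Submodule.map_comap_subtype,
      inf_eq_right.mpr hTW]
  rw [h2] at h1
  exact h1

theorem core (h2 : (2 : F) ≠ 0) (Q : QuadraticForm F V) (hS : Sep Q) (A : V →ₗ[F] V)
    (hA : ∀ v, Q (A v) = Q v) (W : Submodule F V) (hW : NDsub Q W) (hAW : ∀ w ∈ W, A w ∈ W)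
    (hnp : ¬ ∃ T : Submodule F V, T ≤ W ∧ (∀ t ∈ T, Q t = 0) ∧
      2 * finrank F T = finrank F W)
    (k : ℕ) (hk : finrank F W = 2 * k) (d : ℕ) (hV : finrank F V = 2 * d + 1) :
    finrank F ↥(LinearMap.range (A - LinearMap.id) ⊓ LinearMap.ker (A - LinearMap.id)) < d := by
  obtain ⟨N, hNdef⟩ : ∃ N : V →ₗ[F] V, N = A - LinearMap.id := ⟨_, rfl⟩
  rw [← hNdef]
  have hN : ∀ v, N v = A v - v := by
    intro v
    rw [hNdef, LinearMap.sub_apply, LinearMap.id_apply]
  obtain ⟨W', hW'def⟩ : ∃ W', W' = LinearMap.BilinForm.orthogonal (polarBilin Q) W := ⟨_, rfl⟩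
  have hW'mem : ∀ v, v ∈ W' ↔ ∀ w ∈ W, polar Q w v = 0 := by
    intro v
    rw [hW'def]
    exact Iff.rfl
  have hinf : W ⊓ W' = ⊥ := by
    rw [eq_bot_iff]
    rintro x ⟨hx1, hx2⟩
    rw [Submodule.mem_bot]
    apply hW x hx1
    intro y hy
    rw [polar_comm]
    exact (hW'mem x).mp hx2 y hy
  have hW'nd : NDsub Q W' := by
    rw [hW'def]
    apply ndsub_orth hS
    rw [← hW'def]
    exact hinf
  have hfW' : finrank F W' = finrank F V - finrank F W := by
    rw [hW'def, LinearMap.BilinForm.finrank_orthogonal (nondegenerate_of_sep hS)]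
  have hWle : finrank F W ≤ finrank F V := Submodule.finrank_le W
  have hsup : W ⊔ W' = ⊤ := by
    apply Submodule.eq_top_of_finrank_eq
    have h3 := Submodule.finrank_sup_add_finrank_inf_eq W W'
    rw [hinf, finrank_bot] at h3
    omega
  have hpol : ∀ u v, polar Q (A u) (A v) = polar Q u v := by
    intro u v
    unfold polar
    rw [← map_add, hA, hA, hA]
  have hAinj : Function.Injective A := by
    rw [injective_iff_map_eq_zero]
    intro v hv
    apply hS
    intro y
    rw [← hpol, hv]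
    simp [polar]
  have hsurj : ∀ w ∈ W, ∃ w₂ ∈ W, A w₂ = w := by
    have hinjr : Function.Injective (A.restrict hAW) := by
      intro a b hab
      apply Subtype.ext
      apply hAinj
      have := congrArg (Subtype.val) hab
      simpa [LinearMap.restrict_apply] using this
    have hsur := LinearMap.injective_iff_surjective.mp hinjr
    intro w hw
    obtain ⟨w₂, hw₂⟩ := hsur ⟨w, hw⟩
    refine ⟨w₂.1, w₂.2, ?_⟩
    have := congrArg (Subtype.val) hw₂
    simpa [LinearMap.restrict_apply] using this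
  have hAW' : ∀ v ∈ W', A v ∈ W' := by
    intro v hv
    rw [hW'mem]
    intro w hw
    obtain ⟨w₂, hw₂, rfl⟩ := hsurj w hw
    rw [hpol]
    exact (hW'mem v).mp hv w₂ hw₂
  have hNW : ∀ w ∈ W, N w ∈ W := by
    intro w hw
    rw [hN]
    exact W.sub_mem (hAW w hw) hw
  have hNW' : ∀ w ∈ W', N w ∈ W' := by
    intro w hw
    rw [hN]
    exact W'.sub_mem (hAW' w hw) hw
  have hsing : ∀ (U : Submodule F V), ∀ t ∈ U.map N ⊓ LinearMap.ker N, Q t = 0 := by
    rintro U t ⟨ht1, ht2⟩
    obtain ⟨w, -, rfl⟩ := Submodule.mem_map.mp ht1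
    have hfix : A (N w) = N w := by
      have h5 := LinearMap.mem_ker.mp ht2
      rw [hN (N w)] at h5
      exact sub_eq_zero.mp h5
    obtain ⟨t, ht⟩ : ∃ t, t = N w := ⟨_, rfl⟩
    rw [← ht] at hfix ⊢
    have e1 : polar Q (A w) t = polar Q w t := by
      calc polar Q (A w) t = polar Q (A w) (A t) := by rw [hfix]
        _ = polar Q w t := hpol w t
    have h6 : polar Q t t = 0 := by
      conv_lhs => arg 2; rw [ht, hN w]
      rw [polar_sub_left, e1, sub_self]
    rw [polar_self'] at h6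
    exact (mul_eq_zero.mp h6).resolve_left h2
  have hT₁W : W.map N ⊓ LinearMap.ker N ≤ W := by
    rintro t ⟨ht1, -⟩
    obtain ⟨w, hw, rfl⟩ := Submodule.mem_map.mp ht1
    exact hNW w hw
  have hT₂W' : W'.map N ⊓ LinearMap.ker N ≤ W' := by
    rintro t ⟨ht1, -⟩
    obtain ⟨w, hw, rfl⟩ := Submodule.mem_map.mp ht1
    exact hNW' w hw
  have hle : LinearMap.range N ⊓ LinearMap.ker N ≤
      (W.map N ⊓ LinearMap.ker N) ⊔ (W'.map N ⊓ LinearMap.ker N) := by
    rintro t ⟨ht1, ht2⟩
    obtain ⟨v, rfl⟩ := LinearMap.mem_range.mp ht1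
    have hv : v ∈ W ⊔ W' := by rw [hsup]; exact Submodule.mem_top
    obtain ⟨w, hw, w', hw', rfl⟩ := Submodule.mem_sup.mp hv
    have h7 : N (N w) + N (N w') = 0 := by
      have h8 := LinearMap.mem_ker.mp ht2
      rw [map_add, map_add] at h8
      exact h8
    have h9 : N (N w) ∈ W ⊓ W' := by
      refine ⟨hNW _ (hNW w hw), ?_⟩
      have : N (N w) = -(N (N w')) := eq_neg_of_add_eq_zero_left h7
      rw [this]
      exact W'.neg_mem (hNW' _ (hNW' w' hw'))
    rw [hinf, Submodule.mem_bot] at h9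
    have h10 : N (N w') = 0 := by
      rw [h9, zero_add] at h7
      exact h7
    rw [map_add]
    apply Submodule.add_mem_sup
    · exact ⟨Submodule.mem_map_of_mem hw, LinearMap.mem_ker.mpr h9⟩
    · exact ⟨Submodule.mem_map_of_mem hw', LinearMap.mem_ker.mpr h10⟩
  have hd1 := Submodule.finrank_mono hle
  have hd2 := Submodule.finrank_add_le_finrank_add_finrank
    (W.map N ⊓ LinearMap.ker N) (W'.map N ⊓ LinearMap.ker N)
  have hd3 := ts_half Q hW hT₁W (hsing W)
  have hd4 := ts_half Q hW'nd hT₂W' (hsing W')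
  have hd5 : 2 * finrank F ↥(W.map N ⊓ LinearMap.ker N) ≠ finrank F W := by
    intro h
    exact hnp ⟨_, hT₁W, hsing W, h⟩
  omega

end gen

theorem main : PFix.{u} := by
  intro F _ _ hodd d m hmev x hx hT W hW hStab
  have h2 : (2 : F) ≠ 0 := Cfsg.Agent.Lib.Helper10.HypINVOL.two_ne_zero_of_odd hodd
  have hS : Sep (oddQ d F) := sep_oddQ h2 d
  have hA : ∀ v, oddQ d F (Matrix.toLin' (x : Matrix (I d) (I d) F) v) = oddQ d F v := by
    intro v
    rw [Matrix.toLin'_apply]
    exact hx v v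
  have hWnd : NDsub (oddQ d F) W := by
    intro y hy hyz
    by_contra hy0
    obtain ⟨-, z, hz, hz0⟩ := hW.2.1 y hy hy0
    exact hz0 (hyz z hz)
  have hAW : ∀ w ∈ W, Matrix.toLin' (x : Matrix (I d) (I d) F) w ∈ W := by
    intro w hw
    exact hStab (Submodule.mem_map_of_mem hw)
  have hnp : ¬ ∃ T : Submodule F (I d → F), T ≤ W ∧ (∀ t ∈ T, oddQ d F t = 0) ∧
      2 * finrank F T = finrank F W := by
    rintro ⟨T, h1, h3, h4⟩
    exact hW.2.2 ⟨T, h1, h3, h4⟩
  obtain ⟨k, hk⟩ := hmev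
  have hV : finrank F (I d → F) = 2 * d + 1 := by
    rw [Module.finrank_fintype_fun_eq_card, Fintype.card_sum, Fintype.card_sum,
      Fintype.card_unit, Fintype.card_fin]
    omega
  have key := core h2 (oddQ d F) hS (Matrix.toLin' (x : Matrix (I d) (I d) F)) hA W hWnd hAW hnp
    k (by rw [hW.1, hk]; omega) d hV
  exact (not_le.mpr key) hT

end Cfsg.Agent.Lib.Helper94.EllPFIX
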