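import Mathlib
import Cfsg.Prelude.Def_Classical
import Cfsg.Prelude.Def_GeometricClasses

/-!
# S5991, the `r = p` part (sub-call by helper94): statement pieces

`POmega^-_(2d)(q)`, `q` odd: for every nondegenerate `m`-space `W₀` (`m` odd, `m < d`) there is
an element of order `p` of `Omega^-` fixing no nondegenerate `m`-space isometric to `W₀`.
Everything is about the standard minus form `Cfsg.quadFormMinus (d - 1) F a b` on `Mi d → F`,
`Mi d = (Fin (d - 1) ⊕ Fin (d - 1)) ⊕ Fin 2`, dimension `2 d`, Witt index `d - 1`.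

* `d` odd, `m ≡ 3 (4)`: Siegel element with `dim (x - 1) V = d - 1` (`MPEltA` + `MPFixA`).
* `d` odd, `m ≡ 1 (4)`: `J_3 ^ 2 + J_2 ^ (d - 3)` (`MPEltB` + `MPFixB`).
* `d` even: `J_3 + J_2 ^ (d - 2) + J_1` with `Q (Fix x) ⊆ β F²` (`MPEltC`); a stable odd-dimensional
  nondegenerate `W` (or its perp) is `S ⊕ ⟨w⟩`, `S` totally singular of half dimension,
  `w ∈ Fix x`, `Q w = β` (`MPFixC`); `β` is chosen against `W₀` (`MChoose1`, `MChoose3`).
-/

set_option autoImplicit false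

universe u

open scoped Matrix

namespace Cfsg.Agent.Lib.Helper94.OMiPStmt

/-- index type of the standard minus form -/
abbrev Mi (d : ℕ) : Type := (Fin (d - 1) ⊕ Fin (d - 1)) ⊕ Fin 2

/-- anisotropy of `z₁² + a z₁ z₂ + b z₂²` -/
def Aniso {F : Type u} [Field F] (a b : F) : Prop :=
  ∀ x y : F, x ^ 2 + a * x * y + b * y ^ 2 = 0 → x = 0 ∧ y = 0

/-- `N = x - 1` as a linear map -/
def NM {F : Type u} [Field F] {d : ℕ} (x : Matrix (Mi d) (Mi d) F) :
    (Mi d → F) →ₗ[F] (Mi d → F) :=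
  Matrix.toLin' x - LinearMap.id

/-- fixed space of a matrix -/
def FxM {F : Type u} [Field F] {d : ℕ} (x : Matrix (Mi d) (Mi d) F) : Submodule F (Mi d → F) :=
  LinearMap.ker (Matrix.toLin' x - LinearMap.id)

/-- the polar form of the standard minus form is nondegenerate on `W` -/
def NDegM (d : ℕ) {F : Type u} [Field F] (a b : F) (W : Submodule F (Mi d → F)) : Prop :=
  Cfsg.Geo.IsNondegenerateOn (QuadraticMap.polar (Cfsg.quadFormMinus (d - 1) F a b)) W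

/-- `x W ≤ W` -/
def StabM {F : Type u} [Field F] {d : ℕ} (x : Matrix (Mi d) (Mi d) F)
    (W : Submodule F (Mi d → F)) : Prop :=
  W.map (Matrix.toLin' x) ≤ W

/-- `W` is a nondegenerate `m`-space isometric to `W₀` -/
def MemM (d : ℕ) {F : Type u} [Field F] (a b : F) (m : ℕ) (W₀ W : Submodule F (Mi d → F)) :
    Prop :=
  Module.finrank F ↥W = m ∧
    Cfsg.Geo.IsNondegenerateOn (QuadraticMap.polar (Cfsg.quadFormMinus (d - 1) F a b)) W ∧
    Cfsg.Geo.AreIsometricFor (Cfsg.quadFormMinus (d - 1) F a b) W W₀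

/-- `U` is the orthogonal complement of `W` -/
def IsPerpM (d : ℕ) {F : Type u} [Field F] (a b : F) (W U : Submodule F (Mi d → F)) : Prop :=
  ∀ v, v ∈ U ↔ ∀ u ∈ W, QuadraticMap.polar (Cfsg.quadFormMinus (d - 1) F a b) u v = 0

/-- `U = S ⊕ ⟨w⟩` with `S` totally singular, `2 dim S + 1 = dim U`, `w ⊥ S`, `Q w = β`
(so `U ≅ H ^ k ⊥ ⟨β⟩`). -/
def TypeM (d : ℕ) {F : Type u} [Field F] (a b : F) (β : F) (U : Submodule F (Mi d → F)) : Prop :=
  ∃ S : Submodule F (Mi d → F), S ≤ U ∧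
    (∀ s ∈ S, Cfsg.quadFormMinus (d - 1) F a b s = 0) ∧
    2 * Module.finrank F ↥S + 1 = Module.finrank F ↥U ∧
    ∃ w ∈ U, (∀ s ∈ S, QuadraticMap.polar (Cfsg.quadFormMinus (d - 1) F a b) s w = 0) ∧
      Cfsg.quadFormMinus (d - 1) F a b w = β

/-! ## `d` odd -/

/-- MPELTA: `d` odd: a Siegel element `x ∈ Omega^-` of order `p` with `(x - 1) V ≤ Fix x` and
`dim (x - 1) V = d - 1` (`J_2 ^ (d - 1) + J_1 ^ 2`, on the `d - 1` hyperbolic pairs). -/
def MPEltA : Prop :=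
  ∀ (F : Type u) [Field F] [Fintype F] (p : ℕ) [Fact p.Prime] [CharP F p],
    Odd (Fintype.card F) → ∀ (d : ℕ), 3 ≤ d → Odd d → ∀ (a b : F), Aniso a b →
    ∃ x : Matrix.GeneralLinearGroup (Mi d) F,
      x ∈ Cfsg.Geo.omegaGL (Cfsg.quadFormMinus (d - 1) F a b) ∧ orderOf x = p ∧
      LinearMap.range (NM (x : Matrix (Mi d) (Mi d) F)) ≤ FxM (x : Matrix (Mi d) (Mi d) F) ∧
      Module.finrank F ↥(LinearMap.range (NM (x : Matrix (Mi d) (Mi d) F))) = d - 1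

/-- MPFIXA: an isometry `x` with `(x - 1) V ≤ Fix x` stabilising a nondegenerate subspace of odd
dimension `m` has `dim (x - 1) V ≤ d - 1`, and `m ≡ 1 (mod 4)` in case of equality
(port of `OPStmt.PFixA`). -/
def MPFixA : Prop :=
  ∀ (F : Type u) [Field F] [Fintype F], Odd (Fintype.card F) → ∀ (d m : ℕ), 2 ≤ d → Odd m →
    ∀ (a b : F), Aniso a b →
    ∀ x : Matrix.GeneralLinearGroup (Mi d) F,
    x ∈ Cfsg.isometryGroup F (Cfsg.quadFormMinus (d - 1) F a b) →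
    LinearMap.range (NM (x : Matrix (Mi d) (Mi d) F)) ≤ FxM (x : Matrix (Mi d) (Mi d) F) →
    ∀ W : Submodule F (Mi d → F), Module.finrank F ↥W = m → NDegM d a b W →
    StabM (x : Matrix (Mi d) (Mi d) F) W →
    Module.finrank F ↥(LinearMap.range (NM (x : Matrix (Mi d) (Mi d) F))) ≤ d - 1 ∧
      (Module.finrank F ↥(LinearMap.range (NM (x : Matrix (Mi d) (Mi d) F))) = d - 1 → m % 4 = 1)

/-- MPELTB: `d ≥ 3` odd: `x ∈ Omega^-` of order `p` with `Fix x ≤ (x - 1) V`, `(x - 1) ^ 3 = 0`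
and `dim (x - 1) ^ 2 V ≤ 2` (Jordan type `J_3 ^ 2 + J_2 ^ (d - 3)`: two commuting Eichler
transformations `E(e₀, z₁) E(e₁, z₂)` with `z₁ ⊥ z₂` spanning the anisotropic plane, times a
Siegel element on the other `d - 3` hyperbolic pairs). -/
def MPEltB : Prop :=
  ∀ (F : Type u) [Field F] [Fintype F] (p : ℕ) [Fact p.Prime] [CharP F p],
    Odd (Fintype.card F) → ∀ (d : ℕ), 3 ≤ d → Odd d → ∀ (a b : F), Aniso a b →
    ∃ x : Matrix.GeneralLinearGroup (Mi d) F,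
      x ∈ Cfsg.Geo.omegaGL (Cfsg.quadFormMinus (d - 1) F a b) ∧ orderOf x = p ∧
      FxM (x : Matrix (Mi d) (Mi d) F) ≤ LinearMap.range (NM (x : Matrix (Mi d) (Mi d) F)) ∧
      (∀ v, NM (x : Matrix (Mi d) (Mi d) F) (NM (x : Matrix (Mi d) (Mi d) F)
        (NM (x : Matrix (Mi d) (Mi d) F) v)) = 0) ∧
      Module.finrank F ↥(LinearMap.range
        (NM (x : Matrix (Mi d) (Mi d) F) ∘ₗ NM (x : Matrix (Mi d) (Mi d) F))) ≤ 2

/-- MPFIXB: an isometry `x` with `Fix x ≤ (x - 1) V`, `(x - 1) ^ 3 = 0` and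
`dim (x - 1) ^ 2 V ≤ 2` stabilising a nondegenerate subspace of odd dimension `m` forces
`m ≡ 3 (mod 4)` (port of `OPStmt.PFixB`). -/
def MPFixB : Prop :=
  ∀ (F : Type u) [Field F] [Fintype F], Odd (Fintype.card F) → ∀ (d m : ℕ), 2 ≤ d → Odd m →
    ∀ (a b : F), Aniso a b →
    ∀ x : Matrix.GeneralLinearGroup (Mi d) F,
    x ∈ Cfsg.isometryGroup F (Cfsg.quadFormMinus (d - 1) F a b) →
    FxM (x : Matrix (Mi d) (Mi d) F) ≤ LinearMap.range (NM (x : Matrix (Mi d) (Mi d) F)) →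
    (∀ v, NM (x : Matrix (Mi d) (Mi d) F) (NM (x : Matrix (Mi d) (Mi d) F)
      (NM (x : Matrix (Mi d) (Mi d) F) v)) = 0) →
    Module.finrank F ↥(LinearMap.range
      (NM (x : Matrix (Mi d) (Mi d) F) ∘ₗ NM (x : Matrix (Mi d) (Mi d) F))) ≤ 2 →
    ∀ W : Submodule F (Mi d → F), Module.finrank F ↥W = m → NDegM d a b W →
    StabM (x : Matrix (Mi d) (Mi d) F) W → m % 4 = 3

/-! ## `d` even -/

/-- MPELTC: `d ≥ 4` even, `β ≠ 0`: `x ∈ Omega^-` of order `p`,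
`dim (x - 1) ^ 2 V ≤ 1`, `dim (x - 1) V ≥ d`, and `Q w ∈ β F²` for every fixed vector `w`
(Jordan type `J_3 + J_2 ^ (d - 2) + J_1`: pick `z` in the anisotropic plane with `Q z = β`,
`z' ≠ 0` in the plane with `z' ⊥ z`; `x` = Eichler transformation
`v ↦ v + B(v, e₀) z' - B(v, z') e₀ - Q(z') B(v, e₀) e₀` times a Siegel element of rank `d - 2`
on the other `d - 2` hyperbolic pairs; `Fix x = ⟨e₀, z, e_j (j ≥ 1)⟩`). -/
def MPEltC : Prop :=
  ∀ (F : Type u) [Field F] [Fintype F] (p : ℕ) [Fact p.Prime] [CharP F p],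
    Odd (Fintype.card F) → ∀ (d : ℕ), 4 ≤ d → Even d → ∀ (a b : F), Aniso a b →
    ∀ β : F, β ≠ 0 →
    ∃ x : Matrix.GeneralLinearGroup (Mi d) F,
      x ∈ Cfsg.Geo.omegaGL (Cfsg.quadFormMinus (d - 1) F a b) ∧ orderOf x = p ∧
      Module.finrank F ↥(LinearMap.range
        (NM (x : Matrix (Mi d) (Mi d) F) ∘ₗ NM (x : Matrix (Mi d) (Mi d) F))) ≤ 1 ∧
      d ≤ Module.finrank F ↥(LinearMap.range (NM (x : Matrix (Mi d) (Mi d) F))) ∧
      ∀ w ∈ FxM (x : Matrix (Mi d) (Mi d) F), ∃ c : F,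
        Cfsg.quadFormMinus (d - 1) F a b w = c * c * β

/-- MSPLIT: the perp `U` of a stable nondegenerate `W` exists, is stable, nondegenerate,
and `V = W ⊕ U`. -/
def MSplit : Prop :=
  ∀ (F : Type u) [Field F] [Fintype F], Odd (Fintype.card F) → ∀ (d : ℕ), 1 ≤ d →
    ∀ (a b : F), Aniso a b →
    ∀ x : Matrix.GeneralLinearGroup (Mi d) F,
    x ∈ Cfsg.isometryGroup F (Cfsg.quadFormMinus (d - 1) F a b) →
    ∀ W : Submodule F (Mi d → F), NDegM d a b W → StabM (x : Matrix (Mi d) (Mi d) F) W →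
    ∃ U : Submodule F (Mi d → F), IsPerpM d a b W U ∧ StabM (x : Matrix (Mi d) (Mi d) F) U ∧
      NDegM d a b U ∧ W ⊓ U = ⊥ ∧ W ⊔ U = ⊤ ∧
      Module.finrank F ↥W + Module.finrank F ↥U = 2 * d

/-- MRANK (pure linear algebra, no form): `V = W ⊕ U`, both `x`-stable, `dim V = 2 d`,
`dim (x - 1) ^ 2 V ≤ 1`, `dim (x - 1) V ≥ d`.  Then one of `W`, `U` (call it `W'`) has
`(x - 1) ^ 2 = 0` on it and `dim W' ≤ 2 dim (x - 1) W' + 1`.
(`(x-1)² V = (x-1)² W ⊕ (x-1)² U`, so `(x-1)²` vanishes on `W'` = one of them; on the other,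
`W''`, `2 dim (x-1) W'' ≤ dim W'' + dim (x-1)² W'' ≤ dim W'' + 1`; and
`dim (x-1) W' + dim (x-1) W'' = dim (x-1) V ≥ d`.) -/
def MRank : Prop :=
  ∀ (F : Type u) [Field F] (d : ℕ) (x : Matrix (Mi d) (Mi d) F)
    (W U : Submodule F (Mi d → F)), StabM x W → StabM x U → W ⊓ U = ⊥ → W ⊔ U = ⊤ →
    Module.finrank F ↥W + Module.finrank F ↥U = 2 * d →
    Module.finrank F ↥(LinearMap.range (NM x ∘ₗ NM x)) ≤ 1 →
    d ≤ Module.finrank F ↥(LinearMap.range (NM x)) →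
    ((∀ v ∈ W, NM x (NM x v) = 0) ∧
        Module.finrank F ↥W ≤ 2 * Module.finrank F ↥(W.map (NM x)) + 1) ∨
      ((∀ v ∈ U, NM x (NM x v) = 0) ∧
        Module.finrank F ↥U ≤ 2 * Module.finrank F ↥(U.map (NM x)) + 1)

/-- MTYPE: an isometry `x`, a stable nondegenerate `W'` of odd dimension with `(x - 1) ^ 2 = 0`
on `W'` and `dim W' ≤ 2 dim (x - 1) W' + 1`, and `Q (Fix x) ⊆ β F²`.  Then `W'` has type `β`
and `dim W' ≡ 1 (mod 4)`.
(`S = (x-1) W'` is totally singular, so `2 dim S + 1 = dim W'`; `Fix x ∩ W' = S^⊥ ∩ W'` has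
dimension `dim S + 1`, a `w ∈ Fix x ∩ W' \ S` is nonsingular, `Q w = c² β`, rescale;
`dim S` is even as the rank of the alternating form `(u, v) ↦ B(u, (x-1) v)` on `W'`.) -/
def MType : Prop :=
  ∀ (F : Type u) [Field F] [Fintype F], Odd (Fintype.card F) → ∀ (d : ℕ), 1 ≤ d →
    ∀ (a b : F), Aniso a b →
    ∀ x : Matrix.GeneralLinearGroup (Mi d) F,
    x ∈ Cfsg.isometryGroup F (Cfsg.quadFormMinus (d - 1) F a b) →
    ∀ W' : Submodule F (Mi d → F), NDegM d a b W' → Odd (Module.finrank F ↥W') →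
    StabM (x : Matrix (Mi d) (Mi d) F) W' →
    (∀ v ∈ W', NM (x : Matrix (Mi d) (Mi d) F) (NM (x : Matrix (Mi d) (Mi d) F) v) = 0) →
    Module.finrank F ↥W' ≤
      2 * Module.finrank F ↥(W'.map (NM (x : Matrix (Mi d) (Mi d) F))) + 1 →
    ∀ β : F, (∀ w ∈ FxM (x : Matrix (Mi d) (Mi d) F), ∃ c : F,
        Cfsg.quadFormMinus (d - 1) F a b w = c * c * β) →
    TypeM d a b β W' ∧ Module.finrank F ↥W' % 4 = 1

/-- MPFIXC (assembly of `MSplit`, `MRank`, `MType`): a stable nondegenerate `W` of odd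
dimension `m` has type `β` (and `m ≡ 1 (4)`), or its perp has type `β` (and `2 d - m ≡ 1 (4)`). -/
def MPFixC : Prop :=
  ∀ (F : Type u) [Field F] [Fintype F], Odd (Fintype.card F) → ∀ (d m : ℕ), 1 ≤ d →
    Odd m → ∀ (a b : F), Aniso a b →
    ∀ x : Matrix.GeneralLinearGroup (Mi d) F,
    x ∈ Cfsg.isometryGroup F (Cfsg.quadFormMinus (d - 1) F a b) →
    Module.finrank F ↥(LinearMap.range
      (NM (x : Matrix (Mi d) (Mi d) F) ∘ₗ NM (x : Matrix (Mi d) (Mi d) F))) ≤ 1 →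
    d ≤ Module.finrank F ↥(LinearMap.range (NM (x : Matrix (Mi d) (Mi d) F))) →
    ∀ β : F, (∀ w ∈ FxM (x : Matrix (Mi d) (Mi d) F), ∃ c : F,
        Cfsg.quadFormMinus (d - 1) F a b w = c * c * β) →
    ∀ W : Submodule F (Mi d → F), Module.finrank F ↥W = m → NDegM d a b W →
    StabM (x : Matrix (Mi d) (Mi d) F) W →
    (m % 4 = 1 ∧ TypeM d a b β W) ∨
      ((2 * d - m) % 4 = 1 ∧ ∃ U : Submodule F (Mi d → F), IsPerpM d a b W U ∧
        Module.finrank F ↥W + Module.finrank F ↥U = 2 * d ∧ TypeM d a b β U)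

/-- MUNIQ: the type of a nondegenerate odd-dimensional subspace is unique modulo squares
(Witt: a linear isomorphism `S → S'` of totally singular subspaces of `U` extends to an isometry
`g` of `U`, `g (S^⊥) = S'^⊥`, so `g w = s' + c w'` and `β = c² β'`). -/
def MUniq : Prop :=
  ∀ (F : Type u) [Field F] [Fintype F], Odd (Fintype.card F) → ∀ (d : ℕ), 1 ≤ d →
    ∀ (a b : F), Aniso a b →
    ∀ U : Submodule F (Mi d → F), NDegM d a b U → ∀ β β' : F, β' ≠ 0 →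
    TypeM d a b β U → TypeM d a b β' U → ∃ c : F, β = c * c * β'

/-- MCHOOSE1: some class `β` is not the type of any member. -/
def MChoose1 : Prop :=
  ∀ (F : Type u) [Field F] [Fintype F], Odd (Fintype.card F) → ∀ (d m : ℕ), 2 ≤ d → Odd m →
    ∀ (a b : F), Aniso a b →
    ∀ W₀ : Submodule F (Mi d → F), Module.finrank F ↥W₀ = m → NDegM d a b W₀ →
    ∃ β : F, β ≠ 0 ∧ ∀ W : Submodule F (Mi d → F), MemM d a b m W₀ W → ¬ TypeM d a b β W

/-- MCHOOSE3: some class `β` is not the type of the perp of any member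
(Witt: `W ≅ W₀` gives `g ∈ O(V)` with `g W = W₀`, so `g W^⊥ = W₀^⊥`). -/
def MChoose3 : Prop :=
  ∀ (F : Type u) [Field F] [Fintype F], Odd (Fintype.card F) → ∀ (d m : ℕ), 2 ≤ d → Odd m →
    ∀ (a b : F), Aniso a b →
    ∀ W₀ : Submodule F (Mi d → F), Module.finrank F ↥W₀ = m → NDegM d a b W₀ →
    ∃ β : F, β ≠ 0 ∧ ∀ W : Submodule F (Mi d → F), MemM d a b m W₀ W →
      ∀ U : Submodule F (Mi d → F), IsPerpM d a b W U → ¬ TypeM d a b β U

/-! ## Output -/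

/-- PDERM: for every `W₀` there is an element of order `p` of `Omega^-` fixing no member. -/
def PDerM : Prop :=
  ∀ (F : Type u) [Field F] [Fintype F] (p : ℕ) [Fact p.Prime] [CharP F p],
    Odd (Fintype.card F) → ∀ (d m : ℕ), 4 ≤ d → Odd m → m < d → ∀ (a b : F), Aniso a b →
    ∀ W₀ : Submodule F (Mi d → F), Module.finrank F ↥W₀ = m → NDegM d a b W₀ →
    ∃ x : Matrix.GeneralLinearGroup (Mi d) F,
      x ∈ Cfsg.Geo.omegaGL (Cfsg.quadFormMinus (d - 1) F a b) ∧ orderOf x = p ∧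
      ∀ W : Submodule F (Mi d → F), MemM d a b m W₀ W →
        ¬ StabM (x : Matrix (Mi d) (Mi d) F) W

end Cfsg.Agent.Lib.Helper94.OMiPStmt
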