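import Mathlib
import Cfsg.Prelude.Def_GeometricClasses
import Cfsg.Agent.Lib.Helper94.Basic
import Cfsg.Agent.Lib.Helper94.GLAux
import Cfsg.Agent.Lib.Helper94.Tv
import Cfsg.Agent.Lib.Helper94.Tv2
import Cfsg.Agent.Lib.Helper94.SympAbs
import Cfsg.Agent.Lib.Helper94.SympGen

set_option autoImplicit false

namespace Cfsg.Agent.Lib.Helper94.SympStd

open scoped Matrix
open Cfsg.Agent.Lib.Helper94.Basic Cfsg.Agent.Lib.Helper94.GLAux Cfsg.Agent.Lib.Helper94.Tv
  Cfsg.Agent.Lib.Helper94.Tv2 Cfsg.Agent.Lib.Helper94.SympAbs Cfsg.Agent.Lib.Helper94.SympGen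

section Std

variable {F : Type*} [Field F] {m : ℕ}

lemma sympForm_single_inr (j : Fin m) (v : Fin m ⊕ Fin m → F) :
    Cfsg.sympForm m F (Pi.single (Sum.inr j) 1) v = v (Sum.inl j) := by
  rw [sympForm_eq]
  have h1 : ((Pi.single (Sum.inr j) (1 : F) : Fin m ⊕ Fin m → F) ∘ Sum.inr) = Pi.single j 1 := by
    funext k
    simp [Pi.single_apply]
  have h2 : ((Pi.single (Sum.inr j) (1 : F) : Fin m ⊕ Fin m → F) ∘ Sum.inl) = 0 := by
    funext k
    simp [Pi.single_apply]
  rw [h1, h2]
  simp

lemma sympForm_single_inl (j : Fin m) (v : Fin m ⊕ Fin m → F) :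
    Cfsg.sympForm m F (Pi.single (Sum.inl j) 1) v = - v (Sum.inr j) := by
  rw [sympForm_eq]
  have h1 : ((Pi.single (Sum.inl j) (1 : F) : Fin m ⊕ Fin m → F) ∘ Sum.inl) = Pi.single j 1 := by
    funext k
    simp [Pi.single_apply]
  have h2 : ((Pi.single (Sum.inl j) (1 : F) : Fin m ⊕ Fin m → F) ∘ Sum.inr) = 0 := by
    funext k
    simp [Pi.single_apply]
  rw [h1, h2]
  simp

/-- The standard alternating form is a non-degenerate symplectic form. -/
theorem sympForm_isSymplectic : Cfsg.Geo.IsSymplecticForm (Cfsg.sympForm m F) where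
  bilinear :=
    { add_left := sympForm_add_left
      smul_left := sympForm_smul_left
      add_right := sympForm_add_right
      smul_right := sympForm_smul_right }
  skew := sympForm_skew
  alternating := sympForm_self
  nondegenerate := by
    intro v hv
    have hex : ∃ x, Cfsg.sympForm m F x v ≠ 0 := by
      by_contra hcon
      push_neg at hcon
      apply hv
      funext i
      rcases i with j | j
      · have := hcon (Pi.single (Sum.inr j) 1)
        rw [sympForm_single_inr] at this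
        simpa using this
      · have := hcon (Pi.single (Sum.inl j) 1)
        rw [sympForm_single_inl] at this
        simpa using this
    obtain ⟨x, hx⟩ := hex
    refine ⟨⟨x, hx⟩, x, ?_⟩
    rw [sympForm_skew]
    exact neg_ne_zero.mpr hx

lemma st_eq_sympTv (a : Fin m ⊕ Fin m → F) (c : F) :
    st (sympForm_isSymplectic (F := F) (m := m)) a c = sympTv a c := by
  apply gl_ext
  intro x
  rw [st_mulVec, sympTv_mulVec]

/-- A subgroup containing all symplectic transvections contains the symplectic group. -/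
theorem spGL_le_of_sympTv (M : Subgroup (Matrix.GeneralLinearGroup (Fin m ⊕ Fin m) F))
    (hM : ∀ (a : Fin m ⊕ Fin m → F) (c : F), sympTv a c ∈ M) : Cfsg.spGL m F ≤ M := by
  intro g hg
  rw [mem_spGL_iff] at hg
  refine isom_mem_of_st (sympForm_isSymplectic (F := F) (m := m)) M ?_ (Fintype.card (Fin m ⊕ Fin m))
    g hg (by omega)
  intro a c
  rw [st_eq_sympTv]
  exact hM a c

lemma sympTv_conj (g : Matrix.GeneralLinearGroup (Fin m ⊕ Fin m) F) (hg : g ∈ Cfsg.spGL m F)
    (a : Fin m ⊕ Fin m → F) (c : F) :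
    g * sympTv a c * g⁻¹ = sympTv ((g : Matrix _ _ F) *ᵥ a) c := by
  rw [mem_spGL_iff] at hg
  apply gl_ext
  intro x
  rw [Units.val_mul, Units.val_mul, ← Matrix.mulVec_mulVec, ← Matrix.mulVec_mulVec, sympTv_mulVec,
    sympTv_mulVec, Matrix.mulVec_add, Matrix.mulVec_smul, gl_mulVec_inv]
  have h1 := hg (((g⁻¹ : Matrix.GeneralLinearGroup (Fin m ⊕ Fin m) F) : Matrix _ _ F) *ᵥ x) a
  rw [gl_mulVec_inv] at h1
  rw [h1]

lemma sympTv_mul (a : Fin m ⊕ Fin m → F) (c d : F) :
    sympTv a c * sympTv a d = sympTv a (c + d) := by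
  apply gl_ext
  intro x
  rw [Units.val_mul, ← Matrix.mulVec_mulVec, sympTv_mulVec, sympTv_mulVec, sympTv_mulVec,
    sympForm_add_left, sympForm_smul_left, sympForm_self]
  module

lemma sympTv_smul (l : F) (a : Fin m ⊕ Fin m → F) (c : F) :
    sympTv (l • a) c = sympTv a (l ^ 2 * c) := by
  apply gl_ext
  intro x
  rw [sympTv_mulVec, sympTv_mulVec, sympForm_smul_right]
  module

lemma sympTv_zero (c : F) : sympTv (0 : Fin m ⊕ Fin m → F) c = 1 := by
  apply gl_ext
  intro x
  rw [sympTv_mulVec]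
  simp

end Std

end Cfsg.Agent.Lib.Helper94.SympStd
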