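import Mathlib
import Cfsg.Agent.Lib.Helper94.OMiPStmt

/-!
# S5991 / MPFIXC (general `d` version; after helper47's `Helper47.MPFIXC`):
assembly of `MSplit`, `MRank`, `MType`
-/

set_option autoImplicit false

universe u

namespace Cfsg.Agent.Lib.Helper94.MPFIXC

open Cfsg.Agent.Lib.Helper94.OMiPStmt

theorem main (hS : MSplit.{u}) (hR : MRank.{u}) (hT : MType.{u}) : MPFixC.{u} := by
  intro F _ _ hodd d m hd hm a b hab x hx hN2 hN1 β hβ W hWm hWnd hWst
  obtain ⟨U, hperp, hUst, hUnd, hinf, hsup, hdim⟩ := hS F hodd d hd a b hab x hx W hWnd hWst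
  have hUdim : Module.finrank F ↥U = 2 * d - m := by omega
  have hUodd : Odd (Module.finrank F ↥U) := by
    obtain ⟨k, hk⟩ := hm
    rw [hUdim]
    have hmle : m ≤ 2 * d := by omega
    exact ⟨d - k - 1, by omega⟩
  rcases hR F d (x : Matrix (Mi d) (Mi d) F) W U hWst hUst hinf hsup hdim hN2 hN1 with
    ⟨hW0, hWr⟩ | ⟨hU0, hUr⟩
  · left
    have h := hT F hodd d hd a b hab x hx W hWnd (hWm ▸ hm) hWst hW0 hWr β hβ
    exact ⟨hWm ▸ h.2, h.1⟩
  · right
    have h := hT F hodd d hd a b hab x hx U hUnd hUodd hUst hU0 hUr β hβ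
    refine ⟨?_, U, hperp, hdim, h.1⟩
    have h2 := h.2
    omega

end Cfsg.Agent.Lib.Helper94.MPFIXC
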