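import Mathlib
import Cfsg.Prelude.Def_Classical
import Cfsg.Prelude.Def_GeometricClasses
import Cfsg.Agent.Lib.Helper37.HypStmt
import Cfsg.Agent.Lib.Helper94.OPStmt

/-!
# S5989: final assembly from the pieces of `OPStmt`.
-/

set_option autoImplicit false

universe u

open scoped Matrix

namespace Cfsg.Agent.Lib.Helper94.OPAsm

open Cfsg.Agent.Lib.Helper37.HypStmt (cc)
open Cfsg.Agent.Lib.Helper94.OPStmt

/-- `2 ≠ 0` in a finite field of odd order -/
theorem two_ne_zero' {F : Type u} [Field F] [Fintype F] (hq : Odd (Fintype.card F)) :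
    (2 : F) ≠ 0 := by
  intro h
  have h1 : ringChar F ∣ 2 := (ringChar.spec F 2).mp (by exact_mod_cast h)
  have h3 : ringChar F = 2 := by
    rcases (Nat.dvd_prime Nat.prime_two).mp h1 with h4 | h4
    · exfalso
      exact CharP.ringChar_ne_one h4
    · exact h4
  have h5 := FiniteField.even_card_of_char_two h3
  rcases hq with ⟨k, hk⟩
  omega

theorem one_ne_neg_one {F : Type u} [Field F] (h2 : (2 : F) ≠ 0) {d : ℕ} (hd : 1 ≤ d) :
    (1 : Matrix (P d) (P d) F) ≠ -1 := by
  intro h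
  have h1 := congrFun (congrFun h (Sum.inl ⟨0, hd⟩)) (Sum.inl ⟨0, hd⟩)
  rw [Matrix.neg_apply, Matrix.one_apply_eq] at h1
  apply h2
  have : (2 : F) = 1 + 1 := by norm_num
  rw [this]
  nth_rewrite 1 [h1]
  ring

/-- an element of prime order `n ≠ 2` of the isometry group is not scalar -/
theorem nonscalar_of_order (hScal : Scal.{u}) {F : Type u} [Field F] [Fintype F] {d : ℕ}
    (hd : 1 ≤ d) (x : Matrix.GeneralLinearGroup (P d) F)
    (hxi : x ∈ Cfsg.isometryGroup F (Cfsg.quadFormPlus d F)) {n : ℕ} (hn : orderOf x = n)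
    (hnp : n.Prime) (hn2 : n ≠ 2) :
    ∀ z : F, (x : Matrix (P d) (P d) F) ≠ z • (1 : Matrix (P d) (P d) F) := by
  intro z hz
  rcases hScal F d hd x hxi z hz with rfl | rfl
  · have hx1 : x = 1 := Units.ext (by rw [hz, one_smul]; rfl)
    rw [hx1, orderOf_one] at hn
    exact hnp.one_lt.ne hn
  · have hx2 : x ^ 2 = 1 := by
      apply Units.ext
      rw [Units.val_pow_eq_pow_val, hz]
      simp
    have h3 := orderOf_dvd_of_pow_eq_one hx2
    rw [hn] at h3
    exact hn2 ((Nat.prime_dvd_prime_iff_eq hnp Nat.prime_two).mp h3)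

theorem thm_of (hInv : InvolP.{u}) (hScal : Scal.{u}) (hNR : NegRed.{u}) (hNF : NegSqNoFix.{u})
    (hNE : NegSqEx.{u}) (hN3 : NegSqNon3.{u}) (hN5 : NegSqNon5.{u})
    (hPA : PEltA.{u}) (hPB : PEltB.{u}) (hFA : PFixA.{u}) (hFB : PFixB.{u})
    (hB1 : B1P.{u}) (hB2 : B2P.{u}) (hND : NDivP.{u})
    {F : Type u} [Field F] [Fintype F] {p : ℕ} [Fact p.Prime] [CharP F p]
    (hodd : Odd (Fintype.card F)) (d m : ℕ) (hd : 4 ≤ d) (hm : Odd m) (hmd : m < d)
    (W₀ : Submodule F (Fin d ⊕ Fin d → F))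
    (hW₀ : Module.finrank F ↥W₀ = m ∧
      Cfsg.Geo.IsNondegenerateOn (QuadraticMap.polar (Cfsg.quadFormPlus d F)) W₀)
    (r : ℕ) [Fact r.Prime]
    (hrΩ : r ∣ Nat.card {W : Submodule F (Fin d ⊕ Fin d → F) // Module.finrank F ↥W = m ∧
      Cfsg.Geo.IsNondegenerateOn (QuadraticMap.polar (Cfsg.quadFormPlus d F)) W ∧
      Cfsg.Geo.AreIsometricFor (Cfsg.quadFormPlus d F) W W₀})
    (i c : ℕ) (hi : i = orderOf ((Fintype.card F : ℕ) : ZMod r))
    (hc : c = if Even i then i else 2 * i) :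
    (∀ x : Matrix.GeneralLinearGroup (Fin d ⊕ Fin d) F,
      x ∈ Cfsg.Geo.omegaGL (Cfsg.quadFormPlus d F) →
      (∃ z : F, ((x ^ r : Matrix.GeneralLinearGroup (Fin d ⊕ Fin d) F) :
        Matrix (Fin d ⊕ Fin d) (Fin d ⊕ Fin d) F) =
          z • (1 : Matrix (Fin d ⊕ Fin d) (Fin d ⊕ Fin d) F)) →
      (∀ z : F, (x : Matrix (Fin d ⊕ Fin d) (Fin d ⊕ Fin d) F) ≠
        z • (1 : Matrix (Fin d ⊕ Fin d) (Fin d ⊕ Fin d) F)) →
      ∃ W : Submodule F (Fin d ⊕ Fin d → F), (Module.finrank F ↥W = m ∧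
        Cfsg.Geo.IsNondegenerateOn (QuadraticMap.polar (Cfsg.quadFormPlus d F)) W ∧
        Cfsg.Geo.AreIsometricFor (Cfsg.quadFormPlus d F) W W₀) ∧
        W.map (Matrix.toLin' (x : Matrix (Fin d ⊕ Fin d) (Fin d ⊕ Fin d) F)) ≤ W) ↔
    ((r = 2 ∧ Odd d ∧ Fintype.card F % 8 ≠ 1) ∨
     (r ≠ p ∧ 2 < r ∧ Odd i ∧ c ≤ m ∧ 0 < m % c ∧ m % c < (2 * d) % c) ∨
     (r ≠ p ∧ 2 < r ∧ Even i ∧ (((2 * d) % c = 0 ∧ Odd ((2 * d) / i)) ∨
       (i ≤ m ∧ 0 < m % c ∧ m % c < (2 * d) % c)))) := by
  have hcc : c = cc i := hc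
  subst hcc
  subst hi
  have hrpr : r.Prime := Fact.out
  have hppr : p.Prime := Fact.out
  have hd1 : 1 ≤ d := by omega
  have h2 : (2 : F) ≠ 0 := two_ne_zero' hodd
  have hp2 : p ≠ 2 := by
    intro h
    apply h2
    have := CharP.cast_eq_zero F p
    rw [h] at this
    exact_mod_cast this
  have hiso : ∀ x : Matrix.GeneralLinearGroup (P d) F,
      x ∈ Cfsg.Geo.omegaGL (Cfsg.quadFormPlus d F) →
      x ∈ Cfsg.isometryGroup F (Cfsg.quadFormPlus d F) := by
    intro x hx
    obtain ⟨y, -, rfl⟩ := hx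
    exact y.2
  by_cases hr2 : r = 2
  · subst hr2
    constructor
    · intro hL
      left
      refine ⟨rfl, ?_⟩
      by_contra hcon
      have hE : Even d ∨ Fintype.card F % 8 = 1 := by
        by_cases hde : Even d
        · exact Or.inl hde
        · right
          by_contra h8
          exact hcon ⟨Nat.not_even_iff_odd.mp hde, h8⟩
      obtain ⟨x, hxΩ, hxx⟩ := hNE F hodd d (by omega) hE
      have hxi := hiso x hxΩ
      have hsq : ((x ^ 2 : Matrix.GeneralLinearGroup (P d) F) : Matrix (P d) (P d) F) =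
          (-1 : F) • (1 : Matrix (P d) (P d) F) := by
        rw [Units.val_pow_eq_pow_val, pow_two, hxx]
        simp
      have hns : ∀ z : F, (x : Matrix (P d) (P d) F) ≠ z • (1 : Matrix (P d) (P d) F) := by
        intro z hz
        have hzz : (1 : Matrix (P d) (P d) F) = -1 := by
          rw [← hxx, hz]
          rcases hScal F d hd1 x hxi z hz with rfl | rfl <;> simp
        exact one_ne_neg_one h2 hd1 hzz
      obtain ⟨W, hW, hS⟩ := hL x hxΩ ⟨-1, hsq⟩ hns
      exact hNF F hodd d m hm x hxi hxx W hW.1 hW.2.1 hS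
    · rintro (⟨-, hdo, h8⟩ | ⟨-, h, -⟩ | ⟨-, h, -⟩)
      · intro x hxΩ ⟨z, hz⟩ hns
        have hxi := hiso x hxΩ
        have hx2i : x ^ 2 ∈ Cfsg.isometryGroup F (Cfsg.quadFormPlus d F) :=
          Subgroup.pow_mem _ hxi 2
        rcases hScal F d hd1 (x ^ 2) hx2i z hz with rfl | rfl
        · have hxx : (x : Matrix (P d) (P d) F) * (x : Matrix (P d) (P d) F) = 1 := by
            rw [← pow_two, ← Units.val_pow_eq_pow_val, hz, one_smul]
          obtain ⟨W, hW, hS⟩ := hInv F hodd d m hm hmd W₀ hW₀.1 hW₀.2 x hxi hxx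
          exact ⟨W, hW, hS⟩
        · exfalso
          have hxx : (x : Matrix (P d) (P d) F) * (x : Matrix (P d) (P d) F) = -1 := by
            rw [← pow_two, ← Units.val_pow_eq_pow_val, hz]
            simp
          have hq8 : Fintype.card F % 4 = 3 ∨ Fintype.card F % 8 = 5 := by
            obtain ⟨t, ht⟩ := hodd
            omega
          rcases hq8 with h4 | h5
          · exact hN3 F h4 d (by omega) hdo x hxΩ hxx
          · exact hN5 F h5 d (by omega) hdo x hxΩ hxx
      · omega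
      · omega
  · have h2r : 2 < r := by
      have := hrpr.two_le
      omega
    by_cases hrp : r = p
    · constructor
      · intro hL
        exfalso
        have key : ∃ x : Matrix.GeneralLinearGroup (P d) F,
            x ∈ Cfsg.Geo.omegaGL (Cfsg.quadFormPlus d F) ∧ orderOf x = p ∧
            ∀ W : Submodule F (P d → F), Module.finrank F ↥W = m → NDegP d F W →
              ¬ StabP (x : Matrix (P d) (P d) F) W := by
          rcases Nat.even_or_odd d with hde | hdo
          · obtain ⟨x, hxΩ, hxp, hle, hrk⟩ := hPA F p hodd d d hde (by omega) le_rfl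
            refine ⟨x, hxΩ, hxp, fun W hWm hWnd hS => ?_⟩
            have h5 := (hFA F hodd d m hd1 hm x (hiso x hxΩ) hle W hWm hWnd hS).1
            omega
          · by_cases hm4 : m % 4 = 3
            · have hde1 : Even (d - 1) := by
                obtain ⟨t, ht⟩ := hdo
                exact ⟨t, by omega⟩
              obtain ⟨x, hxΩ, hxp, hle, hrk⟩ := hPA F p hodd d (d - 1) hde1 (by omega) (by omega)
              refine ⟨x, hxΩ, hxp, fun W hWm hWnd hS => ?_⟩
              have h5 := (hFA F hodd d m hd1 hm x (hiso x hxΩ) hle W hWm hWnd hS).2 hrk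
              omega
            · obtain ⟨x, hxΩ, hxp, hle, hN3', hrk⟩ := hPB F p hodd d (by omega) hdo
              refine ⟨x, hxΩ, hxp, fun W hWm hWnd hS => ?_⟩
              exact hm4 (hFB F hodd d m hm x (hiso x hxΩ) hle hN3' hrk W hWm hWnd hS)
        obtain ⟨x, hxΩ, hxp, hxW⟩ := key
        have hxr : x ^ r = 1 := by
          rw [hrp, ← hxp]
          exact pow_orderOf_eq_one x
        have hsc : ∃ z : F, ((x ^ r : Matrix.GeneralLinearGroup (P d) F) :
            Matrix (P d) (P d) F) = z • (1 : Matrix (P d) (P d) F) :=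
          ⟨1, by rw [hxr, one_smul]; rfl⟩
        obtain ⟨W, hW, hS⟩ := hL x hxΩ hsc
          (nonscalar_of_order hScal hd1 x (hiso x hxΩ) hxp hppr hp2)
        exact hxW W hW.1 hW.2.1 hS
      · rintro (⟨h, -⟩ | ⟨h, -⟩ | ⟨h, -⟩)
        · exact absurd h hr2
        · exact absurd hrp h
        · exact absurd hrp h
    · have hrodd : Odd r := hrpr.odd_of_ne_two hr2
      constructor
      · intro hL
        by_contra hR
        have hcond : ¬ CondP d m (orderOf ((Fintype.card F : ℕ) : ZMod r)) := by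
          intro hC
          apply hR
          rcases hC with h | ⟨h1, h3⟩
          · exact Or.inr (Or.inl ⟨hrp, h2r, h⟩)
          · exact Or.inr (Or.inr ⟨hrp, h2r, h1, h3⟩)
        have hk := hND F p hodd d m hd hm hmd W₀ hW₀.1 hW₀.2 r hr2 hrp hrΩ
        obtain ⟨x, hxΩ, hxr, hxW⟩ :=
          hB2 F p hodd d m hd hm hmd W₀ hW₀.1 hW₀.2 r hr2 hrp hk hcond
        have hxr1 : x ^ r = 1 := by
          rw [← hxr]
          exact pow_orderOf_eq_one x
        have hsc : ∃ z : F, ((x ^ r : Matrix.GeneralLinearGroup (P d) F) :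
            Matrix (P d) (P d) F) = z • (1 : Matrix (P d) (P d) F) :=
          ⟨1, by rw [hxr1, one_smul]; rfl⟩
        obtain ⟨W, hW, hS⟩ := hL x hxΩ hsc
          (nonscalar_of_order hScal hd1 x (hiso x hxΩ) hxr hrpr hr2)
        exact hxW W hW hS
      · intro hR x hxΩ ⟨z, hz⟩ hns
        have hC : CondP d m (orderOf ((Fintype.card F : ℕ) : ZMod r)) := by
          rcases hR with ⟨h, -⟩ | ⟨-, -, h⟩ | ⟨-, -, h1, h3⟩
          · exact absurd h hr2
          · exact Or.inl h
          · exact Or.inr ⟨h1, h3⟩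
        have hxi := hiso x hxΩ
        have hxri : x ^ r ∈ Cfsg.isometryGroup F (Cfsg.quadFormPlus d F) :=
          Subgroup.pow_mem _ hxi r
        rcases hScal F d hd1 (x ^ r) hxri z hz with rfl | rfl
        · have hxr1 : x ^ r = 1 := Units.ext (by rw [hz, one_smul]; rfl)
          obtain ⟨W, hW, hS⟩ :=
            hB1 F p hodd d m hd hm hmd W₀ hW₀.1 hW₀.2 r hr2 hrp hC x hxi hxr1
          exact ⟨W, hW, hS⟩
        · have hneg : ((x ^ r : Matrix.GeneralLinearGroup (P d) F) : Matrix (P d) (P d) F)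
              = -1 := by
            rw [hz]
            simp
          obtain ⟨y, hyi, hyr, hyS⟩ := hNR F d r hrodd x hxi hneg
          obtain ⟨W, hW, hS⟩ :=
            hB1 F p hodd d m hd hm hmd W₀ hW₀.1 hW₀.2 r hr2 hrp hC y hyi hyr
          exact ⟨W, hW, (hyS W).mp hS⟩

end Cfsg.Agent.Lib.Helper94.OPAsm
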