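import Mathlib
import Cfsg.Prelude.Def_Classical
import Cfsg.Prelude.Def_GeometricClasses
import Cfsg.Agent.Lib.Helper37.HypStmt
import Cfsg.Agent.Lib.Helper94.OPStmt

/-!
# S5989: transfer library between the plus form on `P d → F` and the odd form on `I d → F`

`emb v = Sum.elim 0 v`, `prj w = w ∘ inr`, `hat x = fromBlocks 1 0 0 x`, `hatG : GL (P d) F →*
GL (I d) F`, `w0 = single (inl ()) 1`.
-/

set_option autoImplicit false

universe u

open scoped Matrix

namespace Cfsg.Agent.Lib.Helper94.OPEmb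

open Cfsg.Agent.Lib.Helper37.HypStmt Cfsg.Agent.Lib.Helper94.OPStmt

variable {F : Type u} [Field F] {d : ℕ}

/-- embedding of the plus space into the odd space -/
def emb (d : ℕ) (F : Type u) [Field F] : (P d → F) →ₗ[F] (I d → F) where
  toFun v := Sum.elim (fun _ => 0) v
  map_add' := by
    intro a b
    ext s
    rcases s with s | s <;> simp
  map_smul' := by
    intro c a
    ext s
    rcases s with s | s <;> simp

theorem emb_inl (v : P d → F) (s : Unit) : emb d F v (Sum.inl s) = 0 := rfl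

theorem emb_inr (v : P d → F) (s : P d) : emb d F v (Sum.inr s) = v s := rfl

/-- projection of the odd space onto the plus space -/
def prj (d : ℕ) (F : Type u) [Field F] : (I d → F) →ₗ[F] (P d → F) where
  toFun w := fun s => w (Sum.inr s)
  map_add' := by intro a b; rfl
  map_smul' := by intro c a; rfl

theorem prj_apply (w : I d → F) (s : P d) : prj d F w s = w (Sum.inr s) := rfl

theorem prj_emb (v : P d → F) : prj d F (emb d F v) = v := rfl

theorem emb_inj : Function.Injective (emb d F) := by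
  intro a b h
  have := congrArg (prj d F) h
  rwa [prj_emb, prj_emb] at this

theorem emb_prj (w : I d → F) (h : w (Sum.inl ()) = 0) : emb d F (prj d F w) = w := by
  ext s
  rcases s with s | s
  · rw [emb_inl]
    exact h.symm
  · rfl

theorem quadOdd_eq (w : I d → F) :
    Cfsg.quadFormOdd d F w = w (Sum.inl ()) ^ 2 + Cfsg.quadFormPlus d F (prj d F w) := rfl

theorem quadOdd_emb (v : P d → F) :
    Cfsg.quadFormOdd d F (emb d F v) = Cfsg.quadFormPlus d F v := by
  rw [quadOdd_eq, emb_inl, prj_emb]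
  simp

theorem polar_emb (u v : P d → F) :
    QuadraticMap.polar (Cfsg.quadFormOdd d F) (emb d F u) (emb d F v) =
      QuadraticMap.polar (Cfsg.quadFormPlus d F) u v := by
  unfold QuadraticMap.polar
  rw [← map_add, quadOdd_emb, quadOdd_emb, quadOdd_emb]

/-- the vector `w0` -/
def w0 (d : ℕ) (F : Type u) [Field F] : I d → F := Pi.single (Sum.inl ()) 1

theorem w0_inl : w0 d F (Sum.inl ()) = 1 := by
  unfold w0
  simp

theorem w0_inr (s : P d) : w0 d F (Sum.inr s) = 0 := by
  unfold w0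
  simp

theorem prj_w0 : prj d F (w0 d F) = 0 := by
  ext s
  exact w0_inr s

/-- `polar Q_odd u w0 = 2 u₀` -/
theorem polar_w0 (u : I d → F) :
    QuadraticMap.polar (Cfsg.quadFormOdd d F) u (w0 d F) = 2 * u (Sum.inl ()) := by
  unfold QuadraticMap.polar
  rw [quadOdd_eq, quadOdd_eq, quadOdd_eq, map_add, prj_w0, add_zero]
  simp only [Pi.add_apply, w0_inl]
  have h0 : Cfsg.quadFormPlus d F (0 : P d → F) = 0 := by
    unfold Cfsg.quadFormPlus
    simp
  rw [h0]
  ring

/-- decomposition of a vector of the odd space -/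
theorem eq_smul_w0_add (w : I d → F) :
    w = w (Sum.inl ()) • w0 d F + emb d F (prj d F w) := by
  ext s
  rcases s with s | s
  · cases s
    simp [w0_inl, emb_inl]
  · simp [w0_inr, emb_inr, prj_apply]

/-- the matrix `1 ⊕ x` -/
def hat (x : Matrix (P d) (P d) F) : Matrix (I d) (I d) F := Matrix.fromBlocks 1 0 0 x

theorem hat_one : hat (1 : Matrix (P d) (P d) F) = 1 := by
  unfold hat
  exact Matrix.fromBlocks_one

theorem hat_mul (x y : Matrix (P d) (P d) F) : hat (x * y) = hat x * hat y := by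
  unfold hat
  rw [Matrix.fromBlocks_multiply]
  simp

theorem hat_mulVec (x : Matrix (P d) (P d) F) (w : I d → F) :
    hat x *ᵥ w = Sum.elim (fun s => w (Sum.inl s)) (x *ᵥ prj d F w) := by
  unfold hat
  have hw : w = Sum.elim (fun s => w (Sum.inl s)) (prj d F w) := by
    ext s
    rcases s with s | s <;> rfl
  conv_lhs => rw [hw]
  rw [Matrix.fromBlocks_mulVec]
  simp

theorem hat_mulVec_inl (x : Matrix (P d) (P d) F) (w : I d → F) :
    (hat x *ᵥ w) (Sum.inl ()) = w (Sum.inl ()) := by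
  rw [hat_mulVec]
  rfl

theorem prj_hat_mulVec (x : Matrix (P d) (P d) F) (w : I d → F) :
    prj d F (hat x *ᵥ w) = x *ᵥ prj d F w := by
  rw [hat_mulVec]
  rfl

theorem hat_mulVec_emb (x : Matrix (P d) (P d) F) (v : P d → F) :
    hat x *ᵥ emb d F v = emb d F (x *ᵥ v) := by
  rw [hat_mulVec, prj_emb]
  ext s
  rcases s with s | s <;> rfl

theorem hat_mulVec_w0 (x : Matrix (P d) (P d) F) : hat x *ᵥ w0 d F = w0 d F := by
  rw [hat_mulVec, prj_w0, Matrix.mulVec_zero]
  ext s
  rcases s with s | s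
  · rfl
  · simp [w0_inr]

/-- `hat` as a group homomorphism -/
def hatG : Matrix.GeneralLinearGroup (P d) F →* Matrix.GeneralLinearGroup (I d) F where
  toFun x := ⟨hat (x : Matrix (P d) (P d) F), hat ((x⁻¹ : Matrix.GeneralLinearGroup (P d) F) :
      Matrix (P d) (P d) F), by rw [← hat_mul, Units.mul_inv, hat_one],
    by rw [← hat_mul, Units.inv_mul, hat_one]⟩
  map_one' := by
    apply Units.ext
    exact hat_one
  map_mul' := by
    intro x y
    apply Units.ext
    exact hat_mul _ _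

theorem coe_hatG (x : Matrix.GeneralLinearGroup (P d) F) :
    ((hatG x : Matrix.GeneralLinearGroup (I d) F) : Matrix (I d) (I d) F) =
      hat (x : Matrix (P d) (P d) F) := rfl

theorem hatG_mem (x : Matrix.GeneralLinearGroup (P d) F)
    (hx : x ∈ Cfsg.isometryGroup F (Cfsg.quadFormPlus d F)) :
    hatG x ∈ Cfsg.isometryGroup F (Cfsg.quadFormOdd d F) := by
  intro u v
  show Cfsg.quadFormOdd d F (hat (x : Matrix (P d) (P d) F) *ᵥ u) = Cfsg.quadFormOdd d F u
  rw [quadOdd_eq, quadOdd_eq, hat_mulVec_inl, prj_hat_mulVec]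
  congr 1
  exact hx (prj d F u) (prj d F u)

theorem hatG_pow_eq_one (x : Matrix.GeneralLinearGroup (P d) F) (r : ℕ) (h : x ^ r = 1) :
    hatG x ^ r = 1 := by
  rw [← map_pow, h, map_one]

/-- fixed vectors of `hat x` -/
theorem mem_Fx_hat (x : Matrix (P d) (P d) F) (w : I d → F) :
    w ∈ Fx (hat x) ↔ prj d F w ∈ FxP x := by
  rw [mem_Fx, mem_FxP]
  constructor
  · intro h
    have := congrArg (prj d F) h
    rwa [prj_hat_mulVec] at this
  · intro h
    rw [hat_mulVec, h]
    ext s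
    rcases s with s | s <;> rfl

theorem w0_mem_Fx_hat (x : Matrix (P d) (P d) F) : w0 d F ∈ Fx (hat x) := by
  rw [mem_Fx]
  exact hat_mulVec_w0 x

theorem emb_mem_Fx_hat (x : Matrix (P d) (P d) F) (v : P d → F) :
    emb d F v ∈ Fx (hat x) ↔ v ∈ FxP x := by
  rw [mem_Fx_hat, prj_emb]

/-- `Fix (hat x) = ⟨w0⟩ ⊕ emb (Fix x)` -/
theorem Fx_hat (x : Matrix (P d) (P d) F) :
    Fx (hat x) = Submodule.span F {w0 d F} ⊔ (FxP x).map (emb d F) := by
  apply le_antisymm
  · intro w hw
    rw [eq_smul_w0_add w]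
    apply Submodule.add_mem_sup
    · exact Submodule.smul_mem _ _ (Submodule.subset_span rfl)
    · exact Submodule.mem_map_of_mem ((mem_Fx_hat x w).mp hw)
  · apply sup_le
    · rw [Submodule.span_le]
      rintro _ rfl
      exact w0_mem_Fx_hat x
    · rintro _ ⟨v, hv, rfl⟩
      exact (emb_mem_Fx_hat x v).mpr hv

theorem finrank_map_emb (W : Submodule F (P d → F)) :
    Module.finrank F ↥(W.map (emb d F)) = Module.finrank F ↥W :=
  (Submodule.equivMapOfInjective (emb d F) emb_inj W).finrank_eq.symm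

theorem span_w0_inf_map_emb (W : Submodule F (P d → F)) :
    Submodule.span F {w0 d F} ⊓ W.map (emb d F) = ⊥ := by
  rw [eq_bot_iff]
  rintro w ⟨h1, h2⟩
  obtain ⟨a, rfl⟩ := Submodule.mem_span_singleton.mp h1
  obtain ⟨v, -, hv⟩ := h2
  have h3 := congrFun hv (Sum.inl ())
  rw [emb_inl, Pi.smul_apply, w0_inl, smul_eq_mul, mul_one] at h3
  rw [← h3, zero_smul]
  exact Submodule.zero_mem _

/-- `dim Fix (hat x) = dim Fix x + 1` -/
theorem finrank_Fx_hat (x : Matrix (P d) (P d) F) :
    Module.finrank F ↥(Fx (hat x)) = Module.finrank F ↥(FxP x) + 1 := by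
  have h1 := Submodule.finrank_sup_add_finrank_inf_eq (Submodule.span F {w0 d F})
    ((FxP x).map (emb d F))
  rw [span_w0_inf_map_emb, finrank_bot, add_zero, finrank_map_emb] at h1
  have hw : w0 d F ≠ 0 := by
    intro h
    have := congrFun h (Sum.inl ())
    rw [w0_inl] at this
    exact one_ne_zero this
  rw [finrank_span_singleton hw] at h1
  rw [Fx_hat, h1, add_comm]

theorem ndeg_map_emb (W : Submodule F (P d → F)) :
    NDeg d F (W.map (emb d F)) ↔ NDegP d F W := by
  constructor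
  · intro h w hw hw0
    have hw0' : emb d F w ≠ 0 := fun h0 => hw0 (emb_inj (by rw [h0, map_zero]))
    obtain ⟨⟨y, hy, hy0⟩, ⟨z, hz, hz0⟩⟩ := h (emb d F w) (Submodule.mem_map_of_mem hw) hw0'
    obtain ⟨y', hy', rfl⟩ := hy
    obtain ⟨z', hz', rfl⟩ := hz
    rw [polar_emb] at hy0 hz0
    exact ⟨⟨y', hy', hy0⟩, ⟨z', hz', hz0⟩⟩
  · intro h w hw hw0
    obtain ⟨w', hw', rfl⟩ := hw
    have hw0' : w' ≠ 0 := by
      rintro rfl
      exact hw0 (map_zero _)
    obtain ⟨⟨y, hy, hy0⟩, ⟨z, hz, hz0⟩⟩ := h w' hw' hw0'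
    refine ⟨⟨emb d F y, Submodule.mem_map_of_mem hy, ?_⟩,
      ⟨emb d F z, Submodule.mem_map_of_mem hz, ?_⟩⟩
    · rw [polar_emb]; exact hy0
    · rw [polar_emb]; exact hz0

theorem stab_map_emb (x : Matrix (P d) (P d) F) (W : Submodule F (P d → F)) :
    Stab (hat x) (W.map (emb d F)) ↔ StabP x W := by
  constructor
  · intro h v hv
    obtain ⟨w, hw, rfl⟩ := hv
    have h1 : Matrix.toLin' (hat x) (emb d F w) ∈ W.map (emb d F) :=
      h (Submodule.mem_map_of_mem (Submodule.mem_map_of_mem hw))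
    rw [Matrix.toLin'_apply, hat_mulVec_emb] at h1
    obtain ⟨w', hw', hw'e⟩ := h1
    rw [Matrix.toLin'_apply, ← emb_inj hw'e]
    exact hw'
  · intro h v hv
    obtain ⟨v', hv', rfl⟩ := hv
    obtain ⟨w, hw, rfl⟩ := hv'
    rw [Matrix.toLin'_apply, hat_mulVec_emb]
    apply Submodule.mem_map_of_mem
    have h1 : Matrix.toLin' x w ∈ W := h (Submodule.mem_map_of_mem hw)
    rw [Matrix.toLin'_apply] at h1
    exact h1

theorem map_emb_inf_Fx (x : Matrix (P d) (P d) F) (W : Submodule F (P d → F)) :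
    W.map (emb d F) ⊓ Fx (hat x) = (W ⊓ FxP x).map (emb d F) := by
  ext w
  constructor
  · rintro ⟨⟨v, hv, rfl⟩, h2⟩
    exact Submodule.mem_map_of_mem ⟨hv, (emb_mem_Fx_hat x v).mp h2⟩
  · rintro ⟨v, ⟨hv1, hv2⟩, rfl⟩
    exact ⟨Submodule.mem_map_of_mem hv1, (emb_mem_Fx_hat x v).mpr hv2⟩

/-- a subspace of the odd space with vanishing `inl` coordinate comes from the plus space -/
theorem map_comap_emb (E : Submodule F (I d → F)) (hE : ∀ u ∈ E, u (Sum.inl ()) = 0) :
    (E.comap (emb d F)).map (emb d F) = E := by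
  ext w
  constructor
  · rintro ⟨v, hv, rfl⟩
    exact hv
  · intro hw
    refine ⟨prj d F w, ?_, emb_prj w (hE w hw)⟩
    show emb d F (prj d F w) ∈ E
    rw [emb_prj w (hE w hw)]
    exact hw

/-- a subspace orthogonal to `w0` has vanishing `inl` coordinate (`2 ≠ 0`) -/
theorem inl_eq_zero_of_polar (h2 : (2 : F) ≠ 0) (u : I d → F)
    (h : QuadraticMap.polar (Cfsg.quadFormOdd d F) u (w0 d F) = 0) : u (Sum.inl ()) = 0 := by
  rw [polar_w0] at h
  exact (mul_eq_zero.mp h).resolve_left h2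

end Cfsg.Agent.Lib.Helper94.OPEmb
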