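import Mathlib
import Cfsg.Agent.Lib.Helper74.DixStmt
import Cfsg.Agent.Lib.Helper74.IndexP
import Cfsg.Agent.Lib.Helper74.DetTools
import Cfsg.Agent.Lib.Helper80.Integrality
import Cfsg.Agent.Lib.CT.Ops

/-!
# S4472 / EXTUNIQ (second seat, helper94)
-/

set_option autoImplicit false

universe u

namespace Cfsg.Agent.Lib.Helper94.DixEXTUNIQ

open Cfsg Cfsg.Agent.Lib.Helper74.DixStmt

theorem aux (p : ℕ) [Fact p.Prime] : ∀ (m : ℕ) {T : Type u} [Group T] [Finite T]
    (K : Subgroup T) [K.Normal],
    (Nat.card K).Coprime p → K.index = p ^ m →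
    ∀ ψ ψ' : T → ℂ, IsIrrCharacter T ψ → IsIrrCharacter T ψ' →
    IsIrrCharacter K (fun k : K => ψ k) → (∀ k : K, ψ k = ψ' k) →
    ¬ p ∣ detOrder ψ → ¬ p ∣ detOrder ψ' → ψ = ψ' := by
  intro m
  induction m with
  | zero =>
    intro T _ _ K _ hcop hidx ψ ψ' hψ hψ' hres hag hd hd'
    have hK : K = ⊤ := Subgroup.index_eq_one.1 (by rw [hidx, pow_zero])
    funext g
    exact hag ⟨g, by rw [hK]; exact Subgroup.mem_top g⟩
  | succ m ih =>
    intro T _ _ K hKn hcop hidx ψ ψ' hψ hψ' hres hag hd hd'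
    classical
    haveI : Fintype T := Fintype.ofFinite T
    have hp : p.Prime := Fact.out
    obtain ⟨M, hMn, hKM, hMidx⟩ : ∃ M : Subgroup T, M.Normal ∧ K ≤ M ∧ M.index = p := by
      have hcardQ : Nat.card (T ⧸ K) = p ^ (m + 1) := by
        rw [← hidx]
        exact (Subgroup.index_eq_card K).symm
      obtain ⟨N, hN⟩ := Sylow.exists_subgroup_card_pow_prime (G := T ⧸ K) p (n := m)
        (by rw [hcardQ]; exact pow_dvd_pow p (Nat.le_succ m))
      have hNidx : N.index = p := by
        have h1 := N.card_mul_index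
        rw [hN, hcardQ, pow_succ] at h1
        exact Nat.eq_of_mul_eq_mul_left (pow_pos hp.pos m) h1
      have hNn : N.Normal := by
        apply Subgroup.normal_of_index_eq_minFac_card
        rw [hNidx, hcardQ, Nat.Prime.pow_minFac hp (Nat.succ_ne_zero m)]
      refine ⟨N.comap (QuotientGroup.mk' K), hNn.comap _, ?_, ?_⟩
      · intro k hk
        rw [Subgroup.mem_comap]
        have h1 : (QuotientGroup.mk' K) k = 1 := (QuotientGroup.eq_one_iff k).2 hk
        rw [h1]
        exact N.one_mem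
      · rw [Subgroup.index_comap_of_surjective N (QuotientGroup.mk'_surjective K)]
        exact hNidx
    haveI := hMn
    haveI : Fintype M := Fintype.ofFinite M
    have hpK : ¬ p ∣ Nat.card K := by
      intro h
      have h1 : p ∣ Nat.gcd (Nat.card K) p := Nat.dvd_gcd h dvd_rfl
      rw [Nat.Coprime] at hcop
      rw [hcop] at h1
      exact hp.one_lt.ne' (Nat.dvd_one.1 h1)
    have hdeg : ¬ p ∣ charDegree ψ := by
      have h1 := Cfsg.Agent.Lib.Helper80.Integrality.charDegree_dvd_card
        (⟨fun k : K => ψ k, hres⟩ : IrrCharacter K)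
      have h2 : charDegree (fun k : K => ψ k) = charDegree ψ := rfl
      intro hdvd
      rw [← h2] at hdvd
      exact hpK (hdvd.trans h1)
    have hdeg' : ¬ p ∣ charDegree ψ' := by
      have h2 : charDegree ψ' = charDegree ψ := by
        unfold charDegree
        have h3 := hag 1
        rw [OneMemClass.coe_one] at h3
        rw [h3]
      rw [h2]
      exact hdeg
    have hresM : IsIrrCharacter M (fun x : M => ψ x) :=
      Cfsg.Agent.Lib.Helper74.IndexP.restrict_irr M hp hMidx ψ hψ hdeg
    have hresM' : IsIrrCharacter M (fun x : M => ψ' x) :=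
      Cfsg.Agent.Lib.Helper74.IndexP.restrict_irr M hp hMidx ψ' hψ' hdeg'
    have hcard' : Nat.card (K.subgroupOf M) = Nat.card K :=
      Nat.card_congr (Subgroup.subgroupOfEquivOfLe hKM).toEquiv
    have hidx' : (K.subgroupOf M).index = p ^ m := by
      have h1 := Subgroup.relIndex_mul_index hKM
      rw [hMidx, hidx, pow_succ] at h1
      exact Nat.eq_of_mul_eq_mul_right hp.pos h1
    have hres' : IsIrrCharacter (K.subgroupOf M)
        (fun k : K.subgroupOf M => (fun x : M => ψ x) k) :=
      Cfsg.Agent.Lib.CT.Ops.isIrrCharacter_comp_mulEquiv (Subgroup.subgroupOfEquivOfLe hKM) hres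
    have hd1 : ¬ p ∣ detOrder (fun x : M => ψ x) := by
      intro h
      apply hd
      refine h.trans ?_
      apply Cfsg.Agent.Lib.Helper74.DetTools.detOrder_dvd_of_pow
      intro x
      rw [Cfsg.Agent.Lib.Helper74.DetTools.detChar_restrict M hψ hresM]
      exact Cfsg.Agent.Lib.Helper74.DetTools.detChar_pow_detOrder ψ x
    have hd1' : ¬ p ∣ detOrder (fun x : M => ψ' x) := by
      intro h
      apply hd'
      refine h.trans ?_
      apply Cfsg.Agent.Lib.Helper74.DetTools.detOrder_dvd_of_pow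
      intro x
      rw [Cfsg.Agent.Lib.Helper74.DetTools.detChar_restrict M hψ' hresM']
      exact Cfsg.Agent.Lib.Helper74.DetTools.detChar_pow_detOrder ψ' x
    have hM := ih (T := M) (K.subgroupOf M) (by rw [hcard']; exact hcop) hidx'
      (fun x : M => ψ x) (fun x : M => ψ' x) hresM hresM' hres'
      (fun k => hag ⟨((k : M) : T), Subgroup.mem_subgroupOf.1 k.2⟩) hd1 hd1'
    exact Cfsg.Agent.Lib.Helper74.IndexP.eq_of_restrict_eq M hp hMidx ψ ψ' hψ hψ' hdeg hd hd'
      (fun x => congrFun hM x)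

theorem main : ExtUniq.{u} := by
  intro T _ _ p _ K _ hcop hidx ψ ψ' hψ hψ' hres hag hd hd'
  obtain ⟨m, hm⟩ := hidx
  exact aux p m K hcop hm ψ ψ' hψ hψ' hres hag hd hd'

end Cfsg.Agent.Lib.Helper94.DixEXTUNIQ
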