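import Mathlib
import Cfsg.Agent.Lib.Helper45.EPStmt
import Cfsg.Agent.Lib.Helper44.NegPairs
import Cfsg.Agent.Lib.Helper44.FinSq

/-!
# S5988 / QNZERO (helper94)
-/

set_option autoImplicit false

universe u

open scoped Matrix

namespace Cfsg.Agent.Lib.Helper94.EPQNZERO

open Cfsg.Agent.Lib.Helper45.EPStmt Cfsg.Agent.Lib.Helper94.OPStmt
open Cfsg.Agent.Lib.Helper44.NegPairs
open QuadraticMap

theorem main : QNZero.{u} := by
  intro F _ _ hodd d x hx hle v
  have h2 : (2 : F) ≠ 0 := Cfsg.Agent.Lib.Helper44.FinSq.two_ne_zero_of_odd_card hodd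
  have hQ : ∀ u : P d → F, plusQ d F ((x : Matrix (P d) (P d) F) *ᵥ u) = plusQ d F u :=
    fun u => hx u u
  have hNapp : ∀ v : P d → F, NP (x : Matrix (P d) (P d) F) v =
      (x : Matrix (P d) (P d) F) *ᵥ v - v := by
    intro v
    unfold NP
    rw [LinearMap.sub_apply, Matrix.toLin'_apply, LinearMap.id_apply]
  have hpol : ∀ u v : P d → F, polar (plusQ d F)
      ((x : Matrix (P d) (P d) F) *ᵥ u) ((x : Matrix (P d) (P d) F) *ᵥ v) =
      polar (plusQ d F) u v := by
    intro u v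
    unfold polar
    rw [← Matrix.mulVec_add, hQ, hQ, hQ]
  have hperp : ∀ w : P d → F, (x : Matrix (P d) (P d) F) *ᵥ w = w → ∀ v : P d → F,
      polar (plusQ d F) w (NP (x : Matrix (P d) (P d) F) v) = 0 := by
    intro w hw v
    rw [hNapp, polar_sub_right]
    have h := hpol w v
    rw [hw] at h
    rw [h, sub_self]
  have hn : (x : Matrix (P d) (P d) F) *ᵥ (NP (x : Matrix (P d) (P d) F) v) =
      NP (x : Matrix (P d) (P d) F) v :=
    (mem_FxP _ _).1 (hle ⟨v, rfl⟩)
  have hpn := hperp _ hn v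
  have h := QuadraticMap.polar_self (plusQ d F) (NP (x : Matrix (P d) (P d) F) v)
  rw [hpn] at h
  have h' : (2 : F) * plusQ d F (NP (x : Matrix (P d) (P d) F) v) = 0 := by
    rw [h]
    simp [two_mul, two_smul]
  rcases mul_eq_zero.1 h' with h0 | h0
  · exact absurd h0 h2
  · exact h0

end Cfsg.Agent.Lib.Helper94.EPQNZERO
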