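import Mathlib
import Cfsg.Agent.Lib.Helper94.EllStmt
import Cfsg.Agent.Lib.Helper44.OTyp1
import Cfsg.Agent.Lib.Helper44.WittND2
import Cfsg.Agent.Lib.Helper91.HypHYPFIB
import Cfsg.Agent.Lib.Helper8.HypHYPSUB
import Cfsg.Agent.Lib.Helper10.HypINVOL

/-!
# S5993 / ATRANS: the isometry group of a nondegenerate quadratic space over a finite field of
odd order is transitive on the elliptic `m`-subspaces.
-/

set_option autoImplicit false

namespace Cfsg.Agent.Lib.Helper94.EllATRANS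

open Module QuadraticMap
open Cfsg.Agent.Lib.Helper44.QSpace Cfsg.Agent.Lib.Helper44.QClass Cfsg.Agent.Lib.Helper44.OTyp1
open Cfsg.Agent.Lib.Helper44.WittND Cfsg.Agent.Lib.Helper44.WittND2
open Cfsg.Agent.Lib.Helper94.EllStmt

universe u

section gen

variable {F : Type u} [Field F] [Fintype F] {V : Type u} [AddCommGroup V] [Module F V]
  [FiniteDimensional F V]

/-- the number of singular vectors of an elliptic subspace -/
theorem card_of_aell (h2 : (2 : F) ≠ 0) (Q : QuadraticForm F V) {k : ℕ} {W : Submodule F V}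
    (hW : AEll Q (2 * (k + 1)) W) :
    Nat.card {v : W // res Q W v = 0} * Fintype.card F
      = Fintype.card F ^ (k + 1)
        + Fintype.card F ^ 2 * ((Fintype.card F ^ k - 1) * Fintype.card F ^ k) := by
  have hS : Sep (res Q W) := sep_res_of_ndsub hW.2.1
  rcases exists_hyp_even k W (res Q W) hW.1 hS with ⟨e, f, hH⟩ | ⟨e, f, x, y, ζ, hH, hE, horth⟩
  · exfalso
    apply hW.2.2
    have S : Cfsg.Agent.Lib.Helper91.HypHYPFIB.Sys (polarBilin (res Q W)) e f :=
      ⟨hH.2.2.2.1, hH.2.2.2.2, hH.2.2.1, fun a b => by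
        have h3 : polarBilin (res Q W) (f a) (e b) = polar (res Q W) (e b) (f a) :=
          polar_comm _ _ _
        rw [h3, hH.2.2.1 b a]
        simp [eq_comm]⟩
    refine ⟨(Submodule.span F (Set.range e)).map W.subtype, Submodule.map_subtype_le _ _, ?_, ?_⟩
    · intro t ht
      obtain ⟨t₀, ht₀, rfl⟩ := Submodule.mem_map.mp ht
      have h3 : polar (res Q W) t₀ t₀ = 0 :=
        Cfsg.Agent.Lib.Helper91.HypHYPFIB.isotropic_e S ht₀
      rw [polar_self'] at h3
      exact (mul_eq_zero.mp h3).resolve_left h2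
    · rw [Submodule.finrank_map_subtype_eq,
        Cfsg.Agent.Lib.Helper91.HypHYPFIB.finrank_span_e S, hW.1]
  · exact card_M (res Q W) hH hE horth hW.1

end gen

theorem main : ATrans.{u} := by
  intro F _ _ hodd V _ _ _ Q hSep m hmev W W' hW hW'
  have h2 : (2 : F) ≠ 0 := Cfsg.Agent.Lib.Helper10.HypINVOL.two_ne_zero_of_odd hodd
  have hS : Sep Q := hSep
  obtain ⟨k, rfl⟩ : ∃ k, m = 2 * (k + 1) := by
    obtain ⟨j, hj⟩ := hmev
    rcases Nat.eq_zero_or_pos j with h0 | hpos
    · exfalso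
      subst h0
      apply hW.2.2
      refine ⟨⊥, bot_le, ?_, ?_⟩
      · intro t ht
        rw [(Submodule.mem_bot F).mp ht, map_zero]
      · rw [finrank_bot, hW.1, hj]
    · exact ⟨j - 1, by omega⟩
  have c1 := card_of_aell h2 Q hW
  have c2 := card_of_aell h2 Q hW'
  have hq0 : 0 < Fintype.card F := Fintype.card_pos
  have hc : Nat.card {v : W // res Q W v = 0} = Nat.card {v : W' // res Q W' v = 0} :=
    Nat.eq_of_mul_eq_mul_right hq0 (c1.trans c2.symm)
  have hS1 : Sep (res Q W) := sep_res_of_ndsub hW.2.1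
  have hS2 : Sep (res Q W') := sep_res_of_ndsub hW'.2.1
  obtain ⟨j, hj⟩ := exists_iso (res Q W) (res Q W') hS1 hS2 hW.1 hW'.1 hc
  have hjinj := Cfsg.Agent.Lib.Helper8.HypHYPSUB.isom_inj hS1 j hj
  have hdim : finrank F W = finrank F W' := by rw [hW.1, hW'.1]
  obtain ⟨e, he⟩ : ∃ e : W ≃ₗ[F] W', ∀ w, e w = j w :=
    ⟨LinearMap.linearEquivOfInjective j hjinj hdim, fun w => rfl⟩
  have hU : W ⊓ LinearMap.BilinForm.orthogonal (polarBilin Q) W = ⊥ := by
    rw [eq_bot_iff]
    rintro x ⟨hx1, hx2⟩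
    rw [Submodule.mem_bot]
    apply hW.2.1 x hx1
    intro y hy
    rw [polar_comm]
    exact hx2 y hy
  obtain ⟨g, hg, hmap⟩ := exists_O_map hS hU e (fun u => by rw [he]; exact hj u)
  exact ⟨g, hg, hmap⟩

end Cfsg.Agent.Lib.Helper94.EllATRANS
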