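import Mathlib
import Cfsg.Prelude.Def_Classical
import Cfsg.Prelude.Def_GeometricClasses
import Cfsg.Agent.Lib.Helper37.HypStmt
import Cfsg.Agent.Lib.Helper94.EllStmt

/-!
# S5993: final assembly from the pieces `InvolE`, `B1E`, `B2E`, `NDivE`, `PElt`, `PFix`.
-/

set_option autoImplicit false

universe u

open scoped Matrix

namespace Cfsg.Agent.Lib.Helper94.EllAsm

open Cfsg.Agent.Lib.Helper37.HypStmt Cfsg.Agent.Lib.Helper94.EllStmt

theorem thm_of (hInv : InvolE.{u}) (hB1 : B1E.{u}) (hB2 : B2E.{u}) (hND : NDivE.{u})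
    (hPE : PElt.{u}) (hPF : PFix.{u})
    {F : Type u} [Field F] [Fintype F] {p : ℕ} [Fact p.Prime] [CharP F p]
    (hqodd : Odd (Fintype.card F))
    (d m : ℕ) (hd : 3 ≤ d) (hm : 2 ≤ m) (hme : Even m) (hmn : m ≤ 2 * d)
    (r : ℕ) [Fact r.Prime]
    (hrΩ : r ∣ Nat.card {W : Submodule F (Unit ⊕ (Fin d ⊕ Fin d) → F) //
      Module.finrank F ↥W = m ∧
        Cfsg.Geo.IsNondegenerateOn (QuadraticMap.polar (Cfsg.quadFormOdd d F)) W ∧
        ¬ Cfsg.Geo.IsPlusTypeOn (Cfsg.quadFormOdd d F) W})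
    (i c : ℕ) (hi : i = orderOf ((Fintype.card F : ℕ) : ZMod r))
    (hc : c = if Even i then i else 2 * i) :
    (∀ x : Matrix.GeneralLinearGroup (Unit ⊕ (Fin d ⊕ Fin d)) F,
      x ∈ Cfsg.Geo.omegaGL (Cfsg.quadFormOdd d F) → orderOf x = r →
      ∃ W : Submodule F (Unit ⊕ (Fin d ⊕ Fin d) → F),
        (Module.finrank F ↥W = m ∧
          Cfsg.Geo.IsNondegenerateOn (QuadraticMap.polar (Cfsg.quadFormOdd d F)) W ∧
          ¬ Cfsg.Geo.IsPlusTypeOn (Cfsg.quadFormOdd d F) W) ∧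
        W.map (Matrix.toLin' (x : Matrix (Unit ⊕ (Fin d ⊕ Fin d)) (Unit ⊕ (Fin d ⊕ Fin d)) F))
          ≤ W) ↔
    (r = 2 ∨
     (r ≠ p ∧ 2 < r ∧ Odd i ∧ c ≤ m ∧ 0 < m % c ∧ m % c < (2 * d + 1) % c) ∨
     (r ≠ p ∧ 2 < r ∧ Even i ∧ i ≤ m ∧ m % c < (2 * d + 1) % c ∧ (0 < m % c ∨ Odd (m / i)))) := by
  have hcc : c = cc i := hc
  subst hcc
  subst hi
  have hrpr : r.Prime := Fact.out
  by_cases hr2 : r = 2
  · constructor
    · intro _
      exact Or.inl hr2
    · intro _ x hx hxr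
      rw [hr2] at hxr
      exact hInv F hqodd d m hd hm hme hmn x hx hxr
  · have h2r : 2 < r := by
      have := hrpr.two_le
      omega
    by_cases hrp : r = p
    · constructor
      · intro hL
        exfalso
        obtain ⟨x, hxΩ, hxp, hxT⟩ := hPE F p hqodd d hd
        have hxiso : x ∈ Cfsg.isometryGroup F (Cfsg.quadFormOdd d F) := by
          obtain ⟨y, -, rfl⟩ := hxΩ
          exact y.2
        obtain ⟨W, hW, hS⟩ := hL x hxΩ (hxp.trans hrp.symm)
        exact hPF F hqodd d m hme x hxiso hxT W hW hS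
      · intro hR
        rcases hR with h | ⟨h, _⟩ | ⟨h, _⟩
        · exact absurd h hr2
        · exact absurd hrp h
        · exact absurd hrp h
    · constructor
      · intro hL
        by_contra hR
        have hcond : ¬ CondE d m (orderOf ((Fintype.card F : ℕ) : ZMod r)) := by
          intro hC
          apply hR
          rcases hC with h | h
          · exact Or.inr (Or.inl ⟨hrp, h2r, h⟩)
          · exact Or.inr (Or.inr ⟨hrp, h2r, h⟩)
        have hk := hND F p hqodd d m hd hm hme hmn r hr2 hrp hrΩ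
        obtain ⟨x, hxΩ, hxr, hxW⟩ := hB2 F p hqodd d m hd hm hme hmn r hr2 hrp hk hcond
        obtain ⟨W, hW, hS⟩ := hL x hxΩ hxr
        exact hxW W hW hS
      · intro hR x hx hxr
        have hC : CondE d m (orderOf ((Fintype.card F : ℕ) : ZMod r)) := by
          rcases hR with h | ⟨_, _, h⟩ | ⟨_, _, h⟩
          · exact absurd h hr2
          · exact Or.inl h
          · exact Or.inr h
        exact hB1 F p hqodd d m hd hm hme hmn r hr2 hrp hC x hx hxr

end Cfsg.Agent.Lib.Helper94.EllAsm
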