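import Mathlib
import Cfsg.Agent.Lib.Helper37.HypStmt
import Cfsg.Agent.Lib.Helper94.EllStmt
import Cfsg.Agent.Lib.Helper93.HypB1
import Cfsg.Agent.Lib.Helper93.HypB2

/-!
# S5993 / NDIVE (assembly): `r ∣ #elliptic m-spaces` forces `(2d+1) % c < m`.

Fixed point congruence for an element `x` of order `r` whose fixed space `U` has dimension
`(2d+1) % c` (or `x = 1`): the elliptic `m`-spaces fixed by `x` are those inside `U` (when
`m < c`), and their number is prime to `r` (`UCard`).
-/

set_option autoImplicit false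

universe u

open scoped Matrix

namespace Cfsg.Agent.Lib.Helper94.EllNDIVE

open Cfsg.Agent.Lib.Helper37.HypStmt Cfsg.Agent.Lib.Helper94.EllStmt
open Cfsg.Agent.Lib.Helper93.HypB1 Cfsg.Agent.Lib.Helper93.HypB2

theorem main (hIPos : IPos.{u}) (hTop : TopND.{u}) (hFixND : FixND.{u}) (hDim : DimObs.{u})
    (hDer : DerElt.{u}) (hFC : FixCong.{u}) (hUC : UCard.{u}) : NDivE.{u} := by
  intro F _ _ p _ _ hodd d m hd3 hm2 hmev hmle r _ hr2 hrp hdvd
  by_contra hcon
  have hi : 0 < orderOf ((Fintype.card F : ℕ) : ZMod r) := hIPos F p r hrp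
  obtain ⟨c, hc⟩ : ∃ c, c = cc (orderOf ((Fintype.card F : ℕ) : ZMod r)) := ⟨_, rfl⟩
  rw [← hc] at hcon
  have hcpos : 0 < c := by rw [hc]; exact cc_pos hi
  have hceven : Even c := by rw [hc]; exact cc_even _
  have hkodd : ¬ Even ((2 * d + 1) % c) := by
    rw [even_mod_iff hceven]
    exact Nat.not_even_iff_odd.mpr ⟨d, rfl⟩
  have hklt : (2 * d + 1) % c < c := Nat.mod_lt _ hcpos
  have hmk : m < (2 * d + 1) % c := by
    rcases Nat.lt_or_ge m ((2 * d + 1) % c) with h | h
    · exact h
    · exfalso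
      have : m = (2 * d + 1) % c := by omega
      rw [← this] at hkodd
      exact hkodd hmev
  by_cases hcle : c ≤ 2 * d + 1
  · obtain ⟨x, hxO, hxord, hxfix⟩ := hDer F p hodd d (by omega) r hr2 hrp (by rw [← hc]; exact hcle)
    rw [← hc] at hxfix
    have hxiso : x ∈ Cfsg.isometryGroup F (Cfsg.quadFormOdd d F) := by
      obtain ⟨y, -, rfl⟩ := hxO
      exact y.2
    have hxr : x ^ r = 1 := by rw [← hxord]; exact pow_orderOf_eq_one x
    have hcong := hFC F d m r x hxiso hxr
    have hU := hUC F p hodd d m hm2 hmev r hr2 hrp (Fx (x : Matrix (I d) (I d) F))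
      (hFixND F p hodd d r hrp x hxiso hxr) (by rw [hxfix]; exact hmk)
      (by rw [hxfix, ← hc]; exact hklt)
    have hiff : ∀ W : Submodule F (I d → F),
        (Ell d F m W ∧ Stab (x : Matrix (I d) (I d) F) W) ↔
          (Ell d F m W ∧ W ≤ Fx (x : Matrix (I d) (I d) F)) := by
      intro W
      constructor
      · rintro ⟨hW, hS⟩
        refine ⟨hW, ?_⟩
        have h1 := hDim F p hodd d r hr2 hrp x hxiso hxr W hS hW.2.1
        rw [← hc, hW.1] at h1
        have h2 : m - Module.finrank F ↥(W ⊓ Fx (x : Matrix (I d) (I d) F)) = 0 := by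
          apply Nat.eq_zero_of_dvd_of_lt h1
          omega
        have h3 : W ⊓ Fx (x : Matrix (I d) (I d) F) = W := by
          apply Submodule.eq_of_le_of_finrank_le inf_le_left
          rw [hW.1]
          omega
        rw [← h3]
        exact inf_le_right
      · rintro ⟨hW, hle⟩
        exact ⟨hW, stab_of_le_Fx _ hle⟩
    have hcard : Nat.card {W : Submodule F (I d → F) //
          Ell d F m W ∧ Stab (x : Matrix (I d) (I d) F) W} =
        Nat.card {W : Submodule F (I d → F) //
          Ell d F m W ∧ W ≤ Fx (x : Matrix (I d) (I d) F)} :=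
      Nat.card_congr (Equiv.subtypeEquivRight hiff)
    rw [hcard] at hcong
    apply hU
    exact (Nat.ModEq.dvd_iff hcong (dvd_refl r)).mp hdvd
  · have htopdim : Module.finrank F ↥(⊤ : Submodule F (I d → F)) = 2 * d + 1 := by
      rw [finrank_top, Module.finrank_fintype_fun_eq_card, Fintype.card_sum, Fintype.card_sum,
        Fintype.card_unit, Fintype.card_fin]
      omega
    have hU := hUC F p hodd d m hm2 hmev r hr2 hrp ⊤ (hTop F hodd d)
      (by rw [htopdim]; omega) (by rw [htopdim, ← hc]; omega)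
    have hcard : Nat.card {W : Submodule F (I d → F) // Ell d F m W} =
        Nat.card {W : Submodule F (I d → F) // Ell d F m W ∧ W ≤ ⊤} :=
      Nat.card_congr (Equiv.subtypeEquivRight (fun W => ⟨fun h => ⟨h, le_top⟩, fun h => h.1⟩))
    rw [hcard] at hdvd
    exact hU hdvd

end Cfsg.Agent.Lib.Helper94.EllNDIVE
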