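import Mathlib
import Cfsg.Agent.Lib.Helper37.HypStmt
import Cfsg.Agent.Lib.Helper94.EllStmt
import Cfsg.Agent.Lib.Helper44.NegPairs

/-!
# S5993 / UCARD: transfer of `ACard` to a nondegenerate subspace `U` of the standard odd space.
-/

set_option autoImplicit false

universe u

open scoped Matrix

namespace Cfsg.Agent.Lib.Helper94.EllUCARD

open Cfsg.Agent.Lib.Helper37.HypStmt Cfsg.Agent.Lib.Helper94.EllStmt
open Cfsg.Agent.Lib.Helper44.NegPairs

variable {F : Type u} [Field F] {d : ℕ}

/-- the restriction of the standard odd form to `U` -/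
def rq (d : ℕ) (F : Type u) [Field F] (U : Submodule F (I d → F)) : QuadraticForm F ↥U :=
  (oddQ d F).comp U.subtype

theorem rq_apply (U : Submodule F (I d → F)) (x : ↥U) :
    rq d F U x = Cfsg.quadFormOdd d F (x : I d → F) := rfl

theorem polar_rq (U : Submodule F (I d → F)) (x y : ↥U) :
    QuadraticMap.polar (rq d F U) x y =
      QuadraticMap.polar (Cfsg.quadFormOdd d F) (x : I d → F) (y : I d → F) := rfl

theorem polar_comm' (x y : I d → F) :
    QuadraticMap.polar (Cfsg.quadFormOdd d F) x y =
      QuadraticMap.polar (Cfsg.quadFormOdd d F) y x := QuadraticMap.polar_comm _ x y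

/-- transfer of the elliptic property -/
theorem aell_iff (U : Submodule F (I d → F)) (m : ℕ) (W₀ : Submodule F ↥U) :
    AEll (rq d F U) m W₀ ↔ Ell d F m (W₀.map U.subtype) := by
  have hfr : Module.finrank F ↥(W₀.map U.subtype) = Module.finrank F ↥W₀ :=
    Submodule.finrank_map_subtype_eq U W₀
  unfold AEll Ell
  rw [hfr]
  refine and_congr Iff.rfl (and_congr ?_ (not_congr ?_))
  · constructor
    · intro h w hw hw0
      obtain ⟨w₀, hw₀, rfl⟩ := Submodule.mem_map.mp hw
      have hw₀0 : w₀ ≠ 0 := by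
        rintro rfl
        exact hw0 (map_zero _)
      have hex : ∃ y ∈ W₀, QuadraticMap.polar (rq d F U) w₀ y ≠ 0 := by
        by_contra hc
        push Not at hc
        exact hw₀0 (h w₀ hw₀ hc)
      obtain ⟨y, hy, hy0⟩ := hex
      rw [polar_rq] at hy0
      refine ⟨⟨U.subtype y, Submodule.mem_map_of_mem hy, ?_⟩,
        ⟨U.subtype y, Submodule.mem_map_of_mem hy, ?_⟩⟩
      · rw [polar_comm']
        exact hy0
      · exact hy0
    · intro h x hx hxy
      by_contra hx0
      have hx0' : U.subtype x ≠ 0 := by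
        intro h0
        exact hx0 (Subtype.ext h0)
      obtain ⟨-, z, hz, hz0⟩ := h (U.subtype x) (Submodule.mem_map_of_mem hx) hx0'
      obtain ⟨y, hy, rfl⟩ := Submodule.mem_map.mp hz
      exact hz0 (hxy y hy)
  · constructor
    · rintro ⟨T, hTW, hT0, hTd⟩
      refine ⟨T.map U.subtype, Submodule.map_mono hTW, ?_, ?_⟩
      · intro t ht
        obtain ⟨t₀, ht₀, rfl⟩ := Submodule.mem_map.mp ht
        exact hT0 t₀ ht₀
      · rw [Submodule.finrank_map_subtype_eq, hfr]
        exact hTd
    · rintro ⟨T', hT'W, hT'0, hT'd⟩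
      have hT'U : T' ≤ U := hT'W.trans (Submodule.map_subtype_le U W₀)
      have hmc : (T'.comap U.subtype).map U.subtype = T' := by
        rw [Submodule.map_comap_subtype]
        exact inf_eq_right.mpr hT'U
      refine ⟨T'.comap U.subtype, ?_, ?_, ?_⟩
      · intro t ht
        have h1 : U.subtype t ∈ W₀.map U.subtype := hT'W ht
        obtain ⟨w, hw, hwt⟩ := Submodule.mem_map.mp h1
        have : w = t := Subtype.ext hwt
        rw [← this]
        exact hw
      · intro t ht
        exact hT'0 _ ht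
      · rw [← Submodule.finrank_map_subtype_eq U (T'.comap U.subtype), hmc, ← hfr]
        exact hT'd

theorem ndeg_bot' : NDeg d F (⊥ : Submodule F (I d → F)) := by
  intro w hw hw0
  exact absurd ((Submodule.mem_bot F).mp hw) hw0

theorem main (hAC : ACard.{u}) (hES : EllSub.{u}) : UCard.{u} := by
  intro F _ _ p _ _ hodd d m hm2 hmev r _ hr2 hrp U hU hmU hUc
  classical
  have hSep : ∀ x : ↥U, (∀ y : ↥U, QuadraticMap.polar (rq d F U) x y = 0) → x = 0 := by
    intro x hx
    by_contra hx0
    have hx0' : (x : I d → F) ≠ 0 := fun h0 => hx0 (Subtype.ext h0)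
    obtain ⟨-, z, hz, hz0⟩ := hU (x : I d → F) x.2 hx0'
    exact hz0 (hx ⟨z, hz⟩)
  have hb : Module.finrank F (⊥ : Submodule F (I d → F)) = 0 := finrank_bot F (I d → F)
  have hne : ∃ W₀ : Submodule F ↥U, AEll (rq d F U) m W₀ := by
    obtain ⟨W₁, hW₁, hE⟩ := hES F hodd d m hmev ⊥ U ndeg_bot' hU
      (fun u hu v _ => by
        rw [(Submodule.mem_bot F).mp hu]
        simp [QuadraticMap.polar, Cfsg.quadFormOdd])
      (by rw [hb]; exact Even.zero) (by rw [hb]; omega) (by rw [hb]; simpa using hmU)
    rw [bot_sup_eq] at hE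
    refine ⟨W₁.comap U.subtype, ?_⟩
    rw [aell_iff, Submodule.map_comap_subtype, inf_eq_right.mpr hW₁]
    exact hE
  have key := hAC F p hodd ↥U (rq d F U) hSep m hmev r hr2 hrp hUc hne
  have hcard : Nat.card {W : Submodule F (I d → F) // Ell d F m W ∧ W ≤ U} =
      Nat.card {W₀ : Submodule F ↥U // AEll (rq d F U) m W₀} := by
    refine Nat.card_congr
      { toFun := fun W => ⟨W.1.comap U.subtype, ?_⟩
        invFun := fun W₀ => ⟨W₀.1.map U.subtype, ⟨(aell_iff U m W₀.1).mp W₀.2,
          Submodule.map_subtype_le U W₀.1⟩⟩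
        left_inv := ?_
        right_inv := ?_ }
    · rw [aell_iff, Submodule.map_comap_subtype, inf_eq_right.mpr W.2.2]
      exact W.2.1
    · intro W
      apply Subtype.ext
      show (W.1.comap U.subtype).map U.subtype = W.1
      rw [Submodule.map_comap_subtype, inf_eq_right.mpr W.2.2]
    · intro W₀
      apply Subtype.ext
      show (W₀.1.map U.subtype).comap U.subtype = W₀.1
      exact Submodule.comap_map_eq_of_injective (Submodule.injective_subtype U) W₀.1
  rw [hcard]
  exact key

end Cfsg.Agent.Lib.Helper94.EllUCARD
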