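import Mathlib
import Cfsg.Agent.Lib.Helper37.HypStmt
import Cfsg.Agent.Lib.Helper44.OTyp3

/-!
# S5992: common lemmas for TYPEODD / TYPEEVEN (helper94)

An invariant nondegenerate subspace `E` without fixed vectors of an isometry of odd prime order
`r ≠ p` has even dimension and is of plus type iff `i` is odd or `dim E / i` is even.
-/

set_option autoImplicit false

namespace Cfsg.Agent.Lib.Helper94.HypTypeAux

open Polynomial UniqueFactorizationMonoid Matrix Module QuadraticMap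
open Cfsg.Agent.Lib.Helper44.QSpace Cfsg.Agent.Lib.Helper44.QClass
open Cfsg.Agent.Lib.Helper44.OTyp1 Cfsg.Agent.Lib.Helper44.OTyp3
open Cfsg.Agent.Lib.Helper44.OCls1 Cfsg.Agent.Lib.Helper44.NegPairs
open Cfsg.Agent.Lib.Helper40.RecipPoly

universe u

/-- plus-type count gives a totally singular subspace of half dimension -/
theorem ts_of_count {F : Type u} [Field F] [Fintype F] {V : Type u} [AddCommGroup V]
    [Module F V] [FiniteDimensional F V] (Q : QuadraticForm F V) (hS : Sep Q) {k : ℕ}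
    (hfin : finrank F V = 2 * (k + 1))
    (hc : Nat.card {v : V // Q v = 0} * Fintype.card F
      = Fintype.card F ^ (k + 1 + 1)
        + (Fintype.card F ^ (k + 1) - 1) * Fintype.card F ^ (k + 1)) :
    ∃ U : Submodule F V, (∀ u ∈ U, Q u = 0) ∧ finrank F U = k + 1 := by
  have hq : 2 ≤ Fintype.card F := Fintype.one_lt_card
  rcases exists_hyp_even k V Q hfin hS with ⟨e, f, hH⟩ | ⟨e, f, x, y, ζ, hH, hE, ho⟩
  · obtain ⟨Ψ, hΨ⟩ := coordP Q hH hfin
    obtain ⟨π, hπ⟩ : ∃ π : (((Fin (k + 1) ⊕ Fin (k + 1)) ⊕ Fin 0) → F) →ₗ[F]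
        (Fin (k + 1) → F), π = LinearMap.funLeft F F (fun i => Sum.inl (Sum.inr i)) := ⟨_, rfl⟩
    have hπa : ∀ w i, π w i = w (Sum.inl (Sum.inr i)) := by
      intro w i; rw [hπ]; rfl
    refine ⟨LinearMap.ker (π ∘ₗ Ψ.toLinearMap), ?_, ?_⟩
    · intro u hu
      rw [LinearMap.mem_ker] at hu
      rw [hΨ]
      apply Finset.sum_eq_zero
      intro i _
      have h := congrFun hu i
      rw [LinearMap.comp_apply, hπa] at h
      have h' : Ψ u (Sum.inl (Sum.inr i)) = 0 := h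
      rw [h', mul_zero]
    · have hsurj : Function.Surjective (π ∘ₗ Ψ.toLinearMap) := by
        intro a
        refine ⟨Ψ.symm (fun j => Sum.elim (Sum.elim (fun _ => 0) a) (fun _ => 0) j), ?_⟩
        ext i
        rw [LinearMap.comp_apply, hπa]
        simp
      have h := LinearMap.finrank_range_add_finrank_ker (π ∘ₗ Ψ.toLinearMap)
      rw [LinearMap.range_eq_top.mpr hsurj, finrank_top, hfin, Module.finrank_fintype_fun_eq_card,
        Fintype.card_fin] at h
      omega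
  · exfalso
    have c2 := card_M Q hH hE ho hfin
    rw [hc] at c2
    exact NP_ne_NM (Fintype.card F) k hq c2

/-- a totally singular subspace of half dimension gives the plus-type count -/
theorem count_of_ts {F : Type u} [Field F] [Fintype F] {V : Type u} [AddCommGroup V]
    [Module F V] [FiniteDimensional F V] (Q : QuadraticForm F V) (hS : Sep Q) {k : ℕ}
    (hfin : finrank F V = 2 * (k + 1)) (U : Submodule F V) (hU : ∀ u ∈ U, Q u = 0)
    (hd : k + 1 ≤ finrank F U) :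
    Nat.card {v : V // Q v = 0} * Fintype.card F
      = Fintype.card F ^ (k + 1 + 1)
        + (Fintype.card F ^ (k + 1) - 1) * Fintype.card F ^ (k + 1) := by
  obtain ⟨e, f, hH⟩ := hyp_of_ts' hS hfin hU hd
  exact card_P Q hH hfin

/-- the matrix-level count -/
theorem count_matrix {F : Type u} [Field F] [Fintype F] (p : ℕ) [Fact p.Prime] [CharP F p]
    {e : ℕ} (he : 0 < e) (Q : QuadraticForm F (Fin e → F)) (hS : Sep Q) (r : ℕ) (hr : r.Prime)
    (hr2 : r ≠ 2) (hrp : r ≠ p) (s : Matrix (Fin e) (Fin e) F) (hsr : s ^ r = 1)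
    (hsQ : ∀ u, Q (s *ᵥ u) = Q u) (hfree : ∀ v, s *ᵥ v = v → v = 0) :
    ∃ k : ℕ, e = 2 * (k + 1) ∧
      ((Odd (orderOf ((Fintype.card F : ℕ) : ZMod r)) ∨
          Even (2 * (k + 1) / orderOf ((Fintype.card F : ℕ) : ZMod r))) →
        Nat.card {v : Fin e → F // Q v = 0} * Fintype.card F
          = Fintype.card F ^ (k + 1 + 1)
            + (Fintype.card F ^ (k + 1) - 1) * Fintype.card F ^ (k + 1)) ∧
      (¬ (Odd (orderOf ((Fintype.card F : ℕ) : ZMod r)) ∨
          Even (2 * (k + 1) / orderOf ((Fintype.card F : ℕ) : ZMod r))) →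
        Nat.card {v : Fin e → F // Q v = 0} * Fintype.card F
          = Fintype.card F ^ (k + 1)
            + Fintype.card F ^ 2 * ((Fintype.card F ^ k - 1) * Fintype.card F ^ k)) := by
  classical
  have hp : p.Prime := Fact.out
  have : Fact r.Prime := ⟨hr⟩
  obtain ⟨i, hi⟩ : ∃ i, i = orderOf ((Fintype.card F : ℕ) : ZMod r) := ⟨_, rfl⟩
  rw [← hi]
  have hq0 : ((Fintype.card F : ℕ) : ZMod r) ≠ 0 := by
    intro h
    rw [ZMod.natCast_eq_zero_iff] at h
    obtain ⟨n, -, hn⟩ := FiniteField.card F p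
    rw [hn] at h
    exact hrp ((Nat.prime_dvd_prime_iff_eq hr hp).mp (hr.dvd_of_dvd_pow h))
  obtain ⟨t, ht⟩ : ∃ t, t * i = r - 1 := by
    obtain ⟨t, ht⟩ := ZMod.orderOf_dvd_card_sub_one hq0
    exact ⟨t, by rw [hi, ht, mul_comm]⟩
  obtain ⟨hf1, hf2⟩ := facts (F := F) (p := p) r i t hr hr2 hrp hi ht
  obtain ⟨s', hs'⟩ : ∃ s' : Matrix (Fin e) (Fin e) F, s' = s ^ (r - 1) := ⟨_, rfl⟩
  have h1 : s * s' = 1 := by rw [hs', ← pow_succ', Nat.sub_add_cancel hr.pos, hsr]
  have hcm : s.charpoly.Monic := Matrix.charpoly_monic s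
  have hcf : ∀ P ∈ normalizedFactors s.charpoly, P ∣ X ^ r - C (1 : F) := by
    intro P hP
    apply dvd_of_mem_nf_charpoly' s _ _ P hP
    rw [map_sub, map_pow, aeval_X, aeval_C, map_one, hsr, sub_self]
  have hcr : rstar (RingHom.id F) s.charpoly = s.charpoly := rstar_charpoly_iso hS s s' h1 hsQ
  have hcd : s.charpoly.natDegree = e := by
    rw [Matrix.charpoly_natDegree_eq_dim, Fintype.card_fin]
  have hsL : ¬ (X - C (1 : F)) ∣ s.charpoly := by
    intro hdvd
    rw [Polynomial.dvd_iff_isRoot, Polynomial.IsRoot, Matrix.eval_charpoly] at hdvd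
    obtain ⟨v, hv, h⟩ := Matrix.exists_mulVec_eq_zero_iff.mpr hdvd
    rw [sub_mulVec, map_one, one_mulVec] at h
    exact hv (hfree v (sub_eq_zero.mp h).symm)
  have hie : i ∣ e := by
    have := hf1 s.charpoly hcm hcf hsL
    rwa [hcd] at this
  have heven : Even e := by
    by_cases hodd : Odd i
    · obtain ⟨c₁, hc₁m, hc₁0, hc, -, -, -⟩ := hf2 hodd s.charpoly hcm hcf hcr hsL
      have hne : rstar (RingHom.id F) c₁ ≠ 0 := by
        intro h0
        rw [h0, mul_zero] at hc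
        exact hcm.ne_zero hc
      have hd := congrArg Polynomial.natDegree hc
      rw [hcd, hc₁m.natDegree_mul' hne, rstar_natDegree (RingHom.id F) c₁ hc₁0] at hd
      exact ⟨c₁.natDegree, hd⟩
    · exact (Nat.not_odd_iff_even.mp hodd).trans_dvd hie
  obtain ⟨k, hk⟩ : ∃ k, e = 2 * (k + 1) := by
    obtain ⟨c, hc⟩ := heven
    exact ⟨c - 1, by omega⟩
  refine ⟨k, hk, ?_⟩
  exact obs_matrix (p := p) Q hS (by rw [Fintype.card_fin]; exact hk) r i t hr hr2 hrp hi ht s
    hsr hsQ hsL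

open Cfsg.Agent.Lib.Helper37.HypStmt

/-- the common lemma: dimension and type of an invariant nondegenerate subspace without fixed
vectors -/
theorem common {F : Type u} [Field F] [Fintype F] (p : ℕ) [Fact p.Prime] [CharP F p]
    (d : ℕ) (r : ℕ) [Fact r.Prime] (hr2 : r ≠ 2) (hrp : r ≠ p)
    (x : Matrix.GeneralLinearGroup (I d) F)
    (hx : x ∈ Cfsg.isometryGroup F (Cfsg.quadFormOdd d F)) (hxr : x ^ r = 1)
    (E : Submodule F (I d → F)) (hst : Stab (x : Matrix (I d) (I d) F) E) (hnd : NDeg d F E)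
    (hfx : E ⊓ Fx (x : Matrix (I d) (I d) F) = ⊥) (he : 0 < finrank F E) :
    ∃ k : ℕ, finrank F E = 2 * (k + 1) ∧
      (Cfsg.Geo.IsPlusTypeOn (Cfsg.quadFormOdd d F) E ↔
        (Odd (orderOf ((Fintype.card F : ℕ) : ZMod r)) ∨
          Even (2 * (k + 1) / orderOf ((Fintype.card F : ℕ) : ZMod r)))) := by
  classical
  have hr : r.Prime := Fact.out
  obtain ⟨e, hedef⟩ : ∃ e, e = finrank F E := ⟨_, rfl⟩
  obtain ⟨Φ, -⟩ : ∃ Φ : (Fin e → F) ≃ₗ[F] ↥E, True :=
    ⟨(Module.finBasisOfFinrankEq F E hedef.symm).equivFun.symm, trivial⟩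
  obtain ⟨ψ, hψ⟩ : ∃ ψ : (Fin e → F) →ₗ[F] (I d → F), ψ = E.subtype ∘ₗ Φ.toLinearMap :=
    ⟨_, rfl⟩
  have hψa : ∀ u, ψ u = ((Φ u : ↥E) : I d → F) := by intro u; rw [hψ]; rfl
  have hψE : ∀ u, ψ u ∈ E := by intro u; rw [hψa]; exact (Φ u).2
  have hψinj : Function.Injective ψ := by
    intro u v huv
    rw [hψa, hψa] at huv
    exact Φ.injective (Subtype.ext huv)
  have hψsurj : ∀ w ∈ E, ∃ u, ψ u = w := by
    intro w hw
    exact ⟨Φ.symm ⟨w, hw⟩, by rw [hψa, LinearEquiv.apply_symm_apply]⟩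
  have hrange : LinearMap.range ψ = E := by
    ext w
    constructor
    · rintro ⟨u, rfl⟩; exact hψE u
    · intro hw; obtain ⟨u, hu⟩ := hψsurj w hw; exact ⟨u, hu⟩
  obtain ⟨Q', hQ'⟩ : ∃ Q' : QuadraticForm F (Fin e → F), Q' = (oddQ d F).comp ψ := ⟨_, rfl⟩
  have hQ'a : ∀ u, Q' u = Cfsg.quadFormOdd d F (ψ u) := by intro u; rw [hQ']; rfl
  have hQ'p : ∀ u v, polar Q' u v = polar (Cfsg.quadFormOdd d F) (ψ u) (ψ v) := by
    intro u v; simp only [polar, hQ'a, map_add]
  have hS : Sep Q' := by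
    intro u hu
    by_contra hne
    have hw : ψ u ≠ 0 := fun h => hne (hψinj (by rw [h, map_zero]))
    obtain ⟨-, ⟨y, hyE, hy⟩⟩ := hnd (ψ u) (hψE u) hw
    obtain ⟨v, rfl⟩ := hψsurj y hyE
    exact hy (by rw [← hQ'p]; exact hu v)
  have hxE : ∀ w ∈ E, Matrix.toLin' (x : Matrix (I d) (I d) F) w ∈ E := by
    intro w hw
    exact hst (Submodule.mem_map_of_mem hw)
  obtain ⟨s, hs⟩ : ∃ s : Matrix (Fin e) (Fin e) F,
      ∀ u, ψ (s *ᵥ u) = (x : Matrix (I d) (I d) F) *ᵥ ψ u := by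
    refine ⟨LinearMap.toMatrix' (Φ.symm.toLinearMap ∘ₗ
      ((Matrix.toLin' (x : Matrix (I d) (I d) F)).restrict hxE) ∘ₗ Φ.toLinearMap), fun u => ?_⟩
    rw [LinearMap.toMatrix'_mulVec, hψa, hψa]
    simp only [LinearMap.comp_apply, LinearEquiv.coe_coe, LinearEquiv.apply_symm_apply,
      LinearMap.coe_restrict_apply, Matrix.toLin'_apply]
  have hspow : ∀ (j : ℕ) u, ψ ((s ^ j) *ᵥ u) = ((x : Matrix (I d) (I d) F) ^ j) *ᵥ ψ u := by
    intro j
    induction j with
    | zero => intro u; rw [pow_zero, pow_zero, one_mulVec, one_mulVec]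
    | succ j ih => intro u; rw [pow_succ, pow_succ, ← mulVec_mulVec, ih, hs, mulVec_mulVec]
  have hxr' : (x : Matrix (I d) (I d) F) ^ r = 1 := by
    have := congrArg (fun g : Matrix.GeneralLinearGroup (I d) F => (g : Matrix (I d) (I d) F)) hxr
    simpa using this
  have hsr : s ^ r = 1 := by
    apply Cfsg.Agent.Lib.Helper44.OMat.matrix_ext_mulVec
    intro u
    apply hψinj
    rw [hspow, hxr', one_mulVec, one_mulVec]
  have hsQ : ∀ u, Q' (s *ᵥ u) = Q' u := by
    intro u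
    rw [hQ'a, hQ'a, hs]
    exact hx (ψ u) (ψ u)
  have hfree : ∀ v, s *ᵥ v = v → v = 0 := by
    intro v hv
    have h1 : ψ v ∈ E ⊓ Fx (x : Matrix (I d) (I d) F) :=
      ⟨hψE v, (mem_Fx _ _).mpr (by rw [← hs, hv])⟩
    rw [hfx, Submodule.mem_bot] at h1
    exact hψinj (by rw [h1, map_zero])
  obtain ⟨k, hk, hP, hM⟩ :=
    count_matrix p (by rw [hedef]; exact he) Q' hS r hr hr2 hrp s hsr hsQ hfree
  refine ⟨k, by rw [← hedef]; exact hk, ?_⟩
  have hfinV : finrank F (Fin e → F) = 2 * (k + 1) := by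
    rw [Module.finrank_fintype_fun_eq_card, Fintype.card_fin]; exact hk
  constructor
  · rintro ⟨U, hUE, hUts, hUd⟩
    by_contra hcon
    have hNM := hM hcon
    have hfr : finrank F (U.comap ψ) = finrank F U := by
      have h1 : (U.comap ψ).map ψ = U :=
        Submodule.map_comap_eq_of_le (by rw [hrange]; exact hUE)
      have h2 := (Submodule.equivMapOfInjective ψ hψinj (U.comap ψ)).finrank_eq
      rw [h1] at h2
      exact h2
    have h3 : finrank F U = k + 1 := by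
      have h4 := hUd
      rw [← hedef, hk] at h4
      omega
    have hNP := count_of_ts Q' hS hfinV (U.comap ψ)
      (fun u hu => by rw [hQ'a]; exact hUts _ hu) (by rw [hfr, h3])
    rw [hNP] at hNM
    exact NP_ne_NM (Fintype.card F) k Fintype.one_lt_card hNM
  · intro hcond
    obtain ⟨U', hU'ts, hU'd⟩ := ts_of_count Q' hS hfinV (hP hcond)
    refine ⟨U'.map ψ, ?_, ?_, ?_⟩
    · rintro w ⟨u, -, rfl⟩; exact hψE u
    · rintro w ⟨u, hu, rfl⟩
      rw [← hQ'a]; exact hU'ts u hu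
    · rw [← (Submodule.equivMapOfInjective ψ hψinj U').finrank_eq, hU'd, ← hedef, hk]

end Cfsg.Agent.Lib.Helper94.HypTypeAux
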