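import Mathlib
import Cfsg.Agent.Lib.Helper37.HypStmt
import Cfsg.Agent.Lib.Helper94.HypTypeAux

/-!
# S5992, piece TYPEEVEN (helper94, second seat)
-/

set_option autoImplicit false

namespace Cfsg.Agent.Lib.Helper94.HypTYPEEVEN

open Module
open Cfsg.Agent.Lib.Helper37.HypStmt Cfsg.Agent.Lib.Helper94.HypTypeAux

universe u

theorem main : TypeEven.{u} := by
  intro F _ _ p _ _ _ d r _ hr2 hrp hieven x hx hxr E hst hnd hfx
  rcases Nat.eq_zero_or_pos (finrank F E) with h0 | hpos
  · rw [h0, Nat.zero_div]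
    refine ⟨fun _ => Even.zero, fun _ => ⟨⊥, bot_le, fun w hw => ?_, by rw [finrank_bot, h0]⟩⟩
    rw [(Submodule.mem_bot F).mp hw]
    simp [Cfsg.quadFormOdd]
  · obtain ⟨k, hk, hiff⟩ := common p d r hr2 hrp x hx hxr E hst hnd hfx hpos
    rw [hiff, hk]
    constructor
    · rintro (h | h)
      · exact absurd hieven (Nat.not_even_iff_odd.mpr h)
      · exact h
    · exact fun h => Or.inr h

end Cfsg.Agent.Lib.Helper94.HypTYPEEVEN
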