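import Mathlib
import Cfsg.Agent.Lib.Helper37.HypStmt
import Cfsg.Agent.Lib.Helper94.HypTypeAux

/-!
# S5992, piece TYPEODD (helper94, second seat)
-/

set_option autoImplicit false

namespace Cfsg.Agent.Lib.Helper94.HypTYPEODD

open Module
open Cfsg.Agent.Lib.Helper37.HypStmt Cfsg.Agent.Lib.Helper94.HypTypeAux

universe u

theorem main : TypeOdd.{u} := by
  intro F _ _ p _ _ _ d r _ hr2 hrp hiodd x hx hxr E hst hnd hfx
  rcases Nat.eq_zero_or_pos (finrank F E) with h0 | hpos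
  · refine ⟨⊥, bot_le, fun w hw => ?_, by rw [finrank_bot, h0]⟩
    rw [(Submodule.mem_bot F).mp hw]
    simp [Cfsg.quadFormOdd]
  · obtain ⟨k, -, hiff⟩ := common p d r hr2 hrp x hx hxr E hst hnd hfx hpos
    exact hiff.mpr (Or.inl hiodd)

end Cfsg.Agent.Lib.Helper94.HypTYPEODD
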