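import Mathlib
import Cfsg.Agent.Lib.Helper94.OMiPStmt
import Cfsg.Agent.Lib.Helper45.OMiStmt
import Cfsg.Agent.Lib.Helper44.NegPairs
import Cfsg.Agent.Lib.Helper44.FinSq

/-!
# S5991, `r = p`: adapter from the split pieces of `Helper94.OMiPStmt` to `Helper45.OMiStmt.PFixCM`
-/

set_option autoImplicit false

universe u

open scoped Matrix

namespace Cfsg.Agent.Lib.Helper94.OMiPAdapt

open Cfsg.Agent.Lib.Helper94.OMiPStmt
open Cfsg.Agent.Lib.Helper44.NegPairs
open QuadraticMap

/-- restricted rank-nullity: `dim (ker N ⊓ R) + dim N R = dim R` -/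
theorem finrank_ker_inf_add {F : Type u} [Field F] {V : Type*} [AddCommGroup V] [Module F V]
    [FiniteDimensional F V] (N : V →ₗ[F] V) (R : Submodule F V) :
    Module.finrank F ↥(LinearMap.ker N ⊓ R) + Module.finrank F ↥(R.map N) =
      Module.finrank F ↥R := by
  have h := LinearMap.finrank_range_add_finrank_ker (N.domRestrict R)
  rw [LinearMap.range_domRestrict, LinearMap.ker_domRestrict] at h
  have h2 : Module.finrank F ↥((LinearMap.ker N).comap R.subtype) =
      Module.finrank F ↥(LinearMap.ker N ⊓ R) := by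
    rw [← Submodule.finrank_map_subtype_eq R ((LinearMap.ker N).comap R.subtype),
      Submodule.map_comap_subtype, inf_comm]
  omega

theorem pfixcm_of (hC : MPFixC.{u}) : Cfsg.Agent.Lib.Helper45.OMiStmt.PFixCM.{u} := by
  intro F _ _ hodd d m hd a b hab hm x hx u₁ hu₁ hQu₁ hFix hN2 W hWm hWnd hWst
  classical
  have h2 : (2 : F) ≠ 0 := Cfsg.Agent.Lib.Helper44.FinSq.two_ne_zero_of_odd_card hodd
  have hQ : ∀ u : Mi d → F, minusQ (d - 1) F a b ((x : Matrix (Mi d) (Mi d) F) *ᵥ u) =
      minusQ (d - 1) F a b u := fun u => hx u u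
  have hNapp : ∀ v : Mi d → F, NM (x : Matrix (Mi d) (Mi d) F) v =
      (x : Matrix (Mi d) (Mi d) F) *ᵥ v - v := by
    intro v
    unfold NM
    rw [LinearMap.sub_apply, Matrix.toLin'_apply, LinearMap.id_apply]
  have hfx : ∀ v : Mi d → F, v ∈ FxM (x : Matrix (Mi d) (Mi d) F) ↔
      (x : Matrix (Mi d) (Mi d) F) *ᵥ v = v := by
    intro v
    unfold FxM
    rw [LinearMap.mem_ker, LinearMap.sub_apply, Matrix.toLin'_apply, LinearMap.id_apply,
      sub_eq_zero]
  have hu₁' : u₁ ∈ FxM (x : Matrix (Mi d) (Mi d) F) := hu₁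
  have hFix' : FxM (x : Matrix (Mi d) (Mi d) F) ≤
      Submodule.span F {u₁} ⊔ LinearMap.range (NM (x : Matrix (Mi d) (Mi d) F)) := hFix
  have hN2' : Module.finrank F ↥(LinearMap.range
      (NM (x : Matrix (Mi d) (Mi d) F) ∘ₗ NM (x : Matrix (Mi d) (Mi d) F))) ≤ 1 := hN2
  have hpol : ∀ u v : Mi d → F, polar (minusQ (d - 1) F a b)
      ((x : Matrix (Mi d) (Mi d) F) *ᵥ u) ((x : Matrix (Mi d) (Mi d) F) *ᵥ v) =
      polar (minusQ (d - 1) F a b) u v := by
    intro u v
    unfold polar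
    rw [← Matrix.mulVec_add, hQ, hQ, hQ]
  have hperp : ∀ w : Mi d → F, (x : Matrix (Mi d) (Mi d) F) *ᵥ w = w → ∀ v : Mi d → F,
      polar (minusQ (d - 1) F a b) w (NM (x : Matrix (Mi d) (Mi d) F) v) = 0 := by
    intro w hw v
    rw [hNapp, polar_sub_right]
    have h := hpol w v
    rw [hw] at h
    rw [h, sub_self]
  have hu₁x := (hfx u₁).1 hu₁'
  -- (i) `Q` on the fixed space
  have hβ : ∀ w ∈ FxM (x : Matrix (Mi d) (Mi d) F), ∃ c : F,
      Cfsg.quadFormMinus (d - 1) F a b w = c * c * Cfsg.quadFormMinus (d - 1) F a b u₁ := by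
    intro w hw
    obtain ⟨y, hy, n, hn, rfl⟩ := Submodule.mem_sup.1 (hFix' hw)
    obtain ⟨α, rfl⟩ := Submodule.mem_span_singleton.1 hy
    obtain ⟨v, rfl⟩ := hn
    refine ⟨α, ?_⟩
    have hwx := (hfx _).1 hw
    have hnx : (x : Matrix (Mi d) (Mi d) F) *ᵥ (NM (x : Matrix (Mi d) (Mi d) F) v) =
        NM (x : Matrix (Mi d) (Mi d) F) v := by
      rw [Matrix.mulVec_add, Matrix.mulVec_smul, hu₁x] at hwx
      exact add_left_cancel hwx
    have hpn := hperp _ hnx v
    have hQn : minusQ (d - 1) F a b (NM (x : Matrix (Mi d) (Mi d) F) v) = 0 := by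
      have h := QuadraticMap.polar_self (minusQ (d - 1) F a b) (NM (x : Matrix (Mi d) (Mi d) F) v)
      rw [hpn] at h
      have h' : (2 : F) * minusQ (d - 1) F a b (NM (x : Matrix (Mi d) (Mi d) F) v) = 0 := by
        rw [h]
        simp [two_mul, two_smul]
      rcases mul_eq_zero.1 h' with h0 | h0
      · exact absurd h0 h2
      · exact h0
    have hpu := hperp u₁ hu₁x v
    show minusQ (d - 1) F a b (α • u₁ + NM (x : Matrix (Mi d) (Mi d) F) v) =
      α * α * minusQ (d - 1) F a b u₁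
    rw [QuadraticMap.map_add (minusQ (d - 1) F a b), hQn, QuadraticMap.map_smul, polar_smul_left, hpu]
    simp [smul_eq_mul]
  -- (ii) `d ≤ rank N`
  have hrk : d ≤ Module.finrank F ↥(LinearMap.range (NM (x : Matrix (Mi d) (Mi d) F))) := by
    have h3 : Module.finrank F (Mi d → F) = 2 * d := by
      rw [Module.finrank_pi]
      simp
      omega
    have hrn := LinearMap.finrank_range_add_finrank_ker (NM (x : Matrix (Mi d) (Mi d) F))
    have hker : LinearMap.ker (NM (x : Matrix (Mi d) (Mi d) F)) =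
        FxM (x : Matrix (Mi d) (Mi d) F) := rfl
    have hle : FxM (x : Matrix (Mi d) (Mi d) F) ≤ Submodule.span F {u₁} ⊔
        (FxM (x : Matrix (Mi d) (Mi d) F) ⊓
          LinearMap.range (NM (x : Matrix (Mi d) (Mi d) F))) := by
      intro w hw
      obtain ⟨y, hy, n, hn, rfl⟩ := Submodule.mem_sup.1 (hFix' hw)
      refine Submodule.mem_sup.2 ⟨y, hy, n, ⟨?_, hn⟩, rfl⟩
      have hyF : y ∈ FxM (x : Matrix (Mi d) (Mi d) F) := by
        obtain ⟨α, rfl⟩ := Submodule.mem_span_singleton.1 hy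
        exact Submodule.smul_mem _ _ hu₁'
      have h := Submodule.sub_mem _ hw hyF
      simpa using h
    have hk2 := finrank_ker_inf_add (NM (x : Matrix (Mi d) (Mi d) F))
      (LinearMap.range (NM (x : Matrix (Mi d) (Mi d) F)))
    rw [← LinearMap.range_comp, hker] at hk2
    have h5 : Module.finrank F ↥(FxM (x : Matrix (Mi d) (Mi d) F)) ≤
        1 + Module.finrank F ↥(FxM (x : Matrix (Mi d) (Mi d) F) ⊓
          LinearMap.range (NM (x : Matrix (Mi d) (Mi d) F))) := by
      calc Module.finrank F ↥(FxM (x : Matrix (Mi d) (Mi d) F))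
          ≤ Module.finrank F ↥(Submodule.span F {u₁} ⊔
              (FxM (x : Matrix (Mi d) (Mi d) F) ⊓
                LinearMap.range (NM (x : Matrix (Mi d) (Mi d) F)))) :=
            Submodule.finrank_mono hle
        _ ≤ Module.finrank F ↥(Submodule.span F {u₁}) +
              Module.finrank F ↥(FxM (x : Matrix (Mi d) (Mi d) F) ⊓
                LinearMap.range (NM (x : Matrix (Mi d) (Mi d) F))) :=
            Submodule.finrank_add_le_finrank_add_finrank _ _
        _ ≤ 1 + Module.finrank F ↥(FxM (x : Matrix (Mi d) (Mi d) F) ⊓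
                LinearMap.range (NM (x : Matrix (Mi d) (Mi d) F))) := by
            have hu0 : u₁ ≠ 0 := by
              rintro rfl
              exact hQu₁ (QuadraticMap.map_zero (minusQ (d - 1) F a b))
            have := finrank_span_singleton (K := F) hu0
            omega
    rw [hker] at hrn
    omega
  rcases hC F hodd d m hd hm a b hab x hx hN2' hrk (Cfsg.quadFormMinus (d - 1) F a b u₁) hβ
    W hWm hWnd hWst with ⟨h1, hT⟩ | ⟨h3, U, hU, hdimU, hT⟩
  · left
    refine ⟨h1, ?_⟩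
    obtain ⟨S, hSU, hS0, hSdim, w, hw, hwS, hwQ⟩ := hT
    exact ⟨w, hw, hwQ, S, hSU, hS0, hwS, hSdim⟩
  · right
    refine ⟨h3, ?_⟩
    obtain ⟨S, hSU, hS0, hSdim, w, hw, hwS, hwQ⟩ := hT
    refine ⟨w, ?_, hwQ, S, ?_, hS0, hwS, ?_⟩
    · intro w' hw'
      rw [polar_comm]
      exact (hU w).1 hw w' hw'
    · intro v hv w' hw'
      rw [polar_comm]
      exact (hU v).1 (hSU hv) w' hw'
    · have h9 : 2 * Module.finrank F ↥S + 1 = 2 * d - Module.finrank F ↥W := by
        rw [← hdimU, Nat.add_sub_cancel_left]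
        exact hSdim
      exact h9

end Cfsg.Agent.Lib.Helper94.OMiPAdapt
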