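import Cfsg.Agent.Lib.Helper94.OMiPAdapt
import Cfsg.Agent.Lib.Helper94.MPFIXC
import Cfsg.Agent.Lib.Helper97.MSPLIT
import Cfsg.Agent.Lib.Helper97.MRANK
import Cfsg.Agent.Lib.Helper33.MTYPE

/-!
# S5991 / PFIXCM (second route): `Helper45.OMiStmt.PFixCM` from `MSplit`, `MRank`, `MType`
-/

set_option autoImplicit false

universe u

namespace Cfsg.Agent.Lib.Helper94.OMiPFIXCM

theorem main : Cfsg.Agent.Lib.Helper45.OMiStmt.PFixCM.{u} :=
  Cfsg.Agent.Lib.Helper94.OMiPAdapt.pfixcm_of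
    (Cfsg.Agent.Lib.Helper94.MPFIXC.main Cfsg.Agent.Lib.Helper97.MSPLIT.main
      Cfsg.Agent.Lib.Helper97.MRANK.main Cfsg.Agent.Lib.Helper33.MTYPE.main)

end Cfsg.Agent.Lib.Helper94.OMiPFIXCM
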