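import Mathlib
import Cfsg.Prelude.Def_GeometricClasses
import Cfsg.Agent.Lib.Helper94.OrthSiegel

set_option autoImplicit false

namespace Cfsg.Agent.Lib.Helper94.OrthRel

open scoped Matrix
open Module
open Cfsg.Agent.Lib.Helper94.Basic Cfsg.Agent.Lib.Helper94.GLAux Cfsg.Agent.Lib.Helper94.Tv
  Cfsg.Agent.Lib.Helper94.QuadAbs Cfsg.Agent.Lib.Helper94.OrthSiegel
open Cfsg.Agent.Lib.Helper94.SympAbs (bil_zero_left bil_zero_right bil_neg_left bil_neg_right
  bil_sub_left bil_sub_right fR fR_apply fRL)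
open Cfsg.Agent.Lib.Helper37.PlaneTwo (toQF toQF_coe toQF_sep)
open Cfsg.Agent.Lib.Helper44.Split Cfsg.Agent.Lib.Helper44.QSpace

section Abs

universe u

variable {F : Type*} [Field F] [Finite F]

/-- A nondegenerate quadratic space of dimension at least `2k+1` over a finite field contains a
totally singular subspace of dimension at least `k`. -/
theorem exists_ts (k : ℕ) : ∀ (V : Type u) [AddCommGroup V] [Module F V] [FiniteDimensional F V]
    (Q : QuadraticForm F V), Sep Q → 2 * k + 1 ≤ finrank F V →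
    ∃ E : Submodule F V, k ≤ finrank F E ∧ ∀ x ∈ E, Q x = 0 := by
  induction k with
  | zero =>
    intro V _ _ _ Q _ _
    exact ⟨⊥, Nat.zero_le _, fun x hx => by rw [(Submodule.mem_bot F).mp hx, map_zero]⟩
  | succ k ih =>
    intro V _ _ _ Q hS hd
    obtain ⟨e, he0, he⟩ := exists_singular hS (by omega)
    obtain ⟨f, hf, hef⟩ := exists_hyp_pair hS he0 he
    have hS' := sep_perp2 hS he hf hef
    have hfr := finrank_perp2' he hf hef
    obtain ⟨E', hE', hts⟩ := ih (perp2 (QuadraticMap.polarBilin Q) e f) (res Q _) hS' (by omega)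
    refine ⟨E'.map (perp2 (QuadraticMap.polarBilin Q) e f).subtype ⊔ Submodule.span F {e}, ?_, ?_⟩
    · have h1 := Submodule.finrank_sup_add_finrank_inf_eq
        (E'.map (perp2 (QuadraticMap.polarBilin Q) e f).subtype) (Submodule.span F {e})
      have h2 : finrank F (Submodule.span F {e}) = 1 := finrank_span_singleton he0
      have h3 : E'.map (perp2 (QuadraticMap.polarBilin Q) e f).subtype ⊓ Submodule.span F {e}
          = ⊥ := by
        rw [Submodule.eq_bot_iff]
        rintro x ⟨hx1, hx2⟩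
        obtain ⟨c, rfl⟩ := Submodule.mem_span_singleton.mp hx2
        obtain ⟨y, hy, hyx⟩ := hx1
        have h4 : (y : V) ∈ perp2 (QuadraticMap.polarBilin Q) e f := y.2
        rw [mem_perp2] at h4
        have h5 : QuadraticMap.polar Q f (c • e) = 0 := by
          have h6 : (y : V) = c • e := hyx
          rw [← h6]
          exact h4.2
        rw [polar_smul_r, QuadraticMap.polar_comm, hef, mul_one] at h5
        rw [h5, zero_smul]
      have h6 : finrank F (E'.map (perp2 (QuadraticMap.polarBilin Q) e f).subtype)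
          = finrank F E' := Submodule.finrank_map_subtype_eq _ _
      rw [h3, finrank_bot, h2, h6] at h1
      omega
    · intro x hx
      obtain ⟨y, hy, z, hz, rfl⟩ := Submodule.mem_sup.mp hx
      obtain ⟨c, rfl⟩ := Submodule.mem_span_singleton.mp hz
      obtain ⟨y', hy', rfl⟩ := hy
      have h4 : (y' : V) ∈ perp2 (QuadraticMap.polarBilin Q) e f := y'.2
      rw [mem_perp2] at h4
      have h7 : Q (y' : V) = 0 := hts y' hy'
      have h8 : QuadraticMap.polar Q (y' : V) e = 0 := by
        rw [QuadraticMap.polar_comm]; exact h4.1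
      show Q ((y' : V) + c • e) = 0
      rw [q_add, q_smul, he, polar_smul_r, h7, h8]
      ring

/-- A nonzero singular vector killed by two given functionals, in dimension at least 7. -/
theorem exists_sing_ker2 {V : Type u} [AddCommGroup V] [Module F V] [FiniteDimensional F V]
    {Q : QuadraticForm F V} (hS : Sep Q) (hd : 7 ≤ finrank F V) (φ₁ φ₂ : V →ₗ[F] F) :
    ∃ b, b ≠ 0 ∧ Q b = 0 ∧ φ₁ b = 0 ∧ φ₂ b = 0 := by
  obtain ⟨E, hE, hts⟩ := exists_ts 3 V Q hS (by omega)
  have hker : LinearMap.ker ((φ₁.prod φ₂).domRestrict E) ≠ ⊥ := by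
    apply LinearMap.ker_ne_bot_of_finrank_lt
    rw [Module.finrank_prod, Module.finrank_self]
    omega
  obtain ⟨x, hx, hx0⟩ := Submodule.exists_mem_ne_zero_of_ne_bot hker
  rw [LinearMap.mem_ker, LinearMap.domRestrict_apply, LinearMap.prod_apply,
    Prod.mk_eq_zero] at hx
  exact ⟨x, fun h => hx0 (Subtype.ext h), hts x x.2, hx.1, hx.2⟩

/-- A hyperbolic pair orthogonal to a given hyperbolic pair, in dimension at least 5. -/
theorem exists_hyp_perp_abs {V : Type u} [AddCommGroup V] [Module F V] [FiniteDimensional F V]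
    {Q : QuadraticForm F V} (hS : Sep Q) (hd : 5 ≤ finrank F V) {b b' : V} (hb : Q b = 0)
    (hb' : Q b' = 0) (hbb : QuadraticMap.polar Q b b' = 1) :
    ∃ e f, Q e = 0 ∧ Q f = 0 ∧ QuadraticMap.polar Q e f = 1 ∧ QuadraticMap.polar Q b e = 0 ∧
      QuadraticMap.polar Q b' e = 0 ∧ QuadraticMap.polar Q b f = 0 ∧
      QuadraticMap.polar Q b' f = 0 := by
  have hS' := sep_perp2 hS hb hb' hbb
  have hfr := finrank_perp2' hb hb' hbb
  obtain ⟨e, he0, he⟩ := exists_singular hS' (by omega)
  obtain ⟨f, hf, hef⟩ := exists_hyp_pair hS' he0 he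
  have h1 := (mem_perp2 _ _ _ _).mp e.2
  have h2 := (mem_perp2 _ _ _ _).mp f.2
  exact ⟨e, f, he, hf, hef, h1.1, h1.2, h2.1, h2.2⟩

end Abs

section Rel

variable {ι : Type} [Fintype ι] [DecidableEq ι] {F : Type*} [Field F] [Fintype F]
variable {Q : (ι → F) → F}

lemma sep_res (hQ : Cfsg.Geo.IsNondegenerateQuadraticForm Q) (N : Submodule F (ι → F))
    (hN : Cfsg.Geo.IsNondegenerateOn (QuadraticMap.polar Q) N) : Sep (res (toQF Q hQ) N) := by
  intro x hx
  by_contra h
  have hx0 : (x : ι → F) ≠ 0 := fun h0 => h (Subtype.ext h0)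
  obtain ⟨y, hy, hxy⟩ := (hN x x.2 hx0).2
  apply hxy
  have h1 := hx ⟨y, hy⟩
  rw [polar_res, toQF_coe] at h1
  exact h1

/-- A hyperbolic partner inside a nondegenerate subspace. -/
lemma exists_partner_in (hQ : Cfsg.Geo.IsNondegenerateQuadraticForm Q) (N : Submodule F (ι → F))
    (hN : Cfsg.Geo.IsNondegenerateOn (QuadraticMap.polar Q) N) {b : ι → F} (hb : b ∈ N)
    (hb0 : b ≠ 0) (hQb : Q b = 0) :
    ∃ b' ∈ N, Q b' = 0 ∧ QuadraticMap.polar Q b b' = 1 := by
  have hS := sep_res hQ N hN
  have h1 : (res (toQF Q hQ) N) ⟨b, hb⟩ = 0 := by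
    rw [res_apply, toQF_coe]; exact hQb
  obtain ⟨f, hf, hef⟩ := exists_hyp_pair hS (e := ⟨b, hb⟩)
    (fun h => hb0 (congrArg Subtype.val h)) h1
  rw [res_apply, toQF_coe] at hf
  rw [polar_res, toQF_coe] at hef
  exact ⟨f, f.2, hf, hef⟩

/-- A hyperbolic pair inside a nondegenerate subspace of dimension at least 3. -/
lemma exists_hyp_in (hQ : Cfsg.Geo.IsNondegenerateQuadraticForm Q) (N : Submodule F (ι → F))
    (hN : Cfsg.Geo.IsNondegenerateOn (QuadraticMap.polar Q) N) (h3 : 3 ≤ finrank F N) :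
    ∃ b ∈ N, ∃ b' ∈ N, Q b = 0 ∧ Q b' = 0 ∧ QuadraticMap.polar Q b b' = 1 := by
  have hS := sep_res hQ N hN
  obtain ⟨e, he0, he⟩ := exists_singular hS h3
  rw [res_apply, toQF_coe] at he
  obtain ⟨b', hb', hQb', hbb'⟩ := exists_partner_in hQ N hN e.2
    (fun h => he0 (Subtype.ext h)) he
  exact ⟨e, e.2, b', hb', he, hQb', hbb'⟩

/-- A hyperbolic pair inside a nondegenerate subspace orthogonal to a given hyperbolic pair. -/
lemma exists_hyp_perp_in (hQ : Cfsg.Geo.IsNondegenerateQuadraticForm Q) (N : Submodule F (ι → F))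
    (hN : Cfsg.Geo.IsNondegenerateOn (QuadraticMap.polar Q) N) (h5 : 5 ≤ finrank F N)
    {b b' : ι → F} (hb : b ∈ N) (hb' : b' ∈ N) (hQb : Q b = 0) (hQb' : Q b' = 0)
    (hbb : QuadraticMap.polar Q b b' = 1) :
    ∃ e ∈ N, ∃ f ∈ N, Q e = 0 ∧ Q f = 0 ∧ QuadraticMap.polar Q e f = 1 ∧
      QuadraticMap.polar Q b e = 0 ∧ QuadraticMap.polar Q b' e = 0 ∧
      QuadraticMap.polar Q b f = 0 ∧ QuadraticMap.polar Q b' f = 0 := by
  have hS := sep_res hQ N hN
  have h1 : (res (toQF Q hQ) N) ⟨b, hb⟩ = 0 := by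
    rw [res_apply, toQF_coe]; exact hQb
  have h2 : (res (toQF Q hQ) N) ⟨b', hb'⟩ = 0 := by
    rw [res_apply, toQF_coe]; exact hQb'
  have h3 : QuadraticMap.polar (res (toQF Q hQ) N) ⟨b, hb⟩ ⟨b', hb'⟩ = 1 := by
    rw [polar_res, toQF_coe]; exact hbb
  obtain ⟨e, f, he, hf, hef, hbe, hb'e, hbf, hb'f⟩ := exists_hyp_perp_abs hS h5 h1 h2 h3
  rw [res_apply, toQF_coe] at he hf
  rw [polar_res, toQF_coe] at hef hbe hb'e hbf hb'f
  exact ⟨e, e.2, f, f.2, he, hf, hef, hbe, hb'e, hbf, hb'f⟩

/-- A nonzero singular vector of a nondegenerate subspace of dimension at least 7 orthogonal to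
two given vectors. -/
lemma exists_sing_perp2_in (hQ : Cfsg.Geo.IsNondegenerateQuadraticForm Q)
    (N : Submodule F (ι → F))
    (hN : Cfsg.Geo.IsNondegenerateOn (QuadraticMap.polar Q) N) (h7 : 7 ≤ finrank F N)
    (p₁ p₂ : ι → F) :
    ∃ b ∈ N, b ≠ 0 ∧ Q b = 0 ∧ QuadraticMap.polar Q b p₁ = 0 ∧ QuadraticMap.polar Q b p₂ = 0 := by
  have hS := sep_res hQ N hN
  obtain ⟨b, hb0, hb, h1, h2⟩ := exists_sing_ker2 hS h7
    ((fR hQ.polar_bilinear p₁).comp N.subtype) ((fR hQ.polar_bilinear p₂).comp N.subtype)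
  rw [res_apply, toQF_coe] at hb
  exact ⟨b, b.2, fun h => hb0 (Subtype.ext h), hb, h1, h2⟩

/-- An orthogonal decomposition into two nondegenerate subspaces. -/
structure OPair (Q : (ι → F) → F) (W W' : Submodule F (ι → F)) : Prop where
  ndW : Cfsg.Geo.IsNondegenerateOn (QuadraticMap.polar Q) W
  ndW' : Cfsg.Geo.IsNondegenerateOn (QuadraticMap.polar Q) W'
  orth : ∀ w ∈ W, ∀ w' ∈ W', QuadraticMap.polar Q w w' = 0
  dec : ∀ v, ∃ w ∈ W, ∃ w' ∈ W', v = w + w'

lemma OPair.symm {W W' : Submodule F (ι → F)} (h : OPair Q W W') : OPair Q W' W :=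
  ⟨h.ndW', h.ndW, fun w' hw' w hw => by rw [B_comm]; exact h.orth w hw w' hw',
    fun v => by
      obtain ⟨w, hw, w', hw', e⟩ := h.dec v
      exact ⟨w', hw', w, hw, by rw [e, add_comm]⟩⟩

lemma OPair.inter {W W' : Submodule F (ι → F)} (h : OPair Q W W') {v : ι → F} (hv : v ∈ W)
    (hv' : v ∈ W') : v = 0 := by
  by_contra h0
  obtain ⟨x, hx, hxv⟩ := (h.ndW v hv h0).1
  exact hxv (h.orth x hx v hv')

lemma OPair.mem_right (hQ : Cfsg.Geo.IsNondegenerateQuadraticForm Q)
    {W W' : Submodule F (ι → F)} (h : OPair Q W W') {v : ι → F}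
    (hv : ∀ w ∈ W, QuadraticMap.polar Q w v = 0) : v ∈ W' := by
  have hbl := hQ.polar_bilinear
  obtain ⟨w, hw, w', hw', e⟩ := h.dec v
  have hw0 : w = 0 := by
    by_contra h0
    obtain ⟨x, hx, hxw⟩ := (h.ndW w hw h0).1
    apply hxw
    have h1 := hv x hx
    rw [e, hbl.add_right, h.orth x hx w' hw', add_zero] at h1
    exact h1
  rw [e, hw0, zero_add]
  exact hw'

lemma OPair.mem_left (hQ : Cfsg.Geo.IsNondegenerateQuadraticForm Q)
    {W W' : Submodule F (ι → F)} (h : OPair Q W W') {v : ι → F}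
    (hv : ∀ w' ∈ W', QuadraticMap.polar Q w' v = 0) : v ∈ W :=
  h.symm.mem_right hQ hv

lemma OPair.finrank_add {W W' : Submodule F (ι → F)} (h : OPair Q W W') :
    finrank F W + finrank F W' = Fintype.card ι := by
  have h1 := Submodule.finrank_sup_add_finrank_inf_eq W W'
  have h2 : W ⊓ W' = ⊥ := by
    rw [Submodule.eq_bot_iff]
    rintro x ⟨hx1, hx2⟩
    exact h.inter hx1 hx2
  have h3 : W ⊔ W' = ⊤ := by
    rw [eq_top_iff]
    intro v _
    obtain ⟨w, hw, w', hw', e⟩ := h.dec v
    rw [e]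
    exact Submodule.add_mem_sup hw hw'
  rw [h2, h3, finrank_bot, finrank_top, Module.finrank_fintype_fun_eq_card] at h1
  omega

/-- An isometry stabilising one member of an orthogonal pair stabilises the other. -/
lemma OPair.stab (hQ : Cfsg.Geo.IsNondegenerateQuadraticForm Q)
    {W W' : Submodule F (ι → F)} (h : OPair Q W W') (g : Matrix.GeneralLinearGroup ι F)
    (hg : ∀ v, Q ((g : Matrix ι ι F) *ᵥ v) = Q v)
    (hgW : ∀ v ∈ W, (g : Matrix ι ι F) *ᵥ v ∈ W) :
    ∀ v ∈ W', (g : Matrix ι ι F) *ᵥ v ∈ W' := by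
  intro v hv
  apply h.mem_right hQ
  intro w hw
  have h1 : ((g⁻¹ : Matrix.GeneralLinearGroup ι F) : Matrix ι ι F) *ᵥ w ∈ W := by
    rw [Cfsg.Agent.Lib.Helper37.MaxTS.mem_iff_of_forall g W hgW, gl_mulVec_inv]
    exact hw
  have h2 := polar_of_isom g hg (((g⁻¹ : Matrix.GeneralLinearGroup ι F) : Matrix ι ι F) *ᵥ w) v
  rw [gl_mulVec_inv] at h2
  rw [h2]
  exact h.orth _ h1 v hv

/-- The orthogonal complement of a subspace. -/
def perpS (hQ : Cfsg.Geo.IsNondegenerateQuadraticForm Q) (W : Submodule F (ι → F)) :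
    Submodule F (ι → F) where
  carrier := {u | ∀ w ∈ W, QuadraticMap.polar Q w u = 0}
  add_mem' := by
    intro a b ha hb w hw
    rw [hQ.polar_bilinear.add_right, ha w hw, hb w hw, add_zero]
  zero_mem' := by
    intro w _
    exact bil_zero_right hQ.polar_bilinear w
  smul_mem' := by
    intro c a ha w hw
    rw [hQ.polar_bilinear.smul_right, ha w hw, mul_zero]

lemma mem_perpS (hQ : Cfsg.Geo.IsNondegenerateQuadraticForm Q) (W : Submodule F (ι → F))
    (u : ι → F) : u ∈ perpS hQ W ↔ ∀ w ∈ W, QuadraticMap.polar Q w u = 0 := Iff.rfl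

/-- Riesz representation inside a non-degenerate subspace. -/
lemma exists_rep_in (hQ : Cfsg.Geo.IsNondegenerateQuadraticForm Q) (W : Submodule F (ι → F))
    (hW : Cfsg.Geo.IsNondegenerateOn (QuadraticMap.polar Q) W) (φ : Module.Dual F (ι → F)) :
    ∃ w ∈ W, ∀ x ∈ W, φ x = QuadraticMap.polar Q x w := by
  set Ψ : W →ₗ[F] Module.Dual F W :=
    (Submodule.dualRestrict W) ∘ₗ (fRL hQ.polar_bilinear) ∘ₗ W.subtype with hΨ
  have hΨa : ∀ (w x : W), Ψ w x = QuadraticMap.polar Q (x : ι → F) (w : ι → F) := by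
    intro w x
    simp [hΨ, fRL, Submodule.dualRestrict_apply]
  have hinj : Function.Injective Ψ := by
    rw [← LinearMap.ker_eq_bot, LinearMap.ker_eq_bot']
    intro w hw
    by_contra h
    have hw0 : (w : ι → F) ≠ 0 := fun h0 => h (Subtype.ext h0)
    obtain ⟨x, hx, hxw⟩ := (hW w w.2 hw0).1
    apply hxw
    have h1 := congrArg (fun ψ : Module.Dual F W => ψ ⟨x, hx⟩) hw
    simpa [hΨa] using h1
  have hsurj := (LinearMap.injective_iff_surjective_of_finrank_eq_finrank
    (Subspace.dual_finrank_eq (K := F) (V := W)).symm).mp hinj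
  obtain ⟨w, hw⟩ := hsurj (Submodule.dualRestrict W φ)
  refine ⟨w, w.2, fun x hx => ?_⟩
  have h1 := congrArg (fun ψ : Module.Dual F W => ψ ⟨x, hx⟩) hw
  simp only [hΨa, Submodule.dualRestrict_apply] at h1
  exact h1.symm

/-- A nondegenerate subspace and its orthogonal complement form an orthogonal pair. -/
theorem opair_perp (hQ : Cfsg.Geo.IsNondegenerateQuadraticForm Q) (W : Submodule F (ι → F))
    (hW : Cfsg.Geo.IsNondegenerateOn (QuadraticMap.polar Q) W) : OPair Q W (perpS hQ W) := by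
  have hbl := hQ.polar_bilinear
  have hdec : ∀ v, ∃ w ∈ W, ∃ w' ∈ perpS hQ W, v = w + w' := by
    intro v
    obtain ⟨w, hw, h⟩ := exists_rep_in hQ W hW (fR hbl v)
    refine ⟨w, hw, v - w, ?_, by abel⟩
    intro x hx
    rw [bil_sub_right hbl, ← h x hx, fR_apply, sub_self]
  refine ⟨hW, ?_, fun w hw w' hw' => hw' w hw, hdec⟩
  intro u hu hu0
  obtain ⟨z, hz⟩ := (hQ.nondegenerate u hu0).1
  obtain ⟨w, hw, w', hw', e⟩ := hdec z
  have h1 : QuadraticMap.polar Q w' u ≠ 0 := by
    rw [e, hbl.add_left, hu w hw, zero_add] at hz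
    exact hz
  exact ⟨⟨w', hw', h1⟩, w', hw', by rw [B_comm]; exact h1⟩

/-- Irreducibility: a nonzero proper subspace of a nondegenerate subspace `W` that is invariant
under the reflections and the Siegel transformations of `W` only exists when `W` is a hyperbolic
plane over a field with at most three elements. -/
theorem irr (hQ : Cfsg.Geo.IsNondegenerateQuadraticForm Q) (W T : Submodule F (ι → F))
    (hW : Cfsg.Geo.IsNondegenerateOn (QuadraticMap.polar Q) W) (hTW : T ≤ W) (hT0 : T ≠ ⊥)
    (hrefl : ∀ w ∈ W, Q w ≠ 0 → w ∈ T ∨ ∀ t ∈ T, QuadraticMap.polar Q t w = 0)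
    (hsg : ∀ c ∈ W, ∀ d ∈ W, Q c = 0 → QuadraticMap.polar Q c d = 0 → ∀ t ∈ T,
        t + QuadraticMap.polar Q c t • d - QuadraticMap.polar Q d t • c
          - (Q d * QuadraticMap.polar Q c t) • c ∈ T)
    (hne : T ≠ W) :
    Fintype.card F ≤ 3 ∧ finrank F W = 2 ∧ ∃ s ∈ W, s ≠ 0 ∧ Q s = 0 := by
  classical
  have hbl := hQ.polar_bilinear
  obtain ⟨y₀, hy₀W, hy₀T⟩ := SetLike.exists_of_lt (lt_of_le_of_ne hTW hne)
  -- no nonzero singular vector in `T`
  have hP : ∀ z ∈ T, Q z = 0 → z = 0 := by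
    intro z hz hQz
    by_contra hz0
    obtain ⟨x₀, hx₀W, hx₀⟩ := (hW z (hTW hz) hz0).2
    obtain ⟨x, hxW, hxT, hzx⟩ : ∃ x ∈ W, x ∉ T ∧ QuadraticMap.polar Q z x ≠ 0 := by
      by_cases h1 : x₀ ∈ T
      · by_cases h2 : QuadraticMap.polar Q z y₀ = 0
        · refine ⟨x₀ + y₀, W.add_mem hx₀W hy₀W, fun h => hy₀T ?_, ?_⟩
          · have := T.sub_mem h h1
            simpa using this
          · rw [hbl.add_right, h2, add_zero]; exact hx₀
        · exact ⟨y₀, hy₀W, hy₀T, h2⟩
      · exact ⟨x₀, hx₀W, h1, hx₀⟩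
    have hzz : QuadraticMap.polar Q z z = 0 := polar_self_sing hQ z hQz
    obtain ⟨w, hwW, hwT, hzw, hQw⟩ :
        ∃ w ∈ W, w ∉ T ∧ QuadraticMap.polar Q z w ≠ 0 ∧ Q w ≠ 0 := by
      by_cases h1 : Q x = 0
      · refine ⟨x + z, W.add_mem hxW (hTW hz), fun h => hxT ?_, ?_, ?_⟩
        · have := T.sub_mem h hz
          simpa using this
        · rw [hbl.add_right, hzz, add_zero]; exact hzx
        · rw [Q_add Q, h1, hQz, B_comm Q x z]
          simpa using hzx
      · exact ⟨x, hxW, hxT, hzx, h1⟩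
    rcases hrefl w hwW hQw with h | h
    · exact hwT h
    · exact hzw (h z hz)
  obtain ⟨t, htT, ht0⟩ := Submodule.exists_mem_ne_zero_of_ne_bot hT0
  have hQt : Q t ≠ 0 := fun h => ht0 (hP t htT h)
  have htW := hTW htT
  have hK : ∀ y ∈ W, y ∉ T → Q y = 0 ∨ QuadraticMap.polar Q y t = 0 := by
    intro y hyW hyT
    by_cases h : Q y = 0
    · exact Or.inl h
    · right
      rcases hrefl y hyW h with h1 | h1
      · exact absurd h1 hyT
      · rw [B_comm]; exact h1 t htT
  by_cases h2 : (2 : F) = 0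
  · -- characteristic 2
    have htt : QuadraticMap.polar Q t t = 0 := by rw [B_self hQ, h2, zero_mul]
    obtain ⟨y, hyW, hyT, hyt⟩ : ∃ y ∈ W, y ∉ T ∧ QuadraticMap.polar Q y t ≠ 0 := by
      obtain ⟨y₁, hy₁W, hy₁⟩ := (hW t htW ht0).1
      by_cases h1 : QuadraticMap.polar Q y₀ t = 0
      · by_cases h3 : y₁ ∈ T
        · refine ⟨y₀ + y₁, W.add_mem hy₀W hy₁W, fun h => hy₀T ?_, ?_⟩
          · have := T.sub_mem h h3
            simpa using this
          · rw [hbl.add_left, h1, zero_add]; exact hy₁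
        · exact ⟨y₁, hy₁W, h3, hy₁⟩
      · exact ⟨y₀, hy₀W, hy₀T, h1⟩
    have hall : ∀ l : F, Q (y + l • t) = 0 := by
      intro l
      have hmemW : y + l • t ∈ W := W.add_mem hyW (W.smul_mem l htW)
      have hnT : y + l • t ∉ T := fun h => hyT (by
        have := T.sub_mem h (T.smul_mem l htT)
        simpa using this)
      rcases hK _ hmemW hnT with h | h
      · exact h
      · exfalso
        rw [hbl.add_left, hbl.smul_left, htt, mul_zero, add_zero] at h
        exact hyt h
    have hQy : Q y = 0 := by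
      have := hall 0
      simpa using this
    have h1 : Q t + QuadraticMap.polar Q y t = 0 := by
      have := hall 1
      rw [one_smul, Q_add Q, hQy, zero_add] at this
      exact this
    have hl : ∀ l : F, l = 0 ∨ l = 1 := by
      intro l
      have := hall l
      rw [Q_add_smul hQ, hQy] at this
      have h3 : Q t * (l * (l - 1)) = 0 := by linear_combination this - l * h1
      rcases mul_eq_zero.mp h3 with h4 | h4
      · exact absurd h4 hQt
      · rcases mul_eq_zero.mp h4 with h5 | h5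
        · exact Or.inl h5
        · exact Or.inr (by linear_combination h5)
    have hcard : Fintype.card F ≤ 3 := by
      have hsub : (Finset.univ : Finset F) ⊆ {0, 1} := by
        intro l _
        rcases hl l with h | h <;> simp [h]
      have h3 := Finset.card_le_card hsub
      have h4 : ({0, 1} : Finset F).card ≤ 2 := Finset.card_le_two
      rw [Finset.card_univ] at h3
      omega
    have hyt1 : QuadraticMap.polar Q y t = 1 := by
      rcases hl (QuadraticMap.polar Q y t) with h | h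
      · exact absurd h hyt
      · exact h
    have hy0 : y ≠ 0 := fun h => hyT (h ▸ T.zero_mem)
    have hyy : QuadraticMap.polar Q y y = 0 := polar_self_sing hQ y hQy
    refine ⟨hcard, ?_, y, hyW, hy0, hQy⟩
    have hφ : ∀ d ∈ W, QuadraticMap.polar Q y d = 0 → QuadraticMap.polar Q d t = 0 →
        d - Q d • y ∈ T := by
      intro d hdW hyd hdt
      have h3 := hsg y hyW d hdW hQy hyd t htT
      rw [hyt1, hdt] at h3
      have h5 := T.sub_mem h3 htT
      have e : t + (1 : F) • d - (0 : F) • y - (Q d * 1) • y - t = d - Q d • y := by module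
      rw [e] at h5
      exact h5
    have hproj : ∀ x ∈ W, ∃ x₂ ∈ W, x₂ = x + QuadraticMap.polar Q x t • y
        + QuadraticMap.polar Q x y • t ∧ QuadraticMap.polar Q x₂ y = 0 ∧
        QuadraticMap.polar Q x₂ t = 0 := by
      intro x hxW
      refine ⟨_, W.add_mem (W.add_mem hxW (W.smul_mem _ hyW)) (W.smul_mem _ htW), rfl, ?_, ?_⟩
      · rw [hbl.add_left, hbl.add_left, hbl.smul_left, hbl.smul_left, hyy, B_comm Q t y, hyt1]
        linear_combination QuadraticMap.polar Q x y * h2
      · rw [hbl.add_left, hbl.add_left, hbl.smul_left, hbl.smul_left, htt, hyt1]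
        linear_combination QuadraticMap.polar Q x t * h2
    have hle : W ≤ Submodule.span F {y, t} := by
      intro x hxW
      obtain ⟨x₂, hx₂W, hx₂, hx₂y, hx₂t⟩ := hproj x hxW
      have hx₂0 : x₂ = 0 := by
        by_contra hne0
        obtain ⟨x', hx'W, hx'⟩ := (hW x₂ hx₂W hne0).2
        obtain ⟨x₃, hx₃W, hx₃, hx₃y, hx₃t⟩ := hproj x' hx'W
        have h23 : QuadraticMap.polar Q x₂ x₃ ≠ 0 := by
          rw [hx₃, hbl.add_right, hbl.add_right, hbl.smul_right, hbl.smul_right, hx₂y, hx₂t]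
          simpa using hx'
        have m1 := hφ x₂ hx₂W (by rw [B_comm]; exact hx₂y) hx₂t
        have m2 := hφ x₃ hx₃W (by rw [B_comm]; exact hx₃y) hx₃t
        have m3 := hφ (x₂ + x₃) (W.add_mem hx₂W hx₃W)
          (by rw [hbl.add_right, B_comm Q y x₂, B_comm Q y x₃, hx₂y, hx₃y, add_zero])
          (by rw [hbl.add_left, hx₂t, hx₃t, add_zero])
        have m4 := T.sub_mem (T.add_mem m1 m2) m3
        have e : (x₂ - Q x₂ • y) + (x₃ - Q x₃ • y) - ((x₂ + x₃) - Q (x₂ + x₃) • y)
            = QuadraticMap.polar Q x₂ x₃ • y := by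
          rw [Q_add Q x₂ x₃]
          module
        rw [e] at m4
        apply hyT
        have := T.smul_mem (QuadraticMap.polar Q x₂ x₃)⁻¹ m4
        rwa [smul_smul, inv_mul_cancel₀ h23, one_smul] at this
      have e : x = (-(QuadraticMap.polar Q x t)) • y + (-(QuadraticMap.polar Q x y)) • t := by
        have h9 : x + QuadraticMap.polar Q x t • y + QuadraticMap.polar Q x y • t = 0 := by
          rw [← hx₂]; exact hx₂0
        calc x = (x + QuadraticMap.polar Q x t • y + QuadraticMap.polar Q x y • t)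
              + ((-(QuadraticMap.polar Q x t)) • y + (-(QuadraticMap.polar Q x y)) • t) := by
                module
          _ = _ := by rw [h9, zero_add]
      rw [e]
      exact Submodule.add_mem _ (Submodule.smul_mem _ _ (Submodule.subset_span (by simp)))
        (Submodule.smul_mem _ _ (Submodule.subset_span (by simp)))
    have hfr1 : finrank F W ≤ 2 :=
      le_trans (Submodule.finrank_mono hle) (finrank_span_pair_le y t)
    have hlt : Submodule.span F {y} < W := by
      refine lt_of_le_of_ne ((Submodule.span_singleton_le_iff_mem _ _).mpr hyW) ?_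
      intro heq
      have hmem : t ∈ Submodule.span F {y} := by rw [heq]; exact htW
      obtain ⟨c, hc⟩ := Submodule.mem_span_singleton.mp hmem
      apply hQt
      rw [← hc, hQ.smul, hQy, mul_zero]
    have hfr2 := Submodule.finrank_lt_finrank_of_lt hlt
    rw [finrank_span_singleton hy0] at hfr2
    omega
  · -- odd characteristic
    have h2t : 2 * Q t ≠ 0 := mul_ne_zero h2 hQt
    have hi : ∀ y ∈ W, y ∉ T → QuadraticMap.polar Q y t = 0 → Q y = -Q t := by
      intro y hyW hyT hyt
      have hmemW : y + t ∈ W := W.add_mem hyW htW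
      have hnT : y + t ∉ T := fun h => hyT (by
        have := T.sub_mem h htT
        simpa using this)
      rcases hK _ hmemW hnT with h | h
      · rw [Q_add Q, hyt, add_zero] at h
        linear_combination h
      · exfalso
        rw [hbl.add_left, hyt, zero_add, B_self hQ] at h
        exact h2t h
    obtain ⟨y₁, hy₁⟩ : ∃ y₁, y₁ = y₀ - (QuadraticMap.polar Q y₀ t / (2 * Q t)) • t := ⟨_, rfl⟩
    have hy₁W : y₁ ∈ W := by rw [hy₁]; exact W.sub_mem hy₀W (W.smul_mem _ htW)
    have hy₁T : y₁ ∉ T := by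
      intro h
      apply hy₀T
      have := T.add_mem h (T.smul_mem (QuadraticMap.polar Q y₀ t / (2 * Q t)) htT)
      rw [hy₁, sub_add_cancel] at this
      exact this
    have hy₁t : QuadraticMap.polar Q y₁ t = 0 := by
      rw [hy₁, bil_sub_left hbl, hbl.smul_left, B_self hQ]
      field_simp
      ring
    have hQy₁ : Q y₁ = -Q t := hi y₁ hy₁W hy₁T hy₁t
    have hQy₁0 : Q y₁ ≠ 0 := by rw [hQy₁]; exact neg_ne_zero.mpr hQt
    have h2y : 2 * Q y₁ ≠ 0 := mul_ne_zero h2 hQy₁0
    have hl : ∀ l : F, l = 0 ∨ l = 1 ∨ l = -1 := by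
      intro l
      by_cases hl0 : l = 0
      · exact Or.inl hl0
      right
      have hmemW : l • y₁ ∈ W := W.smul_mem l hy₁W
      have hnT : l • y₁ ∉ T := by
        intro h
        apply hy₁T
        have := T.smul_mem l⁻¹ h
        rwa [smul_smul, inv_mul_cancel₀ hl0, one_smul] at this
      have h3 := hi _ hmemW hnT (by rw [hbl.smul_left, hy₁t, mul_zero])
      rw [hQ.smul, hQy₁] at h3
      have h4 : (l - 1) * (l + 1) * Q t = 0 := by linear_combination -h3
      rcases mul_eq_zero.mp h4 with h5 | h5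
      · rcases mul_eq_zero.mp h5 with h6 | h6
        · exact Or.inl (by linear_combination h6)
        · exact Or.inr (by linear_combination h6)
      · exact absurd h5 hQt
    have hcard : Fintype.card F ≤ 3 := by
      have hsub : (Finset.univ : Finset F) ⊆ {0, 1, -1} := by
        intro l _
        rcases hl l with h | h | h <;> simp [h]
      have h3 := Finset.card_le_card hsub
      have h4 : ({0, 1, -1} : Finset F).card ≤ 3 := Finset.card_le_three
      rw [Finset.card_univ] at h3
      omega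
    have hs0 : t + y₁ ≠ 0 := by
      intro h
      apply hy₁T
      have e : y₁ = (t + y₁) - t := by abel
      rw [e, h, zero_sub]
      exact T.neg_mem htT
    have hQs : Q (t + y₁) = 0 := by
      rw [Q_add Q, hQy₁, B_comm Q t y₁, hy₁t]
      ring
    refine ⟨hcard, ?_, t + y₁, W.add_mem htW hy₁W, hs0, hQs⟩
    have hle : W ≤ Submodule.span F {t, y₁} := by
      intro x hxW
      obtain ⟨x₂, hx₂⟩ : ∃ x₂, x₂ = x - (QuadraticMap.polar Q x t / (2 * Q t)) • t
          - (QuadraticMap.polar Q x y₁ / (2 * Q y₁)) • y₁ := ⟨_, rfl⟩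
      have hx₂W : x₂ ∈ W := by
        rw [hx₂]
        exact W.sub_mem (W.sub_mem hxW (W.smul_mem _ htW)) (W.smul_mem _ hy₁W)
      have hx₂t : QuadraticMap.polar Q x₂ t = 0 := by
        rw [hx₂, bil_sub_left hbl, bil_sub_left hbl, hbl.smul_left, hbl.smul_left, B_self hQ,
          hy₁t]
        field_simp
        ring
      have hx₂y : QuadraticMap.polar Q x₂ y₁ = 0 := by
        rw [hx₂, bil_sub_left hbl, bil_sub_left hbl, hbl.smul_left, hbl.smul_left, B_self hQ,
          B_comm Q t y₁, hy₁t]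
        field_simp
        ring
      have hx₂0 : x₂ = 0 := by
        by_contra hne0
        by_cases hx₂T : x₂ ∈ T
        · have hmemW : y₁ + x₂ ∈ W := W.add_mem hy₁W hx₂W
          have hnT : y₁ + x₂ ∉ T := fun h => hy₁T (by
            have := T.sub_mem h hx₂T
            simpa using this)
          have h3 := hi _ hmemW hnT (by rw [hbl.add_left, hy₁t, hx₂t, add_zero])
          rw [Q_add Q, hQy₁, B_comm Q y₁ x₂, hx₂y] at h3
          have h4 : Q x₂ = 0 := by linear_combination h3
          exact hne0 (hP x₂ hx₂T h4)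
        · have hQx₂ := hi x₂ hx₂W hx₂T hx₂t
          have hp : y₁ + x₂ ∈ T := by
            by_contra hnT
            have h3 := hi _ (W.add_mem hy₁W hx₂W) hnT
              (by rw [hbl.add_left, hy₁t, hx₂t, add_zero])
            rw [Q_add Q, hQy₁, hQx₂, B_comm Q y₁ x₂, hx₂y] at h3
            apply hQt
            linear_combination -h3
          have hm : y₁ - x₂ ∈ T := by
            by_contra hnT
            have h3 := hi _ (W.sub_mem hy₁W hx₂W) hnT
              (by rw [bil_sub_left hbl, hy₁t, hx₂t, sub_zero])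
            rw [Q_sub hQ, hQy₁, hQx₂, B_comm Q y₁ x₂, hx₂y] at h3
            apply hQt
            linear_combination -h3
          have h5 := T.add_mem hp hm
          have e : y₁ + x₂ + (y₁ - x₂) = (2 : F) • y₁ := by module
          rw [e] at h5
          apply hy₁T
          have := T.smul_mem (2 : F)⁻¹ h5
          rwa [smul_smul, inv_mul_cancel₀ h2, one_smul] at this
      have e : x = (QuadraticMap.polar Q x t / (2 * Q t)) • t
          + (QuadraticMap.polar Q x y₁ / (2 * Q y₁)) • y₁ := by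
        have h9 : x - (QuadraticMap.polar Q x t / (2 * Q t)) • t
            - (QuadraticMap.polar Q x y₁ / (2 * Q y₁)) • y₁ = 0 := by
          rw [← hx₂]; exact hx₂0
        calc x = (x - (QuadraticMap.polar Q x t / (2 * Q t)) • t
              - (QuadraticMap.polar Q x y₁ / (2 * Q y₁)) • y₁)
              + ((QuadraticMap.polar Q x t / (2 * Q t)) • t
              + (QuadraticMap.polar Q x y₁ / (2 * Q y₁)) • y₁) := by module
          _ = _ := by rw [h9, zero_add]
      rw [e]
      exact Submodule.add_mem _ (Submodule.smul_mem _ _ (Submodule.subset_span (by simp)))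
        (Submodule.smul_mem _ _ (Submodule.subset_span (by simp)))
    have hfr1 : finrank F W ≤ 2 :=
      le_trans (Submodule.finrank_mono hle) (finrank_span_pair_le t y₁)
    have hlt : Submodule.span F {t} < W := by
      refine lt_of_le_of_ne ((Submodule.span_singleton_le_iff_mem _ _).mpr htW) ?_
      intro heq
      have hmem : y₁ ∈ Submodule.span F {t} := by rw [heq]; exact hy₁W
      obtain ⟨c, hc⟩ := Submodule.mem_span_singleton.mp hmem
      apply hy₁T
      rw [← hc]
      exact T.smul_mem c htT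
    have hfr2 := Submodule.finrank_lt_finrank_of_lt hlt
    rw [finrank_span_singleton ht0] at hfr2
    omega

end Rel

end Cfsg.Agent.Lib.Helper94.OrthRel
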