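import Mathlib
import Cfsg.Prelude.Def_GeometricClasses
import Cfsg.Agent.Lib.Helper94.OrthRel

set_option autoImplicit false

namespace Cfsg.Agent.Lib.Helper94.OrthND

open scoped Matrix
open Module
open Cfsg.Agent.Lib.Helper94.Basic Cfsg.Agent.Lib.Helper94.GLAux Cfsg.Agent.Lib.Helper94.Tv
  Cfsg.Agent.Lib.Helper94.QuadAbs Cfsg.Agent.Lib.Helper94.OrthSiegel
  Cfsg.Agent.Lib.Helper94.OrthRel
open Cfsg.Agent.Lib.Helper94.SympAbs (bil_zero_left bil_zero_right bil_neg_left bil_neg_right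
  bil_sub_left bil_sub_right)
open Cfsg.Agent.Lib.Helper37.PlaneTwo (toQF toQF_coe toQF_sep)

section Core

variable {ι : Type} [Fintype ι] [DecidableEq ι] {F : Type*} [Field F] [Fintype F]
variable {Q : (ι → F) → F}

/-- Generators of the space of Siegel directions at `a` visible from the conjugates of `W'`. -/
def genS (Q : (ι → F) → F) (M : Subgroup (Matrix.GeneralLinearGroup ι F))
    (W' : Submodule F (ι → F)) (a : ι → F) : Set (ι → F) :=
  {u | ∃ m ∈ M, ((m⁻¹ : Matrix.GeneralLinearGroup ι F) : Matrix ι ι F) *ᵥ a ∈ W' ∧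
    ((m⁻¹ : Matrix.GeneralLinearGroup ι F) : Matrix ι ι F) *ᵥ u ∈ W' ∧
    QuadraticMap.polar Q a u = 0}

lemma sg_mem_of_span (hQ : Cfsg.Geo.IsNondegenerateQuadraticForm Q)
    (M : Subgroup (Matrix.GeneralLinearGroup ι F)) (W' : Submodule F (ι → F))
    (hH : ∀ b ∈ W', ∀ x ∈ W', sg hQ b x ∈ M)
    (hMiso : ∀ g ∈ M, ∀ x, Q ((g : Matrix ι ι F) *ᵥ x) = Q x) (a : ι → F) (ha : Q a = 0)
    (u : ι → F) (hu : u ∈ Submodule.span F (genS Q M W' a)) :
    QuadraticMap.polar Q a u = 0 ∧ ∀ c : F, sg hQ a (c • u) ∈ M := by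
  have hbl := hQ.polar_bilinear
  induction hu using Submodule.span_induction with
  | mem x h =>
    obtain ⟨m, hm, ha', hx', hax⟩ := h
    refine ⟨hax, fun c => ?_⟩
    have h1 := sg_conj hQ m (hMiso m hm)
      (((m⁻¹ : Matrix.GeneralLinearGroup ι F) : Matrix ι ι F) *ᵥ a)
      (((m⁻¹ : Matrix.GeneralLinearGroup ι F) : Matrix ι ι F) *ᵥ (c • x))
    rw [gl_mulVec_inv, gl_mulVec_inv] at h1
    rw [← h1]
    refine M.mul_mem (M.mul_mem hm (hH _ ha' _ ?_)) (M.inv_mem hm)
    rw [Matrix.mulVec_smul]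
    exact W'.smul_mem c hx'
  | zero =>
    refine ⟨bil_zero_right hbl a, fun c => ?_⟩
    rw [smul_zero, sg_zero_right]
    exact M.one_mem
  | add x y hx hy ihx ihy =>
    refine ⟨by rw [hbl.add_right, ihx.1, ihy.1, add_zero], fun c => ?_⟩
    rw [smul_add, ← sg_mul hQ a _ _ ha (by rw [hbl.smul_right, ihx.1, mul_zero])
      (by rw [hbl.smul_right, ihy.1, mul_zero])]
    exact M.mul_mem (ihx.2 c) (ihy.2 c)
  | smul d x hx ih =>
    refine ⟨by rw [hbl.smul_right, ih.1, mul_zero], fun c => ?_⟩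
    rw [smul_smul]
    exact ih.2 _

lemma span_invariant (M : Subgroup (Matrix.GeneralLinearGroup ι F)) (W' : Submodule F (ι → F))
    (hMiso : ∀ g ∈ M, ∀ x, Q ((g : Matrix ι ι F) *ᵥ x) = Q x) (a : ι → F)
    (h : Matrix.GeneralLinearGroup ι F) (hh : h ∈ M) (hha : (h : Matrix ι ι F) *ᵥ a = a)
    (u : ι → F) (hu : u ∈ Submodule.span F (genS Q M W' a)) :
    (h : Matrix ι ι F) *ᵥ u ∈ Submodule.span F (genS Q M W' a) := by
  induction hu using Submodule.span_induction with
  | mem x hx =>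
    obtain ⟨m, hm, ha', hx', hax⟩ := hx
    apply Submodule.subset_span
    have hinv : ((h⁻¹ : Matrix.GeneralLinearGroup ι F) : Matrix ι ι F) *ᵥ a = a := by
      conv_lhs => rw [← hha]
      exact gl_inv_mulVec h a
    refine ⟨h * m, M.mul_mem hh hm, ?_, ?_, ?_⟩
    · rw [mul_inv_rev, Units.val_mul, ← Matrix.mulVec_mulVec, hinv]
      exact ha'
    · rw [mul_inv_rev, Units.val_mul, ← Matrix.mulVec_mulVec, gl_inv_mulVec]
      exact hx'
    · have h1 := polar_of_isom h (hMiso h hh) a x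
      rw [hha] at h1
      rw [h1]
      exact hax
  | zero =>
    rw [Matrix.mulVec_zero]
    exact Submodule.zero_mem _
  | add x y hx hy ihx ihy =>
    rw [Matrix.mulVec_add]
    exact Submodule.add_mem _ ihx ihy
  | smul d x hx ih =>
    rw [Matrix.mulVec_smul]
    exact Submodule.smul_mem _ _ ih

lemma mem_H_of (hQ : Cfsg.Geo.IsNondegenerateQuadraticForm Q) {W W' : Submodule F (ι → F)}
    (hp : OPair Q W W') {g : Matrix.GeneralLinearGroup ι F} (hgΩ : g ∈ Cfsg.Geo.omegaGL Q)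
    (hg : ∀ v ∈ W', (g : Matrix ι ι F) *ᵥ v ∈ W') :
    g ∈ Cfsg.Geo.subspaceStabilizer W ⊓ Cfsg.Geo.omegaGL Q := by
  refine ⟨?_, hgΩ⟩
  apply (mem_subspaceStabilizer_iff _ g).mpr
  apply Cfsg.Agent.Lib.Helper37.MaxTS.mem_iff_of_forall
  exact hp.symm.stab hQ g (omegaGL_isom hgΩ) hg

lemma mem_H_of' {W : Submodule F (ι → F)}
    {g : Matrix.GeneralLinearGroup ι F} (hgΩ : g ∈ Cfsg.Geo.omegaGL Q)
    (hg : ∀ v ∈ W, (g : Matrix ι ι F) *ᵥ v ∈ W) :
    g ∈ Cfsg.Geo.subspaceStabilizer W ⊓ Cfsg.Geo.omegaGL Q := by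
  refine ⟨?_, hgΩ⟩
  apply (mem_subspaceStabilizer_iff _ g).mpr
  apply Cfsg.Agent.Lib.Helper37.MaxTS.mem_iff_of_forall
  exact hg

lemma H_stab (hQ : Cfsg.Geo.IsNondegenerateQuadraticForm Q) {W W' : Submodule F (ι → F)}
    (hp : OPair Q W W') {g : Matrix.GeneralLinearGroup ι F}
    (hg : g ∈ Cfsg.Geo.subspaceStabilizer W ⊓ Cfsg.Geo.omegaGL Q) :
    (∀ v ∈ W, (g : Matrix ι ι F) *ᵥ v ∈ W) ∧ (∀ v ∈ W', (g : Matrix ι ι F) *ᵥ v ∈ W') := by
  have h1 : ∀ v ∈ W, (g : Matrix ι ι F) *ᵥ v ∈ W := fun v hv =>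
    ((mem_subspaceStabilizer_iff W g).mp hg.1 v).mp hv
  exact ⟨h1, hp.stab hQ g (omegaGL_isom hg.2) h1⟩

lemma sg_stab (hQ : Cfsg.Geo.IsNondegenerateQuadraticForm Q) (N : Submodule F (ι → F))
    {b x : ι → F} (hb : b ∈ N) (hx : x ∈ N) (v : ι → F) (hv : v ∈ N) :
    ((sg hQ b x : Matrix.GeneralLinearGroup ι F) : Matrix ι ι F) *ᵥ v ∈ N := by
  by_cases h : Q b = 0 ∧ QuadraticMap.polar Q b x = 0
  · rw [sg_mulVec hQ _ _ h.1 h.2]
    exact N.sub_mem (N.sub_mem (N.add_mem hv (N.smul_mem _ hx)) (N.smul_mem _ hb))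
      (N.smul_mem _ hb)
  · rw [sg_not hQ _ _ h, Units.val_one, Matrix.one_mulVec]
    exact hv

/-- A product of two reflections in orthogonal vectors of the same norm, as an element of `Ω`. -/
lemma exists_refl_pair (hQ : Cfsg.Geo.IsNondegenerateQuadraticForm Q)
    (h5 : 5 ≤ Fintype.card ι) {w z : ι → F} (hQw : Q w ≠ 0) (hQz : Q z = Q w)
    (hwz : QuadraticMap.polar Q w z = 0) :
    ∃ h : Matrix.GeneralLinearGroup ι F, h ∈ Cfsg.Geo.omegaGL Q ∧
      ∀ x, (h : Matrix ι ι F) *ᵥ x = x - ((Q z)⁻¹ * QuadraticMap.polar Q x z) • z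
        - ((Q w)⁻¹ * QuadraticMap.polar Q x w) • w := by
  have hbl := hQ.polar_bilinear
  obtain ⟨h, hhΩ, hh⟩ := Cfsg.Agent.Lib.Helper37.MaxTS.exists_omega_refl_refl (toQF Q hQ)
    (toQF_sep Q hQ) h5 (a := w) (b := z) hQz.symm hQw
  refine ⟨h, hhΩ, fun x => ?_⟩
  rw [hh x, Cfsg.Agent.Lib.Helper44.OGroup.reflE_apply,
    Cfsg.Agent.Lib.Helper44.OGroup.reflE_apply]
  have e : QuadraticMap.polar Q (x - ((Q z)⁻¹ * QuadraticMap.polar Q x z) • z) w
      = QuadraticMap.polar Q x w := by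
    rw [bil_sub_left hbl, hbl.smul_left, B_comm Q z w, hwz]
    ring
  show x - ((Q z)⁻¹ * QuadraticMap.polar Q x z) • z
    - ((Q w)⁻¹ * QuadraticMap.polar Q (x - ((Q z)⁻¹ * QuadraticMap.polar Q x z) • z) w) • w = _
  rw [e]

/-- **The stabiliser in `Ω` of a nondegenerate subspace is maximal** (in the absence of an
element of `Ω` interchanging the subspace with its orthogonal complement, and of the small
reducible configurations). -/
theorem nondeg_maximal (hQ : Cfsg.Geo.IsNondegenerateQuadraticForm Q)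
    (hcard : 13 ≤ Fintype.card ι) (W W' : Submodule F (ι → F)) (hp : OPair Q W W')
    (hW0 : W ≠ ⊥) (h7 : 7 ≤ finrank F W')
    (hswap : ¬ ∃ g ∈ Cfsg.Geo.omegaGL Q, ∀ v ∈ W', (g : Matrix ι ι F) *ᵥ v ∈ W)
    (hex : ¬ (Fintype.card F ≤ 3 ∧ finrank F W = 2 ∧ ∃ s ∈ W, s ≠ 0 ∧ Q s = 0)) :
    Cfsg.Geo.IsMaximalIn (Cfsg.Geo.omegaGL Q)
      (Cfsg.Geo.subspaceStabilizer W ⊓ Cfsg.Geo.omegaGL Q) := by
  have hbl := hQ.polar_bilinear
  obtain ⟨b₀, hb₀, b₀', hb₀', hQb₀, hQb₀', hbb₀⟩ := exists_hyp_in hQ W' hp.ndW' (by omega)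
  refine ⟨lt_of_le_of_ne inf_le_right ?_, ?_⟩
  · intro heq
    obtain ⟨u, huW, hu0⟩ := Submodule.exists_mem_ne_zero_of_ne_bot hW0
    have hbu : QuadraticMap.polar Q b₀ u = 0 := by
      rw [B_comm]; exact hp.orth u huW b₀ hb₀
    have hmem : sg hQ b₀ u ∈ Cfsg.Geo.subspaceStabilizer W ⊓ Cfsg.Geo.omegaGL Q := by
      rw [heq]; exact sg_mem_omega hQ (by omega) b₀ u
    have h1 := (H_stab hQ hp hmem).2 b₀' hb₀'
    rw [sg_mulVec hQ _ _ hQb₀ hbu, hbb₀] at h1
    have h2 : u ∈ W' := by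
      have h3 := W'.add_mem (W'.sub_mem h1 hb₀')
        (W'.smul_mem (QuadraticMap.polar Q u b₀' + Q u * 1) hb₀)
      have e : b₀' + (1 : F) • u - QuadraticMap.polar Q u b₀' • b₀ - (Q u * 1) • b₀ - b₀'
          + (QuadraticMap.polar Q u b₀' + Q u * 1) • b₀ = u := by module
      rwa [e] at h3
    exact hu0 (hp.inter huW h2)
  · intro M hHM hMK
    by_cases hMH : M = Cfsg.Geo.subspaceStabilizer W ⊓ Cfsg.Geo.omegaGL Q
    · exact Or.inl hMH
    right
    apply le_antisymm hMK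
    have hMiso : ∀ g ∈ M, ∀ x, Q ((g : Matrix ι ι F) *ᵥ x) = Q x :=
      fun g hg => omegaGL_isom (hMK hg)
    obtain ⟨g, hgM, hgH⟩ := SetLike.exists_of_lt (lt_of_le_of_ne hHM (Ne.symm hMH))
    have hgiso := hMiso g hgM
    have hH' : ∀ b ∈ W', ∀ x ∈ W', sg hQ b x ∈ M := fun b hb x hx =>
      hHM (mem_H_of hQ hp (sg_mem_omega hQ (by omega) b x) (sg_stab hQ W' hb hx))
    have hHW : ∀ b ∈ W, ∀ x ∈ W, sg hQ b x ∈ M := fun b hb x hx =>
      hHM (mem_H_of' (sg_mem_omega hQ (by omega) b x) (sg_stab hQ W hb hx))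
    have hS1 := sg_mem_of_span hQ M W' hH' hMiso
    have hgW' : ¬ ∀ v ∈ W', (g : Matrix ι ι F) *ᵥ v ∈ W' :=
      fun h => hgH (mem_H_of hQ hp (hMK hgM) h)
    -- Step A: a Siegel direction leaving `W'`
    have hA : ∃ a ∈ W', a ≠ 0 ∧ Q a = 0 ∧ ∃ u ∈ W, u ≠ 0 ∧
        u ∈ Submodule.span F (genS Q M W' a) := by
      by_contra hNA
      have hNA' : ∀ a ∈ W', a ≠ 0 → Q a = 0 → ∀ u ∈ W,
          u ∈ Submodule.span F (genS Q M W' a) → u = 0 := by
        intro a ha ha0 hQa u hu huS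
        by_contra h0
        exact hNA ⟨a, ha, ha0, hQa, u, hu, h0, huS⟩
      have hstar : ∀ m ∈ M, ∀ b ∈ W', b ≠ 0 → Q b = 0 → (m : Matrix ι ι F) *ᵥ b ∈ W' →
          ∀ x ∈ W', QuadraticMap.polar Q b x = 0 → (m : Matrix ι ι F) *ᵥ x ∈ W' := by
        intro m hm b hb hb0 hQb hmb x hx hbx
        have hmiso := hMiso m hm
        have ha0 : (m : Matrix ι ι F) *ᵥ b ≠ 0 := by
          intro h
          apply hb0
          apply gl_mulVec_injective m
          show (m : Matrix ι ι F) *ᵥ b = (m : Matrix ι ι F) *ᵥ 0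
          rw [h, Matrix.mulVec_zero]
        have hQa : Q ((m : Matrix ι ι F) *ᵥ b) = 0 := by rw [hmiso]; exact hQb
        have hpol : QuadraticMap.polar Q ((m : Matrix ι ι F) *ᵥ b) ((m : Matrix ι ι F) *ᵥ x)
            = 0 := by
          rw [polar_of_isom m hmiso]; exact hbx
        have hgen : (m : Matrix ι ι F) *ᵥ x ∈ genS Q M W' ((m : Matrix ι ι F) *ᵥ b) :=
          ⟨m, hm, by rw [gl_inv_mulVec]; exact hb, by rw [gl_inv_mulVec]; exact hx, hpol⟩
        obtain ⟨u₁, hu₁, u₂, hu₂, e⟩ := hp.dec ((m : Matrix ι ι F) *ᵥ x)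
        have hau₂ : QuadraticMap.polar Q ((m : Matrix ι ι F) *ᵥ b) u₂ = 0 := by
          have h1 := hpol
          rw [e, hbl.add_right, B_comm Q _ u₁, hp.orth u₁ hu₁ _ hmb, zero_add] at h1
          exact h1
        have hu₂S : u₂ ∈ Submodule.span F (genS Q M W' ((m : Matrix ι ι F) *ᵥ b)) := by
          apply Submodule.subset_span
          refine ⟨1, M.one_mem, ?_, ?_, hau₂⟩
          · rw [inv_one, Units.val_one, Matrix.one_mulVec]; exact hmb
          · rw [inv_one, Units.val_one, Matrix.one_mulVec]; exact hu₂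
        have hu₁S : u₁ ∈ Submodule.span F (genS Q M W' ((m : Matrix ι ι F) *ᵥ b)) := by
          have := Submodule.sub_mem _ (Submodule.subset_span hgen) hu₂S
          rwa [e, add_sub_cancel_right] at this
        have hu₁0 : u₁ = 0 := hNA' _ hmb ha0 hQa u₁ hu₁ hu₁S
        rw [e, hu₁0, zero_add]
        exact hu₂
      have hss : ∀ m ∈ M, (∃ b ∈ W', b ≠ 0 ∧ Q b = 0 ∧ (m : Matrix ι ι F) *ᵥ b ∈ W') →
          ∀ v ∈ W', (m : Matrix ι ι F) *ᵥ v ∈ W' := by
        rintro m hm ⟨b, hb, hb0, hQb, hmb⟩ v hv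
        obtain ⟨b', hb', hQb', hbb'⟩ := exists_partner_in hQ W' hp.ndW' hb hb0 hQb
        obtain ⟨e, he, f, hf, hQe, hQf, hef, hbe, hb'e, hbf, hb'f⟩ :=
          exists_hyp_perp_in hQ W' hp.ndW' (by omega) hb hb' hQb hQb' hbb'
        have he0 : e ≠ 0 := by
          intro h
          rw [h, bil_zero_left hbl] at hef
          exact zero_ne_one hef
        have hme := hstar m hm b hb hb0 hQb hmb e he hbe
        have hmb' := hstar m hm e he he0 hQe hme b' hb' (by rw [B_comm]; exact hb'e)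
        have hv₀ := hstar m hm b hb hb0 hQb hmb (v - QuadraticMap.polar Q b v • b')
          (W'.sub_mem hv (W'.smul_mem _ hb'))
          (by rw [bil_sub_right hbl, hbl.smul_right, hbb', mul_one, sub_self])
        have e1 : (m : Matrix ι ι F) *ᵥ v
            = (m : Matrix ι ι F) *ᵥ (v - QuadraticMap.polar Q b v • b')
              + QuadraticMap.polar Q b v • ((m : Matrix ι ι F) *ᵥ b') := by
          rw [← Matrix.mulVec_smul, ← Matrix.mulVec_add]
          congr 1
          module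
        rw [e1]
        exact W'.add_mem hv₀ (W'.smul_mem _ hmb')
      have hstep2 : ∀ c ∈ W', ∀ d ∈ W', Q c = 0 → QuadraticMap.polar Q c d = 0 →
          (∀ v ∈ W', ((sg hQ ((g : Matrix ι ι F) *ᵥ c) ((g : Matrix ι ι F) *ᵥ d) :
              Matrix.GeneralLinearGroup ι F) : Matrix ι ι F) *ᵥ v ∈ W') ∧
          (∀ v ∈ W, ((sg hQ ((g : Matrix ι ι F) *ᵥ c) ((g : Matrix ι ι F) *ᵥ d) :
              Matrix.GeneralLinearGroup ι F) : Matrix ι ι F) *ᵥ v ∈ W) := by
        intro c hc d hd hQc hcd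
        have hmM : sg hQ ((g : Matrix ι ι F) *ᵥ c) ((g : Matrix ι ι F) *ᵥ d) ∈ M := by
          rw [← sg_conj hQ g hgiso]
          exact M.mul_mem (M.mul_mem hgM (hH' c hc d hd)) (M.inv_mem hgM)
        obtain ⟨b, hb, hb0, hQb, hb1, hb2⟩ := exists_sing_perp2_in hQ W' hp.ndW' h7
          ((g : Matrix ι ι F) *ᵥ c) ((g : Matrix ι ι F) *ᵥ d)
        have hQgc : Q ((g : Matrix ι ι F) *ᵥ c) = 0 := by rw [hgiso]; exact hQc
        have hgcd : QuadraticMap.polar Q ((g : Matrix ι ι F) *ᵥ c) ((g : Matrix ι ι F) *ᵥ d)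
            = 0 := by
          rw [polar_of_isom g hgiso]; exact hcd
        have hfix : ((sg hQ ((g : Matrix ι ι F) *ᵥ c) ((g : Matrix ι ι F) *ᵥ d) :
            Matrix.GeneralLinearGroup ι F) : Matrix ι ι F) *ᵥ b = b := by
          rw [sg_mulVec hQ _ _ hQgc hgcd, B_comm Q _ b, hb1, B_comm Q _ b, hb2]
          simp
        have h1 := hss _ hmM ⟨b, hb, hb0, hQb, by rw [hfix]; exact hb⟩
        exact ⟨h1, hp.symm.stab hQ _ (hMiso _ hmM) h1⟩
      have hstep3 : ∀ c ∈ W', Q c = 0 → (g : Matrix ι ι F) *ᵥ c ∈ W := by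
        intro c hc hQc
        by_cases hc0 : c = 0
        · rw [hc0, Matrix.mulVec_zero]; exact W.zero_mem
        obtain ⟨c', hc', hQc', hcc'⟩ := exists_partner_in hQ W' hp.ndW' hc hc0 hQc
        obtain ⟨e, he, f, hf, hQe, hQf, hef, hce, hc'e, hcf, hc'f⟩ :=
          exists_hyp_perp_in hQ W' hp.ndW' (by omega) hc hc' hQc hQc' hcc'
        have he0 : e ≠ 0 := by
          intro h
          rw [h, bil_zero_left hbl] at hef
          exact zero_ne_one hef
        obtain ⟨h1, h2⟩ := hstep2 c hc e he hQc hce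
        obtain ⟨c₁, hc₁, c₂, hc₂, ec⟩ := hp.dec ((g : Matrix ι ι F) *ᵥ c)
        obtain ⟨d₁, hd₁, d₂, hd₂, ed⟩ := hp.dec ((g : Matrix ι ι F) *ᵥ e)
        have hQgc : Q ((g : Matrix ι ι F) *ᵥ c) = 0 := by rw [hgiso]; exact hQc
        have hQge : Q ((g : Matrix ι ι F) *ᵥ e) = 0 := by rw [hgiso]; exact hQe
        have hgce : QuadraticMap.polar Q ((g : Matrix ι ι F) *ᵥ c) ((g : Matrix ι ι F) *ᵥ e)
            = 0 := by
          rw [polar_of_isom g hgiso]; exact hce
        have k1 : ∀ v ∈ W', QuadraticMap.polar Q c₂ v • d₁ = QuadraticMap.polar Q d₂ v • c₁ := by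
          intro v hv
          have h3 := h1 v hv
          rw [sg_mulVec hQ _ _ hQgc hgce, hQge, zero_mul, zero_smul, sub_zero] at h3
          have p1 : QuadraticMap.polar Q ((g : Matrix ι ι F) *ᵥ c) v
              = QuadraticMap.polar Q c₂ v := by
            rw [ec, hbl.add_left, hp.orth c₁ hc₁ v hv, zero_add]
          have p2 : QuadraticMap.polar Q ((g : Matrix ι ι F) *ᵥ e) v
              = QuadraticMap.polar Q d₂ v := by
            rw [ed, hbl.add_left, hp.orth d₁ hd₁ v hv, zero_add]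
          rw [p1, p2] at h3
          have h4 : QuadraticMap.polar Q c₂ v • d₁ - QuadraticMap.polar Q d₂ v • c₁ ∈ W' := by
            have h5 := W'.sub_mem (W'.sub_mem h3 hv)
              (W'.sub_mem (W'.smul_mem (QuadraticMap.polar Q c₂ v) hd₂)
                (W'.smul_mem (QuadraticMap.polar Q d₂ v) hc₂))
            have e5 : v + QuadraticMap.polar Q c₂ v • ((g : Matrix ι ι F) *ᵥ e)
                - QuadraticMap.polar Q d₂ v • ((g : Matrix ι ι F) *ᵥ c) - v
                - (QuadraticMap.polar Q c₂ v • d₂ - QuadraticMap.polar Q d₂ v • c₂)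
                = QuadraticMap.polar Q c₂ v • d₁ - QuadraticMap.polar Q d₂ v • c₁ := by
              rw [ec, ed]
              module
            rwa [e5] at h5
          have h6 : QuadraticMap.polar Q c₂ v • d₁ - QuadraticMap.polar Q d₂ v • c₁ ∈ W :=
            W.sub_mem (W.smul_mem _ hd₁) (W.smul_mem _ hc₁)
          exact sub_eq_zero.mp (hp.inter h6 h4)
        have k2 : ∀ v ∈ W, QuadraticMap.polar Q c₁ v • d₂ = QuadraticMap.polar Q d₁ v • c₂ := by
          intro v hv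
          have h3 := h2 v hv
          rw [sg_mulVec hQ _ _ hQgc hgce, hQge, zero_mul, zero_smul, sub_zero] at h3
          have p1 : QuadraticMap.polar Q ((g : Matrix ι ι F) *ᵥ c) v
              = QuadraticMap.polar Q c₁ v := by
            rw [ec, hbl.add_left, B_comm Q c₂ v, hp.orth v hv c₂ hc₂, add_zero]
          have p2 : QuadraticMap.polar Q ((g : Matrix ι ι F) *ᵥ e) v
              = QuadraticMap.polar Q d₁ v := by
            rw [ed, hbl.add_left, B_comm Q d₂ v, hp.orth v hv d₂ hd₂, add_zero]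
          rw [p1, p2] at h3
          have h4 : QuadraticMap.polar Q c₁ v • d₂ - QuadraticMap.polar Q d₁ v • c₂ ∈ W := by
            have h5 := W.sub_mem (W.sub_mem h3 hv)
              (W.sub_mem (W.smul_mem (QuadraticMap.polar Q c₁ v) hd₁)
                (W.smul_mem (QuadraticMap.polar Q d₁ v) hc₁))
            have e5 : v + QuadraticMap.polar Q c₁ v • ((g : Matrix ι ι F) *ᵥ e)
                - QuadraticMap.polar Q d₁ v • ((g : Matrix ι ι F) *ᵥ c) - v
                - (QuadraticMap.polar Q c₁ v • d₁ - QuadraticMap.polar Q d₁ v • c₁)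
                = QuadraticMap.polar Q c₁ v • d₂ - QuadraticMap.polar Q d₁ v • c₂ := by
              rw [ec, ed]
              module
            rwa [e5] at h5
          have h6 : QuadraticMap.polar Q c₁ v • d₂ - QuadraticMap.polar Q d₁ v • c₂ ∈ W' :=
            W'.sub_mem (W'.smul_mem _ hd₂) (W'.smul_mem _ hc₂)
          exact sub_eq_zero.mp (hp.inter h4 h6)
        by_contra hgc
        have hc₂0 : c₂ ≠ 0 := by
          intro h
          apply hgc
          rw [ec, h, add_zero]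
          exact hc₁
        by_cases hc₁0 : c₁ = 0
        · have hmem : (g : Matrix ι ι F) *ᵥ c ∈ W' := by
            rw [ec, hc₁0, zero_add]; exact hc₂
          exact hgW' (hss g hgM ⟨c, hc, hc0, hQc, hmem⟩)
        · obtain ⟨v, hv, hv1⟩ := (hp.ndW' c₂ hc₂ hc₂0).2
          obtain ⟨v', hv', hv'1⟩ := (hp.ndW c₁ hc₁ hc₁0).2
          obtain ⟨μ, hμ⟩ : ∃ μ, μ = QuadraticMap.polar Q d₂ v / QuadraticMap.polar Q c₂ v :=
            ⟨_, rfl⟩
          have hd₁e : d₁ = μ • c₁ := by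
            have h7 := k1 v hv
            rw [hμ, div_eq_inv_mul, ← smul_smul, ← h7, smul_smul, inv_mul_cancel₀ hv1, one_smul]
          have hd₂e : d₂ = μ • c₂ := by
            have h7 := k2 v' hv'
            rw [hd₁e, hbl.smul_left] at h7
            have h8 : d₂ = (QuadraticMap.polar Q c₁ v')⁻¹ • (QuadraticMap.polar Q c₁ v' • d₂) := by
              rw [smul_smul, inv_mul_cancel₀ hv'1, one_smul]
            rw [h8, h7, smul_smul]
            congr 1
            field_simp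
          have hge : (g : Matrix ι ι F) *ᵥ e = μ • ((g : Matrix ι ι F) *ᵥ c) := by
            rw [ed, ec, hd₁e, hd₂e, smul_add]
          have hec : e = μ • c := by
            apply gl_mulVec_injective g
            show (g : Matrix ι ι F) *ᵥ e = (g : Matrix ι ι F) *ᵥ (μ • c)
            rw [Matrix.mulVec_smul]
            exact hge
          have h8 : μ = 0 := by
            have h9 := hc'e
            rw [hec, hbl.smul_right, B_comm Q c' c, hcc', mul_one] at h9
            exact h9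
          apply he0
          rw [hec, h8, zero_smul]
      apply hswap
      refine ⟨g, hMK hgM, ?_⟩
      intro v hv
      obtain ⟨v₀, hv₀⟩ : ∃ v₀, v₀ = v - QuadraticMap.polar Q b₀' v • b₀
          - QuadraticMap.polar Q b₀ v • b₀' := ⟨_, rfl⟩
      have hv₀W' : v₀ ∈ W' := by
        rw [hv₀]
        exact W'.sub_mem (W'.sub_mem hv (W'.smul_mem _ hb₀)) (W'.smul_mem _ hb₀')
      have hv₀b : QuadraticMap.polar Q v₀ b₀ = 0 := by
        rw [hv₀, bil_sub_left hbl, bil_sub_left hbl, hbl.smul_left, hbl.smul_left,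
          polar_self_sing hQ b₀ hQb₀, B_comm Q b₀' b₀, hbb₀, B_comm Q v b₀]
        ring
      have hv₀b' : QuadraticMap.polar Q v₀ b₀' = 0 := by
        rw [hv₀, bil_sub_left hbl, bil_sub_left hbl, hbl.smul_left, hbl.smul_left,
          polar_self_sing hQ b₀' hQb₀', hbb₀, B_comm Q v b₀']
        ring
      obtain ⟨s, hs⟩ : ∃ s, s = v₀ + (-(Q v₀)) • b₀ + b₀' := ⟨_, rfl⟩
      have hsW' : s ∈ W' := by
        rw [hs]
        exact W'.add_mem (W'.add_mem hv₀W' (W'.smul_mem _ hb₀)) hb₀'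
      have hQs : Q s = 0 := by
        rw [hs, Q_add Q, Q_add_smul hQ, hQb₀, hQb₀', hbl.add_left, hbl.smul_left, hv₀b, hv₀b',
          hbb₀]
        ring
      have e1 : v = s + (Q v₀) • b₀ + (-1 : F) • b₀' + QuadraticMap.polar Q b₀' v • b₀
          + QuadraticMap.polar Q b₀ v • b₀' := by
        rw [hs, hv₀]
        module
      rw [e1]
      simp only [Matrix.mulVec_add, Matrix.mulVec_smul]
      exact W.add_mem (W.add_mem (W.add_mem (W.add_mem (hstep3 s hsW' hQs)
        (W.smul_mem _ (hstep3 b₀ hb₀ hQb₀))) (W.smul_mem _ (hstep3 b₀' hb₀' hQb₀')))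
        (W.smul_mem _ (hstep3 b₀ hb₀ hQb₀))) (W.smul_mem _ (hstep3 b₀' hb₀' hQb₀'))
    -- Step B: the Siegel directions at `a` fill `W`
    obtain ⟨a, haW', ha0, hQa, u, huW, hu0, huS⟩ := hA
    obtain ⟨S, hS⟩ : ∃ S, S = Submodule.span F (genS Q M W' a) := ⟨_, rfl⟩
    rw [← hS] at huS
    have hS1a : ∀ x ∈ S, QuadraticMap.polar Q a x = 0 ∧ ∀ c : F, sg hQ a (c • x) ∈ M := by
      intro x hx
      rw [hS] at hx
      exact hS1 a hQa x hx
    have hS3 : ∀ x ∈ W', QuadraticMap.polar Q a x = 0 → x ∈ S := by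
      intro x hx hax
      rw [hS]
      apply Submodule.subset_span
      refine ⟨1, M.one_mem, ?_, ?_, hax⟩
      · rw [inv_one, Units.val_one, Matrix.one_mulVec]; exact haW'
      · rw [inv_one, Units.val_one, Matrix.one_mulVec]; exact hx
    have hinv : ∀ h ∈ M, (h : Matrix ι ι F) *ᵥ a = a → ∀ x ∈ S, (h : Matrix ι ι F) *ᵥ x ∈ S := by
      intro h hh hha x hx
      rw [hS] at hx ⊢
      exact span_invariant M W' hMiso a h hh hha x hx
    obtain ⟨a', ha', hQa', haa'⟩ := exists_partner_in hQ W' hp.ndW' haW' ha0 hQa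
    obtain ⟨e, he, f, hf, hQe, hQf, hef, hae, ha'e, haf, ha'f⟩ :=
      exists_hyp_perp_in hQ W' hp.ndW' (by omega) haW' ha' hQa hQa' haa'
    have hTW : S ⊓ W = W := by
      by_contra hne
      apply hex
      apply irr hQ W (S ⊓ W) hp.ndW inf_le_right ?_ ?_ ?_ hne
      · intro h
        have hmem : u ∈ S ⊓ W := ⟨huS, huW⟩
        rw [h] at hmem
        exact hu0 ((Submodule.mem_bot F).mp hmem)
      · intro w hw hQw
        by_cases hall : ∀ t ∈ S ⊓ W, QuadraticMap.polar Q t w = 0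
        · exact Or.inr hall
        left
        push Not at hall
        obtain ⟨t, ht, htw⟩ := hall
        obtain ⟨z, hz⟩ : ∃ z, z = e + Q w • f := ⟨_, rfl⟩
        have hzW' : z ∈ W' := by rw [hz]; exact W'.add_mem he (W'.smul_mem _ hf)
        have hQz : Q z = Q w := by
          rw [hz, Q_add_smul hQ, hQe, hQf, hef]
          ring
        have haz : QuadraticMap.polar Q a z = 0 := by
          rw [hz, hbl.add_right, hbl.smul_right, hae, haf]
          ring
        obtain ⟨h, hhΩ, hh⟩ := exists_refl_pair hQ (by omega) hQw hQz (hp.orth w hw z hzW')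
        have hhM : h ∈ M := by
          apply hHM
          apply mem_H_of' hhΩ
          intro v hv
          rw [hh v, hp.orth v hv z hzW', mul_zero, zero_smul, sub_zero]
          exact W.sub_mem hv (W.smul_mem _ hw)
        have hha : (h : Matrix ι ι F) *ᵥ a = a := by
          rw [hh a, haz, B_comm Q a w, hp.orth w hw a haW']
          simp
        have h1 := hinv h hhM hha t ht.1
        rw [hh t, hp.orth t ht.2 z hzW', mul_zero, zero_smul, sub_zero] at h1
        have h2 := S.sub_mem ht.1 h1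
        have e2 : t - (t - ((Q w)⁻¹ * QuadraticMap.polar Q t w) • w)
            = ((Q w)⁻¹ * QuadraticMap.polar Q t w) • w := by abel
        rw [e2] at h2
        have h3 := S.smul_mem ((Q w)⁻¹ * QuadraticMap.polar Q t w)⁻¹ h2
        rw [smul_smul, inv_mul_cancel₀ (mul_ne_zero (inv_ne_zero hQw) htw), one_smul] at h3
        exact ⟨h3, hw⟩
      · intro c hc d hd hQc hcd t ht
        have hm : sg hQ c d ∈ M := hHW c hc d hd
        have hfix : ((sg hQ c d : Matrix.GeneralLinearGroup ι F) : Matrix ι ι F) *ᵥ a = a := by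
          rw [sg_mulVec hQ _ _ hQc hcd, hp.orth c hc a haW', hp.orth d hd a haW']
          simp
        have h1 := hinv _ hm hfix t ht.1
        rw [sg_mulVec hQ _ _ hQc hcd] at h1
        refine ⟨h1, ?_⟩
        exact W.sub_mem (W.sub_mem (W.add_mem ht.2 (W.smul_mem _ hd)) (W.smul_mem _ hc))
          (W.smul_mem _ hc)
    have hWS : W ≤ S := by
      rw [← hTW]; exact inf_le_left
    -- Step C: `a` is a Siegel centre for `M`
    have haS : a ∈ sgSet hQ M := by
      refine ⟨hQa, fun w => ?_⟩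
      by_cases haw : QuadraticMap.polar Q a w = 0
      · obtain ⟨w₁, hw₁, w₂, hw₂, e3⟩ := hp.dec w
        have h1 : QuadraticMap.polar Q a w₂ = 0 := by
          rw [e3, hbl.add_right, B_comm Q a w₁, hp.orth w₁ hw₁ a haW', zero_add] at haw
          exact haw
        have h2 : w ∈ S := by
          rw [e3]; exact S.add_mem (hWS hw₁) (hS3 w₂ hw₂ h1)
        have h3 := (hS1a w h2).2 1
        rwa [one_smul] at h3
      · rw [sg_not hQ _ _ (fun h => haw h.2)]
        exact M.one_mem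
    -- Step D: a second, non-orthogonal Siegel centre
    have hx : sg hQ a' (e + f) ∈ M := hH' a' ha' (e + f) (W'.add_mem he hf)
    have ha'x : QuadraticMap.polar Q a' (e + f) = 0 := by
      rw [hbl.add_right, ha'e, ha'f, add_zero]
    have hQx : Q (e + f) = 1 := by
      rw [Q_add Q, hQe, hQf, hef]
      ring
    have h1 := sgSet_map hQ M hMiso hx haS
    rw [sg_mulVec hQ _ _ hQa' ha'x] at h1
    apply omega_le_of_pair hQ hcard M hMiso haS h1
    rw [bil_sub_right hbl, bil_sub_right hbl, hbl.add_right, hbl.smul_right, hbl.smul_right,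
      hbl.smul_right, hbl.add_right, polar_self_sing hQ a hQa, hae, haf, haa', hQx,
      B_comm Q a' a, haa', hbl.add_left, B_comm Q e a, B_comm Q f a, hae, haf]
    norm_num

/-- A matrix mapping one subspace into another forces the dimension inequality. -/
lemma finrank_le_of_maps (g : Matrix.GeneralLinearGroup ι F) (W₁ W₂ : Submodule F (ι → F))
    (h : ∀ v ∈ W₁, (g : Matrix ι ι F) *ᵥ v ∈ W₂) : finrank F W₁ ≤ finrank F W₂ := by
  have hle : W₁.map ((Cfsg.Agent.Lib.Helper44.OMat.glEquiv g : (ι → F) ≃ₗ[F] (ι → F)) :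
      (ι → F) →ₗ[F] (ι → F)) ≤ W₂ := by
    rintro _ ⟨v, hv, rfl⟩
    exact h v hv
  have h1 := Submodule.finrank_mono hle
  rwa [LinearEquiv.finrank_map_eq] at h1

lemma stab_inf_eq (hQ : Cfsg.Geo.IsNondegenerateQuadraticForm Q) {W W' : Submodule F (ι → F)}
    (hp : OPair Q W W') :
    Cfsg.Geo.subspaceStabilizer W ⊓ Cfsg.Geo.omegaGL Q
      = Cfsg.Geo.subspaceStabilizer W' ⊓ Cfsg.Geo.omegaGL Q := by
  apply le_antisymm
  · intro g hg
    exact mem_H_of' hg.2 (H_stab hQ hp hg).2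
  · intro g hg
    exact mem_H_of' hg.2 (H_stab hQ hp.symm hg).2

lemma plus_of_sing (hQ : Cfsg.Geo.IsNondegenerateQuadraticForm Q) (W : Submodule F (ι → F))
    (h2 : finrank F W = 2) {s : ι → F} (hs : s ∈ W) (hs0 : s ≠ 0) (hQs : Q s = 0) :
    Cfsg.Geo.IsPlusTypeOn Q W := by
  refine ⟨Submodule.span F {s}, (Submodule.span_singleton_le_iff_mem _ _).mpr hs, ?_, ?_⟩
  · intro w hw
    obtain ⟨c, rfl⟩ := Submodule.mem_span_singleton.mp hw
    rw [hQ.smul, hQs, mul_zero]
  · rw [finrank_span_singleton hs0, h2]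

/-- **The stabiliser in `Ω` of a nondegenerate subspace is maximal**, packaged with the orthogonal
complement: the only hypothesis left open is the absence of an element of `Ω` interchanging the
subspace with its complement in the equidimensional case. -/
theorem nondeg_maximal' (hQ : Cfsg.Geo.IsNondegenerateQuadraticForm Q)
    (hcard : 13 ≤ Fintype.card ι) (W : Submodule F (ι → F))
    (hW : Cfsg.Geo.IsNondegenerateOn (QuadraticMap.polar Q) W) (hW0 : W ≠ ⊥) (hW1 : W ≠ ⊤)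
    (hswap : 2 * finrank F W = Fintype.card ι →
      ¬ ∃ g ∈ Cfsg.Geo.omegaGL Q, ∀ v ∈ perpS hQ W, (g : Matrix ι ι F) *ᵥ v ∈ W)
    (hex : ¬ (Fintype.card F ≤ 3 ∧ ∃ U : Submodule F (ι → F), finrank F U = 2 ∧
      Cfsg.Geo.IsNondegenerateOn (QuadraticMap.polar Q) U ∧ Cfsg.Geo.IsPlusTypeOn Q U ∧
      (U = W ∨ (Cfsg.Geo.AreOrthogonalFor (QuadraticMap.polar Q) U W ∧
        finrank F U + finrank F W = Fintype.card ι)))) :
    Cfsg.Geo.IsMaximalIn (Cfsg.Geo.omegaGL Q)
      (Cfsg.Geo.subspaceStabilizer W ⊓ Cfsg.Geo.omegaGL Q) := by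
  have hp := opair_perp hQ W hW
  have hfr := hp.finrank_add
  have hW'0 : perpS hQ W ≠ ⊥ := by
    intro h
    have h1 : finrank F W < finrank F (ι → F) := Submodule.finrank_lt hW1
    rw [Module.finrank_fintype_fun_eq_card] at h1
    rw [h, finrank_bot] at hfr
    omega
  by_cases hc : finrank F (perpS hQ W) < finrank F W
  · rw [stab_inf_eq hQ hp]
    apply nondeg_maximal hQ hcard (perpS hQ W) W hp.symm hW'0 (by omega)
    · rintro ⟨g, hg, hgW⟩
      have := finrank_le_of_maps g W (perpS hQ W) hgW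
      omega
    · rintro ⟨hq, h2, s, hs, hs0, hQs⟩
      apply hex
      exact ⟨hq, perpS hQ W, h2, hp.ndW', plus_of_sing hQ _ h2 hs hs0 hQs,
        Or.inr ⟨fun u hu v hv => hp.symm.orth u hu v hv, by omega⟩⟩
  · apply nondeg_maximal hQ hcard W (perpS hQ W) hp hW0 (by omega)
    · by_cases he : 2 * finrank F W = Fintype.card ι
      · exact hswap he
      · rintro ⟨g, hg, hgW⟩
        have := finrank_le_of_maps g (perpS hQ W) W hgW
        omega
    · rintro ⟨hq, h2, s, hs, hs0, hQs⟩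
      exact hex ⟨hq, W, h2, hW, plus_of_sing hQ _ h2 hs hs0 hQs, Or.inl rfl⟩

end Core

end Cfsg.Agent.Lib.Helper94.OrthND
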