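import Mathlib
import Cfsg.Prelude.Def_GeometricClasses
import Cfsg.Agent.Lib.Helper94.OrthND

set_option autoImplicit false

namespace Cfsg.Agent.Lib.Helper94.OrthAnti

open scoped Matrix
open Module
open Cfsg.Agent.Lib.Helper94.Basic Cfsg.Agent.Lib.Helper94.GLAux Cfsg.Agent.Lib.Helper94.Tv
  Cfsg.Agent.Lib.Helper94.QuadAbs Cfsg.Agent.Lib.Helper94.OrthSiegel
  Cfsg.Agent.Lib.Helper94.OrthRel Cfsg.Agent.Lib.Helper94.OrthND
open Cfsg.Agent.Lib.Helper94.SympAbs (bil_zero_left bil_zero_right bil_neg_left bil_neg_right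
  bil_sub_left bil_sub_right)
open Cfsg.Agent.Lib.Helper37.PlaneTwo (toQF toQF_coe toQF_sep)
open Cfsg.Agent.Lib.Helper44.Split Cfsg.Agent.Lib.Helper44.QSpace

section Abs

universe u

variable {F : Type*} [Field F]

lemma q_three {V : Type u} [AddCommGroup V] [Module F V] (Q : QuadraticForm F V) (v₁ v₂ w : V)
    (c₁ c₂ : F) (h12 : QuadraticMap.polar Q v₁ v₂ = 0) (h1 : QuadraticMap.polar Q v₁ w = 0)
    (h2 : QuadraticMap.polar Q v₂ w = 0) :
    Q (c₁ • v₁ + c₂ • v₂ + w) = c₁ * c₁ * Q v₁ + c₂ * c₂ * Q v₂ + Q w := by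
  rw [q_add, q_add, q_smul, q_smul, QuadraticMap.polar_add_left, polar_smul_l, polar_smul_l,
    polar_smul_l, polar_smul_r, h12, h1, h2]
  ring

variable [Finite F]

/-- An even-dimensional nondegenerate quadratic space over a finite field carries a linear map
multiplying the form by `-1`. -/
theorem exists_anti (m : ℕ) : ∀ (V : Type u) [AddCommGroup V] [Module F V]
    [FiniteDimensional F V] (Q : QuadraticForm F V), Sep Q → finrank F V = 2 * m →
    ∃ J : V →ₗ[F] V, ∀ v, Q (J v) = - Q v := by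
  cases nonempty_fintype F
  by_cases h2 : (2 : F) = 0
  · intro V _ _ _ Q _ _
    refine ⟨LinearMap.id, fun v => ?_⟩
    rw [LinearMap.id_apply]
    have h3 : (2 : F) * Q v = 0 := by rw [h2, zero_mul]
    linear_combination h3
  induction m with
  | zero =>
    intro V _ _ _ Q _ hd
    have hsub : Subsingleton V := Module.finrank_zero_iff.mp (by omega)
    refine ⟨0, fun v => ?_⟩
    have hv : v = 0 := Subsingleton.elim _ _
    rw [hv, LinearMap.zero_apply, map_zero, neg_zero]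
  | succ m ih =>
    intro V _ _ _ Q hS hd
    obtain ⟨v₁, v₂, hp, hr, h12⟩ := exists_orth_pair h2 hS (by omega)
    have h21 : QuadraticMap.polar Q v₂ v₁ = 0 := by rw [QuadraticMap.polar_comm]; exact h12
    have h2p : 2 * Q v₁ ≠ 0 := mul_ne_zero h2 hp
    have h2r : 2 * Q v₂ ≠ 0 := mul_ne_zero h2 hr
    obtain ⟨ξ, hξ⟩ : ∃ ξ : V →ₗ[F] F, ξ = (2 * Q v₁)⁻¹ • QuadraticMap.polarBilin Q v₁ := ⟨_, rfl⟩
    obtain ⟨η, hη⟩ : ∃ η : V →ₗ[F] F, η = (2 * Q v₂)⁻¹ • QuadraticMap.polarBilin Q v₂ := ⟨_, rfl⟩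
    have hξa : ∀ v, ξ v = (2 * Q v₁)⁻¹ * QuadraticMap.polar Q v₁ v := fun v => by
      rw [hξ]; rfl
    have hηa : ∀ v, η v = (2 * Q v₂)⁻¹ * QuadraticMap.polar Q v₂ v := fun v => by
      rw [hη]; rfl
    obtain ⟨π₀, hπ₀⟩ : ∃ π₀ : V →ₗ[F] V,
        π₀ = LinearMap.id - ξ.smulRight v₁ - η.smulRight v₂ := ⟨_, rfl⟩
    have hπ₀a : ∀ v, π₀ v = v - ξ v • v₁ - η v • v₂ := fun v => by
      rw [hπ₀]; rfl
    have hπ1 : ∀ v, QuadraticMap.polar Q v₁ (π₀ v) = 0 := by
      intro v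
      rw [hπ₀a, QuadraticMap.polar_sub_right, QuadraticMap.polar_sub_right, polar_smul_r,
        polar_smul_r, polar_self', h12, hξa]
      field_simp
      ring
    have hπ2 : ∀ v, QuadraticMap.polar Q v₂ (π₀ v) = 0 := by
      intro v
      rw [hπ₀a, QuadraticMap.polar_sub_right, QuadraticMap.polar_sub_right, polar_smul_r,
        polar_smul_r, polar_self', h21, hηa]
      field_simp
      ring
    have hπP : ∀ v, π₀ v ∈ perp2 (QuadraticMap.polarBilin Q) v₁ v₂ := fun v =>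
      (mem_perp2 _ _ _ _).mpr ⟨hπ1 v, hπ2 v⟩
    have hdec : ∀ v, v = ξ v • v₁ + η v • v₂ + π₀ v := fun v => by
      rw [hπ₀a]; abel
    have hS' : Sep (res Q (perp2 (QuadraticMap.polarBilin Q) v₁ v₂)) := by
      intro x hx
      apply Subtype.ext
      apply hS
      intro v
      have hxP := (mem_perp2 _ _ _ _).mp x.2
      have e1 : QuadraticMap.polar Q (x : V) v₁ = 0 := by
        rw [QuadraticMap.polar_comm]; exact hxP.1
      have e2 : QuadraticMap.polar Q (x : V) v₂ = 0 := by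
        rw [QuadraticMap.polar_comm]; exact hxP.2
      have e3 : QuadraticMap.polar Q (x : V) (π₀ v) = 0 := hx ⟨π₀ v, hπP v⟩
      rw [hdec v, QuadraticMap.polar_add_right, QuadraticMap.polar_add_right, polar_smul_r,
        polar_smul_r, e1, e2, e3]
      ring
    have hfr : finrank F (perp2 (QuadraticMap.polarBilin Q) v₁ v₂) + 2 = finrank F V := by
      have hk : perp2 (QuadraticMap.polarBilin Q) v₁ v₂
          = LinearMap.ker ((QuadraticMap.polarBilin Q v₁).prod (QuadraticMap.polarBilin Q v₂)) := by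
        rw [LinearMap.ker_prod]; rfl
      have hrange : LinearMap.range
          ((QuadraticMap.polarBilin Q v₁).prod (QuadraticMap.polarBilin Q v₂)) = ⊤ := by
        rw [LinearMap.range_eq_top]
        rintro ⟨a, b⟩
        refine ⟨(a / (2 * Q v₁)) • v₁ + (b / (2 * Q v₂)) • v₂, ?_⟩
        rw [LinearMap.prod_apply]
        show (QuadraticMap.polar Q v₁ ((a / (2 * Q v₁)) • v₁ + (b / (2 * Q v₂)) • v₂),
          QuadraticMap.polar Q v₂ ((a / (2 * Q v₁)) • v₁ + (b / (2 * Q v₂)) • v₂)) = (a, b)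
        rw [QuadraticMap.polar_add_right, QuadraticMap.polar_add_right, polar_smul_r,
          polar_smul_r, polar_smul_r, polar_smul_r, polar_self', polar_self', h12, h21]
        congr 1
        · field_simp
          ring
        · field_simp
          ring
      have h3 := LinearMap.finrank_range_add_finrank_ker
        ((QuadraticMap.polarBilin Q v₁).prod (QuadraticMap.polarBilin Q v₂))
      rw [hrange, finrank_top, Module.finrank_prod, Module.finrank_self, ← hk] at h3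
      omega
    obtain ⟨JP, hJP⟩ := ih (perp2 (QuadraticMap.polarBilin Q) v₁ v₂) (res Q _) hS' (by omega)
    obtain ⟨α, γ, hαγ⟩ := Cfsg.Agent.Lib.Helper94.QuadAbs.iso3q (Q v₁) (Q v₂) (Q v₁) hp hr
    obtain ⟨π, hπ⟩ : ∃ π : V →ₗ[F] perp2 (QuadraticMap.polarBilin Q) v₁ v₂,
        π = π₀.codRestrict _ hπP := ⟨_, rfl⟩
    have hπa : ∀ v, ((π v : perp2 (QuadraticMap.polarBilin Q) v₁ v₂) : V) = π₀ v := fun v => by
      rw [hπ]; rfl
    refine ⟨ξ.smulRight (α • v₁ + γ • v₂)
      + η.smulRight ((Q v₂ * γ / Q v₁) • v₁ - α • v₂)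
      + (perp2 (QuadraticMap.polarBilin Q) v₁ v₂).subtype ∘ₗ JP ∘ₗ π, fun v => ?_⟩
    obtain ⟨w, hw⟩ : ∃ w : V, w = ((JP (π v) : perp2 (QuadraticMap.polarBilin Q) v₁ v₂) : V) :=
      ⟨_, rfl⟩
    have hwP := (mem_perp2 _ _ _ _).mp (JP (π v)).2
    rw [← hw] at hwP
    have hQw : Q w = - Q (π₀ v) := by
      have h3 := hJP (π v)
      rw [res_apply, res_apply, hπa] at h3
      rw [hw]
      exact h3
    have e1 : (ξ.smulRight (α • v₁ + γ • v₂)
        + η.smulRight ((Q v₂ * γ / Q v₁) • v₁ - α • v₂)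
        + (perp2 (QuadraticMap.polarBilin Q) v₁ v₂).subtype ∘ₗ JP ∘ₗ π) v
        = (ξ v * α + η v * (Q v₂ * γ / Q v₁)) • v₁ + (ξ v * γ - η v * α) • v₂ + w := by
      rw [hw]
      simp only [LinearMap.add_apply, LinearMap.smulRight_apply, LinearMap.comp_apply,
        Submodule.subtype_apply]
      module
    rw [e1, q_three Q v₁ v₂ w _ _ h12 hwP.1 hwP.2, hQw]
    have e2 := q_three Q v₁ v₂ (π₀ v) (ξ v) (η v) h12 (hπ1 v) (hπ2 v)
    rw [← hdec v] at e2
    rw [e2]
    field_simp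
    linear_combination ((ξ v) ^ 2 * Q v₁ + (η v) ^ 2 * Q v₂) * hαγ

end Abs

section NoSwap

variable {ι : Type} [Fintype ι] [DecidableEq ι] {F : Type*} [Field F] [Fintype F]
variable {Q : (ι → F) → F}

/-- If an isometry maps one member of an orthogonal pair of even-dimensional subspaces of the
same dimension into the other, the ambient form is of plus type. -/
theorem no_swap_of_minus (hQ : Cfsg.Geo.IsNondegenerateQuadraticForm Q)
    (W W' : Submodule F (ι → F)) (hp : OPair Q W W') (heq : finrank F W = finrank F W')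
    (hev : Even (finrank F W')) (hminus : ¬ Cfsg.Geo.IsPlusTypeOn Q ⊤) :
    ¬ ∃ g ∈ Cfsg.Geo.omegaGL Q, ∀ v ∈ W', (g : Matrix ι ι F) *ᵥ v ∈ W := by
  rintro ⟨g, hgΩ, hg⟩
  have hgiso := omegaGL_isom (Q := Q) hgΩ
  obtain ⟨m, hm⟩ := hev
  obtain ⟨J, hJ⟩ := exists_anti m ↥W' (res (toQF Q hQ) W') (sep_res hQ W' hp.ndW') (by omega)
  obtain ⟨L, hL⟩ : ∃ L : W' →ₗ[F] (ι → F),
      L = W'.subtype + (Matrix.toLin' (g : Matrix ι ι F)) ∘ₗ W'.subtype ∘ₗ J := ⟨_, rfl⟩
  have hLa : ∀ v : W', L v = (v : ι → F) + (g : Matrix ι ι F) *ᵥ ((J v : W') : ι → F) := by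
    intro v
    rw [hL]
    simp [Matrix.toLin'_apply]
  have hinj : Function.Injective L := by
    rw [← LinearMap.ker_eq_bot, LinearMap.ker_eq_bot']
    intro v hv
    rw [hLa] at hv
    have h1 : (v : ι → F) ∈ W := by
      have h2 : (v : ι → F) = -((g : Matrix ι ι F) *ᵥ ((J v : W') : ι → F)) :=
        eq_neg_of_add_eq_zero_left hv
      rw [h2]
      exact W.neg_mem (hg _ (J v).2)
    exact Subtype.ext (hp.inter h1 v.2)
  apply hminus
  refine ⟨LinearMap.range L, le_top, ?_, ?_⟩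
  · rintro _ ⟨v, rfl⟩
    rw [hLa, Q_add Q, hgiso]
    have h1 : Q ((J v : W') : ι → F) = -Q (v : ι → F) := hJ v
    have h2 : QuadraticMap.polar Q (v : ι → F) ((g : Matrix ι ι F) *ᵥ ((J v : W') : ι → F))
        = 0 := by
      rw [B_comm]
      exact hp.orth _ (hg _ (J v).2) _ v.2
    rw [h1, h2]
    ring
  · rw [LinearMap.finrank_range_of_inj hinj, finrank_top, Module.finrank_fintype_fun_eq_card]
    have := hp.finrank_add
    omega

end NoSwap

end Cfsg.Agent.Lib.Helper94.OrthAnti
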