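import Mathlib
import Cfsg.Prelude.Def_GeometricClasses
import Cfsg.Agent.Lib.Helper94.Basic
import Cfsg.Agent.Lib.Helper94.GLAux
import Cfsg.Agent.Lib.Helper94.Tv
import Cfsg.Agent.Lib.Helper94.Tv2
import Cfsg.Agent.Lib.Helper94.SympAbs
import Cfsg.Agent.Lib.Helper94.SympGen

set_option autoImplicit false

namespace Cfsg.Agent.Lib.Helper94.SympBlock

open scoped Matrix
open Cfsg.Agent.Lib.Helper94.Basic Cfsg.Agent.Lib.Helper94.GLAux Cfsg.Agent.Lib.Helper94.Tv
  Cfsg.Agent.Lib.Helper94.Tv2 Cfsg.Agent.Lib.Helper94.SympAbs Cfsg.Agent.Lib.Helper94.SympGen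

section Blk

variable {ι : Type} [Fintype ι] [DecidableEq ι] {F : Type*} [Field F]
variable {f : (ι → F) → (ι → F) → F}

lemma st_conj (hf : Cfsg.Geo.IsSymplecticForm f) (g : Matrix.GeneralLinearGroup ι F)
    (hg : ∀ x y, f ((g : Matrix ι ι F) *ᵥ x) ((g : Matrix ι ι F) *ᵥ y) = f x y)
    (a : ι → F) (c : F) :
    g * st hf a c * g⁻¹ = st hf ((g : Matrix ι ι F) *ᵥ a) c := by
  apply gl_ext
  intro x
  rw [Units.val_mul, Units.val_mul, ← Matrix.mulVec_mulVec, ← Matrix.mulVec_mulVec, st_mulVec,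
    st_mulVec, Matrix.mulVec_add, Matrix.mulVec_smul, gl_mulVec_inv]
  have h1 := hg (((g⁻¹ : Matrix.GeneralLinearGroup ι F) : Matrix ι ι F) *ᵥ x) a
  rw [gl_mulVec_inv] at h1
  rw [h1]

lemma st_smul (hf : Cfsg.Geo.IsSymplecticForm f) (l : F) (a : ι → F) (c : F) :
    st hf (l • a) c = st hf a (l ^ 2 * c) := by
  apply gl_ext
  intro x
  rw [st_mulVec, st_mulVec, hf.bilinear.smul_right]
  module

lemma st_zero (hf : Cfsg.Geo.IsSymplecticForm f) (c : F) : st hf (0 : ι → F) c = 1 := by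
  apply gl_ext
  intro x
  rw [st_mulVec]
  simp

lemma st_c0 (hf : Cfsg.Geo.IsSymplecticForm f) (a : ι → F) : st hf a (0 : F) = 1 := by
  apply gl_ext
  intro x
  rw [st_mulVec]
  simp

/-- The set of vectors all of whose transvections lie in `M`. -/
def tvSet (hf : Cfsg.Geo.IsSymplecticForm f) (M : Subgroup (Matrix.GeneralLinearGroup ι F)) :
    Set (ι → F) := {a | ∀ c : F, st hf a c ∈ M}

lemma mem_tvSet (hf : Cfsg.Geo.IsSymplecticForm f) (M : Subgroup (Matrix.GeneralLinearGroup ι F))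
    (a : ι → F) : a ∈ tvSet hf M ↔ ∀ c : F, st hf a c ∈ M := Iff.rfl

lemma tvSet_zero (hf : Cfsg.Geo.IsSymplecticForm f) (M : Subgroup (Matrix.GeneralLinearGroup ι F)) :
    (0 : ι → F) ∈ tvSet hf M := by
  intro c
  rw [st_zero]
  exact M.one_mem

lemma tvSet_map (hf : Cfsg.Geo.IsSymplecticForm f) (M : Subgroup (Matrix.GeneralLinearGroup ι F))
    (hM : ∀ g ∈ M, ∀ x y, f ((g : Matrix ι ι F) *ᵥ x) ((g : Matrix ι ι F) *ᵥ y) = f x y)
    {g : Matrix.GeneralLinearGroup ι F} (hg : g ∈ M) {a : ι → F} (ha : a ∈ tvSet hf M) :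
    (g : Matrix ι ι F) *ᵥ a ∈ tvSet hf M := by
  intro c
  rw [← st_conj hf g (hM g hg)]
  exact M.mul_mem (M.mul_mem hg (ha c)) (M.inv_mem hg)

lemma tvSet_smul (hf : Cfsg.Geo.IsSymplecticForm f) (M : Subgroup (Matrix.GeneralLinearGroup ι F))
    {a : ι → F} (ha : a ∈ tvSet hf M) (l : F) : l • a ∈ tvSet hf M := by
  intro c
  rw [st_smul]
  exact ha _

lemma tvSet_hyp (hf : Cfsg.Geo.IsSymplecticForm f) (M : Subgroup (Matrix.GeneralLinearGroup ι F))
    (hM : ∀ g ∈ M, ∀ x y, f ((g : Matrix ι ι F) *ᵥ x) ((g : Matrix ι ι F) *ᵥ y) = f x y)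
    {a b : ι → F} (ha : a ∈ tvSet hf M) (hb : b ∈ tvSet hf M) (hab : f a b ≠ 0) (μ : F) :
    a + μ • b ∈ tvSet hf M := by
  have h := tvSet_map hf M hM (hb (μ / f a b)) ha
  rwa [st_mulVec, div_mul_cancel₀ _ hab] at h

/-- If every vector is a transvection vector for `M` then `M` contains every isometry. -/
theorem mem_of_tvSet_univ (hf : Cfsg.Geo.IsSymplecticForm f)
    (M : Subgroup (Matrix.GeneralLinearGroup ι F)) (h : ∀ a, a ∈ tvSet hf M)
    (g : Matrix.GeneralLinearGroup ι F)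
    (hg : ∀ x y, f ((g : Matrix ι ι F) *ᵥ x) ((g : Matrix ι ι F) *ᵥ y) = f x y) : g ∈ M :=
  isom_mem_of_st hf M (fun a c => h a c) (Fintype.card ι) g hg (by omega)

/-- Riesz representation inside a non-degenerate subspace. -/
lemma exists_rep_in (hf : Cfsg.Geo.IsSymplecticForm f) (W : Submodule F (ι → F))
    (hW : Cfsg.Geo.IsNondegenerateOn f W) (φ : Module.Dual F (ι → F)) :
    ∃ w ∈ W, ∀ x ∈ W, φ x = f x w := by
  set Ψ : W →ₗ[F] Module.Dual F W :=
    (Submodule.dualRestrict W) ∘ₗ (fRL hf.bilinear) ∘ₗ W.subtype with hΨ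
  have hΨa : ∀ (w x : W), Ψ w x = f (x : ι → F) (w : ι → F) := by
    intro w x
    simp [hΨ, fRL, Submodule.dualRestrict_apply]
  have hinj : Function.Injective Ψ := by
    rw [← LinearMap.ker_eq_bot, LinearMap.ker_eq_bot']
    intro w hw
    by_contra h
    have hw0 : (w : ι → F) ≠ 0 := fun h0 => h (Subtype.ext h0)
    obtain ⟨x, hx, hxw⟩ := (hW w w.2 hw0).1
    apply hxw
    have h1 := congrArg (fun ψ : Module.Dual F W => ψ ⟨x, hx⟩) hw
    simpa [hΨa] using h1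
  have hsurj := (LinearMap.injective_iff_surjective_of_finrank_eq_finrank
    (Subspace.dual_finrank_eq (K := F) (V := W)).symm).mp hinj
  obtain ⟨w, hw⟩ := hsurj (Submodule.dualRestrict W φ)
  refine ⟨w, w.2, fun x hx => ?_⟩
  have h1 := congrArg (fun ψ : Module.Dual F W => ψ ⟨x, hx⟩) hw
  simp only [hΨa, Submodule.dualRestrict_apply] at h1
  exact h1.symm

/-- Orthogonal projection to a non-degenerate subspace. -/
lemma exists_proj (hf : Cfsg.Geo.IsSymplecticForm f) (W : Submodule F (ι → F))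
    (hW : Cfsg.Geo.IsNondegenerateOn f W) (v : ι → F) :
    ∃ w ∈ W, ∀ x ∈ W, f x (v - w) = 0 := by
  obtain ⟨w, hw, h⟩ := exists_rep_in hf W hW (fR hf.bilinear v)
  refine ⟨w, hw, fun x hx => ?_⟩
  rw [bil_sub_right hf.bilinear, ← h x hx, fR_apply, sub_self]

lemma exists_both_ne_in (hf : Cfsg.Geo.IsSymplecticForm f) (W : Submodule F (ι → F))
    (hW : Cfsg.Geo.IsNondegenerateOn f W) (v w : ι → F) (hv : v ∈ W) (hw : w ∈ W)
    (hv0 : v ≠ 0) (hw0 : w ≠ 0) : ∃ z ∈ W, f z v ≠ 0 ∧ f z w ≠ 0 := by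
  obtain ⟨z1, hz1W, hz1⟩ := (hW v hv hv0).1
  obtain ⟨z2, hz2W, hz2⟩ := (hW w hw hw0).1
  by_cases h1 : f z1 w = 0
  · by_cases h2 : f z2 v = 0
    · refine ⟨z1 + z2, W.add_mem hz1W hz2W, ?_, ?_⟩
      · rw [hf.bilinear.add_left, h2, add_zero]; exact hz1
      · rw [hf.bilinear.add_left, h1, zero_add]; exact hz2
    · exact ⟨z2, hz2W, h2, hz2⟩
  · exact ⟨z1, hz1W, hz1, h1⟩

/-- Transvections along a non-degenerate subspace `W` are transitive on its nonzero vectors,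
fixing everything orthogonal to `W`. -/
lemma exists_map_in (hf : Cfsg.Geo.IsSymplecticForm f) (W : Submodule F (ι → F))
    (hW : Cfsg.Geo.IsNondegenerateOn f W) (w w' : ι → F) (hw : w ∈ W) (hw' : w' ∈ W)
    (hw0 : w ≠ 0) (hw0' : w' ≠ 0) :
    ∃ h : Matrix.GeneralLinearGroup ι F,
      (∀ M : Subgroup (Matrix.GeneralLinearGroup ι F), (∀ a ∈ W, ∀ c, st hf a c ∈ M) → h ∈ M) ∧
      (h : Matrix ι ι F) *ᵥ w = w' ∧
      (∀ x, (∀ y ∈ W, f x y = 0) → (h : Matrix ι ι F) *ᵥ x = x) := by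
  obtain ⟨z, hzW, hz1, hz2⟩ := exists_both_ne_in hf W hW w w' hw hw' hw0 hw0'
  have hwz : f w z ≠ 0 := by
    rw [hf.skew]; exact neg_ne_zero.mpr hz1
  refine ⟨st hf (z - w') (f z w')⁻¹ * st hf (w - z) (f w z)⁻¹, ?_, ?_, ?_⟩
  · intro M hM
    exact M.mul_mem (hM _ (W.sub_mem hzW hw') _) (hM _ (W.sub_mem hw hzW) _)
  · rw [Units.val_mul, ← Matrix.mulVec_mulVec, exists_map_of_ne hf w z hwz,
      exists_map_of_ne hf z w' hz2]
  · intro x hx
    rw [Units.val_mul, ← Matrix.mulVec_mulVec, st_fix hf _ _ x (hx _ (W.sub_mem hw hzW)),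
      st_fix hf _ _ x (hx _ (W.sub_mem hzW hw'))]

/-- The orthogonal complement `{u | ∀ w ∈ W, f w u = 0}`. -/
def perp (hf : Cfsg.Geo.IsBilinearForm f) (W : Submodule F (ι → F)) : Submodule F (ι → F) where
  carrier := {u | ∀ w ∈ W, f w u = 0}
  add_mem' := by
    intro a b ha hb w hw
    rw [hf.add_right, ha w hw, hb w hw, add_zero]
  zero_mem' := by
    intro w _
    exact bil_zero_right hf w
  smul_mem' := by
    intro c a ha w hw
    rw [hf.smul_right, ha w hw, mul_zero]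

lemma mem_perp (hf : Cfsg.Geo.IsBilinearForm f) (W : Submodule F (ι → F)) (u : ι → F) :
    u ∈ perp hf W ↔ ∀ w ∈ W, f w u = 0 := Iff.rfl

lemma perp_nondegenerate (hf : Cfsg.Geo.IsSymplecticForm f) (W : Submodule F (ι → F))
    (hW : Cfsg.Geo.IsNondegenerateOn f W) : Cfsg.Geo.IsNondegenerateOn f (perp hf.bilinear W) := by
  intro u hu hu0
  obtain ⟨z, hz⟩ := (hf.nondegenerate u hu0).1
  obtain ⟨w, hw, hzw⟩ := exists_proj hf W hW z
  have hmem : z - w ∈ perp hf.bilinear W := hzw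
  have h1 : f (z - w) u ≠ 0 := by
    rw [bil_sub_left hf.bilinear, hu w hw, sub_zero]; exact hz
  refine ⟨⟨z - w, hmem, h1⟩, z - w, hmem, ?_⟩
  rw [hf.skew]; exact neg_ne_zero.mpr h1

/-- Decomposition of a vector along a non-degenerate subspace and its orthogonal complement. -/
lemma exists_decomp (hf : Cfsg.Geo.IsSymplecticForm f) (W : Submodule F (ι → F))
    (hW : Cfsg.Geo.IsNondegenerateOn f W) (v : ι → F) :
    ∃ w ∈ W, ∃ u ∈ perp hf.bilinear W, v = w + u := by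
  obtain ⟨w, hw, hzw⟩ := exists_proj hf W hW v
  exact ⟨w, hw, v - w, hzw, by abel⟩

lemma inf_perp (hf : Cfsg.Geo.IsSymplecticForm f) (W : Submodule F (ι → F))
    (hW : Cfsg.Geo.IsNondegenerateOn f W) (w : ι → F) (hw : w ∈ W)
    (hw' : w ∈ perp hf.bilinear W) : w = 0 := by
  by_contra h0
  obtain ⟨x, hx, hxw⟩ := (hW w hw h0).1
  exact hxw (hw' x hx)

/-- If `g` maps `W` into `W'` and the dimensions allow, then `g W = W'`. -/
lemma map_eq_of_forall_mem (g : Matrix.GeneralLinearGroup ι F) (W W' : Submodule F (ι → F))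
    (h : ∀ w ∈ W, (g : Matrix ι ι F) *ᵥ w ∈ W')
    (hdim : Module.finrank F W' ≤ Module.finrank F W) :
    W.map (Matrix.toLin' (g : Matrix ι ι F)) = W' := by
  have hinj : Function.Injective (Matrix.toLin' (g : Matrix ι ι F)) := by
    intro x y hxy
    rw [Matrix.toLin'_apply, Matrix.toLin'_apply] at hxy
    exact gl_mulVec_injective g hxy
  apply Submodule.eq_of_le_of_finrank_le
  · rintro _ ⟨w, hw, rfl⟩
    rw [Matrix.toLin'_apply]
    exact h w hw
  · rw [← (Submodule.equivMapOfInjective _ hinj W).finrank_eq]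
    exact hdim

lemma mem_stab_of_forall (g : Matrix.GeneralLinearGroup ι F) (W : Submodule F (ι → F))
    (h : ∀ w ∈ W, (g : Matrix ι ι F) *ᵥ w ∈ W) : g ∈ Cfsg.Geo.subspaceStabilizer W := by
  have hmap := map_eq_of_forall_mem g W W h le_rfl
  rw [mem_subspaceStabilizer_iff]
  intro v
  constructor
  · exact h v
  · intro hv
    rw [← hmap] at hv
    obtain ⟨w, hw, hwv⟩ := hv
    rw [Matrix.toLin'_apply] at hwv
    have := gl_mulVec_injective g hwv
    rw [← this]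
    exact hw

end Blk

end Cfsg.Agent.Lib.Helper94.SympBlock
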