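import Mathlib
import Cfsg.Prelude.Def_GeometricClasses
import Cfsg.Agent.Lib.Helper94.OrthND
import Cfsg.Agent.Lib.Helper94.SympBlock

set_option autoImplicit false

namespace Cfsg.Agent.Lib.Helper94.OrthBlk

open scoped Matrix
open Module
open Cfsg.Agent.Lib.Helper94.Basic Cfsg.Agent.Lib.Helper94.GLAux Cfsg.Agent.Lib.Helper94.Tv
  Cfsg.Agent.Lib.Helper94.QuadAbs Cfsg.Agent.Lib.Helper94.OrthSiegel
  Cfsg.Agent.Lib.Helper94.OrthRel
open Cfsg.Agent.Lib.Helper94.SympAbs (bil_zero_left bil_zero_right bil_neg_left bil_neg_right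
  bil_sub_left bil_sub_right fR fLeft)
open Cfsg.Agent.Lib.Helper37.PlaneTwo (toQF toQF_coe toQF_sep)

section RelSec

variable {ι : Type} [Fintype ι] [DecidableEq ι] {F : Type*} [Field F]
variable {Q : (ι → F) → F}

/-- `w` is a Siegel direction at the singular vector `a` visible in `M`. -/
def Rel (hQ : Cfsg.Geo.IsNondegenerateQuadraticForm Q)
    (M : Subgroup (Matrix.GeneralLinearGroup ι F)) (a w : ι → F) : Prop :=
  Q a = 0 ∧ QuadraticMap.polar Q a w = 0 ∧ ∀ c : F, sg hQ a (c • w) ∈ M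

variable (hQ : Cfsg.Geo.IsNondegenerateQuadraticForm Q)
  (M : Subgroup (Matrix.GeneralLinearGroup ι F))

lemma Rel.add {a w w' : ι → F} (h : Rel hQ M a w) (h' : Rel hQ M a w') :
    Rel hQ M a (w + w') := by
  have hbl := hQ.polar_bilinear
  refine ⟨h.1, by rw [hbl.add_right, h.2.1, h'.2.1, add_zero], fun c => ?_⟩
  rw [smul_add, ← sg_mul hQ a _ _ h.1 (by rw [hbl.smul_right, h.2.1, mul_zero])
    (by rw [hbl.smul_right, h'.2.1, mul_zero])]
  exact M.mul_mem (h.2.2 c) (h'.2.2 c)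

lemma Rel.smul {a w : ι → F} (h : Rel hQ M a w) (t : F) : Rel hQ M a (t • w) := by
  have hbl := hQ.polar_bilinear
  refine ⟨h.1, by rw [hbl.smul_right, h.2.1, mul_zero], fun c => ?_⟩
  rw [smul_smul]
  exact h.2.2 _

lemma Rel.neg {a w : ι → F} (h : Rel hQ M a w) : Rel hQ M a (-w) := by
  have := h.smul hQ M (-1)
  rwa [neg_one_smul] at this

lemma Rel.sub {a w w' : ι → F} (h : Rel hQ M a w) (h' : Rel hQ M a w') :
    Rel hQ M a (w - w') := by
  rw [sub_eq_add_neg]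
  exact h.add hQ M (h'.neg hQ M)

lemma Rel.of_smul {a w : ι → F} {t : F} (ht : t ≠ 0) (h : Rel hQ M a (t • w)) :
    Rel hQ M a w := by
  have := h.smul hQ M t⁻¹
  rwa [smul_smul, inv_mul_cancel₀ ht, one_smul] at this

lemma Rel.zero {a : ι → F} (ha : Q a = 0) : Rel hQ M a 0 := by
  refine ⟨ha, bil_zero_right hQ.polar_bilinear a, fun c => ?_⟩
  rw [smul_zero, sg_zero_right]
  exact M.one_mem

lemma sg_self {a : ι → F} (ha : Q a = 0) (c : F) : sg hQ a (c • a) = 1 := by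
  have hbl := hQ.polar_bilinear
  have haa := polar_self_sing hQ a ha
  apply gl_ext
  intro x
  rw [sg_mulVec hQ _ _ ha (by rw [hbl.smul_right, haa, mul_zero]), Units.val_one,
    Matrix.one_mulVec, hbl.smul_left, hQ.smul, ha]
  module

lemma Rel.self {a : ι → F} (ha : Q a = 0) : Rel hQ M a a := by
  refine ⟨ha, polar_self_sing hQ a ha, fun c => ?_⟩
  rw [sg_self hQ ha]
  exact M.one_mem

lemma Rel.map (hMiso : ∀ g ∈ M, ∀ v, Q ((g : Matrix ι ι F) *ᵥ v) = Q v)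
    {g : Matrix.GeneralLinearGroup ι F} (hg : g ∈ M) {a w : ι → F} (h : Rel hQ M a w) :
    Rel hQ M ((g : Matrix ι ι F) *ᵥ a) ((g : Matrix ι ι F) *ᵥ w) := by
  refine ⟨by rw [hMiso g hg]; exact h.1, by rw [polar_of_isom g (hMiso g hg)]; exact h.2.1,
    fun c => ?_⟩
  have h1 := sg_conj hQ g (hMiso g hg) a (c • w)
  rw [Matrix.mulVec_smul] at h1
  rw [← h1]
  exact M.mul_mem (M.mul_mem hg (h.2.2 c)) (M.inv_mem hg)

lemma sg_swap {a w : ι → F} (ha : Q a = 0) (hw : Q w = 0)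
    (haw : QuadraticMap.polar Q a w = 0) : sg hQ w a = sg hQ a (-w) := by
  have hbl := hQ.polar_bilinear
  have hwa : QuadraticMap.polar Q w a = 0 := by rw [B_comm]; exact haw
  apply gl_ext
  intro x
  rw [sg_mulVec hQ _ _ hw hwa, sg_mulVec hQ _ _ ha (by rw [bil_neg_right hbl, haw, neg_zero]),
    ha, Q_neg hQ, hw, bil_neg_left hbl]
  module

lemma Rel.symm {a w : ι → F} (h : Rel hQ M a w) (hw : Q w = 0) : Rel hQ M w a := by
  have hbl := hQ.polar_bilinear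
  refine ⟨hw, by rw [B_comm]; exact h.2.1, fun c => ?_⟩
  rw [← sg_smul_left, sg_swap hQ h.1 (by rw [hQ.smul, hw, mul_zero])
    (by rw [hbl.smul_right, h.2.1, mul_zero]), ← neg_smul]
  exact h.2.2 _

lemma Rel.smul_left {a w : ι → F} (h : Rel hQ M a w) (t : F) : Rel hQ M (t • a) w := by
  have hbl := hQ.polar_bilinear
  refine ⟨by rw [hQ.smul, h.1, mul_zero], by rw [hbl.smul_left, h.2.1, mul_zero], fun c => ?_⟩
  rw [sg_smul_left, smul_smul]
  exact h.2.2 _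

/-- An element of `M` fixing the centre acts on the directions. -/
lemma Rel.fix (hMiso : ∀ g ∈ M, ∀ v, Q ((g : Matrix ι ι F) *ᵥ v) = Q v)
    {g : Matrix.GeneralLinearGroup ι F} (hg : g ∈ M) {a w : ι → F} (h : Rel hQ M a w)
    (hga : (g : Matrix ι ι F) *ᵥ a = a) : Rel hQ M a ((g : Matrix ι ι F) *ᵥ w) := by
  have := h.map hQ M hMiso hg
  rwa [hga] at this

end RelSec


section Geo

variable {ι : Type} [Fintype ι] [DecidableEq ι] {F : Type*} [Field F] [Fintype F]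
variable {Q : (ι → F) → F}

lemma nonsing_of_pair (a b : ι → F) (hab : QuadraticMap.polar Q a b ≠ 0) :
    Q a ≠ 0 ∨ Q b ≠ 0 ∨ Q (a + b) ≠ 0 := by
  by_contra h
  push Not at h
  apply hab
  have := Q_add Q a b
  rw [h.1, h.2.1, h.2.2] at this
  linear_combination -this

/-- The singular vector `e + z - Q(z) f` attached to a hyperbolic pair and a vector orthogonal
to it. -/
lemma hyp_sing (hQ : Cfsg.Geo.IsNondegenerateQuadraticForm Q) {e f z : ι → F} (hQe : Q e = 0)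
    (hQf : Q f = 0) (hef : QuadraticMap.polar Q e f = 1) (hez : QuadraticMap.polar Q e z = 0)
    (hfz : QuadraticMap.polar Q f z = 0) : Q (e + z - Q z • f) = 0 := by
  have hbl := hQ.polar_bilinear
  have hzf : QuadraticMap.polar Q z f = 0 := by rw [B_comm]; exact hfz
  rw [Q_sub hQ, Q_add Q, hQ.smul, hQe, hQf, hez, hbl.smul_right, hbl.add_left, hef, hzf]
  ring

/-- Projection away from a hyperbolic pair. -/
lemma proj_hyp (hQ : Cfsg.Geo.IsNondegenerateQuadraticForm Q) {e f : ι → F} (hQe : Q e = 0)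
    (hQf : Q f = 0) (hef : QuadraticMap.polar Q e f = 1) (x : ι → F) :
    QuadraticMap.polar Q e (x - QuadraticMap.polar Q f x • e - QuadraticMap.polar Q e x • f) = 0 ∧
    QuadraticMap.polar Q f (x - QuadraticMap.polar Q f x • e - QuadraticMap.polar Q e x • f) = 0 := by
  have hbl := hQ.polar_bilinear
  have hfe : QuadraticMap.polar Q f e = 1 := by rw [B_comm]; exact hef
  have hee := polar_self_sing hQ e hQe
  have hff := polar_self_sing hQ f hQf
  constructor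
  · rw [bil_sub_right hbl, bil_sub_right hbl, hbl.smul_right, hbl.smul_right, hee, hef]; ring
  · rw [bil_sub_right hbl, bil_sub_right hbl, hbl.smul_right, hbl.smul_right, hff, hfe]; ring

lemma exists_nonsing_perp_pair_in (hQ : Cfsg.Geo.IsNondegenerateQuadraticForm Q)
    (N : Submodule F (ι → F)) (hN : Cfsg.Geo.IsNondegenerateOn (QuadraticMap.polar Q) N)
    (h3 : 3 ≤ finrank F N) {b f : ι → F} (hb : b ∈ N) (hf : f ∈ N) (hQb : Q b = 0)
    (hQf : Q f = 0) (hbf : QuadraticMap.polar Q b f = 1) :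
    ∃ w ∈ N, QuadraticMap.polar Q b w = 0 ∧ QuadraticMap.polar Q f w = 0 ∧ Q w ≠ 0 := by
  have hbl := hQ.polar_bilinear
  obtain ⟨w₁, hw₁N, hw₁⟩ : ∃ w₁ ∈ N, w₁ ∉ Submodule.span F ({b, f} : Set (ι → F)) := by
    by_contra hcon
    push Not at hcon
    have hle : N ≤ Submodule.span F ({b, f} : Set (ι → F)) := hcon
    have h1 := Submodule.finrank_mono hle
    have h2 := finrank_span_pair_le (F := F) b f
    omega
  have pmem : ∀ x ∈ N, x - QuadraticMap.polar Q f x • b - QuadraticMap.polar Q b x • f ∈ N :=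
    fun x hx => N.sub_mem (N.sub_mem hx (N.smul_mem _ hb)) (N.smul_mem _ hf)
  obtain ⟨w₀, hw₀⟩ : ∃ w₀, w₀ = w₁ - QuadraticMap.polar Q f w₁ • b
      - QuadraticMap.polar Q b w₁ • f := ⟨_, rfl⟩
  have hw₀N : w₀ ∈ N := by rw [hw₀]; exact pmem w₁ hw₁N
  obtain ⟨hw₀b, hw₀f⟩ := proj_hyp hQ hQb hQf hbf w₁
  rw [← hw₀] at hw₀b hw₀f
  have hw₀0 : w₀ ≠ 0 := by
    intro h0
    apply hw₁
    have e1 : w₁ = QuadraticMap.polar Q f w₁ • b + QuadraticMap.polar Q b w₁ • f := by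
      rw [hw₀, sub_sub, sub_eq_zero] at h0
      exact h0
    rw [e1]
    exact Submodule.add_mem _ (Submodule.smul_mem _ _ (Submodule.subset_span (by simp)))
      (Submodule.smul_mem _ _ (Submodule.subset_span (by simp)))
  obtain ⟨x, hx, hxw⟩ := (hN w₀ hw₀N hw₀0).1
  obtain ⟨x₁, hx₁⟩ : ∃ x₁, x₁ = x - QuadraticMap.polar Q f x • b
      - QuadraticMap.polar Q b x • f := ⟨_, rfl⟩
  have hx₁N : x₁ ∈ N := by rw [hx₁]; exact pmem x hx
  obtain ⟨hx₁b, hx₁f⟩ := proj_hyp hQ hQb hQf hbf x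
  rw [← hx₁] at hx₁b hx₁f
  have hx₁w : QuadraticMap.polar Q x₁ w₀ ≠ 0 := by
    rw [hx₁, bil_sub_left hbl, bil_sub_left hbl, hbl.smul_left, hbl.smul_left, hw₀b, hw₀f]
    simpa using hxw
  rcases nonsing_of_pair x₁ w₀ hx₁w with h | h | h
  · exact ⟨x₁, hx₁N, hx₁b, hx₁f, h⟩
  · exact ⟨w₀, hw₀N, hw₀b, hw₀f, h⟩
  · exact ⟨x₁ + w₀, N.add_mem hx₁N hw₀N, by rw [hbl.add_right, hx₁b, hw₀b, add_zero],
      by rw [hbl.add_right, hx₁f, hw₀f, add_zero], h⟩

lemma exists_nonsing_perp_in (hQ : Cfsg.Geo.IsNondegenerateQuadraticForm Q)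
    (N : Submodule F (ι → F)) (hN : Cfsg.Geo.IsNondegenerateOn (QuadraticMap.polar Q) N)
    (h3 : 3 ≤ finrank F N) {b : ι → F} (hb : b ∈ N) (hb0 : b ≠ 0) (hQb : Q b = 0) :
    ∃ w ∈ N, QuadraticMap.polar Q b w = 0 ∧ Q w ≠ 0 := by
  obtain ⟨f, hf, hQf, hbf⟩ := exists_partner_in hQ N hN hb hb0 hQb
  obtain ⟨w, hw, h1, -, h4⟩ := exists_nonsing_perp_pair_in hQ N hN h3 hb hf hQb hQf hbf
  exact ⟨w, hw, h1, h4⟩

/-- The singular vectors of a nondegenerate subspace of dimension at least `3` are not all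
orthogonal to a vector which is not orthogonal to the subspace. -/
lemma exists_sing_not_perp_in (hQ : Cfsg.Geo.IsNondegenerateQuadraticForm Q)
    (N : Submodule F (ι → F)) (hN : Cfsg.Geo.IsNondegenerateOn (QuadraticMap.polar Q) N)
    (h3 : 3 ≤ finrank F N) (u : ι → F) (hu : ∃ d ∈ N, QuadraticMap.polar Q d u ≠ 0) :
    ∃ b ∈ N, Q b = 0 ∧ QuadraticMap.polar Q b u ≠ 0 := by
  have hbl := hQ.polar_bilinear
  obtain ⟨e, he, f, hf, hQe, hQf, hef⟩ := exists_hyp_in hQ N hN h3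
  by_cases h1 : QuadraticMap.polar Q e u = 0
  · by_cases h2 : QuadraticMap.polar Q f u = 0
    · obtain ⟨d, hd, hdu⟩ := hu
      obtain ⟨z, hz⟩ : ∃ z, z = d - QuadraticMap.polar Q f d • e
          - QuadraticMap.polar Q e d • f := ⟨_, rfl⟩
      have hzN : z ∈ N := by
        rw [hz]; exact N.sub_mem (N.sub_mem hd (N.smul_mem _ he)) (N.smul_mem _ hf)
      obtain ⟨hze, hzf⟩ := proj_hyp hQ hQe hQf hef d
      rw [← hz] at hze hzf
      have hzu : QuadraticMap.polar Q z u ≠ 0 := by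
        rw [hz, bil_sub_left hbl, bil_sub_left hbl, hbl.smul_left, hbl.smul_left, h1, h2]
        simpa using hdu
      refine ⟨e + z - Q z • f, N.sub_mem (N.add_mem he hzN) (N.smul_mem _ hf),
        hyp_sing hQ hQe hQf hef hze hzf, ?_⟩
      rw [bil_sub_left hbl, hbl.add_left, hbl.smul_left, h1, h2]
      simpa using hzu
    · exact ⟨f, hf, hQf, h2⟩
  · exact ⟨e, he, hQe, h1⟩

/-- A nondegenerate subspace of dimension at least `3` is spanned by its singular vectors. -/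
lemma le_of_sing_in (hQ : Cfsg.Geo.IsNondegenerateQuadraticForm Q)
    (N : Submodule F (ι → F)) (hN : Cfsg.Geo.IsNondegenerateOn (QuadraticMap.polar Q) N)
    (h3 : 3 ≤ finrank F N) (S : Submodule F (ι → F)) (hS : ∀ b ∈ N, Q b = 0 → b ∈ S) :
    N ≤ S := by
  obtain ⟨e, he, f, hf, hQe, hQf, hef⟩ := exists_hyp_in hQ N hN h3
  intro x hx
  obtain ⟨z, hz⟩ : ∃ z, z = x - QuadraticMap.polar Q f x • e
      - QuadraticMap.polar Q e x • f := ⟨_, rfl⟩
  have hzN : z ∈ N := by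
    rw [hz]; exact N.sub_mem (N.sub_mem hx (N.smul_mem _ he)) (N.smul_mem _ hf)
  obtain ⟨hze, hzf⟩ := proj_hyp hQ hQe hQf hef x
  rw [← hz] at hze hzf
  have h1 : e + z - Q z • f ∈ S :=
    hS _ (N.sub_mem (N.add_mem he hzN) (N.smul_mem _ hf)) (hyp_sing hQ hQe hQf hef hze hzf)
  have e1 : x = (e + z - Q z • f) - e + Q z • f + QuadraticMap.polar Q f x • e
      + QuadraticMap.polar Q e x • f := by rw [hz]; module
  rw [e1]
  exact S.add_mem (S.add_mem (S.add_mem (S.sub_mem h1 (hS e he hQe))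
    (S.smul_mem _ (hS f hf hQf))) (S.smul_mem _ (hS e he hQe))) (S.smul_mem _ (hS f hf hQf))

lemma finrank_inf_ker (N : Submodule F (ι → F)) (φ : Module.Dual F (ι → F)) :
    finrank F N ≤ finrank F (N ⊓ LinearMap.ker φ : Submodule F (ι → F)) + 1 := by
  have h3 := Submodule.finrank_sup_add_finrank_inf_eq N (LinearMap.ker φ)
  have h4 := LinearMap.finrank_range_add_finrank_ker φ
  have h5 : finrank F (LinearMap.range φ) ≤ 1 := by
    have := Submodule.finrank_le (LinearMap.range φ)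
    simpa using this
  have h7 := Submodule.finrank_le (N ⊔ LinearMap.ker φ)
  omega

lemma mem_inf_ker (hQ : Cfsg.Geo.IsNondegenerateQuadraticForm Q) (N : Submodule F (ι → F))
    (p y : ι → F) : y ∈ N ⊓ LinearMap.ker (fR hQ.polar_bilinear p) ↔
      y ∈ N ∧ QuadraticMap.polar Q y p = 0 := Iff.rfl

/-- The orthogonal complement of a nonsingular vector inside a nondegenerate subspace is
nondegenerate. -/
lemma nd_inf_ker (hQ : Cfsg.Geo.IsNondegenerateQuadraticForm Q) (h2 : (2 : F) ≠ 0)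
    (N : Submodule F (ι → F)) (hN : Cfsg.Geo.IsNondegenerateOn (QuadraticMap.polar Q) N)
    {p : ι → F} (hp : p ∈ N) (hQp : Q p ≠ 0) :
    Cfsg.Geo.IsNondegenerateOn (QuadraticMap.polar Q)
      (N ⊓ LinearMap.ker (fR hQ.polar_bilinear p)) := by
  have hbl := hQ.polar_bilinear
  intro y hy hy0
  replace hy := (mem_inf_ker hQ N p y).mp hy
  obtain ⟨x, hx, hxy⟩ := (hN y hy.1 hy0).1
  have hpp : QuadraticMap.polar Q p p ≠ 0 := by rw [B_self hQ]; exact mul_ne_zero h2 hQp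
  obtain ⟨x₁, hx₁⟩ : ∃ x₁, x₁ = x - (QuadraticMap.polar Q x p / QuadraticMap.polar Q p p) • p :=
    ⟨_, rfl⟩
  have hx₁N : x₁ ∈ N := by rw [hx₁]; exact N.sub_mem hx (N.smul_mem _ hp)
  have hx₁p : QuadraticMap.polar Q x₁ p = 0 := by
    rw [hx₁, bil_sub_left hbl, hbl.smul_left]
    field_simp
    ring
  have hx₁y : QuadraticMap.polar Q x₁ y ≠ 0 := by
    rw [hx₁, bil_sub_left hbl, hbl.smul_left, B_comm Q p y, hy.2]
    simpa using hxy
  have hm : x₁ ∈ N ⊓ LinearMap.ker (fR hQ.polar_bilinear p) := (mem_inf_ker hQ N p x₁).mpr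
    ⟨hx₁N, hx₁p⟩
  exact ⟨⟨x₁, hm, hx₁y⟩, x₁, hm, by rw [B_comm]; exact hx₁y⟩

lemma exists_nonsing_not_perp_in (hQ : Cfsg.Geo.IsNondegenerateQuadraticForm Q)
    (h2 : (2 : F) ≠ 0) (Y : Submodule F (ι → F))
    (hY : Cfsg.Geo.IsNondegenerateOn (QuadraticMap.polar Q) Y) (u : ι → F)
    (hu : ∃ d ∈ Y, QuadraticMap.polar Q d u ≠ 0) :
    ∃ p ∈ Y, Q p ≠ 0 ∧ QuadraticMap.polar Q p u ≠ 0 := by
  have hbl := hQ.polar_bilinear
  obtain ⟨d, hd, hdu⟩ := hu
  by_cases hQd : Q d = 0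
  · have hd0 : d ≠ 0 := by
      rintro rfl
      exact hdu (bil_zero_left hbl u)
    obtain ⟨f, hf, hQf, hdf⟩ := exists_partner_in hQ Y hY hd hd0 hQd
    by_cases h1 : QuadraticMap.polar Q (d + f) u = 0
    · refine ⟨d - f, Y.sub_mem hd hf, ?_, ?_⟩
      · rw [Q_sub hQ, hQd, hQf, hdf]
        simp
      · intro h3
        rw [hbl.add_left] at h1
        rw [bil_sub_left hbl] at h3
        apply hdu
        have : (2 : F) * QuadraticMap.polar Q d u = 0 := by linear_combination h1 + h3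
        exact (mul_eq_zero.mp this).resolve_left h2
    · exact ⟨d + f, Y.add_mem hd hf, by rw [Q_add Q, hQd, hQf, hdf]; simp, h1⟩
  · exact ⟨d, hd, hQd, hdu⟩

lemma exists_nonsing_perp1_in (hQ : Cfsg.Geo.IsNondegenerateQuadraticForm Q)
    (h2 : (2 : F) ≠ 0) (Y : Submodule F (ι → F))
    (hY : Cfsg.Geo.IsNondegenerateOn (QuadraticMap.polar Q) Y) (h2Y : 2 ≤ finrank F Y)
    {p : ι → F} (hp : p ∈ Y) (hQp : Q p ≠ 0) :
    ∃ n ∈ Y, QuadraticMap.polar Q p n = 0 ∧ Q n ≠ 0 := by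
  have hbl := hQ.polar_bilinear
  have hnd := nd_inf_ker hQ h2 Y hY hp hQp
  have hfr := finrank_inf_ker Y (fR hQ.polar_bilinear p)
  have hne : (Y ⊓ LinearMap.ker (fR hQ.polar_bilinear p) : Submodule F (ι → F)) ≠ ⊥ := by
    intro h
    rw [h, finrank_bot] at hfr
    omega
  obtain ⟨n₀, hn₀, hn₀0⟩ := Submodule.exists_mem_ne_zero_of_ne_bot hne
  obtain ⟨x, hx, hxn⟩ := (hnd n₀ hn₀ hn₀0).1
  have key : ∀ z ∈ (Y ⊓ LinearMap.ker (fR hQ.polar_bilinear p) : Submodule F (ι → F)),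
      z ∈ Y ∧ QuadraticMap.polar Q p z = 0 := fun z hz =>
    ⟨hz.1, by rw [B_comm]; exact ((mem_inf_ker hQ Y p z).mp hz).2⟩
  rcases nonsing_of_pair x n₀ hxn with h | h | h
  · exact ⟨x, (key x hx).1, (key x hx).2, h⟩
  · exact ⟨n₀, (key n₀ hn₀).1, (key n₀ hn₀).2, h⟩
  · exact ⟨x + n₀, (key _ (Submodule.add_mem _ hx hn₀)).1,
      (key _ (Submodule.add_mem _ hx hn₀)).2, h⟩

/-- A nondegenerate diagonal binary form is universal. -/
lemma exists_norm_pair (hQ : Cfsg.Geo.IsNondegenerateQuadraticForm Q) {p n : ι → F}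
    (hQp : Q p ≠ 0) (hQn : Q n ≠ 0) (hpn : QuadraticMap.polar Q p n = 0) (c : F) :
    ∃ c1 c2 : F, Q (c1 • p + c2 • n) = c := by
  have hbl := hQ.polar_bilinear
  obtain ⟨c1, c2, h⟩ := iso3q (Q p) (Q n) (-c) hQp hQn
  refine ⟨c1, c2, ?_⟩
  rw [Q_add Q, hQ.smul, hQ.smul, hbl.smul_left, hbl.smul_right, hpn]
  linear_combination h

lemma exists_nonsing_in (Y : Submodule F (ι → F))
    (hY : Cfsg.Geo.IsNondegenerateOn (QuadraticMap.polar Q) Y) (hY0 : Y ≠ ⊥) :
    ∃ p ∈ Y, Q p ≠ 0 := by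
  obtain ⟨y, hy, hy0⟩ := Submodule.exists_mem_ne_zero_of_ne_bot hY0
  obtain ⟨x, hx, hxy⟩ := (hY y hy hy0).1
  rcases nonsing_of_pair x y hxy with h | h | h
  · exact ⟨x, hx, h⟩
  · exact ⟨y, hy, h⟩
  · exact ⟨x + y, Y.add_mem hx hy, h⟩

/-- A nondegenerate subspace of dimension at least `2` represents every scalar. -/
lemma exists_norm_in (hQ : Cfsg.Geo.IsNondegenerateQuadraticForm Q) (h2 : (2 : F) ≠ 0)
    (Y : Submodule F (ι → F)) (hY : Cfsg.Geo.IsNondegenerateOn (QuadraticMap.polar Q) Y)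
    (h2Y : 2 ≤ finrank F Y) (a : F) : ∃ y ∈ Y, Q y = a := by
  have hY0 : Y ≠ ⊥ := by
    intro h
    rw [h, finrank_bot] at h2Y
    omega
  obtain ⟨p, hp, hQp⟩ := exists_nonsing_in Y hY hY0
  obtain ⟨n, hn, hpn, hQn⟩ := exists_nonsing_perp1_in hQ h2 Y hY h2Y hp hQp
  obtain ⟨c1, c2, h⟩ := exists_norm_pair hQ hQp hQn hpn a
  exact ⟨c1 • p + c2 • n, Y.add_mem (Y.smul_mem _ hp) (Y.smul_mem _ hn), h⟩

/-- A second vector for a rotation: orthogonal to `p`, with `p ± t n` nonsingular. -/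
lemma exists_rot (hQ : Cfsg.Geo.IsNondegenerateQuadraticForm Q) (h2 : (2 : F) ≠ 0)
    (Y : Submodule F (ι → F)) (hY : Cfsg.Geo.IsNondegenerateOn (QuadraticMap.polar Q) Y)
    (hq : 5 ≤ Fintype.card F ∨ 4 ≤ finrank F Y) (h2Y : 2 ≤ finrank F Y) {p : ι → F}
    (hp : p ∈ Y) (hQp : Q p ≠ 0) :
    ∃ n ∈ Y, ∃ t : F, QuadraticMap.polar Q p n = 0 ∧ t ≠ 0 ∧ Q n ≠ 0 ∧
      Q p + t ^ 2 * Q n ≠ 0 := by
  classical
  have hbl := hQ.polar_bilinear
  rcases hq with hq | hq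
  · obtain ⟨n, hn, hpn, hQn⟩ := exists_nonsing_perp1_in hQ h2 Y hY h2Y hp hQp
    by_cases h1 : Q p + Q n = 0
    · obtain ⟨t, ht⟩ : ∃ t : F, t ∉ ({0, 1, -1} : Finset F) := by
        by_contra hcon
        push Not at hcon
        have hsub : (Finset.univ : Finset F) ⊆ ({0, 1, -1} : Finset F) := fun x _ => hcon x
        have h1 := Finset.card_le_card hsub
        have h3 : ({0, 1, -1} : Finset F).card ≤ 3 := Finset.card_le_three
        rw [Finset.card_univ] at h1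
        omega
      simp only [Finset.mem_insert, Finset.mem_singleton, not_or] at ht
      refine ⟨n, hn, t, hpn, ht.1, hQn, ?_⟩
      intro h
      have hQn' : Q n = - Q p := by linear_combination h1
      rw [hQn'] at h
      have h3 : Q p * (1 - t) * (1 + t) = 0 := by linear_combination h
      rcases mul_eq_zero.mp h3 with h' | h'
      · rcases mul_eq_zero.mp h' with h'' | h''
        · exact hQp h''
        · exact ht.2.1 (by linear_combination -h'')
      · exact ht.2.2 (by linear_combination h')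
    · exact ⟨n, hn, 1, hpn, one_ne_zero, hQn, by rw [one_pow, one_mul]; exact h1⟩
  · have hnd := nd_inf_ker hQ h2 Y hY hp hQp
    have hfr := finrank_inf_ker Y (fR hQ.polar_bilinear p)
    obtain ⟨e, he, f, hf, hQe, hQf, hef⟩ := exists_hyp_in hQ _ hnd (by omega)
    have he' := (mem_inf_ker hQ Y p e).mp he
    have hf' := (mem_inf_ker hQ Y p f).mp hf
    have hQn : Q (e + Q p • f) = Q p := by
      rw [Q_add_smul hQ, hQe, hQf, hef]
      ring
    refine ⟨e + Q p • f, Y.add_mem he'.1 (Y.smul_mem _ hf'.1), 1, ?_, one_ne_zero, ?_, ?_⟩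
    · rw [hbl.add_right, hbl.smul_right, B_comm Q p e, B_comm Q p f, he'.2, hf'.2]
      ring
    · rw [hQn]
      exact hQp
    · rw [hQn]
      have e2 : Q p + 1 ^ 2 * Q p = 2 * Q p := by ring
      rw [e2]
      exact mul_ne_zero h2 hQp

end Geo

end Cfsg.Agent.Lib.Helper94.OrthBlk
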