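import Mathlib
import Cfsg.Prelude.Def_GeometricClasses
import Cfsg.Agent.Lib.Helper94.OrthBlk

set_option autoImplicit false

namespace Cfsg.Agent.Lib.Helper94.OrthBlk2

open scoped Matrix
open Module
open Cfsg.Agent.Lib.Helper94.Basic Cfsg.Agent.Lib.Helper94.GLAux Cfsg.Agent.Lib.Helper94.Tv
  Cfsg.Agent.Lib.Helper94.QuadAbs Cfsg.Agent.Lib.Helper94.OrthSiegel
  Cfsg.Agent.Lib.Helper94.OrthRel Cfsg.Agent.Lib.Helper94.OrthBlk
open Cfsg.Agent.Lib.Helper94.SympAbs (bil_zero_left bil_zero_right bil_neg_left bil_neg_right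
  bil_sub_left bil_sub_right fR fLeft)
open Cfsg.Agent.Lib.Helper94.SympBlock (map_eq_of_forall_mem)
open Cfsg.Agent.Lib.Helper94.OrthND (sg_stab)
open Cfsg.Agent.Lib.Helper37.PlaneTwo (toQF toQF_coe toQF_sep)

section Gen

variable {ι : Type} [Fintype ι] [DecidableEq ι] {F : Type*} [Field F]
variable {Q : (ι → F) → F}

/-- The reflection formula. -/
def rf (Q : (ι → F) → F) (z x : ι → F) : ι → F :=
  x - ((Q z)⁻¹ * QuadraticMap.polar Q x z) • z

lemma rf_apply (z x : ι → F) :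
    rf Q z x = x - ((Q z)⁻¹ * QuadraticMap.polar Q x z) • z := rfl

lemma rf_fix {z x : ι → F} (h : QuadraticMap.polar Q x z = 0) : rf Q z x = x := by
  rw [rf_apply, h, mul_zero, zero_smul, sub_zero]

lemma sg_fix (hQ : Cfsg.Geo.IsNondegenerateQuadraticForm Q) (a w x : ι → F)
    (h1 : QuadraticMap.polar Q a x = 0) (h2 : QuadraticMap.polar Q w x = 0) :
    ((sg hQ a w : Matrix.GeneralLinearGroup ι F) : Matrix ι ι F) *ᵥ x = x := by
  by_cases h : Q a = 0 ∧ QuadraticMap.polar Q a w = 0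
  · rw [sg_mulVec hQ a w h.1 h.2, h1, h2]
    simp
  · rw [sg_not hQ a w h]
    simp

lemma Rel.zero_left (hQ : Cfsg.Geo.IsNondegenerateQuadraticForm Q)
    (M : Subgroup (Matrix.GeneralLinearGroup ι F)) (w : ι → F) : Rel hQ M 0 w := by
  refine ⟨Q_zero hQ, bil_zero_left hQ.polar_bilinear w, fun c => ?_⟩
  rw [sg_zero_left]
  exact M.one_mem

/-- The directions at a singular vector form a subspace. -/
def relSub (hQ : Cfsg.Geo.IsNondegenerateQuadraticForm Q)
    (M : Subgroup (Matrix.GeneralLinearGroup ι F)) (a : ι → F) (ha : Q a = 0) :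
    Submodule F (ι → F) where
  carrier := {y | Rel hQ M a y}
  add_mem' := fun h h' => Rel.add hQ M h h'
  zero_mem' := Rel.zero hQ M ha
  smul_mem' := fun c _ h => Rel.smul hQ M h c

lemma mem_relSub (hQ : Cfsg.Geo.IsNondegenerateQuadraticForm Q)
    (M : Subgroup (Matrix.GeneralLinearGroup ι F)) (a : ι → F) (ha : Q a = 0) (y : ι → F) :
    y ∈ relSub hQ M a ha ↔ Rel hQ M a y := Iff.rfl

lemma exists_refl2 [Fintype F] (hQ : Cfsg.Geo.IsNondegenerateQuadraticForm Q)
    (h5 : 5 ≤ Fintype.card ι) {a b : ι → F} (h : Q a = Q b) (ha : Q a ≠ 0) :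
    ∃ g : Matrix.GeneralLinearGroup ι F, g ∈ Cfsg.Geo.omegaGL Q ∧
      ∀ x, (g : Matrix ι ι F) *ᵥ x = rf Q a (rf Q b x) := by
  obtain ⟨g, hgΩ, hg⟩ := Cfsg.Agent.Lib.Helper37.MaxTS.exists_omega_refl_refl (toQF Q hQ)
    (toQF_sep Q hQ) h5 (a := a) (b := b) h ha
  refine ⟨g, hgΩ, fun x => ?_⟩
  rw [hg x, Cfsg.Agent.Lib.Helper44.OGroup.reflE_apply,
    Cfsg.Agent.Lib.Helper44.OGroup.reflE_apply]
  rfl

/-- The centre of a Siegel element which fixes `v` is a direction at `v` as soon as some direction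
at `v` is not orthogonal to it. -/
lemma rel_center (hQ : Cfsg.Geo.IsNondegenerateQuadraticForm Q) (h2 : (2 : F) ≠ 0)
    (M : Subgroup (Matrix.GeneralLinearGroup ι F))
    (hMiso : ∀ g ∈ M, ∀ v, Q ((g : Matrix ι ι F) *ᵥ v) = Q v)
    {v u b w : ι → F} (h : Rel hQ M v u) (hQb : Q b = 0)
    (hbw : QuadraticMap.polar Q b w = 0) (hQw : Q w ≠ 0) (hbu : QuadraticMap.polar Q b u ≠ 0)
    (hbv : QuadraticMap.polar Q b v = 0) (hwv : QuadraticMap.polar Q w v = 0)
    (hmem : ∀ c : F, sg hQ b (c • w) ∈ M) : Rel hQ M v b := by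
  have hbl := hQ.polar_bilinear
  have h1 := hmem 1
  have h2' := hmem (-1)
  rw [one_smul] at h1
  rw [neg_one_smul] at h2'
  have hbw' : QuadraticMap.polar Q b (-w) = 0 := by rw [bil_neg_right hbl, hbw, neg_zero]
  have r1 := h.fix hQ M hMiso h1 (sg_fix hQ b w v hbv hwv)
  have r2 := h.fix hQ M hMiso h2' (sg_fix hQ b (-w) v hbv
    (by rw [bil_neg_left hbl, hwv, neg_zero]))
  rw [sg_mulVec hQ b w hQb hbw] at r1
  rw [sg_mulVec hQ b (-w) hQb hbw'] at r2
  have r3 := ((r1.add hQ M r2).sub hQ M h).sub hQ M h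
  have e : u + QuadraticMap.polar Q b u • w - QuadraticMap.polar Q w u • b
      - (Q w * QuadraticMap.polar Q b u) • b
      + (u + QuadraticMap.polar Q b u • -w - QuadraticMap.polar Q (-w) u • b
      - (Q (-w) * QuadraticMap.polar Q b u) • b) - u - u
      = (-(2 * Q w * QuadraticMap.polar Q b u)) • b := by
    rw [Q_neg hQ, bil_neg_left hbl]
    module
  rw [e] at r3
  exact Rel.of_smul hQ M (neg_ne_zero.mpr (mul_ne_zero (mul_ne_zero h2 hQw) hbu)) r3

end Gen

section Dec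

variable {ι : Type} [Fintype ι] [DecidableEq ι] {F : Type*} [Field F] [Fintype F]
variable {Q : (ι → F) → F} {t k : ℕ} {D : Fin t → Submodule F (ι → F)}

lemma block_unique (hD : Cfsg.Geo.IsNondegenerateMDecomposition (QuadraticMap.polar Q) k D)
    {j l : Fin t} {x : ι → F} (hx : x ∈ D j) (hx0 : x ≠ 0) (hxl : x ∈ D l) : j = l := by
  by_contra hjl
  obtain ⟨d, hd, hdx⟩ := (hD.nondegenerate j x hx hx0).1
  exact hdx (hD.orthogonal j l hjl d hd x hxl)

lemma block_ne_bot (hD : Cfsg.Geo.IsNondegenerateMDecomposition (QuadraticMap.polar Q) k D)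
    (i : Fin t) : D i ≠ ⊥ := by
  intro h
  have h1 := hD.decomp.finrank_eq i
  rw [h] at h1
  have h2 := hD.decomp.pos
  simp at h1
  omega

lemma eq_zero_of_perp_all (hQ : Cfsg.Geo.IsNondegenerateQuadraticForm Q)
    (hD : Cfsg.Geo.IsNondegenerateMDecomposition (QuadraticMap.polar Q) k D) (v : ι → F)
    (h : ∀ i, ∀ d ∈ D i, QuadraticMap.polar Q d v = 0) : v = 0 := by
  by_contra hv
  obtain ⟨x, hx⟩ := (hQ.nondegenerate v hv).1
  apply hx
  have hxtop : x ∈ iSup D := by rw [hD.decomp.iSup_eq_top]; trivial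
  exact Submodule.iSup_induction D (motive := fun y => QuadraticMap.polar Q y v = 0) hxtop
    (fun i y hy => h i y hy) (bil_zero_left hQ.polar_bilinear v)
    (fun y z hy hz => by rw [hQ.polar_bilinear.add_left, hy, hz, add_zero])

lemma block_proj (hQ : Cfsg.Geo.IsNondegenerateQuadraticForm Q)
    (hD : Cfsg.Geo.IsNondegenerateMDecomposition (QuadraticMap.polar Q) k D) (j : Fin t)
    (v : ι → F) : ∃ c ∈ D j, ∀ d ∈ D j, QuadraticMap.polar Q d (v - c) = 0 := by
  obtain ⟨w, hw, w', hw', e⟩ := (opair_perp hQ (D j) (hD.nondegenerate j)).dec v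
  refine ⟨w, hw, fun d hd => ?_⟩
  have e' : v - w = w' := by rw [e]; abel
  rw [e']
  exact hw' d hd

lemma mem_block_of_perp (hQ : Cfsg.Geo.IsNondegenerateQuadraticForm Q)
    (hD : Cfsg.Geo.IsNondegenerateMDecomposition (QuadraticMap.polar Q) k D) (j : Fin t)
    (v : ι → F) (h : ∀ i, i ≠ j → ∀ d ∈ D i, QuadraticMap.polar Q d v = 0) : v ∈ D j := by
  obtain ⟨c, hc, hcv⟩ := block_proj hQ hD j v
  have h0 : v - c = 0 := by
    apply eq_zero_of_perp_all hQ hD
    intro i d hd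
    by_cases hij : i = j
    · subst hij
      exact hcv d hd
    · rw [bil_sub_right hQ.polar_bilinear, h i hij d hd, hD.orthogonal i j hij d hd c hc,
        sub_zero]
  rw [sub_eq_zero] at h0
  rw [h0]
  exact hc

lemma mixed_of_two (hD : Cfsg.Geo.IsNondegenerateMDecomposition (QuadraticMap.polar Q) k D)
    {j l : Fin t} (hjl : j ≠ l) {z e e' : ι → F} (he : e ∈ D j)
    (hez : QuadraticMap.polar Q e z ≠ 0) (he' : e' ∈ D l)
    (hez' : QuadraticMap.polar Q e' z ≠ 0) : ∀ i, z ∉ D i := by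
  intro i hi
  have h1 : j = i := by
    by_contra hne
    exact hez (hD.orthogonal j i hne e he z hi)
  have h2 : l = i := by
    by_contra hne
    exact hez' (hD.orthogonal l i hne e' he' z hi)
  exact hjl (h1.trans h2.symm)

lemma exists_family (hD : Cfsg.Geo.IsNondegenerateMDecomposition (QuadraticMap.polar Q) k D)
    (v : ι → F) : ∃ c : Fin t → (ι → F), (∀ i, c i ∈ D i) ∧ ∑ i, c i = v := by
  have hv : v ∈ iSup D := by rw [hD.decomp.iSup_eq_top]; trivial
  refine Submodule.iSup_induction D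
    (motive := fun y => ∃ c : Fin t → (ι → F), (∀ i, c i ∈ D i) ∧ ∑ i, c i = y) hv ?_ ?_ ?_
  · intro i y hy
    refine ⟨Pi.single i y, fun j => ?_, Fintype.sum_pi_single' i y⟩
    by_cases hji : j = i
    · subst hji
      rw [Pi.single_eq_same]
      exact hy
    · rw [Pi.single_eq_of_ne hji]
      exact (D j).zero_mem
  · exact ⟨0, fun i => (D i).zero_mem, by simp⟩
  · rintro y z ⟨c, hc, rfl⟩ ⟨c', hc', rfl⟩
    exact ⟨c + c', fun i => (D i).add_mem (hc i) (hc' i), by simp [Finset.sum_add_distrib]⟩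

lemma Q_sum (hQ : Cfsg.Geo.IsNondegenerateQuadraticForm Q)
    (hD : Cfsg.Geo.IsNondegenerateMDecomposition (QuadraticMap.polar Q) k D)
    (c : Fin t → (ι → F)) (hc : ∀ i, c i ∈ D i) (s : Finset (Fin t)) :
    Q (∑ i ∈ s, c i) = ∑ i ∈ s, Q (c i) := by
  classical
  induction s using Finset.induction_on with
  | empty => simp [Q_zero hQ]
  | insert a s ha ih =>
    rw [Finset.sum_insert ha, Finset.sum_insert ha, Q_add Q, ih]
    have h0 : QuadraticMap.polar Q (c a) (∑ i ∈ s, c i) = 0 := by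
      have e1 : QuadraticMap.polar Q (c a) (∑ i ∈ s, c i)
          = fLeft hQ.polar_bilinear (c a) (∑ i ∈ s, c i) := rfl
      rw [e1, map_sum]
      apply Finset.sum_eq_zero
      intro i hi
      have hia : a ≠ i := fun h => ha (h ▸ hi)
      exact hD.orthogonal a i hia (c a) (hc a) (c i) (hc i)
    rw [h0, add_zero]

lemma polar_sum (hQ : Cfsg.Geo.IsNondegenerateQuadraticForm Q)
    (hD : Cfsg.Geo.IsNondegenerateMDecomposition (QuadraticMap.polar Q) k D)
    (c : Fin t → (ι → F)) (hc : ∀ i, c i ∈ D i) (j : Fin t) (d : ι → F) (hd : d ∈ D j) :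
    QuadraticMap.polar Q d (∑ i, c i) = QuadraticMap.polar Q d (c j) := by
  classical
  have e1 : QuadraticMap.polar Q d (∑ i, c i) = fLeft hQ.polar_bilinear d (∑ i, c i) := rfl
  rw [e1, map_sum]
  rw [Finset.sum_eq_single j]
  · rfl
  · intro i _ hij
    exact hD.orthogonal j i (Ne.symm hij) d hd (c i) (hc i)
  · intro h
    exact absurd (Finset.mem_univ j) h

/-- A nonsingular vector has a nonsingular block component. -/
lemma exists_nonsing_comp (hQ : Cfsg.Geo.IsNondegenerateQuadraticForm Q)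
    (hD : Cfsg.Geo.IsNondegenerateMDecomposition (QuadraticMap.polar Q) k D) (v : ι → F)
    (hv : Q v ≠ 0) :
    ∃ i, ∃ c ∈ D i, Q c ≠ 0 ∧ ∀ d ∈ D i, QuadraticMap.polar Q d (v - c) = 0 := by
  obtain ⟨c, hc, hcv⟩ := exists_family hD v
  have h1 := Q_sum hQ hD c hc Finset.univ
  rw [hcv] at h1
  have h2 : ∑ i, Q (c i) ≠ 0 := by rw [← h1]; exact hv
  obtain ⟨i, -, hi⟩ := Finset.exists_ne_zero_of_sum_ne_zero h2
  refine ⟨i, c i, hc i, hi, fun d hd => ?_⟩
  rw [bil_sub_right hQ.polar_bilinear, ← hcv, polar_sum hQ hD c hc i d hd, sub_self]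

/-- A matrix mapping every block into a block lies in the stabiliser of the decomposition. -/
lemma mem_stab_of_forall (hD : Cfsg.Geo.IsNondegenerateMDecomposition (QuadraticMap.polar Q) k D)
    (g : Matrix.GeneralLinearGroup ι F)
    (key : ∀ i, ∃ j, ∀ a ∈ D i, (g : Matrix ι ι F) *ᵥ a ∈ D j) :
    g ∈ Cfsg.Geo.decompositionStabilizer D := by
  have hinjg : Function.Injective (Matrix.toLin' (g : Matrix ι ι F)) := by
    intro x y hxy
    rw [Matrix.toLin'_apply, Matrix.toLin'_apply] at hxy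
    exact gl_mulVec_injective g hxy
  choose σ hσ using key
  have hmap : ∀ i, (D i).map (Matrix.toLin' (g : Matrix ι ι F)) = D (σ i) := fun i =>
    map_eq_of_forall_mem g _ _ (hσ i) (by rw [hD.decomp.finrank_eq, hD.decomp.finrank_eq])
  have hinj : Function.Injective σ := by
    intro i i' h
    have h1 : (D i).map (Matrix.toLin' (g : Matrix ι ι F))
        = (D i').map (Matrix.toLin' (g : Matrix ι ι F)) := by rw [hmap, hmap, h]
    have h2 : D i = D i' := Submodule.map_injective_of_injective hinjg h1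
    obtain ⟨a0, ha0, ha00⟩ := Submodule.exists_mem_ne_zero_of_ne_bot (block_ne_bot hD i)
    exact block_unique hD ha0 ha00 (h2 ▸ ha0)
  have hbij : Function.Bijective σ := Finite.injective_iff_bijective.mp hinj
  exact ⟨Equiv.ofBijective σ hbij, fun i => by rw [hmap]; rfl⟩

lemma mem_stab_of_blocks (hD : Cfsg.Geo.IsNondegenerateMDecomposition (QuadraticMap.polar Q) k D)
    (g : Matrix.GeneralLinearGroup ι F)
    (h : ∀ i, ∀ a ∈ D i, (g : Matrix ι ι F) *ᵥ a ∈ D i) :
    g ∈ Cfsg.Geo.decompositionStabilizer D :=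
  mem_stab_of_forall hD g (fun i => ⟨i, h i⟩)

lemma mixed_map (g : Matrix.GeneralLinearGroup ι F)
    (hg : g ∈ Cfsg.Geo.decompositionStabilizer D) {v : ι → F} (hv : ∀ j, v ∉ D j) :
    ∀ j, (g : Matrix ι ι F) *ᵥ v ∉ D j := by
  obtain ⟨σ, hσ⟩ := hg
  intro j hj
  have h1 := hσ (σ.symm j)
  rw [Equiv.apply_symm_apply] at h1
  rw [← h1] at hj
  obtain ⟨x, hx, hxv⟩ := hj
  rw [Matrix.toLin'_apply] at hxv
  have h2 := gl_mulVec_injective g hxv
  exact hv _ (h2 ▸ hx)

lemma sg_mem_stab (hQ : Cfsg.Geo.IsNondegenerateQuadraticForm Q)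
    (hD : Cfsg.Geo.IsNondegenerateMDecomposition (QuadraticMap.polar Q) k D) (j : Fin t)
    {a w : ι → F} (ha : a ∈ D j) (hw : w ∈ D j) :
    sg hQ a w ∈ Cfsg.Geo.decompositionStabilizer D := by
  apply mem_stab_of_blocks hD
  intro i x hx
  by_cases hij : i = j
  · subst hij
    exact sg_stab hQ (D i) ha hw x hx
  · rw [sg_fix hQ a w x (by rw [B_comm]; exact hD.orthogonal i j hij x hx a ha)
      (by rw [B_comm]; exact hD.orthogonal i j hij x hx w hw)]
    exact hx

lemma rf_block (hD : Cfsg.Geo.IsNondegenerateMDecomposition (QuadraticMap.polar Q) k D)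
    {l i : Fin t} {b x : ι → F} (hb : b ∈ D l) (hx : x ∈ D i) : rf Q b x ∈ D i := by
  by_cases hil : i = l
  · subst hil
    exact (D i).sub_mem hx ((D i).smul_mem _ hb)
  · rw [rf_fix (hD.orthogonal i l hil x hx b hb)]
    exact hx

/-- Products of two reflections in block vectors of the same norm, as elements of the stabiliser
of the decomposition in `Ω`. -/
lemma refl2_mem (hQ : Cfsg.Geo.IsNondegenerateQuadraticForm Q)
    (h5 : 5 ≤ Fintype.card ι)
    (hD : Cfsg.Geo.IsNondegenerateMDecomposition (QuadraticMap.polar Q) k D) {j l : Fin t}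
    {a b : ι → F} (ha : a ∈ D j) (hb : b ∈ D l) (h : Q a = Q b) (hQa : Q a ≠ 0) :
    ∃ g : Matrix.GeneralLinearGroup ι F,
      g ∈ Cfsg.Geo.decompositionStabilizer D ⊓ Cfsg.Geo.omegaGL Q ∧
      ∀ x, (g : Matrix ι ι F) *ᵥ x = rf Q a (rf Q b x) := by
  obtain ⟨g, hgΩ, hg⟩ := exists_refl2 hQ h5 h hQa
  refine ⟨g, ⟨mem_stab_of_blocks hD g (fun i x hx => ?_), hgΩ⟩, hg⟩
  rw [hg]
  exact rf_block hD ha (rf_block hD hb hx)

end Dec

end Cfsg.Agent.Lib.Helper94.OrthBlk2
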