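import Mathlib
import Cfsg.Prelude.Def_GeometricClasses
import Cfsg.Agent.Lib.Helper94.OrthBlk2

set_option autoImplicit false

namespace Cfsg.Agent.Lib.Helper94.OrthBlk3

open scoped Matrix
open Module
open Cfsg.Agent.Lib.Helper94.Basic Cfsg.Agent.Lib.Helper94.GLAux Cfsg.Agent.Lib.Helper94.Tv
  Cfsg.Agent.Lib.Helper94.QuadAbs Cfsg.Agent.Lib.Helper94.OrthSiegel
  Cfsg.Agent.Lib.Helper94.OrthRel Cfsg.Agent.Lib.Helper94.OrthBlk
  Cfsg.Agent.Lib.Helper94.OrthBlk2
open Cfsg.Agent.Lib.Helper94.SympAbs (bil_zero_left bil_zero_right bil_neg_left bil_neg_right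
  bil_sub_left bil_sub_right fR fLeft)
open Cfsg.Agent.Lib.Helper94.SympBlock (map_eq_of_forall_mem)
open Cfsg.Agent.Lib.Helper94.OrthND (sg_stab)

section Main

variable {ι : Type} [Fintype ι] [DecidableEq ι] {F : Type*} [Field F] [Fintype F]
variable {Q : (ι → F) → F} {t k : ℕ} {D : Fin t → Submodule F (ι → F)}

/-- The hypothesis to be refuted: directions at a block vector stay in the block. -/
def Star (hQ : Cfsg.Geo.IsNondegenerateQuadraticForm Q)
    (M : Subgroup (Matrix.GeneralLinearGroup ι F)) (D : Fin t → Submodule F (ι → F)) : Prop :=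
  ∀ j, ∀ x ∈ D j, x ≠ 0 → ∀ w, Rel hQ M x w → w ∈ D j

lemma sg_mem_M (hQ : Cfsg.Geo.IsNondegenerateQuadraticForm Q) (h5 : 5 ≤ Fintype.card ι)
    (hD : Cfsg.Geo.IsNondegenerateMDecomposition (QuadraticMap.polar Q) k D)
    (M : Subgroup (Matrix.GeneralLinearGroup ι F))
    (hNM : Cfsg.Geo.decompositionStabilizer D ⊓ Cfsg.Geo.omegaGL Q ≤ M) (j : Fin t)
    {a w : ι → F} (ha : a ∈ D j) (hw : w ∈ D j) : sg hQ a w ∈ M :=
  hNM ⟨sg_mem_stab hQ hD j ha hw, sg_mem_omega hQ h5 _ _⟩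

lemma block_rel (hQ : Cfsg.Geo.IsNondegenerateQuadraticForm Q) (h5 : 5 ≤ Fintype.card ι)
    (hD : Cfsg.Geo.IsNondegenerateMDecomposition (QuadraticMap.polar Q) k D)
    (M : Subgroup (Matrix.GeneralLinearGroup ι F))
    (hNM : Cfsg.Geo.decompositionStabilizer D ⊓ Cfsg.Geo.omegaGL Q ≤ M) (j : Fin t)
    {a w : ι → F} (ha : a ∈ D j) (hw : w ∈ D j) (hQa : Q a = 0)
    (haw : QuadraticMap.polar Q a w = 0) : Rel hQ M a w :=
  ⟨hQa, haw, fun c => sg_mem_M hQ h5 hD M hNM j ha ((D j).smul_mem c hw)⟩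

omit [Fintype F] in
/-- Lemma T: two singular vectors differing by a block vector cannot both have all the
block directions orthogonal to them. -/
lemma lemT (hQ : Cfsg.Geo.IsNondegenerateQuadraticForm Q) (h2 : (2 : F) ≠ 0)
    (M : Subgroup (Matrix.GeneralLinearGroup ι F))
    (hMiso : ∀ g ∈ M, ∀ v, Q ((g : Matrix ι ι F) *ᵥ v) = Q v)
    (hstar : Star hQ M D) {v v₂ x : ι → F} {j : Fin t} (hv : ∀ i, v ∉ D i)
    (hQv : Q v = 0) (hQv₂ : Q v₂ = 0) (hd : v₂ - v ∈ D j)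
    (hY : ∀ y ∈ D j, QuadraticMap.polar Q v y = 0 → Rel hQ M v y)
    (hY₂ : ∀ y ∈ D j, QuadraticMap.polar Q v₂ y = 0 → Rel hQ M v₂ y)
    (hx : x ∈ D j) (hQx : Q x = 0) (hx0 : x ≠ 0)
    (hxv : QuadraticMap.polar Q x (v + v₂) = 0) : False := by
  have hbl := hQ.polar_bilinear
  have h4 : (4 : F) ≠ 0 := by
    have e : (4 : F) = 2 * 2 := by norm_num
    rw [e]
    exact mul_ne_zero h2 h2
  have contra : ∀ y ∈ D j, y ≠ 0 → Q y = 0 → QuadraticMap.polar Q v y = 0 → False := by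
    intro y hy hy0 hQy hvy
    exact hv j (hstar j y hy hy0 v ((hY y hy hvy).symm hQ M hQy))
  obtain ⟨d, hdd⟩ : ∃ d, d = v₂ - v := ⟨_, rfl⟩
  have hv₂ : v₂ = v + d := by rw [hdd]; abel
  rw [← hdd] at hd
  obtain ⟨β, hβ⟩ : ∃ β, β = QuadraticMap.polar Q v d := ⟨_, rfl⟩
  have hvv : QuadraticMap.polar Q v v = 0 := polar_self_sing hQ v hQv
  have hQd : Q d = -β := by
    have h := Q_add Q v d
    rw [← hv₂, hQv₂, hQv, ← hβ] at h
    linear_combination -h
  have hxv' : QuadraticMap.polar Q x d = -2 * QuadraticMap.polar Q x v := by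
    rw [hv₂, hbl.add_right, hbl.add_right] at hxv
    linear_combination hxv
  by_cases hβ0 : β = 0
  · by_cases hd0 : d = 0
    · have h1 : QuadraticMap.polar Q x v = 0 := by
        rw [hd0, bil_zero_right hbl] at hxv'
        have h : (2 : F) * QuadraticMap.polar Q x v = 0 := by linear_combination hxv'
        exact (mul_eq_zero.mp h).resolve_left h2
      exact contra x hx hx0 hQx (by rw [B_comm]; exact h1)
    · exact contra d hd hd0 (by rw [hQd, hβ0, neg_zero]) (by rw [← hβ]; exact hβ0)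
  · obtain ⟨γ, hγ⟩ : ∃ γ, γ = QuadraticMap.polar Q x d := ⟨_, rfl⟩
    have hxv2 : QuadraticMap.polar Q v x = -γ / 2 := by
      rw [B_comm, hγ, hxv']
      field_simp
    by_cases hγ0 : γ = 0
    · exact contra x hx hx0 hQx (by rw [hxv2, hγ0]; simp)
    · obtain ⟨y₀, hy₀⟩ : ∃ y₀, y₀ = x + (γ / (2 * β)) • d := ⟨_, rfl⟩
      have hy₀D : y₀ ∈ D j := by rw [hy₀]; exact (D j).add_mem hx ((D j).smul_mem _ hd)
      have hvy₀ : QuadraticMap.polar Q v y₀ = 0 := by
        rw [hy₀, hbl.add_right, hbl.smul_right, hxv2, ← hβ]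
        field_simp
        ring
      have hQy₀ : Q y₀ = γ ^ 2 / (4 * β) := by
        rw [hy₀, Q_add_smul hQ, hQx, ← hγ, hQd]
        field_simp
        ring
      have hv₂y₀ : QuadraticMap.polar Q v₂ y₀ = 0 := by
        rw [hv₂, hbl.add_left, hvy₀, hy₀, hbl.add_right, hbl.smul_right, B_comm Q d x, ← hγ,
          B_self hQ, hQd]
        field_simp
        ring
      obtain ⟨c, hc⟩ : ∃ c : F, c = 2 / γ := ⟨_, rfl⟩
      have hr := hY y₀ hy₀D hvy₀
      have hs : sg hQ v (c • y₀) ∈ M := hr.2.2 c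
      have hvcy : QuadraticMap.polar Q v (c • y₀) = 0 := by
        rw [hbl.smul_right, hvy₀, mul_zero]
      have hr₂ := (hY₂ y₀ hy₀D hv₂y₀).map hQ M hMiso hs
      rw [sg_mulVec hQ v (c • y₀) hQv hvcy, sg_mulVec hQ v (c • y₀) hQv hvcy] at hr₂
      have hvv₂ : QuadraticMap.polar Q v v₂ = β := by
        rw [hv₂, hbl.add_right, hvv, zero_add, hβ]
      have hone : Q (c • y₀) * β = 1 := by
        rw [hQ.smul, hQy₀, hc]
        field_simp
        norm_num
      have e1 : v₂ + QuadraticMap.polar Q v v₂ • (c • y₀) - QuadraticMap.polar Q (c • y₀) v₂ • v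
          - (Q (c • y₀) * QuadraticMap.polar Q v v₂) • v = d + (β * c) • y₀ := by
        rw [hvv₂, hbl.smul_left, B_comm Q y₀ v₂, hv₂y₀, hone, hv₂]
        module
      have e2 : y₀ + QuadraticMap.polar Q v y₀ • (c • y₀) - QuadraticMap.polar Q (c • y₀) y₀ • v
          - (Q (c • y₀) * QuadraticMap.polar Q v y₀) • v = y₀ - (c * (2 * Q y₀)) • v := by
        rw [hvy₀, hbl.smul_left, B_self hQ]
        module
      rw [e1, e2] at hr₂
      have hsv₂D : d + (β * c) • y₀ ∈ D j := (D j).add_mem hd ((D j).smul_mem _ hy₀D)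
      have hsv₂0 : d + (β * c) • y₀ ≠ 0 := by
        intro h0
        have h : QuadraticMap.polar Q v (d + (β * c) • y₀) = β := by
          rw [hbl.add_right, hbl.smul_right, hvy₀, ← hβ]
          ring
        rw [h0, bil_zero_right hbl] at h
        exact hβ0 h.symm
      have h3 := hstar j _ hsv₂D hsv₂0 _ hr₂
      have h5 : (c * (2 * Q y₀)) • v ∈ D j := by
        have h := (D j).sub_mem hy₀D h3
        rwa [sub_sub_cancel] at h
      have hne : c * (2 * Q y₀) ≠ 0 := by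
        rw [hc, hQy₀]
        exact mul_ne_zero (div_ne_zero h2 hγ0) (mul_ne_zero h2
          (div_ne_zero (pow_ne_zero 2 hγ0) (mul_ne_zero h4 hβ0)))
      apply hv j
      have h := (D j).smul_mem (c * (2 * Q y₀))⁻¹ h5
      rwa [smul_smul, inv_mul_cancel₀ hne, one_smul] at h

omit [Fintype ι] [DecidableEq ι] [Fintype F] in
lemma alg_T (g₂ ω α φ Z s : F) (h2 : (2 : F) ≠ 0) (hω0 : ω ≠ 0) (hφ0 : φ ≠ 0)
    (hZs : Z ^ 2 * 1 + s ^ 2 * 1 + -(g₂ ^ 2 / ω ^ 2 + 4 * α * φ / ω) = 0) :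
    2 * (α + ((g₂ / ω + Z + s) / (2 * φ)) * g₂ - ((g₂ / ω + Z + s) / (2 * φ)) ^ 2 * ω * φ)
      + φ * (Z / φ) * (2 * ((g₂ / ω + Z + s) / (2 * φ)) * ω) - (Z / φ) * g₂
      - (Z / φ) ^ 2 * ω * φ = 0 := by
  have hZs' : ω ^ 2 * (Z ^ 2 + s ^ 2) = g₂ ^ 2 + 4 * α * φ * ω := by
    field_simp at hZs
    linear_combination hZs
  field_simp
  linear_combination (-1 : F) * hZs'

/-- Lemma T': under `Star`, a mixed singular vector cannot have all the orthogonal vectors of a
block as directions. -/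
lemma lemT' (hQ : Cfsg.Geo.IsNondegenerateQuadraticForm Q) (h2 : (2 : F) ≠ 0)
    (hcard : 5 ≤ Fintype.card ι)
    (hD : Cfsg.Geo.IsNondegenerateMDecomposition (QuadraticMap.polar Q) k D) (hk : 3 ≤ k)
    (M : Subgroup (Matrix.GeneralLinearGroup ι F))
    (hNM : Cfsg.Geo.decompositionStabilizer D ⊓ Cfsg.Geo.omegaGL Q ≤ M)
    (hMiso : ∀ g ∈ M, ∀ v, Q ((g : Matrix ι ι F) *ᵥ v) = Q v)
    (hstar : Star hQ M D) {v : ι → F} (hv : ∀ i, v ∉ D i) (hQv : Q v = 0) (j : Fin t)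
    (hY : ∀ y ∈ D j, QuadraticMap.polar Q v y = 0 → Rel hQ M v y) : False := by
  have hbl := hQ.polar_bilinear
  have h3 : 3 ≤ finrank F (D j) := by rw [hD.decomp.finrank_eq]; exact hk
  obtain ⟨b, hb, f, hf, hQb, hQf, hbf⟩ := exists_hyp_in hQ (D j) (hD.nondegenerate j) h3
  obtain ⟨w, hw, hbw, hfw, hQw⟩ := exists_nonsing_perp_pair_in hQ (D j) (hD.nondegenerate j) h3
    hb hf hQb hQf hbf
  have hb0 : b ≠ 0 := by
    rintro rfl
    rw [bil_zero_left hbl] at hbf
    exact zero_ne_one hbf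
  obtain ⟨φ, hφ⟩ : ∃ φ, φ = QuadraticMap.polar Q v b := ⟨_, rfl⟩
  by_cases hφ0 : φ = 0
  · exact hv j (hstar j b hb hb0 v ((hY b hb (by rw [← hφ]; exact hφ0)).symm hQ M hQb))
  obtain ⟨α, hα⟩ : ∃ α, α = QuadraticMap.polar Q v f := ⟨_, rfl⟩
  obtain ⟨g₂, hg₂⟩ : ∃ g₂, g₂ = QuadraticMap.polar Q v w := ⟨_, rfl⟩
  obtain ⟨ω, hω⟩ : ∃ ω, ω = Q w := ⟨_, rfl⟩
  have hω0 : ω ≠ 0 := by rw [hω]; exact hQw
  obtain ⟨Z, s, hZs⟩ := iso3q (1 : F) 1 (-(g₂ ^ 2 / ω ^ 2 + 4 * α * φ / ω)) one_ne_zero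
    one_ne_zero
  have halg := alg_T g₂ ω α φ Z s h2 hω0 hφ0 hZs
  obtain ⟨lam, hlam⟩ : ∃ lam : F, lam = Z / φ := ⟨_, rfl⟩
  obtain ⟨ζ, hζ⟩ : ∃ ζ : F, ζ = (g₂ / ω + Z + s) / (2 * φ) := ⟨_, rfl⟩
  rw [← hlam, ← hζ] at halg
  have hblw : QuadraticMap.polar Q b (lam • w) = 0 := by rw [hbl.smul_right, hbw, mul_zero]
  have hh : sg hQ b (lam • w) ∈ M := sg_mem_M hQ hcard hD M hNM j hb ((D j).smul_mem _ hw)
  have hinv : sg hQ b (lam • w) * sg hQ b (-(lam • w)) = 1 := by
    rw [sg_mul hQ b _ _ hQb hblw (by rw [bil_neg_right hbl, hblw, neg_zero]), add_neg_cancel,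
      sg_zero_right]
  obtain ⟨v₂, hv₂⟩ : ∃ v₂, v₂ = ((sg hQ b (lam • w) : Matrix.GeneralLinearGroup ι F) :
      Matrix ι ι F) *ᵥ v := ⟨_, rfl⟩
  have hbv : QuadraticMap.polar Q b v = φ := by rw [B_comm, hφ]
  have hwv : QuadraticMap.polar Q w v = g₂ := by rw [B_comm, hg₂]
  have hfv : QuadraticMap.polar Q f v = α := by rw [B_comm, hα]
  have hv₂' : v₂ = v + φ • (lam • w) - (lam * g₂) • b - (lam ^ 2 * ω * φ) • b := by
    rw [hv₂, sg_mulVec hQ b (lam • w) hQb hblw, hbv, hbl.smul_left, hwv, hQ.smul, ← hω]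
  obtain ⟨x, hx⟩ : ∃ x, x = f + ζ • w - Q (ζ • w) • b := ⟨_, rfl⟩
  have hxD : x ∈ D j := by
    rw [hx]
    exact (D j).sub_mem ((D j).add_mem hf ((D j).smul_mem _ hw)) ((D j).smul_mem _ hb)
  have hfb : QuadraticMap.polar Q f b = 1 := by rw [B_comm]; exact hbf
  have hwb : QuadraticMap.polar Q w b = 0 := by rw [B_comm]; exact hbw
  have hQx : Q x = 0 := by
    rw [hx]
    exact hyp_sing hQ hQf hQb hfb (by rw [hbl.smul_right, hfw, mul_zero])
      (by rw [hbl.smul_right, hbw, mul_zero])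
  have hbb := polar_self_sing hQ b hQb
  have hxb : QuadraticMap.polar Q x b = 1 := by
    rw [hx, bil_sub_left hbl, hbl.add_left, hbl.smul_left, hbl.smul_left, hfb, hwb, hbb]
    ring
  have hxw : QuadraticMap.polar Q x w = 2 * ζ * ω := by
    rw [hx, bil_sub_left hbl, hbl.add_left, hbl.smul_left, hbl.smul_left, hfw, B_self hQ, hbw,
      ← hω]
    ring
  have hxv1 : QuadraticMap.polar Q x v = α + ζ * g₂ - ζ ^ 2 * ω * φ := by
    rw [hx, bil_sub_left hbl, hbl.add_left, hbl.smul_left, hbl.smul_left, hfv, hwv, hbv,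
      hQ.smul, ← hω]
  have hx0 : x ≠ 0 := by
    intro h0
    rw [h0, bil_zero_left hbl] at hxb
    exact zero_ne_one hxb
  refine lemT hQ h2 M hMiso hstar hv hQv (v₂ := v₂) (x := x) (j := j) ?_ ?_ hY ?_ hxD hQx hx0 ?_
  · rw [hv₂, sg_isom hQ]
    exact hQv
  · rw [hv₂']
    have e : v + φ • lam • w - (lam * g₂) • b - (lam ^ 2 * ω * φ) • b - v
        = φ • lam • w - (lam * g₂) • b - (lam ^ 2 * ω * φ) • b := by abel
    rw [e]
    exact (D j).sub_mem ((D j).sub_mem ((D j).smul_mem _ ((D j).smul_mem _ hw))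
      ((D j).smul_mem _ hb)) ((D j).smul_mem _ hb)
  · intro y hy hv₂y
    obtain ⟨y', hy'⟩ : ∃ y', y' = ((sg hQ b (-(lam • w)) : Matrix.GeneralLinearGroup ι F) :
        Matrix ι ι F) *ᵥ y := ⟨_, rfl⟩
    have hy'D : y' ∈ D j := by
      rw [hy']
      exact sg_stab hQ (D j) hb ((D j).neg_mem ((D j).smul_mem _ hw)) y hy
    have hhy' : ((sg hQ b (lam • w) : Matrix.GeneralLinearGroup ι F) : Matrix ι ι F) *ᵥ y'
        = y := by
      rw [hy', Matrix.mulVec_mulVec, ← Units.val_mul, hinv, Units.val_one, Matrix.one_mulVec]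
    have hvy' : QuadraticMap.polar Q v y' = 0 := by
      rw [← polar_of_isom (sg hQ b (lam • w)) (sg_isom hQ _ _) v y', ← hv₂, hhy']
      exact hv₂y
    have hr := (hY y' hy'D hvy').map hQ M hMiso hh
    rw [hhy', ← hv₂] at hr
    exact hr
  · rw [hv₂', hbl.add_right, bil_sub_right hbl, bil_sub_right hbl, hbl.add_right,
      hbl.smul_right, hbl.smul_right, hbl.smul_right, hbl.smul_right, hxv1, hxw, hxb]
    linear_combination halg

/-- Lemma D: under `Star`, a direction at a mixed singular vector is blockwise proportional to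
it. -/
lemma lemD (hQ : Cfsg.Geo.IsNondegenerateQuadraticForm Q) (h2 : (2 : F) ≠ 0)
    (hcard : 5 ≤ Fintype.card ι)
    (hD : Cfsg.Geo.IsNondegenerateMDecomposition (QuadraticMap.polar Q) k D) (hk : 3 ≤ k)
    (hq : 5 ≤ Fintype.card F ∨ 5 ≤ k)
    (M : Subgroup (Matrix.GeneralLinearGroup ι F))
    (hNM : Cfsg.Geo.decompositionStabilizer D ⊓ Cfsg.Geo.omegaGL Q ≤ M)
    (hMiso : ∀ g ∈ M, ∀ v, Q ((g : Matrix ι ι F) *ᵥ v) = Q v)
    (hstar : Star hQ M D) {v u : ι → F} (hv : ∀ i, v ∉ D i) (h : Rel hQ M v u) (j : Fin t) :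
    ∃ lam : F, ∀ d ∈ D j, QuadraticMap.polar Q d (u - lam • v) = 0 := by
  have hbl := hQ.polar_bilinear
  have hQv := h.1
  have h3 : 3 ≤ finrank F (D j) := by rw [hD.decomp.finrank_eq]; exact hk
  have hnd := hD.nondegenerate j
  obtain ⟨c, hc, hcv⟩ := block_proj hQ hD j v
  have hdv : ∀ d ∈ D j, QuadraticMap.polar Q d v = QuadraticMap.polar Q d c := by
    intro d hd
    have h1 := hcv d hd
    rw [bil_sub_right hbl] at h1
    linear_combination h1
  have nrel : ∀ b ∈ D j, b ≠ 0 → Q b = 0 → ¬ Rel hQ M v b := by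
    intro b hb hb0 hQb hr
    exact hv j (hstar j b hb hb0 v (hr.symm hQ M hQb))
  by_cases hc0 : c = 0
  · refine ⟨0, fun d hd => ?_⟩
    rw [zero_smul, sub_zero]
    by_contra hdu
    obtain ⟨b, hb, hQb, hbu⟩ := exists_sing_not_perp_in hQ (D j) hnd h3 u ⟨d, hd, hdu⟩
    have hb0 : b ≠ 0 := by
      rintro rfl
      exact hbu (bil_zero_left hbl u)
    obtain ⟨w, hw, hbw, hQw⟩ := exists_nonsing_perp_in hQ (D j) hnd h3 hb hb0 hQb
    have hbv : QuadraticMap.polar Q b v = 0 := by rw [hdv b hb, hc0, bil_zero_right hbl]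
    have hwv : QuadraticMap.polar Q w v = 0 := by rw [hdv w hw, hc0, bil_zero_right hbl]
    exact nrel b hb hb0 hQb (rel_center hQ h2 M hMiso h hQb hbw hQw hbu hbv hwv
      (fun c' => sg_mem_M hQ hcard hD M hNM j hb ((D j).smul_mem _ hw)))
  by_cases hQc : Q c = 0
  · have hcc := polar_self_sing hQ c hQc
    have hcv' : QuadraticMap.polar Q c v = 0 := by rw [hdv c hc, hcc]
    have hcu : QuadraticMap.polar Q c u = 0 := by
      by_contra hcu
      obtain ⟨w, hw, hcw, hQw⟩ := exists_nonsing_perp_in hQ (D j) hnd h3 hc hc0 hQc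
      have hwv : QuadraticMap.polar Q w v = 0 := by rw [hdv w hw, B_comm]; exact hcw
      exact nrel c hc hc0 hQc (rel_center hQ h2 M hMiso h hQc hcw hQw hcu hcv' hwv
        (fun c' => sg_mem_M hQ hcard hD M hNM j hc ((D j).smul_mem _ hw)))
    have hperp : ∀ w ∈ D j, QuadraticMap.polar Q c w = 0 → QuadraticMap.polar Q w u = 0 := by
      intro w hw hcw
      by_contra hwu
      have hwv : QuadraticMap.polar Q w v = 0 := by rw [hdv w hw, B_comm]; exact hcw
      have hs := sg_mem_M hQ hcard hD M hNM j hc hw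
      have r1 := h.fix hQ M hMiso hs (sg_fix hQ c w v hcv' hwv)
      rw [sg_mulVec hQ c w hQc hcw, hcu] at r1
      have r2 := r1.sub hQ M h
      have e : u + (0 : F) • w - QuadraticMap.polar Q w u • c - (Q w * 0) • c - u
          = (-(QuadraticMap.polar Q w u)) • c := by module
      rw [e] at r2
      exact nrel c hc hc0 hQc (Rel.of_smul hQ M (neg_ne_zero.mpr hwu) r2)
    obtain ⟨f, hf, hQf, hcf⟩ := exists_partner_in hQ (D j) hnd hc hc0 hQc
    refine ⟨QuadraticMap.polar Q f u, fun d hd => ?_⟩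
    have h1 := hperp (d - QuadraticMap.polar Q d c • f)
      ((D j).sub_mem hd ((D j).smul_mem _ hf))
      (by rw [bil_sub_right hbl, hbl.smul_right, hcf, B_comm Q c d]; ring)
    rw [bil_sub_left hbl, hbl.smul_left] at h1
    rw [bil_sub_right hbl, hbl.smul_right, hdv d hd]
    linear_combination h1
  · have hcc : QuadraticMap.polar Q c c = 2 * Q c := B_self hQ c
    have h2Qc : 2 * Q c ≠ 0 := mul_ne_zero h2 hQc
    obtain ⟨lam, hlam⟩ : ∃ lam : F, lam = QuadraticMap.polar Q c u / (2 * Q c) := ⟨_, rfl⟩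
    refine ⟨lam, ?_⟩
    obtain ⟨us, hus⟩ : ∃ us, us = u - lam • v := ⟨_, rfl⟩
    rw [← hus]
    have hrs : Rel hQ M v us := by
      rw [hus]
      exact h.sub hQ M ((Rel.self hQ M hQv).smul hQ M lam)
    have hcus : QuadraticMap.polar Q c us = 0 := by
      rw [hus, bil_sub_right hbl, hbl.smul_right, hdv c hc, hcc, hlam]
      field_simp
      ring
    by_contra hcon
    push Not at hcon
    obtain ⟨d, hd, hdus⟩ := hcon
    obtain ⟨Y, hYdef⟩ : ∃ Y : Submodule F (ι → F),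
        Y = D j ⊓ LinearMap.ker (fR hQ.polar_bilinear c) := ⟨_, rfl⟩
    have hmemY : ∀ y, y ∈ Y ↔ y ∈ D j ∧ QuadraticMap.polar Q y c = 0 := by
      intro y
      rw [hYdef]
      exact mem_inf_ker hQ (D j) c y
    have hYnd : Cfsg.Geo.IsNondegenerateOn (QuadraticMap.polar Q) Y := by
      rw [hYdef]
      exact nd_inf_ker hQ h2 (D j) hnd hc hQc
    have hYfr : k ≤ finrank F Y + 1 := by
      have h1 := finrank_inf_ker (D j) (fR hQ.polar_bilinear c)
      rw [hD.decomp.finrank_eq, ← hYdef] at h1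
      exact h1
    have hYv : ∀ y ∈ Y, QuadraticMap.polar Q y v = 0 := by
      intro y hy
      rw [hdv y ((hmemY y).mp hy).1]
      exact ((hmemY y).mp hy).2
    have hd1 : ∃ d₁ ∈ Y, QuadraticMap.polar Q d₁ us ≠ 0 := by
      refine ⟨d - (QuadraticMap.polar Q d c / (2 * Q c)) • c,
        (hmemY _).mpr ⟨(D j).sub_mem hd ((D j).smul_mem _ hc), ?_⟩, ?_⟩
      · rw [bil_sub_left hbl, hbl.smul_left, hcc]
        field_simp
        ring
      · rw [bil_sub_left hbl, hbl.smul_left, hcus]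
        simpa using hdus
    obtain ⟨p, hp, hQp, hpus⟩ := exists_nonsing_not_perp_in hQ h2 Y hYnd us hd1
    have hYfr2 : 2 ≤ finrank F Y := by omega
    obtain ⟨n, hn, tt, hpn, htt, hQn, hQpn⟩ := exists_rot hQ h2 Y hYnd (by
      rcases hq with hq | hq
      · exact Or.inl hq
      · right
        omega) hYfr2 hp hQp
    obtain ⟨yp, hyp⟩ : ∃ yp, yp = p + tt • n := ⟨_, rfl⟩
    obtain ⟨ym, hym⟩ : ∃ ym, ym = p - tt • n := ⟨_, rfl⟩
    have hypY : yp ∈ Y := by rw [hyp]; exact Y.add_mem hp (Y.smul_mem _ hn)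
    have hymY : ym ∈ Y := by rw [hym]; exact Y.sub_mem hp (Y.smul_mem _ hn)
    have hQyp : Q yp = Q p + tt ^ 2 * Q n := by
      rw [hyp, Q_add_smul hQ, hpn]
      ring
    have hQym : Q ym = Q p + tt ^ 2 * Q n := by
      rw [hym, Q_sub hQ, hQ.smul, hbl.smul_right, hpn]
      ring
    have hQym0 : Q ym ≠ 0 := by rw [hQym]; exact hQpn
    have hQyp0 : Q yp ≠ 0 := by rw [hQyp]; exact hQpn
    obtain ⟨ρ, hρN, hρ⟩ := refl2_mem hQ hcard hD (j := j) (l := j) (a := yp) (b := ym)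
      ((hmemY yp).mp hypY).1 ((hmemY ym).mp hymY).1 (by rw [hQyp, hQym]) hQyp0
    have hρv : (ρ : Matrix ι ι F) *ᵥ v = v := by
      rw [hρ, rf_fix (z := ym) (x := v) (by rw [B_comm]; exact hYv ym hymY),
        rf_fix (z := yp) (x := v) (by rw [B_comm]; exact hYv yp hypY)]
    have r1 := (hrs.fix hQ M hMiso (hNM hρN) hρv).sub hQ M hrs
    rw [hρ] at r1
    obtain ⟨am, ham⟩ : ∃ am : F, am = (Q ym)⁻¹ * QuadraticMap.polar Q us ym := ⟨_, rfl⟩
    obtain ⟨ap, hap⟩ : ∃ ap : F,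
        ap = (Q yp)⁻¹ * QuadraticMap.polar Q (us - am • ym) yp := ⟨_, rfl⟩
    have eτ : rf Q yp (rf Q ym us) - us = -(am • ym) - ap • yp := by
      rw [rf_apply ym us, ← ham, rf_apply, ← hap]
      abel
    rw [eτ] at r1
    obtain ⟨T, hT⟩ : ∃ T : Submodule F (ι → F), T = Y ⊓ relSub hQ M v hQv := ⟨_, rfl⟩
    have hmemT : ∀ y, y ∈ T ↔ y ∈ Y ∧ Rel hQ M v y := by
      intro y
      rw [hT]
      exact Iff.rfl
    have hτT : -(am • ym) - ap • yp ∈ T := (hmemT _).mpr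
      ⟨Y.sub_mem (Y.neg_mem (Y.smul_mem _ hymY)) (Y.smul_mem _ hypY), r1⟩
    have hτ0 : -(am • ym) - ap • yp ≠ 0 := by
      intro h0
      have hpp : QuadraticMap.polar Q p p = 2 * Q p := B_self hQ p
      have hnn : QuadraticMap.polar Q n n = 2 * Q n := B_self hQ n
      have hnp : QuadraticMap.polar Q n p = 0 := by rw [B_comm]; exact hpn
      have e1 : QuadraticMap.polar Q (-(am • ym) - ap • yp) p = -(2 * Q p) * (am + ap) := by
        rw [bil_sub_left hbl, bil_neg_left hbl, hbl.smul_left, hbl.smul_left, hym, hyp,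
          bil_sub_left hbl, hbl.add_left, hbl.smul_left, hpp, hnp]
        ring
      have e2 : QuadraticMap.polar Q (-(am • ym) - ap • yp) n = (2 * Q n * tt) * (am - ap) := by
        rw [bil_sub_left hbl, bil_neg_left hbl, hbl.smul_left, hbl.smul_left, hym, hyp,
          bil_sub_left hbl, hbl.add_left, hbl.smul_left, hpn, hnn]
        ring
      rw [h0, bil_zero_left hbl] at e1 e2
      have s1 : am + ap = 0 := by
        rcases mul_eq_zero.mp e1.symm with h' | h'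
        · exact absurd (neg_eq_zero.mp h') (mul_ne_zero h2 hQp)
        · exact h'
      have s2 : am - ap = 0 := by
        rcases mul_eq_zero.mp e2.symm with h' | h'
        · exact absurd h' (mul_ne_zero (mul_ne_zero h2 hQn) htt)
        · exact h'
      have ham0 : am = 0 := by
        have h' : 2 * am = 0 := by linear_combination s1 + s2
        exact (mul_eq_zero.mp h').resolve_left h2
      have hap0 : ap = 0 := by linear_combination s1 - ham0
      have b1 : QuadraticMap.polar Q us ym = 0 := by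
        rw [ham0] at ham
        exact (mul_eq_zero.mp ham.symm).resolve_left (inv_ne_zero hQym0)
      have b2 : QuadraticMap.polar Q us yp = 0 := by
        rw [hap0, ham0, zero_smul, sub_zero] at hap
        exact (mul_eq_zero.mp hap.symm).resolve_left (inv_ne_zero hQyp0)
      rw [hym, bil_sub_right hbl, hbl.smul_right] at b1
      rw [hyp, hbl.add_right, hbl.smul_right] at b2
      have h' : 2 * QuadraticMap.polar Q us p = 0 := by linear_combination b1 + b2
      have h'' := (mul_eq_zero.mp h').resolve_left h2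
      exact hpus (by rw [B_comm]; exact h'')
    have hT0 : T ≠ ⊥ := fun hbot => hτ0 ((Submodule.mem_bot F).mp (hbot ▸ hτT))
    have hQvc : Q (v - c) ≠ 0 := by
      rw [Q_sub hQ, hQv, B_comm Q v c, hdv c hc, hcc]
      intro h'
      apply hQc
      linear_combination -h'
    obtain ⟨l, cl, hcl, hQcl, hclv⟩ := exists_nonsing_comp hQ hD (v - c) hQvc
    have hlj : l ≠ j := by
      rintro rfl
      have h1 := hclv cl hcl
      rw [bil_sub_right hbl, hcv cl hcl, B_self hQ] at h1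
      apply hQcl
      have h' : 2 * Q cl = 0 := by linear_combination -h1
      exact (mul_eq_zero.mp h').resolve_left h2
    have hdlv : ∀ d ∈ D l, QuadraticMap.polar Q d v = QuadraticMap.polar Q d cl := by
      intro d hd
      have h1 := hclv d hd
      rw [bil_sub_right hbl, bil_sub_right hbl, hD.orthogonal l j hlj d hd c hc] at h1
      linear_combination h1
    obtain ⟨Yl, hYldef⟩ : ∃ Yl : Submodule F (ι → F),
        Yl = D l ⊓ LinearMap.ker (fR hQ.polar_bilinear cl) := ⟨_, rfl⟩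
    have hYlnd : Cfsg.Geo.IsNondegenerateOn (QuadraticMap.polar Q) Yl := by
      rw [hYldef]
      exact nd_inf_ker hQ h2 (D l) (hD.nondegenerate l) hcl hQcl
    have hYlfr : 2 ≤ finrank F Yl := by
      have h1 := finrank_inf_ker (D l) (fR hQ.polar_bilinear cl)
      rw [hD.decomp.finrank_eq, ← hYldef] at h1
      omega
    have hrefl : ∀ w ∈ Y, Q w ≠ 0 → w ∈ T ∨ ∀ t' ∈ T, QuadraticMap.polar Q t' w = 0 := by
      intro w hw hQw
      obtain ⟨y', hy'Yl, hQy'⟩ := exists_norm_in hQ h2 Yl hYlnd hYlfr (Q w)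
      have hy' : y' ∈ D l ∧ QuadraticMap.polar Q y' cl = 0 := by
        rw [hYldef] at hy'Yl
        exact (mem_inf_ker hQ (D l) cl y').mp hy'Yl
      have hy'v : QuadraticMap.polar Q y' v = 0 := by rw [hdlv y' hy'.1]; exact hy'.2
      obtain ⟨ρ', hρ'N, hρ'⟩ := refl2_mem hQ hcard hD (j := j) (l := l) (a := w) (b := y')
        ((hmemY w).mp hw).1 hy'.1 hQy'.symm hQw
      have hρ'v : (ρ' : Matrix ι ι F) *ᵥ v = v := by
        rw [hρ', rf_fix (z := y') (x := v) (by rw [B_comm]; exact hy'v),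
          rf_fix (z := w) (x := v) (by rw [B_comm]; exact hYv w hw)]
      by_cases hall : ∀ t' ∈ T, QuadraticMap.polar Q t' w = 0
      · exact Or.inr hall
      · left
        push Not at hall
        obtain ⟨t', ht', ht'w⟩ := hall
        have ht'2 := (hmemT t').mp ht'
        have ht'D : t' ∈ D j := ((hmemY t').mp ht'2.1).1
        have r2 := ht'2.2.fix hQ M hMiso (hNM hρ'N) hρ'v
        rw [hρ', rf_fix (z := y') (x := t') (hD.orthogonal j l (Ne.symm hlj) t' ht'D y' hy'.1),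
          rf_apply] at r2
        have r3 := ht'2.2.sub hQ M r2
        rw [sub_sub_cancel] at r3
        exact (hmemT w).mpr ⟨hw, Rel.of_smul hQ M (mul_ne_zero (inv_ne_zero hQw) ht'w) r3⟩
    have hsg : ∀ c' ∈ Y, ∀ d' ∈ Y, Q c' = 0 → QuadraticMap.polar Q c' d' = 0 → ∀ t' ∈ T,
        t' + QuadraticMap.polar Q c' t' • d' - QuadraticMap.polar Q d' t' • c'
          - (Q d' * QuadraticMap.polar Q c' t') • c' ∈ T := by
      intro c' hc' d' hd' hQc' hc'd' t' ht'
      have ht'2 := (hmemT t').mp ht'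
      have hs := sg_mem_M hQ hcard hD M hNM j ((hmemY c').mp hc').1 ((hmemY d').mp hd').1
      have r2 := ht'2.2.fix hQ M hMiso hs (sg_fix hQ c' d' v (hYv c' hc') (hYv d' hd'))
      rw [sg_mulVec hQ c' d' hQc' hc'd'] at r2
      exact (hmemT _).mpr ⟨Y.sub_mem (Y.sub_mem (Y.add_mem ht'2.1 (Y.smul_mem _ hd'))
        (Y.smul_mem _ hc')) (Y.smul_mem _ hc'), r2⟩
    have hTY : T = Y := by
      by_contra hne
      obtain ⟨hF3, hfr2, -⟩ := irr hQ Y T hYnd (by rw [hT]; exact inf_le_left) hT0 hrefl hsg hne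
      rcases hq with hq | hq
      · omega
      · omega
    apply lemT' hQ h2 hcard hD hk M hNM hMiso hstar hv hQv j
    intro y hy hvy
    have hyY : y ∈ Y := (hmemY y).mpr ⟨hy, by rw [← hdv y hy, B_comm]; exact hvy⟩
    rw [← hTY] at hyY
    exact ((hmemT y).mp hyY).2

end Main

end Cfsg.Agent.Lib.Helper94.OrthBlk3
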