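import Mathlib
import Cfsg.Prelude.Def_GeometricClasses
import Cfsg.Agent.Lib.Helper94.OrthBlk3

set_option autoImplicit false

namespace Cfsg.Agent.Lib.Helper94.OrthBlk4

open scoped Matrix
open Module
open Cfsg.Agent.Lib.Helper94.Basic Cfsg.Agent.Lib.Helper94.GLAux Cfsg.Agent.Lib.Helper94.Tv
  Cfsg.Agent.Lib.Helper94.QuadAbs Cfsg.Agent.Lib.Helper94.OrthSiegel
  Cfsg.Agent.Lib.Helper94.OrthRel Cfsg.Agent.Lib.Helper94.OrthBlk
  Cfsg.Agent.Lib.Helper94.OrthBlk2 Cfsg.Agent.Lib.Helper94.OrthBlk3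
open Cfsg.Agent.Lib.Helper94.SympAbs (bil_zero_left bil_zero_right bil_neg_left bil_neg_right
  bil_sub_left bil_sub_right fR fLeft)
open Cfsg.Agent.Lib.Helper94.SympBlock (map_eq_of_forall_mem)
open Cfsg.Agent.Lib.Helper94.OrthND (sg_stab)

section Main

variable {ι : Type} [Fintype ι] [DecidableEq ι] {F : Type*} [Field F] [Fintype F]
variable {Q : (ι → F) → F} {t k : ℕ} {D : Fin t → Submodule F (ι → F)}

/-- Under `Star` there is no direction at a mixed singular vector outside its line. -/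
lemma no_mixed_flag (hQ : Cfsg.Geo.IsNondegenerateQuadraticForm Q) (h2 : (2 : F) ≠ 0)
    (hcard : 5 ≤ Fintype.card ι)
    (hD : Cfsg.Geo.IsNondegenerateMDecomposition (QuadraticMap.polar Q) k D) (hk : 3 ≤ k)
    (hq : 5 ≤ Fintype.card F ∨ 5 ≤ k)
    (M : Subgroup (Matrix.GeneralLinearGroup ι F))
    (hNM : Cfsg.Geo.decompositionStabilizer D ⊓ Cfsg.Geo.omegaGL Q ≤ M)
    (hMiso : ∀ g ∈ M, ∀ v, Q ((g : Matrix ι ι F) *ᵥ v) = Q v)
    (hstar : Star hQ M D) {v u : ι → F} (hv : ∀ i, v ∉ D i) (h : Rel hQ M v u)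
    (hu : ∀ lam : F, u ≠ lam • v) : False := by
  have hbl := hQ.polar_bilinear
  have hQv := h.1
  have hvv := polar_self_sing hQ v hQv
  have hv0 : v ≠ 0 := by
    rintro rfl
    exact hv ⟨0, by have := hD.decomp.two_le; omega⟩ (Submodule.zero_mem _)
  obtain ⟨j0, e₀, he₀, he₀v⟩ : ∃ j0, ∃ e₀ ∈ D j0, QuadraticMap.polar Q e₀ v ≠ 0 := by
    by_contra hcon
    push Not at hcon
    exact hv0 (eq_zero_of_perp_all hQ hD v hcon)
  obtain ⟨lam0, hlam0⟩ := lemD hQ h2 hcard hD hk hq M hNM hMiso hstar hv h j0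
  obtain ⟨u', hu'⟩ : ∃ u', u' = u - lam0 • v := ⟨_, rfl⟩
  rw [← hu'] at hlam0
  have hr' : Rel hQ M v u' := by
    rw [hu']
    exact h.sub hQ M ((Rel.self hQ M hQv).smul hQ M lam0)
  have hu'0 : u' ≠ 0 := by
    intro h0
    rw [hu', sub_eq_zero] at h0
    exact hu lam0 h0
  obtain ⟨l, e₁, he₁, he₁u⟩ : ∃ l, ∃ e₁ ∈ D l, QuadraticMap.polar Q e₁ u' ≠ 0 := by
    by_contra hcon
    push Not at hcon
    exact hu'0 (eq_zero_of_perp_all hQ hD u' hcon)
  have hlj : l ≠ j0 := by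
    rintro rfl
    exact he₁u (hlam0 e₁ he₁)
  obtain ⟨μ, hμ⟩ := lemD hQ h2 hcard hD hk hq M hNM hMiso hstar hv hr' l
  have he₁u' : QuadraticMap.polar Q e₁ u' = μ * QuadraticMap.polar Q e₁ v := by
    have h1 := hμ e₁ he₁
    rw [bil_sub_right hbl, hbl.smul_right] at h1
    linear_combination h1
  have hμ0 : μ ≠ 0 := by
    rintro rfl
    rw [zero_mul] at he₁u'
    exact he₁u he₁u'
  have he₁v : QuadraticMap.polar Q e₁ v ≠ 0 := by
    intro h0
    rw [h0, mul_zero] at he₁u'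
    exact he₁u he₁u'
  have h3 : 3 ≤ finrank F (D j0) := by rw [hD.decomp.finrank_eq]; exact hk
  have hnd := hD.nondegenerate j0
  obtain ⟨b, hb, hQb, hbv⟩ := exists_sing_not_perp_in hQ (D j0) hnd h3 v ⟨e₀, he₀, he₀v⟩
  have hb0 : b ≠ 0 := by
    rintro rfl
    exact hbv (bil_zero_left hbl v)
  obtain ⟨w, hw, hbw, hQw⟩ := exists_nonsing_perp_in hQ (D j0) hnd h3 hb hb0 hQb
  have hbb := polar_self_sing hQ b hQb
  have hwb : QuadraticMap.polar Q w b = 0 := by rw [B_comm]; exact hbw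
  have hww : QuadraticMap.polar Q w w = 2 * Q w := B_self hQ w
  have hhM : sg hQ b w ∈ M := sg_mem_M hQ hcard hD M hNM j0 hb hw
  obtain ⟨d, hd⟩ : ∃ d, d = QuadraticMap.polar Q b v • w - QuadraticMap.polar Q w v • b
      - (Q w * QuadraticMap.polar Q b v) • b := ⟨_, rfl⟩
  have hdD : d ∈ D j0 := by
    rw [hd]
    exact (D j0).sub_mem ((D j0).sub_mem ((D j0).smul_mem _ hw) ((D j0).smul_mem _ hb))
      ((D j0).smul_mem _ hb)
  obtain ⟨v1, hv1⟩ : ∃ v1, v1 = ((sg hQ b w : Matrix.GeneralLinearGroup ι F) :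
      Matrix ι ι F) *ᵥ v := ⟨_, rfl⟩
  have hv1' : v1 = v + d := by
    rw [hv1, sg_mulVec hQ b w hQb hbw, hd]
    abel
  have hbd : QuadraticMap.polar Q b d = 0 := by
    rw [hd, bil_sub_right hbl, bil_sub_right hbl, hbl.smul_right, hbl.smul_right,
      hbl.smul_right, hbw, hbb]
    ring
  have hwd : QuadraticMap.polar Q w d = 2 * Q w * QuadraticMap.polar Q b v := by
    rw [hd, bil_sub_right hbl, bil_sub_right hbl, hbl.smul_right, hbl.smul_right,
      hbl.smul_right, hww, hwb]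
    ring
  have hbu' : QuadraticMap.polar Q b u' = 0 := hlam0 b hb
  have hwu' : QuadraticMap.polar Q w u' = 0 := hlam0 w hw
  have hfixu' : ((sg hQ b w : Matrix.GeneralLinearGroup ι F) : Matrix ι ι F) *ᵥ u' = u' :=
    sg_fix hQ b w u' hbu' hwu'
  have hr2 : Rel hQ M v1 u' := by
    have h1 := hr'.map hQ M hMiso hhM
    rw [hfixu', ← hv1] at h1
    exact h1
  have hmix2 : ∀ i, v1 ∉ D i := by
    rw [hv1]
    exact mixed_map _ (sg_mem_stab hQ hD j0 hb hw) hv
  obtain ⟨β, hβ⟩ : ∃ β, β = QuadraticMap.polar Q v v1 := ⟨_, rfl⟩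
  have hvu' : QuadraticMap.polar Q v u' = 0 := hr'.2.1
  have hv1u' : QuadraticMap.polar Q v1 u' = 0 := hr2.2.1
  have hd0 : d ≠ 0 := by
    intro h0
    rw [h0, bil_zero_right hbl] at hwd
    exact mul_ne_zero (mul_ne_zero h2 hQw) hbv hwd.symm
  by_cases hQu' : Q u' = 0
  · have r1 := hr'.symm hQ M hQu'
    have r2 := hr2.symm hQ M hQu'
    have r3 := r2.sub hQ M r1
    have e : v1 - v = d := by rw [hv1']; abel
    rw [e] at r3
    by_cases hmixu : ∀ i, u' ∉ D i
    · obtain ⟨lam, hlam⟩ := lemD hQ h2 hcard hD hk hq M hNM hMiso hstar hmixu r3 j0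
      have h1 := hlam w hw
      rw [bil_sub_right hbl, hbl.smul_right, hwu', mul_zero, sub_zero, hwd] at h1
      exact mul_ne_zero (mul_ne_zero h2 hQw) hbv h1
    · push Not at hmixu
      obtain ⟨i, hi⟩ := hmixu
      have h1 := hstar i u' hi hu'0 d r3
      have hij : j0 = i := block_unique hD hdD hd0 h1
      subst hij
      obtain ⟨x, hx, hxu⟩ := (hnd u' hi hu'0).1
      exact hxu (hlam0 x hx)
  · obtain ⟨c, hc2, hpc⟩ : ∃ c : F, c ^ 2 = 1 ∧ 1 + β * μ * c - Q u' * β * c ^ 2 ≠ 0 := by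
      by_cases h1 : 1 + β * μ * 1 - Q u' * β * 1 ^ 2 = 0
      · refine ⟨-1, by ring, ?_⟩
        intro h1'
        have hβ0 : β = 0 := by
          have h' : 2 * (β * μ) = 0 := by linear_combination h1 - h1'
          rcases mul_eq_zero.mp h' with h'' | h''
          · exact absurd h'' h2
          · exact (mul_eq_zero.mp h'').resolve_right hμ0
        rw [hβ0] at h1
        simp at h1
      · exact ⟨1, by ring, h1⟩
    have hc0 : c ≠ 0 := by
      rintro rfl
      simp at hc2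
    have hsM : sg hQ v (c • u') ∈ M := hr'.2.2 c
    have hvcu : QuadraticMap.polar Q v (c • u') = 0 := by rw [hbl.smul_right, hvu', mul_zero]
    have r3 := hr2.map hQ M hMiso hsM
    rw [sg_mulVec hQ v (c • u') hQv hvcu, sg_mulVec hQ v (c • u') hQv hvcu] at r3
    have e1 : v1 + QuadraticMap.polar Q v v1 • (c • u') - QuadraticMap.polar Q (c • u') v1 • v
        - (Q (c • u') * QuadraticMap.polar Q v v1) • v
        = v1 + (β * c) • u' - (Q u' * β) • v := by
      rw [← hβ, hbl.smul_left, B_comm Q u' v1, hv1u', hQ.smul, hc2]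
      module
    have e2 : u' + QuadraticMap.polar Q v u' • (c • u') - QuadraticMap.polar Q (c • u') u' • v
        - (Q (c • u') * QuadraticMap.polar Q v u') • v = u' - (c * (2 * Q u')) • v := by
      rw [hvu', hbl.smul_left, B_self hQ]
      module
    rw [e1, e2] at r3
    obtain ⟨z, hz⟩ : ∃ z, z = v1 + (β * c) • u' - (Q u' * β) • v := ⟨_, rfl⟩
    rw [← hz] at r3
    have hbz : QuadraticMap.polar Q b z = QuadraticMap.polar Q b v * (1 - Q u' * β) := by
      rw [hz, bil_sub_right hbl, hbl.add_right, hbl.smul_right, hbl.smul_right, hv1',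
        hbl.add_right, hbd, hbu']
      ring
    have hwz : QuadraticMap.polar Q w z = QuadraticMap.polar Q w v * (1 - Q u' * β)
        + 2 * Q w * QuadraticMap.polar Q b v := by
      rw [hz, bil_sub_right hbl, hbl.add_right, hbl.smul_right, hbl.smul_right, hv1',
        hbl.add_right, hwd, hwu']
      ring
    have he₁d : QuadraticMap.polar Q e₁ d = 0 := hD.orthogonal l j0 hlj e₁ he₁ d hdD
    have he₁z : QuadraticMap.polar Q e₁ z
        = QuadraticMap.polar Q e₁ v * (1 + β * μ * c - Q u' * β * c ^ 2) := by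
      rw [hz, bil_sub_right hbl, hbl.add_right, hbl.smul_right, hbl.smul_right, hv1',
        hbl.add_right, he₁d, he₁u', hc2]
      ring
    have hmixz : ∀ i, z ∉ D i := by
      by_cases hb1 : QuadraticMap.polar Q b z = 0
      · have h1 : 1 - Q u' * β = 0 := by
          rw [hbz] at hb1
          exact (mul_eq_zero.mp hb1).resolve_left hbv
        have hwz' : QuadraticMap.polar Q w z ≠ 0 := by
          rw [hwz, h1, mul_zero, zero_add]
          exact mul_ne_zero (mul_ne_zero h2 hQw) hbv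
        exact mixed_of_two hD (Ne.symm hlj) hw hwz' he₁
          (by rw [he₁z]; exact mul_ne_zero he₁v hpc)
      · exact mixed_of_two hD (Ne.symm hlj) hb hb1 he₁
          (by rw [he₁z]; exact mul_ne_zero he₁v hpc)
    obtain ⟨lam, hlam⟩ := lemD hQ h2 hcard hD hk hq M hNM hMiso hstar hmixz r3 j0
    have E1 := hlam b hb
    have E2 := hlam w hw
    rw [bil_sub_right hbl, bil_sub_right hbl, hbl.smul_right, hbl.smul_right, hbu', hbz] at E1
    rw [bil_sub_right hbl, bil_sub_right hbl, hbl.smul_right, hbl.smul_right, hwu', hwz] at E2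
    have hlam0' : lam = 0 := by
      have h' : lam * (2 * Q w * QuadraticMap.polar Q b v ^ 2) = 0 := by
        linear_combination QuadraticMap.polar Q w v * E1 - QuadraticMap.polar Q b v * E2
      rcases mul_eq_zero.mp h' with h'' | h''
      · exact h''
      · exact absurd h'' (mul_ne_zero (mul_ne_zero h2 hQw) (pow_ne_zero 2 hbv))
    rw [hlam0'] at E1
    have h' : c * (2 * Q u') * QuadraticMap.polar Q b v = 0 := by linear_combination -E1
    exact mul_ne_zero (mul_ne_zero hc0 (mul_ne_zero h2 hQu')) hbv h'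

/-- Step 1: a subgroup satisfying `Star` is contained in the stabiliser. -/
lemma star_false (hQ : Cfsg.Geo.IsNondegenerateQuadraticForm Q) (h2 : (2 : F) ≠ 0)
    (hcard : 5 ≤ Fintype.card ι)
    (hD : Cfsg.Geo.IsNondegenerateMDecomposition (QuadraticMap.polar Q) k D) (hk : 3 ≤ k)
    (hq : 5 ≤ Fintype.card F ∨ 5 ≤ k)
    (M : Subgroup (Matrix.GeneralLinearGroup ι F))
    (hNM : Cfsg.Geo.decompositionStabilizer D ⊓ Cfsg.Geo.omegaGL Q ≤ M)
    (hMiso : ∀ g ∈ M, ∀ v, Q ((g : Matrix ι ι F) *ᵥ v) = Q v)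
    (hstar : Star hQ M D) {g : Matrix.GeneralLinearGroup ι F} (hgM : g ∈ M) :
    g ∈ Cfsg.Geo.decompositionStabilizer D := by
  have hbl := hQ.polar_bilinear
  apply mem_stab_of_forall hD
  have key1 : ∀ i, ∀ a ∈ D i, a ≠ 0 → Q a = 0 → ∃ j, (g : Matrix ι ι F) *ᵥ a ∈ D j ∧
      ∀ w ∈ D i, QuadraticMap.polar Q a w = 0 → (g : Matrix ι ι F) *ᵥ w ∈ D j := by
    intro i a ha ha0 hQa
    have h3 : 3 ≤ finrank F (D i) := by rw [hD.decomp.finrank_eq]; exact hk
    have hga0 : (g : Matrix ι ι F) *ᵥ a ≠ 0 := by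
      intro h0
      apply ha0
      apply gl_mulVec_injective g
      show (g : Matrix ι ι F) *ᵥ a = (g : Matrix ι ι F) *ᵥ 0
      rw [h0, Matrix.mulVec_zero]
    by_cases hmix : ∀ j, (g : Matrix ι ι F) *ᵥ a ∉ D j
    · exfalso
      obtain ⟨w, hw, haw, hQw⟩ := exists_nonsing_perp_in hQ (D i) (hD.nondegenerate i) h3 ha
        ha0 hQa
      have r := (block_rel hQ hcard hD M hNM i ha hw hQa haw).map hQ M hMiso hgM
      refine no_mixed_flag hQ h2 hcard hD hk hq M hNM hMiso hstar hmix r ?_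
      intro lam hlam
      rw [← Matrix.mulVec_smul] at hlam
      have h1 : w = lam • a := gl_mulVec_injective g hlam
      rw [h1, hQ.smul, hQa, mul_zero] at hQw
      exact hQw rfl
    · push Not at hmix
      obtain ⟨j, hj⟩ := hmix
      refine ⟨j, hj, fun w hw haw => ?_⟩
      exact hstar j _ hj hga0 _
        ((block_rel hQ hcard hD M hNM i ha hw hQa haw).map hQ M hMiso hgM)
  intro i
  have h3 : 3 ≤ finrank F (D i) := by rw [hD.decomp.finrank_eq]; exact hk
  obtain ⟨a, ha, a', ha', hQa, hQa', haa'⟩ := exists_hyp_in hQ (D i) (hD.nondegenerate i) h3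
  obtain ⟨w₀, hw₀, haw₀, ha'w₀, hQw₀⟩ := exists_nonsing_perp_pair_in hQ (D i)
    (hD.nondegenerate i) h3 ha ha' hQa hQa' haa'
  have ha0 : a ≠ 0 := by
    rintro rfl
    rw [bil_zero_left hbl] at haa'
    exact zero_ne_one haa'
  have ha'0 : a' ≠ 0 := by
    rintro rfl
    rw [bil_zero_right hbl] at haa'
    exact zero_ne_one haa'
  obtain ⟨j, hj, hjw⟩ := key1 i a ha ha0 hQa
  obtain ⟨j', hj', hj'w⟩ := key1 i a' ha' ha'0 hQa'
  have hw₀0 : (g : Matrix ι ι F) *ᵥ w₀ ≠ 0 := by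
    intro h0
    have h1 : w₀ = 0 := by
      apply gl_mulVec_injective g
      show (g : Matrix ι ι F) *ᵥ w₀ = (g : Matrix ι ι F) *ᵥ 0
      rw [h0, Matrix.mulVec_zero]
    rw [h1, Q_zero hQ] at hQw₀
    exact hQw₀ rfl
  have hjj' : j = j' := block_unique hD (hjw w₀ hw₀ haw₀) hw₀0 (hj'w w₀ hw₀ ha'w₀)
  subst hjj'
  refine ⟨j, fun x hx => ?_⟩
  obtain ⟨z, hz⟩ : ∃ z, z = x - QuadraticMap.polar Q a' x • a
      - QuadraticMap.polar Q a x • a' := ⟨_, rfl⟩
  have hzD : z ∈ D i := by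
    rw [hz]
    exact (D i).sub_mem ((D i).sub_mem hx ((D i).smul_mem _ ha)) ((D i).smul_mem _ ha')
  obtain ⟨hza, -⟩ := proj_hyp hQ hQa hQa' haa' x
  rw [← hz] at hza
  have e : x = z + QuadraticMap.polar Q a' x • a + QuadraticMap.polar Q a x • a' := by
    rw [hz]
    abel
  rw [e, Matrix.mulVec_add, Matrix.mulVec_add, Matrix.mulVec_smul, Matrix.mulVec_smul]
  exact (D j).add_mem ((D j).add_mem (hjw z hzD hza) ((D j).smul_mem _ hj))
    ((D j).smul_mem _ hj')

end Main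

end Cfsg.Agent.Lib.Helper94.OrthBlk4
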