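import Mathlib
import Cfsg.Prelude.Def_GeometricClasses
import Cfsg.Agent.Lib.Helper94.OrthBlk2
import Cfsg.Agent.Lib.Helper14.OrthIndex

set_option autoImplicit false

namespace Cfsg.Agent.Lib.Helper94.OrthBlk5

open scoped Matrix
open Module
open Cfsg.Agent.Lib.Helper94.Basic Cfsg.Agent.Lib.Helper94.GLAux Cfsg.Agent.Lib.Helper94.Tv
  Cfsg.Agent.Lib.Helper94.QuadAbs Cfsg.Agent.Lib.Helper94.OrthSiegel
  Cfsg.Agent.Lib.Helper94.OrthRel Cfsg.Agent.Lib.Helper94.OrthBlk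
  Cfsg.Agent.Lib.Helper94.OrthBlk2
open Cfsg.Agent.Lib.Helper94.SympAbs (bil_zero_left bil_zero_right bil_neg_left bil_neg_right
  bil_sub_left bil_sub_right fR fLeft)
open Cfsg.Agent.Lib.Helper94.SympBlock (map_eq_of_forall_mem)
open Cfsg.Agent.Lib.Helper37.PlaneTwo (toQF toQF_coe toQF_sep)

section Swap

variable {ι : Type} [Fintype ι] [DecidableEq ι] {F : Type*} [Field F] [Fintype F]
variable {Q : (ι → F) → F}

/-- An isometry between two orthogonal nondegenerate subspaces extends to an involutory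
isometry of the whole space interchanging them and fixing their common orthogonal complement. -/
theorem exists_swap_aux (hQ : Cfsg.Geo.IsNondegenerateQuadraticForm Q) (h2 : (2 : F) ≠ 0) :
    ∀ n : ℕ, ∀ (A : Submodule F (ι → F)), finrank F A ≤ n →
    Cfsg.Geo.IsNondegenerateOn (QuadraticMap.polar Q) A →
    ∀ e : (ι → F) →ₗ[F] (ι → F), (∀ a ∈ A, Q (e a) = Q a) →
      (∀ a ∈ A, ∀ a' ∈ A, QuadraticMap.polar Q a (e a') = 0) →
      ∃ g : Matrix.GeneralLinearGroup ι F, (∀ v, Q ((g : Matrix ι ι F) *ᵥ v) = Q v) ∧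
        (∀ a ∈ A, (g : Matrix ι ι F) *ᵥ a = e a) ∧
        (∀ a ∈ A, (g : Matrix ι ι F) *ᵥ (e a) = a) ∧
        ∀ v, (∀ a ∈ A, QuadraticMap.polar Q a v = 0) →
          (∀ a ∈ A, QuadraticMap.polar Q (e a) v = 0) → (g : Matrix ι ι F) *ᵥ v = v := by
  have hbl := hQ.polar_bilinear
  have base : ∀ (A : Submodule F (ι → F)), A = ⊥ →
      ∀ e : (ι → F) →ₗ[F] (ι → F),
      ∃ g : Matrix.GeneralLinearGroup ι F, (∀ v, Q ((g : Matrix ι ι F) *ᵥ v) = Q v) ∧
        (∀ a ∈ A, (g : Matrix ι ι F) *ᵥ a = e a) ∧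
        (∀ a ∈ A, (g : Matrix ι ι F) *ᵥ (e a) = a) ∧
        ∀ v, (∀ a ∈ A, QuadraticMap.polar Q a v = 0) →
          (∀ a ∈ A, QuadraticMap.polar Q (e a) v = 0) → (g : Matrix ι ι F) *ᵥ v = v := by
    intro A hA0 e
    refine ⟨1, fun v => by simp, fun a ha => ?_, fun a ha => ?_, fun v _ _ => by simp⟩
    · rw [hA0] at ha
      rw [(Submodule.mem_bot F).mp ha]
      simp
    · rw [hA0] at ha
      rw [(Submodule.mem_bot F).mp ha]
      simp
  intro n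
  induction n with
  | zero =>
    intro A hA hnd e he hperp
    exact base A (Submodule.finrank_eq_zero.mp (by omega)) e
  | succ n ih =>
    intro A hA hnd e he hperp
    by_cases hA0 : A = ⊥
    · exact base A hA0 e
    obtain ⟨p, hp, hQp⟩ := exists_nonsing_in A hnd hA0
    have hepol : ∀ a ∈ A, ∀ a' ∈ A,
        QuadraticMap.polar Q (e a) (e a') = QuadraticMap.polar Q a a' := by
      intro a ha a' ha'
      unfold QuadraticMap.polar
      rw [← map_add, he _ (A.add_mem ha ha'), he a ha, he a' ha']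
    obtain ⟨q, hq⟩ : ∃ q, q = p - e p := ⟨_, rfl⟩
    have hpep : QuadraticMap.polar Q p (e p) = 0 := hperp p hp p hp
    have hQq : Q q = 2 * Q p := by
      rw [hq, Q_sub hQ, he p hp, hpep]
      ring
    have hQq0 : Q q ≠ 0 := by rw [hQq]; exact mul_ne_zero h2 hQp
    obtain ⟨A₁, hA₁⟩ : ∃ A₁ : Submodule F (ι → F),
        A₁ = A ⊓ LinearMap.ker (fR hQ.polar_bilinear p) := ⟨_, rfl⟩
    have hmemA₁ : ∀ y, y ∈ A₁ ↔ y ∈ A ∧ QuadraticMap.polar Q y p = 0 := by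
      intro y
      rw [hA₁]
      exact mem_inf_ker hQ A p y
    have hA₁nd : Cfsg.Geo.IsNondegenerateOn (QuadraticMap.polar Q) A₁ := by
      rw [hA₁]
      exact nd_inf_ker hQ h2 A hnd hp hQp
    have hA₁lt : A₁ < A := by
      refine lt_of_le_of_ne (fun y hy => ((hmemA₁ y).mp hy).1) ?_
      intro heq
      have h1 : p ∈ A₁ := heq ▸ hp
      have h3 := ((hmemA₁ p).mp h1).2
      rw [B_self hQ] at h3
      exact mul_ne_zero h2 hQp h3
    have hA₁fr : finrank F A₁ ≤ n := by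
      have h1 := Submodule.finrank_lt_finrank_of_lt hA₁lt
      omega
    obtain ⟨g₁, hg₁iso, hg₁A, hg₁eA, hg₁fix⟩ := ih A₁ hA₁fr hA₁nd e
      (fun a ha => he a ((hmemA₁ a).mp ha).1)
      (fun a ha a' ha' => hperp a ((hmemA₁ a).mp ha).1 a' ((hmemA₁ a').mp ha').1)
    have hmul : ∀ x, ((refl hQ q hQq0 * g₁ : Matrix.GeneralLinearGroup ι F) : Matrix ι ι F) *ᵥ x
        = ((refl hQ q hQq0 : Matrix.GeneralLinearGroup ι F) : Matrix ι ι F) *ᵥ
          ((g₁ : Matrix ι ι F) *ᵥ x) := by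
      intro x
      rw [Units.val_mul, Matrix.mulVec_mulVec]
    have hpp : QuadraticMap.polar Q p p = 2 * Q p := B_self hQ p
    have F1 : (g₁ : Matrix ι ι F) *ᵥ p = p := by
      apply hg₁fix
      · intro a ha
        exact ((hmemA₁ a).mp ha).2
      · intro a ha
        rw [B_comm]
        exact hperp p hp a ((hmemA₁ a).mp ha).1
    have F2 : (g₁ : Matrix ι ι F) *ᵥ (e p) = e p := by
      apply hg₁fix
      · intro a ha
        exact hperp a ((hmemA₁ a).mp ha).1 p hp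
      · intro a ha
        rw [hepol a ((hmemA₁ a).mp ha).1 p hp]
        exact ((hmemA₁ a).mp ha).2
    have hpq : QuadraticMap.polar Q p q = Q q := by
      rw [hQq, hq, bil_sub_right hbl, hpp, hpep]
      ring
    have hepq : QuadraticMap.polar Q (e p) q = -Q q := by
      rw [hQq, hq, bil_sub_right hbl, B_comm Q (e p) p, hpep, B_self hQ, he p hp]
      ring
    have F3 : ((refl hQ q hQq0 : Matrix.GeneralLinearGroup ι F) : Matrix ι ι F) *ᵥ p = e p := by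
      rw [refl_mulVec, hpq, mul_inv_cancel₀ hQq0, one_smul, hq]
      abel
    have F4 : ((refl hQ q hQq0 : Matrix.GeneralLinearGroup ι F) : Matrix ι ι F) *ᵥ (e p) = p := by
      rw [refl_mulVec, hepq, neg_mul, mul_inv_cancel₀ hQq0, neg_one_smul, hq]
      abel
    have F5 : ∀ a ∈ A₁, ((refl hQ q hQq0 : Matrix.GeneralLinearGroup ι F) : Matrix ι ι F) *ᵥ a
        = a := by
      intro a ha
      apply refl_fix
      rw [hq, bil_sub_right hbl, ((hmemA₁ a).mp ha).2, hperp a ((hmemA₁ a).mp ha).1 p hp,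
        sub_zero]
    have F6 : ∀ a ∈ A₁, ((refl hQ q hQq0 : Matrix.GeneralLinearGroup ι F) : Matrix ι ι F) *ᵥ
        (e a) = e a := by
      intro a ha
      apply refl_fix
      rw [hq, bil_sub_right hbl, B_comm Q (e a) p, hperp p hp a ((hmemA₁ a).mp ha).1,
        hepol a ((hmemA₁ a).mp ha).1 p hp, ((hmemA₁ a).mp ha).2, sub_zero]
    have hdec : ∀ a ∈ A, ∃ a₁ ∈ A₁, ∃ lam : F, a = a₁ + lam • p := by
      intro a ha
      refine ⟨a - (QuadraticMap.polar Q a p / (2 * Q p)) • p,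
        (hmemA₁ _).mpr ⟨A.sub_mem ha (A.smul_mem _ hp), ?_⟩,
        QuadraticMap.polar Q a p / (2 * Q p), by abel⟩
      rw [bil_sub_left hbl, hbl.smul_left, hpp]
      have h2Qp : 2 * Q p ≠ 0 := mul_ne_zero h2 hQp
      field_simp
      ring
    refine ⟨refl hQ q hQq0 * g₁, ?_, ?_, ?_, ?_⟩
    · intro v
      rw [hmul, refl_isom hQ q hQq0, hg₁iso]
    · intro a ha
      obtain ⟨a₁, ha₁, lam, rfl⟩ := hdec a ha
      rw [hmul, Matrix.mulVec_add, Matrix.mulVec_smul, hg₁A a₁ ha₁, F1, Matrix.mulVec_add,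
        Matrix.mulVec_smul, F6 a₁ ha₁, F3, map_add, map_smul]
    · intro a ha
      obtain ⟨a₁, ha₁, lam, rfl⟩ := hdec a ha
      rw [hmul, map_add, map_smul, Matrix.mulVec_add, Matrix.mulVec_smul, hg₁eA a₁ ha₁, F2,
        Matrix.mulVec_add, Matrix.mulVec_smul, F5 a₁ ha₁, F4]
    · intro v hv1 hv2
      rw [hmul, hg₁fix v (fun a ha => hv1 a ((hmemA₁ a).mp ha).1)
        (fun a ha => hv2 a ((hmemA₁ a).mp ha).1)]
      apply refl_fix
      rw [hq, bil_sub_right hbl, B_comm Q v p, hv1 p hp, B_comm Q v (e p), hv2 p hp, sub_zero]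

variable {t k : ℕ} {D : Fin t → Submodule F (ι → F)}

/-- An isometry interchanging two blocks and fixing the other blocks pointwise. -/
lemma exists_swap (hQ : Cfsg.Geo.IsNondegenerateQuadraticForm Q) (h2 : (2 : F) ≠ 0)
    (hD : Cfsg.Geo.IsOrthogonalMDecomposition Q k D) {j l : Fin t} (hjl : j ≠ l) :
    ∃ g : Matrix.GeneralLinearGroup ι F, (∀ v, Q ((g : Matrix ι ι F) *ᵥ v) = Q v) ∧
      (∀ a ∈ D j, (g : Matrix ι ι F) *ᵥ a ∈ D l) ∧
      (∀ a ∈ D l, (g : Matrix ι ι F) *ᵥ a ∈ D j) ∧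
      ∀ i, i ≠ j → i ≠ l → ∀ x ∈ D i, (g : Matrix ι ι F) *ᵥ x = x := by
  obtain ⟨e₀, he₀⟩ := hD.isometric j l
  obtain ⟨e, he⟩ := LinearMap.exists_extend ((D l).subtype ∘ₗ e₀.toLinearMap)
  have hea : ∀ a (ha : a ∈ D j), e a = (e₀ ⟨a, ha⟩ : ι → F) := by
    intro a ha
    have h1 := LinearMap.congr_fun he ⟨a, ha⟩
    simpa using h1
  have heD : ∀ a ∈ D j, e a ∈ D l := fun a ha => by
    rw [hea a ha]
    exact (e₀ ⟨a, ha⟩).2
  obtain ⟨g, hiso, hgA, hgeA, hfix⟩ := exists_swap_aux hQ h2 (finrank F (D j)) (D j) le_rfl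
    (hD.decomp.nondegenerate j) e
    (fun a ha => by rw [hea a ha]; exact he₀ ⟨a, ha⟩)
    (fun a ha a' ha' => hD.decomp.orthogonal j l hjl a ha (e a') (heD a' ha'))
  refine ⟨g, hiso, fun a ha => by rw [hgA a ha]; exact heD a ha, fun a' ha' => ?_,
    fun i hij hil x hx => ?_⟩
  · have h1 : e (e₀.symm ⟨a', ha'⟩ : ι → F) = a' := by
      rw [hea _ (e₀.symm ⟨a', ha'⟩).2]
      simp
    rw [← h1, hgeA _ (e₀.symm ⟨a', ha'⟩).2]
    exact (e₀.symm ⟨a', ha'⟩).2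
  · apply hfix
    · intro a ha
      rw [B_comm]
      exact hD.decomp.orthogonal i j hij x hx a ha
    · intro a ha
      rw [B_comm]
      exact hD.decomp.orthogonal i l hil x hx (e a) (heD a ha)

/-- An element of the stabiliser in `Ω` permuting three blocks cyclically. -/
lemma exists_cycle (hQ : Cfsg.Geo.IsNondegenerateQuadraticForm Q) (h2 : (2 : F) ≠ 0)
    (hcard : 2 ≤ Fintype.card ι)
    (hD : Cfsg.Geo.IsOrthogonalMDecomposition Q k D) {j l c : Fin t} (hjl : j ≠ l)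
    (hjc : j ≠ c) (hlc : l ≠ c) :
    ∃ π : Matrix.GeneralLinearGroup ι F,
      π ∈ Cfsg.Geo.decompositionStabilizer D ⊓ Cfsg.Geo.omegaGL Q ∧
      (∀ a ∈ D j, (π : Matrix ι ι F) *ᵥ a ∈ D l) ∧
      (∀ a ∈ D l, (π : Matrix ι ι F) *ᵥ a ∈ D c) ∧
      (∀ a ∈ D c, (π : Matrix ι ι F) *ᵥ a ∈ D j) := by
  obtain ⟨σ₁, h1iso, h1j, h1l, h1fix⟩ := exists_swap hQ h2 hD hjl
  obtain ⟨σ₂, h2iso, h2l, h2c, h2fix⟩ := exists_swap hQ h2 hD hlc
  obtain ⟨ψ, hψdef⟩ : ∃ ψ : Matrix.GeneralLinearGroup ι F, ψ = σ₂ * σ₁ := ⟨_, rfl⟩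
  have hψ : ∀ x, (ψ : Matrix ι ι F) *ᵥ x = (σ₂ : Matrix ι ι F) *ᵥ ((σ₁ : Matrix ι ι F) *ᵥ x) := by
    intro x
    rw [hψdef, Units.val_mul, Matrix.mulVec_mulVec]
  have ψj : ∀ a ∈ D j, (ψ : Matrix ι ι F) *ᵥ a ∈ D c := fun a ha => by
    rw [hψ]
    exact h2l _ (h1j a ha)
  have ψl : ∀ a ∈ D l, (ψ : Matrix ι ι F) *ᵥ a ∈ D j := fun a ha => by
    rw [hψ, h2fix j hjl hjc _ (h1l a ha)]
    exact h1l a ha
  have ψc : ∀ a ∈ D c, (ψ : Matrix ι ι F) *ᵥ a ∈ D l := fun a ha => by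
    rw [hψ, h1fix c (Ne.symm hjc) (Ne.symm hlc) a ha]
    exact h2c a ha
  have ψiso : ∀ v, Q ((ψ : Matrix ι ι F) *ᵥ v) = Q v := by
    intro v
    rw [hψ, h2iso, h1iso]
  have hψstab : ψ ∈ Cfsg.Geo.decompositionStabilizer D := by
    apply mem_stab_of_forall hD.decomp
    intro i
    by_cases hij : i = j
    · subst hij
      exact ⟨c, ψj⟩
    by_cases hil : i = l
    · subst hil
      exact ⟨j, ψl⟩
    by_cases hic : i = c
    · subst hic
      exact ⟨l, ψc⟩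
    · refine ⟨i, fun a ha => ?_⟩
      rw [hψ, h1fix i hij hil a ha, h2fix i hil hic a ha]
      exact ha
  have hmul : ∀ x, ((ψ * ψ : Matrix.GeneralLinearGroup ι F) : Matrix ι ι F) *ᵥ x
      = (ψ : Matrix ι ι F) *ᵥ ((ψ : Matrix ι ι F) *ᵥ x) := by
    intro x
    rw [Units.val_mul, Matrix.mulVec_mulVec]
  have hmem : ψ ∈ Cfsg.isometryGroup F Q := (mem_isometryGroup_iff Q ψ).mpr ψiso
  have hsq := Cfsg.Agent.Lib.Helper14.OrthIndex.sq_mem_omega h2 (toQF Q hQ) (toQF_sep Q hQ)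
    hcard ⟨ψ, hmem⟩
  refine ⟨ψ * ψ, ⟨Subgroup.mul_mem _ hψstab hψstab, ⟨_, hsq, rfl⟩⟩, ?_, ?_, ?_⟩
  · intro a ha
    rw [hmul]
    exact ψc _ (ψj a ha)
  · intro a ha
    rw [hmul]
    exact ψj _ (ψl a ha)
  · intro a ha
    rw [hmul]
    exact ψl _ (ψc a ha)

end Swap

end Cfsg.Agent.Lib.Helper94.OrthBlk5
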