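import Mathlib
import Cfsg.Prelude.Def_GeometricClasses
import Cfsg.Agent.Lib.Helper94.OrthBlk4
import Cfsg.Agent.Lib.Helper94.OrthBlk5

set_option autoImplicit false

namespace Cfsg.Agent.Lib.Helper94.OrthBlk6

open scoped Matrix
open Module
open Cfsg.Agent.Lib.Helper94.Basic Cfsg.Agent.Lib.Helper94.GLAux Cfsg.Agent.Lib.Helper94.Tv
  Cfsg.Agent.Lib.Helper94.QuadAbs Cfsg.Agent.Lib.Helper94.OrthSiegel
  Cfsg.Agent.Lib.Helper94.OrthRel Cfsg.Agent.Lib.Helper94.OrthBlk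
  Cfsg.Agent.Lib.Helper94.OrthBlk2 Cfsg.Agent.Lib.Helper94.OrthBlk3
  Cfsg.Agent.Lib.Helper94.OrthBlk4 Cfsg.Agent.Lib.Helper94.OrthBlk5
open Cfsg.Agent.Lib.Helper94.SympAbs (bil_zero_left bil_zero_right bil_neg_left bil_neg_right
  bil_sub_left bil_sub_right fR fLeft)
open Cfsg.Agent.Lib.Helper94.SympBlock (map_eq_of_forall_mem)
open Cfsg.Agent.Lib.Helper94.OrthND (sg_stab)

section Main

variable {ι : Type} [Fintype ι] [DecidableEq ι] {F : Type*} [Field F] [Fintype F]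
variable {Q : (ι → F) → F} {t k : ℕ} {D : Fin t → Submodule F (ι → F)}

omit [Fintype ι] [DecidableEq ι] [Fintype F] in
lemma exists_third (ht : 3 ≤ t) (j l : Fin t) : ∃ c : Fin t, c ≠ j ∧ c ≠ l := by
  by_contra hcon
  push Not at hcon
  have h0 := hcon ⟨0, by omega⟩
  have h1 := hcon ⟨1, by omega⟩
  have h2 := hcon ⟨2, by omega⟩
  simp only [ne_eq, Fin.ext_iff] at h0 h1 h2
  omega

/-- The directions in a second block at a singular block vector: all or none. -/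
lemma rel_block (hQ : Cfsg.Geo.IsNondegenerateQuadraticForm Q)
    (hcard : 5 ≤ Fintype.card ι)
    (hD : Cfsg.Geo.IsOrthogonalMDecomposition Q k D) (hk : 3 ≤ k) (ht : 3 ≤ t)
    (M : Subgroup (Matrix.GeneralLinearGroup ι F))
    (hNM : Cfsg.Geo.decompositionStabilizer D ⊓ Cfsg.Geo.omegaGL Q ≤ M)
    (hMiso : ∀ g ∈ M, ∀ v, Q ((g : Matrix ι ι F) *ᵥ v) = Q v)
    {j l : Fin t} (hjl : j ≠ l) {x y₀ : ι → F} (hx : x ∈ D j) (hy₀ : y₀ ∈ D l)
    (hy₀0 : y₀ ≠ 0) (hr : Rel hQ M x y₀) : ∀ y ∈ D l, Rel hQ M x y := by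
  have hbl := hQ.polar_bilinear
  have hQx := hr.1
  have hDd := hD.decomp
  obtain ⟨T, hT⟩ : ∃ T : Submodule F (ι → F), T = D l ⊓ relSub hQ M x hQx := ⟨_, rfl⟩
  have hmemT : ∀ y, y ∈ T ↔ y ∈ D l ∧ Rel hQ M x y := by
    intro y
    rw [hT]
    exact Iff.rfl
  have hT0 : T ≠ ⊥ := fun hbot =>
    hy₀0 ((Submodule.mem_bot F).mp (hbot ▸ (hmemT y₀).mpr ⟨hy₀, hr⟩))
  obtain ⟨c, hcj, hcl⟩ := exists_third ht j l
  have hxD : ∀ i, i ≠ j → ∀ d ∈ D i, QuadraticMap.polar Q x d = 0 := fun i hij d hd =>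
    hDd.orthogonal j i (Ne.symm hij) x hx d hd
  have hrefl : ∀ w ∈ D l, Q w ≠ 0 → w ∈ T ∨ ∀ t' ∈ T, QuadraticMap.polar Q t' w = 0 := by
    intro w hw hQw
    obtain ⟨e₀, he₀⟩ := hD.isometric l c
    obtain ⟨y', hy', hQy'⟩ : ∃ y' ∈ D c, Q y' = Q w :=
      ⟨(e₀ ⟨w, hw⟩ : ι → F), (e₀ ⟨w, hw⟩).2, he₀ ⟨w, hw⟩⟩
    obtain ⟨ρ, hρN, hρ⟩ := refl2_mem hQ hcard hDd (j := l) (l := c) (a := w) (b := y') hw hy'
      hQy'.symm hQw
    have hρx : (ρ : Matrix ι ι F) *ᵥ x = x := by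
      rw [hρ, rf_fix (z := y') (x := x) (hxD c hcj y' hy'),
        rf_fix (z := w) (x := x) (hxD l (Ne.symm hjl) w hw)]
    by_cases hall : ∀ t' ∈ T, QuadraticMap.polar Q t' w = 0
    · exact Or.inr hall
    · left
      push Not at hall
      obtain ⟨t', ht', ht'w⟩ := hall
      have ht'2 := (hmemT t').mp ht'
      have r2 := ht'2.2.fix hQ M hMiso (hNM hρN) hρx
      rw [hρ, rf_fix (z := y') (x := t') (hDd.orthogonal l c (Ne.symm hcl) t' ht'2.1 y' hy'),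
        rf_apply] at r2
      have r3 := ht'2.2.sub hQ M r2
      rw [sub_sub_cancel] at r3
      exact (hmemT w).mpr ⟨hw, Rel.of_smul hQ M (mul_ne_zero (inv_ne_zero hQw) ht'w) r3⟩
  have hsg : ∀ c' ∈ D l, ∀ d' ∈ D l, Q c' = 0 → QuadraticMap.polar Q c' d' = 0 → ∀ t' ∈ T,
      t' + QuadraticMap.polar Q c' t' • d' - QuadraticMap.polar Q d' t' • c'
        - (Q d' * QuadraticMap.polar Q c' t') • c' ∈ T := by
    intro c' hc' d' hd' hQc' hc'd' t' ht'
    have ht'2 := (hmemT t').mp ht'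
    have hs := sg_mem_M hQ hcard hDd M hNM l hc' hd'
    have r2 := ht'2.2.fix hQ M hMiso hs (sg_fix hQ c' d' x
      (by rw [B_comm]; exact hxD l (Ne.symm hjl) c' hc')
      (by rw [B_comm]; exact hxD l (Ne.symm hjl) d' hd'))
    rw [sg_mulVec hQ c' d' hQc' hc'd'] at r2
    exact (hmemT _).mpr ⟨(D l).sub_mem ((D l).sub_mem ((D l).add_mem ht'2.1
      ((D l).smul_mem _ hd')) ((D l).smul_mem _ hc')) ((D l).smul_mem _ hc'), r2⟩
  have hTY : T = D l := by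
    by_contra hne
    obtain ⟨-, hfr2, -⟩ := irr hQ (D l) T (hDd.nondegenerate l) (by rw [hT]; exact inf_le_left)
      hT0 hrefl hsg hne
    rw [hDd.decomp.finrank_eq] at hfr2
    omega
  intro y hy
  rw [← hTY] at hy
  exact ((hmemT y).mp hy).2

/-- Symmetrisation of the block relation. -/
lemma P_of_one (hQ : Cfsg.Geo.IsNondegenerateQuadraticForm Q)
    (hcard : 5 ≤ Fintype.card ι)
    (hD : Cfsg.Geo.IsOrthogonalMDecomposition Q k D) (hk : 3 ≤ k) (ht : 3 ≤ t)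
    (M : Subgroup (Matrix.GeneralLinearGroup ι F))
    (hNM : Cfsg.Geo.decompositionStabilizer D ⊓ Cfsg.Geo.omegaGL Q ≤ M)
    (hMiso : ∀ g ∈ M, ∀ v, Q ((g : Matrix ι ι F) *ᵥ v) = Q v)
    {j l : Fin t} (hjl : j ≠ l) {x y₀ : ι → F} (hx : x ∈ D j) (hx0 : x ≠ 0) (hy₀ : y₀ ∈ D l)
    (hy₀0 : y₀ ≠ 0) (hr : Rel hQ M x y₀) :
    (∀ a ∈ D j, Q a = 0 → ∀ y ∈ D l, Rel hQ M a y) ∧
    (∀ a ∈ D l, Q a = 0 → ∀ y ∈ D j, Rel hQ M a y) := by
  have h1 : ∀ y ∈ D l, Rel hQ M x y := rel_block hQ hcard hD hk ht M hNM hMiso hjl hx hy₀ hy₀0 hr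
  have hQx := hr.1
  have h2 : ∀ a ∈ D l, Q a = 0 → ∀ y ∈ D j, Rel hQ M a y := by
    intro a ha hQa
    by_cases ha0 : a = 0
    · intro y _
      rw [ha0]
      exact Rel.zero_left hQ M y
    · exact rel_block hQ hcard hD hk ht M hNM hMiso (Ne.symm hjl) ha hx hx0
        ((h1 a ha).symm hQ M hQa)
  refine ⟨?_, h2⟩
  intro a ha hQa
  have h3 : 3 ≤ finrank F (D l) := by rw [hD.decomp.decomp.finrank_eq]; exact hk
  have hle : D l ≤ relSub hQ M a hQa := le_of_sing_in hQ (D l) (hD.decomp.nondegenerate l) h3 _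
    (fun b hb hQb => (h2 b hb hQb a ha).symm hQ M hQa)
  exact fun y hy => hle hy

omit [Fintype F] in
/-- Transport of the block relation by an element of the subgroup. -/
lemma P_map (hQ : Cfsg.Geo.IsNondegenerateQuadraticForm Q)
    (hD : Cfsg.Geo.IsNondegenerateMDecomposition (QuadraticMap.polar Q) k D)
    (M : Subgroup (Matrix.GeneralLinearGroup ι F))
    (hMiso : ∀ g ∈ M, ∀ v, Q ((g : Matrix ι ι F) *ᵥ v) = Q v)
    {π : Matrix.GeneralLinearGroup ι F} (hπ : π ∈ M) {j l j' l' : Fin t}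
    (hj : ∀ a ∈ D j, (π : Matrix ι ι F) *ᵥ a ∈ D j')
    (hl : ∀ a ∈ D l, (π : Matrix ι ι F) *ᵥ a ∈ D l')
    (hP : ∀ a ∈ D j, Q a = 0 → ∀ y ∈ D l, Rel hQ M a y) :
    ∀ a ∈ D j', Q a = 0 → ∀ y ∈ D l', Rel hQ M a y := by
  intro a' ha' hQa' y' hy'
  have m1 := map_eq_of_forall_mem π (D j) (D j') hj
    (by rw [hD.decomp.finrank_eq, hD.decomp.finrank_eq])
  have m2 := map_eq_of_forall_mem π (D l) (D l') hl
    (by rw [hD.decomp.finrank_eq, hD.decomp.finrank_eq])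
  rw [← m1] at ha'
  rw [← m2] at hy'
  obtain ⟨a, ha, rfl⟩ := ha'
  obtain ⟨y, hy, rfl⟩ := hy'
  simp only [Matrix.toLin'_apply] at hQa' ⊢
  have hQa : Q a = 0 := by
    rw [← hMiso π hπ a]
    exact hQa'
  exact (hP a ha hQa y hy).map hQ M hMiso hπ

/-- Step 2: a subgroup violating `Star` contains `Ω`. -/
theorem omega_le_of_not_star (hQ : Cfsg.Geo.IsNondegenerateQuadraticForm Q) (h2 : (2 : F) ≠ 0)
    (hcard : 13 ≤ Fintype.card ι)
    (hD : Cfsg.Geo.IsOrthogonalMDecomposition Q k D) (hk : 3 ≤ k) (ht : 3 ≤ t)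
    (M : Subgroup (Matrix.GeneralLinearGroup ι F))
    (hNM : Cfsg.Geo.decompositionStabilizer D ⊓ Cfsg.Geo.omegaGL Q ≤ M)
    (hMΩ : M ≤ Cfsg.Geo.omegaGL Q) (hns : ¬ Star hQ M D) : Cfsg.Geo.omegaGL Q ≤ M := by
  have hbl := hQ.polar_bilinear
  have h5 : 5 ≤ Fintype.card ι := by omega
  have hDd := hD.decomp
  have hMiso : ∀ g ∈ M, ∀ v, Q ((g : Matrix ι ι F) *ᵥ v) = Q v := fun g hg v =>
    omegaGL_isom (hMΩ hg) v
  unfold Cfsg.Agent.Lib.Helper94.OrthBlk3.Star at hns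
  push Not at hns
  obtain ⟨j, x, hx, hx0, w, hr, hwj⟩ := hns
  have hQx := hr.1
  obtain ⟨c, hc, hcw⟩ := block_proj hQ hDd j w
  have hxc : QuadraticMap.polar Q x c = 0 := by
    have h1 := hcw x hx
    rw [bil_sub_right hbl, hr.2.1] at h1
    linear_combination -h1
  have hrc := block_rel hQ h5 hDd M hNM j hx hc hQx hxc
  have hr' := hr.sub hQ M hrc
  have hw'0 : w - c ≠ 0 := by
    intro h0
    rw [sub_eq_zero] at h0
    exact hwj (h0 ▸ hc)
  obtain ⟨l, e, he, hew⟩ : ∃ l, ∃ e ∈ D l, QuadraticMap.polar Q e (w - c) ≠ 0 := by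
    by_contra hcon
    push Not at hcon
    exact hw'0 (eq_zero_of_perp_all hQ hDd (w - c) hcon)
  have hlj : l ≠ j := by
    rintro rfl
    exact hew (hcw e he)
  have h3l : 3 ≤ finrank F (D l) := by rw [hDd.decomp.finrank_eq]; exact hk
  have h3j : 3 ≤ finrank F (D j) := by rw [hDd.decomp.finrank_eq]; exact hk
  obtain ⟨b, hb, hQb, hbw⟩ := exists_sing_not_perp_in hQ (D l) (hDd.nondegenerate l) h3l (w - c)
    ⟨e, he, hew⟩
  have hb0 : b ≠ 0 := by
    rintro rfl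
    exact hbw (bil_zero_left hbl _)
  obtain ⟨z, hz, hbz, hQz⟩ := exists_nonsing_perp_in hQ (D l) (hDd.nondegenerate l) h3l hb hb0
    hQb
  have hs := sg_mem_M hQ h5 hDd M hNM l hb hz
  have hfx : ((sg hQ b z : Matrix.GeneralLinearGroup ι F) : Matrix ι ι F) *ᵥ x = x :=
    sg_fix hQ b z x (hDd.orthogonal l j hlj b hb x hx) (hDd.orthogonal l j hlj z hz x hx)
  have r1 := (hr'.fix hQ M hMiso hs hfx).sub hQ M hr'
  rw [sg_mulVec hQ b z hQb hbz] at r1
  obtain ⟨y₀, hy₀⟩ : ∃ y₀, y₀ = QuadraticMap.polar Q b (w - c) • z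
      - QuadraticMap.polar Q z (w - c) • b - (Q z * QuadraticMap.polar Q b (w - c)) • b :=
    ⟨_, rfl⟩
  have e1 : (w - c) + QuadraticMap.polar Q b (w - c) • z - QuadraticMap.polar Q z (w - c) • b
      - (Q z * QuadraticMap.polar Q b (w - c)) • b - (w - c) = y₀ := by
    rw [hy₀]
    abel
  rw [e1] at r1
  have hy₀D : y₀ ∈ D l := by
    rw [hy₀]
    exact (D l).sub_mem ((D l).sub_mem ((D l).smul_mem _ hz) ((D l).smul_mem _ hb))
      ((D l).smul_mem _ hb)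
  have hy₀0 : y₀ ≠ 0 := by
    intro h0
    have h1 : QuadraticMap.polar Q z y₀ = 2 * Q z * QuadraticMap.polar Q b (w - c) := by
      rw [hy₀, bil_sub_right hbl, bil_sub_right hbl, hbl.smul_right, hbl.smul_right,
        hbl.smul_right, B_self hQ, B_comm Q z b, hbz]
      ring
    rw [h0, bil_zero_right hbl] at h1
    exact mul_ne_zero (mul_ne_zero h2 hQz) hbw h1.symm
  obtain ⟨P1, P2⟩ := P_of_one hQ h5 hD hk ht M hNM hMiso (Ne.symm hlj) hx hx0 hy₀D hy₀0 r1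
  have hPall : ∀ c', c' ≠ j → ∀ a ∈ D j, Q a = 0 → ∀ y ∈ D c', Rel hQ M a y := by
    intro c' hc'j
    by_cases hc'l : c' = l
    · subst hc'l
      exact P1
    · obtain ⟨π, hπN, πj, πl, πc⟩ := exists_cycle hQ h2 (by omega) hD (j := j) (l := l)
        (c := c') (Ne.symm hlj) (Ne.symm hc'j) (Ne.symm hc'l)
      have hπM := hNM hπN
      have Q1 := P_map hQ hDd M hMiso hπM (j := l) (l := j) (j' := c') (l' := l) πl πj P2
      exact P_map hQ hDd M hMiso hπM (j := c') (l := l) (j' := j) (l' := c') πc πl Q1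
  have hsgset : ∀ a ∈ D j, Q a = 0 → a ∈ sgSet hQ M := by
    intro a ha hQa
    refine ⟨hQa, fun w' => ?_⟩
    by_cases haw : QuadraticMap.polar Q a w' = 0
    · have key : ∃ c1 ∈ D j, Rel hQ M a (w' - c1) := by
        have hw'top : w' ∈ iSup D := by rw [hDd.decomp.iSup_eq_top]; trivial
        refine Submodule.iSup_induction D
          (motive := fun y => ∃ c1 ∈ D j, Rel hQ M a (y - c1)) hw'top ?_ ?_ ?_
        · intro i y hy
          by_cases hij : i = j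
          · subst hij
            exact ⟨y, hy, by rw [sub_self]; exact Rel.zero hQ M hQa⟩
          · exact ⟨0, (D j).zero_mem, by rw [sub_zero]; exact hPall i hij a ha hQa y hy⟩
        · exact ⟨0, (D j).zero_mem, by rw [sub_zero]; exact Rel.zero hQ M hQa⟩
        · rintro y z' ⟨c1, hc1, r1'⟩ ⟨c2, hc2, r2'⟩
          refine ⟨c1 + c2, (D j).add_mem hc1 hc2, ?_⟩
          have h1 := r1'.add hQ M r2'
          have e : y - c1 + (z' - c2) = y + z' - (c1 + c2) := by abel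
          rwa [e] at h1
      obtain ⟨c1, hc1, r1'⟩ := key
      have hac1 : QuadraticMap.polar Q a c1 = 0 := by
        have h1 := r1'.2.1
        rw [bil_sub_right hbl, haw] at h1
        linear_combination -h1
      have r2' := r1'.add hQ M (block_rel hQ h5 hDd M hNM j ha hc1 hQa hac1)
      rw [sub_add_cancel] at r2'
      have h1 := r2'.2.2 1
      rwa [one_smul] at h1
    · rw [sg_not hQ a w' (fun h => haw h.2)]
      exact M.one_mem
  obtain ⟨a, ha, a', ha', hQa, hQa', haa'⟩ := exists_hyp_in hQ (D j) (hDd.nondegenerate j) h3j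
  exact omega_le_of_pair hQ hcard M hMiso (hsgset a ha hQa) (hsgset a' ha' hQa')
    (by rw [haa']; exact one_ne_zero)

/-- **The stabiliser in `Ω` of an orthogonal decomposition into isometric nondegenerate blocks of
dimension at least `3` is maximal.** -/
theorem decomp_maximal (hQ : Cfsg.Geo.IsNondegenerateQuadraticForm Q) (h2 : (2 : F) ≠ 0)
    (hcard : 13 ≤ Fintype.card ι)
    (hD : Cfsg.Geo.IsOrthogonalMDecomposition Q k D) (hk : 3 ≤ k) (ht : 3 ≤ t)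
    (hq : 5 ≤ Fintype.card F ∨ 5 ≤ k) :
    Cfsg.Geo.IsMaximalIn (Cfsg.Geo.omegaGL Q)
      (Cfsg.Geo.decompositionStabilizer D ⊓ Cfsg.Geo.omegaGL Q) := by
  have hbl := hQ.polar_bilinear
  have h5 : 5 ≤ Fintype.card ι := by omega
  have hDd := hD.decomp
  refine ⟨lt_of_le_not_ge inf_le_right ?_, fun M hNM hMΩ => ?_⟩
  · intro hle
    obtain ⟨j₁, hj₁⟩ : ∃ j₁ : Fin t, j₁ = ⟨0, by omega⟩ := ⟨_, rfl⟩
    obtain ⟨j₂, hj₂⟩ : ∃ j₂ : Fin t, j₂ = ⟨1, by omega⟩ := ⟨_, rfl⟩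
    have hj : j₁ ≠ j₂ := by
      rw [hj₁, hj₂]
      simp [Fin.ext_iff]
    have h3 : 3 ≤ finrank F (D j₁) := by rw [hDd.decomp.finrank_eq]; exact hk
    obtain ⟨a, ha, a', ha', hQa, hQa', haa'⟩ := exists_hyp_in hQ (D j₁) (hDd.nondegenerate j₁)
      h3
    obtain ⟨w₂, hw₂, hw₂0⟩ := Submodule.exists_mem_ne_zero_of_ne_bot (block_ne_bot hDd j₂)
    have hs := (hle (sg_mem_omega hQ h5 a w₂)).1
    have haw₂ : QuadraticMap.polar Q a w₂ = 0 := hDd.orthogonal j₁ j₂ hj a ha w₂ hw₂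
    have haa := polar_self_sing hQ a hQa
    have hmix : ∀ i, ((sg hQ a w₂ : Matrix.GeneralLinearGroup ι F) : Matrix ι ι F) *ᵥ a'
        ∉ D i := by
      rw [sg_mulVec hQ a w₂ hQa haw₂]
      obtain ⟨e, he, hew⟩ := (hDd.nondegenerate j₂ w₂ hw₂ hw₂0).1
      apply mixed_of_two hDd hj (e := a) (e' := e) ha ?_ he ?_
      · rw [bil_sub_right hbl, bil_sub_right hbl, hbl.add_right, hbl.smul_right,
          hbl.smul_right, hbl.smul_right, haa, haw₂, haa']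
        simp
      · rw [bil_sub_right hbl, bil_sub_right hbl, hbl.add_right, hbl.smul_right,
          hbl.smul_right, hbl.smul_right, hDd.orthogonal j₂ j₁ (Ne.symm hj) e he a ha,
          hDd.orthogonal j₂ j₁ (Ne.symm hj) e he a' ha', haa']
        simpa using hew
    obtain ⟨σ, hσ⟩ := hs
    have hmem : ((sg hQ a w₂ : Matrix.GeneralLinearGroup ι F) : Matrix ι ι F) *ᵥ a'
        ∈ D (σ j₁) := by
      rw [← hσ j₁]
      exact ⟨a', ha', by rw [Matrix.toLin'_apply]⟩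
    exact hmix _ hmem
  · by_cases hMN : M ≤ Cfsg.Geo.decompositionStabilizer D ⊓ Cfsg.Geo.omegaGL Q
    · left
      exact le_antisymm hMN hNM
    · right
      apply le_antisymm hMΩ
      have hMiso : ∀ g ∈ M, ∀ v, Q ((g : Matrix ι ι F) *ᵥ v) = Q v := fun g hg v =>
        omegaGL_isom (hMΩ hg) v
      by_cases hstar : Star hQ M D
      · exfalso
        apply hMN
        intro g hg
        exact ⟨star_false hQ h2 h5 hDd hk hq M hNM hMiso hstar hg, hMΩ hg⟩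
      · exact omega_le_of_not_star hQ h2 hcard hD hk ht M hNM hMΩ hstar

end Main

end Cfsg.Agent.Lib.Helper94.OrthBlk6
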