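import Mathlib
import Cfsg.Prelude.Def_GeometricClasses
import Cfsg.Agent.Lib.Helper94.OrthND

set_option autoImplicit false

namespace Cfsg.Agent.Lib.Helper94.OrthND2

open scoped Matrix
open Module
open Cfsg.Agent.Lib.Helper94.Basic Cfsg.Agent.Lib.Helper94.GLAux Cfsg.Agent.Lib.Helper94.Tv
  Cfsg.Agent.Lib.Helper94.QuadAbs Cfsg.Agent.Lib.Helper94.OrthSiegel
  Cfsg.Agent.Lib.Helper94.OrthRel Cfsg.Agent.Lib.Helper94.OrthND
open Cfsg.Agent.Lib.Helper94.SympAbs (bil_zero_left bil_zero_right bil_neg_left bil_neg_right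
  bil_sub_left bil_sub_right)

section Iso

variable {ι : Type} [Fintype ι] [DecidableEq ι] {F : Type*} [Field F]
variable {Q : (ι → F) → F}

lemma toLin_injective (g : Matrix.GeneralLinearGroup ι F) :
    Function.Injective (Matrix.toLin' (g : Matrix ι ι F)) := by
  intro x y hxy
  rw [Matrix.toLin'_apply, Matrix.toLin'_apply] at hxy
  exact gl_mulVec_injective g hxy

/-- A matrix stabilising a subspace maps it onto itself. -/
lemma map_eq_of_stab (g : Matrix.GeneralLinearGroup ι F) (U : Submodule F (ι → F))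
    (h : ∀ v ∈ U, (g : Matrix ι ι F) *ᵥ v ∈ U) :
    U.map (Matrix.toLin' (g : Matrix ι ι F)) = U := by
  ext y
  constructor
  · rintro ⟨v, hv, rfl⟩
    rw [Matrix.toLin'_apply]
    exact h v hv
  · intro hy
    refine ⟨((g⁻¹ : Matrix.GeneralLinearGroup ι F) : Matrix ι ι F) *ᵥ y, ?_, ?_⟩
    · apply (Cfsg.Agent.Lib.Helper37.MaxTS.mem_iff_of_forall g U h _).mpr
      rw [gl_mulVec_inv]
      exact hy
    · rw [Matrix.toLin'_apply, gl_mulVec_inv]

/-- An isometry mapping one subspace onto another makes them isometric. -/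
lemma isometric_of_map (g : Matrix.GeneralLinearGroup ι F)
    (hg : ∀ v, Q ((g : Matrix ι ι F) *ᵥ v) = Q v) (U₁ U₂ : Submodule F (ι → F))
    (h : U₁.map (Matrix.toLin' (g : Matrix ι ι F)) = U₂) : Cfsg.Geo.AreIsometricFor Q U₁ U₂ := by
  refine ⟨(Submodule.equivMapOfInjective _ (toLin_injective g) U₁).trans (LinearEquiv.ofEq _ _ h),
    fun w => ?_⟩
  have e : ((((Submodule.equivMapOfInjective _ (toLin_injective g) U₁).trans
      (LinearEquiv.ofEq _ _ h)) w : U₂) : ι → F) = (g : Matrix ι ι F) *ᵥ (w : ι → F) := by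
    simp [Matrix.toLin'_apply]
  rw [e, hg]

lemma isometric_symm {U₁ U₂ : Submodule F (ι → F)} (h : Cfsg.Geo.AreIsometricFor Q U₁ U₂) :
    Cfsg.Geo.AreIsometricFor Q U₂ U₁ := by
  obtain ⟨e, he⟩ := h
  refine ⟨e.symm, fun w => ?_⟩
  have h1 := he (e.symm w)
  rw [LinearEquiv.apply_symm_apply] at h1
  exact h1.symm

lemma finrank_map_toLin (g : Matrix.GeneralLinearGroup ι F) (U : Submodule F (ι → F)) :
    finrank F (U.map (Matrix.toLin' (g : Matrix ι ι F))) = finrank F U :=
  (Submodule.equivMapOfInjective _ (toLin_injective g) U).finrank_eq.symm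

end Iso

end Cfsg.Agent.Lib.Helper94.OrthND2
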