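import Mathlib
import Cfsg.Prelude.Def_GeometricClasses
import Cfsg.Agent.Lib.Helper94.OrthND2
import Cfsg.Agent.Lib.Helper94.OrthPara

set_option autoImplicit false

namespace Cfsg.Agent.Lib.Helper94.OrthLag

open scoped Matrix
open Module
open Cfsg.Agent.Lib.Helper94.Basic Cfsg.Agent.Lib.Helper94.GLAux Cfsg.Agent.Lib.Helper94.Tv
  Cfsg.Agent.Lib.Helper94.QuadAbs Cfsg.Agent.Lib.Helper94.OrthSiegel
  Cfsg.Agent.Lib.Helper94.OrthRel Cfsg.Agent.Lib.Helper94.OrthND Cfsg.Agent.Lib.Helper94.OrthND2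
open Cfsg.Agent.Lib.Helper94.SympAbs (bil_zero_left bil_zero_right bil_neg_left bil_neg_right
  bil_sub_left bil_sub_right fRL)
open Cfsg.Agent.Lib.Helper94.OrthPara (polar_ts finrank_sup_span_singleton_eq)

section Pair

variable {ι : Type} [Fintype ι] [DecidableEq ι] {F : Type*} [Field F]
variable {Q : (ι → F) → F}

/-- A pair of complementary totally singular subspaces. -/
structure TSPair (Q : (ι → F) → F) (X Y : Submodule F (ι → F)) : Prop where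
  tsX : ∀ x ∈ X, Q x = 0
  tsY : ∀ y ∈ Y, Q y = 0
  dec : ∀ v, ∃ x ∈ X, ∃ y ∈ Y, v = x + y

variable {X Y : Submodule F (ι → F)}

lemma TSPair.symm (h : TSPair Q X Y) : TSPair Q Y X :=
  ⟨h.tsY, h.tsX, fun v => by
    obtain ⟨x, hx, y, hy, rfl⟩ := h.dec v
    exact ⟨y, hy, x, hx, add_comm x y⟩⟩

lemma TSPair.polX (h : TSPair Q X Y) {x x' : ι → F} (hx : x ∈ X) (hx' : x' ∈ X) :
    QuadraticMap.polar Q x x' = 0 := polar_ts X h.tsX x x' hx hx'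

lemma TSPair.polY (h : TSPair Q X Y) {y y' : ι → F} (hy : y ∈ Y) (hy' : y' ∈ Y) :
    QuadraticMap.polar Q y y' = 0 := polar_ts Y h.tsY y y' hy hy'

lemma TSPair.partner (hQ : Cfsg.Geo.IsNondegenerateQuadraticForm Q) (h : TSPair Q X Y)
    {x : ι → F} (hx : x ∈ X) (hx0 : x ≠ 0) : ∃ y ∈ Y, QuadraticMap.polar Q x y = 1 := by
  have hbl := hQ.polar_bilinear
  obtain ⟨v, hv⟩ := (hQ.nondegenerate x hx0).2
  obtain ⟨x', hx', y, hy, rfl⟩ := h.dec v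
  rw [hbl.add_right, h.polX hx hx', zero_add] at hv
  exact ⟨(QuadraticMap.polar Q x y)⁻¹ • y, Y.smul_mem _ hy,
    by rw [hbl.smul_right, inv_mul_cancel₀ hv]⟩

lemma TSPair.inter (hQ : Cfsg.Geo.IsNondegenerateQuadraticForm Q) (h : TSPair Q X Y)
    {v : ι → F} (hX : v ∈ X) (hY : v ∈ Y) : v = 0 := by
  by_contra hv
  obtain ⟨y, hy, hxy⟩ := h.partner hQ hX hv
  rw [h.polY hY hy] at hxy
  exact zero_ne_one hxy

lemma TSPair.exists_sep (hQ : Cfsg.Geo.IsNondegenerateQuadraticForm Q) (h : TSPair Q X Y)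
    (S : Submodule F (ι → F)) (hS : S ≤ X) {x : ι → F} (hx : x ∈ X) (hxS : x ∉ S) :
    ∃ u ∈ Y, (∀ s ∈ S, QuadraticMap.polar Q s u = 0) ∧ QuadraticMap.polar Q x u = 1 := by
  have hbl := hQ.polar_bilinear
  obtain ⟨r, hr, hxr⟩ := exists_perp_ne hQ S x hxS
  obtain ⟨x', hx', y, hy, rfl⟩ := h.dec r
  rw [hbl.add_right, h.polX hx hx', zero_add] at hxr
  refine ⟨(QuadraticMap.polar Q x y)⁻¹ • y, Y.smul_mem _ hy, fun s hs => ?_, ?_⟩
  · have h1 := hr s hs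
    rw [hbl.add_right, h.polX (hS hs) hx', zero_add] at h1
    rw [hbl.smul_right, h1, mul_zero]
  · rw [hbl.smul_right, inv_mul_cancel₀ hxr]

lemma finrank_inf_ker (X : Submodule F (ι → F)) (φ : Module.Dual F (ι → F)) :
    finrank F X ≤ finrank F ↥(X ⊓ LinearMap.ker φ) + 1 := by
  have h1 := Submodule.finrank_sup_add_finrank_inf_eq X (LinearMap.ker φ)
  have h2 := LinearMap.finrank_range_add_finrank_ker φ
  have h3 : finrank F (LinearMap.range φ) ≤ 1 := by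
    have := Submodule.finrank_le (LinearMap.range φ)
    rwa [finrank_self] at this
  have h4 := Submodule.finrank_le (X ⊔ LinearMap.ker φ)
  omega

lemma exists_avoid (X S : Submodule F (ι → F)) (φ₁ φ₂ : Module.Dual F (ι → F))
    (h : finrank F S + 2 < finrank F X) : ∃ a ∈ X, φ₁ a = 0 ∧ φ₂ a = 0 ∧ a ∉ S := by
  have h1 := finrank_inf_ker X φ₁
  have h2 := finrank_inf_ker (X ⊓ LinearMap.ker φ₁) φ₂
  have h3 : ¬ (X ⊓ LinearMap.ker φ₁ ⊓ LinearMap.ker φ₂ ≤ S) := by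
    intro hle
    have := Submodule.finrank_mono hle
    omega
  obtain ⟨a, ha, haS⟩ := SetLike.not_le_iff_exists.mp h3
  obtain ⟨ha12, ha2⟩ := Submodule.mem_inf.mp ha
  obtain ⟨haX, ha1⟩ := Submodule.mem_inf.mp ha12
  exact ⟨a, haX, LinearMap.mem_ker.mp ha1, LinearMap.mem_ker.mp ha2, haS⟩

/-- Directions `w ⊥ a` all of whose Siegel elements `sg(a, t w)` lie in `M`. -/
def Sd (hQ : Cfsg.Geo.IsNondegenerateQuadraticForm Q)
    (M : Subgroup (Matrix.GeneralLinearGroup ι F)) (a : ι → F) : Set (ι → F) :=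
  {w | QuadraticMap.polar Q a w = 0 ∧ ∀ t : F, sg hQ a (t • w) ∈ M}

lemma Sd_add (hQ : Cfsg.Geo.IsNondegenerateQuadraticForm Q)
    (M : Subgroup (Matrix.GeneralLinearGroup ι F)) {a w w' : ι → F} (ha : Q a = 0)
    (hw : w ∈ Sd hQ M a) (hw' : w' ∈ Sd hQ M a) : w + w' ∈ Sd hQ M a := by
  have hbl := hQ.polar_bilinear
  refine ⟨by rw [hbl.add_right, hw.1, hw'.1, add_zero], fun t => ?_⟩
  rw [smul_add, ← sg_mul hQ a _ _ ha (by rw [hbl.smul_right, hw.1, mul_zero])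
    (by rw [hbl.smul_right, hw'.1, mul_zero])]
  exact M.mul_mem (hw.2 t) (hw'.2 t)

lemma Sd_smul (hQ : Cfsg.Geo.IsNondegenerateQuadraticForm Q)
    (M : Subgroup (Matrix.GeneralLinearGroup ι F)) {a w : ι → F} (c : F)
    (hw : w ∈ Sd hQ M a) : c • w ∈ Sd hQ M a := by
  have hbl := hQ.polar_bilinear
  refine ⟨by rw [hbl.smul_right, hw.1, mul_zero], fun t => ?_⟩
  rw [smul_smul]
  exact hw.2 _

lemma Sd_sub (hQ : Cfsg.Geo.IsNondegenerateQuadraticForm Q)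
    (M : Subgroup (Matrix.GeneralLinearGroup ι F)) {a w w' : ι → F} (ha : Q a = 0)
    (hw : w ∈ Sd hQ M a) (hw' : w' ∈ Sd hQ M a) : w - w' ∈ Sd hQ M a := by
  have h1 := Sd_smul hQ M (-1) hw'
  rw [neg_one_smul] at h1
  rw [sub_eq_add_neg]
  exact Sd_add hQ M ha hw h1

lemma Sd_map (hQ : Cfsg.Geo.IsNondegenerateQuadraticForm Q)
    (M : Subgroup (Matrix.GeneralLinearGroup ι F)) {g : Matrix.GeneralLinearGroup ι F}
    (hgM : g ∈ M) (hg : ∀ v, Q ((g : Matrix ι ι F) *ᵥ v) = Q v) {a w : ι → F}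
    (hw : w ∈ Sd hQ M a) : (g : Matrix ι ι F) *ᵥ w ∈ Sd hQ M ((g : Matrix ι ι F) *ᵥ a) := by
  refine ⟨by rw [polar_of_isom g hg]; exact hw.1, fun t => ?_⟩
  rw [← Matrix.mulVec_smul, ← sg_conj hQ g hg]
  exact M.mul_mem (M.mul_mem hgM (hw.2 t)) (M.inv_mem hgM)

lemma mem_sgSet_of_Sd (hQ : Cfsg.Geo.IsNondegenerateQuadraticForm Q)
    (M : Subgroup (Matrix.GeneralLinearGroup ι F)) {a : ι → F} (ha : Q a = 0)
    (h : ∀ w, QuadraticMap.polar Q a w = 0 → w ∈ Sd hQ M a) : a ∈ sgSet hQ M := by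
  refine ⟨ha, fun w => ?_⟩
  by_cases hw : QuadraticMap.polar Q a w = 0
  · have h1 := (h w hw).2 1
    rwa [one_smul] at h1
  · rw [sg_not hQ _ _ (fun h' => hw h'.2)]
    exact M.one_mem

/-- Siegel elements with centre in `X` and direction in `Y` stabilise both. -/
lemma sg_stab_pair (hQ : Cfsg.Geo.IsNondegenerateQuadraticForm Q) (h : TSPair Q X Y)
    {a u : ι → F} (ha : a ∈ X) (hu : u ∈ Y) :
    (∀ x ∈ X, ((sg hQ a u : Matrix.GeneralLinearGroup ι F) : Matrix ι ι F) *ᵥ x ∈ X) ∧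
    (∀ y ∈ Y, ((sg hQ a u : Matrix.GeneralLinearGroup ι F) : Matrix ι ι F) *ᵥ y ∈ Y) := by
  by_cases hh : Q a = 0 ∧ QuadraticMap.polar Q a u = 0
  · refine ⟨fun x hx => ?_, fun y hy => ?_⟩
    · rw [sg_mulVec hQ _ _ hh.1 hh.2, h.polX ha hx, zero_smul, add_zero, mul_zero, zero_smul,
        sub_zero]
      exact X.sub_mem hx (X.smul_mem _ ha)
    · rw [sg_mulVec hQ _ _ hh.1 hh.2, h.polY hu hy, zero_smul, sub_zero, h.tsY u hu, zero_mul,
        zero_smul, sub_zero]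
      exact Y.add_mem hy (Y.smul_mem _ hu)
  · rw [sg_not hQ _ _ hh, Units.val_one]
    exact ⟨fun x hx => by rw [Matrix.one_mulVec]; exact hx,
      fun y hy => by rw [Matrix.one_mulVec]; exact hy⟩

/-- If some `x₀ ∈ X` off the line of `a ∈ X` is a Siegel direction at `a`, then `a` is a full
Siegel centre. -/
lemma kl1 (hQ : Cfsg.Geo.IsNondegenerateQuadraticForm Q) (h : TSPair Q X Y)
    (M : Subgroup (Matrix.GeneralLinearGroup ι F))
    (hM : ∀ g ∈ M, ∀ v, Q ((g : Matrix ι ι F) *ᵥ v) = Q v)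
    (hXY : ∀ a ∈ X, ∀ u ∈ Y, sg hQ a u ∈ M)
    {a x₀ : ι → F} (ha : a ∈ X) (hx₀ : x₀ ∈ X) (hx₀S : x₀ ∈ Sd hQ M a)
    (hne : x₀ ∉ Submodule.span F {a}) : a ∈ sgSet hQ M := by
  have hbl := hQ.polar_bilinear
  have hQa := h.tsX a ha
  have hYS : ∀ y ∈ Y, QuadraticMap.polar Q a y = 0 → y ∈ Sd hQ M a :=
    fun y hy hay => ⟨hay, fun t => hXY a ha _ (Y.smul_mem t hy)⟩
  obtain ⟨u, hu, huS, hx₀u⟩ := h.exists_sep hQ (Submodule.span F {a})
    ((Submodule.span_singleton_le_iff_mem a X).mpr ha) hx₀ hne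
  have hau : QuadraticMap.polar Q a u = 0 := huS a (Submodule.mem_span_singleton_self a)
  have key : ∀ a' ∈ X, QuadraticMap.polar Q a' u = 0 → a' ∈ Sd hQ M a := by
    intro a' ha' ha'u
    have hr := hXY a' ha' u hu
    have e1 : ((sg hQ a' u : Matrix.GeneralLinearGroup ι F) : Matrix ι ι F) *ᵥ a = a := by
      rw [sg_mulVec hQ _ _ (h.tsX a' ha') ha'u, h.polX ha' ha, B_comm Q u a, hau]
      simp
    have e2 : ((sg hQ a' u : Matrix.GeneralLinearGroup ι F) : Matrix ι ι F) *ᵥ x₀ = x₀ - a' := by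
      rw [sg_mulVec hQ _ _ (h.tsX a' ha') ha'u, h.polX ha' hx₀, B_comm Q u x₀, hx₀u]
      simp
    have h1 := Sd_map hQ M hr (hM _ hr) hx₀S
    rw [e1, e2] at h1
    have h2 := Sd_sub hQ M hQa hx₀S h1
    rwa [sub_sub_cancel] at h2
  have hXS : ∀ x ∈ X, x ∈ Sd hQ M a := by
    intro x hx
    have h1 : x - QuadraticMap.polar Q x u • x₀ ∈ Sd hQ M a := by
      apply key _ (X.sub_mem hx (X.smul_mem _ hx₀))
      rw [bil_sub_left hbl, hbl.smul_left, hx₀u, mul_one, sub_self]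
    have h2 := Sd_add hQ M hQa h1 (Sd_smul hQ M (QuadraticMap.polar Q x u) hx₀S)
    rwa [sub_add_cancel] at h2
  apply mem_sgSet_of_Sd hQ M hQa
  intro w hw
  obtain ⟨x, hx, y, hy, rfl⟩ := h.dec w
  rw [hbl.add_right, h.polX ha hx, zero_add] at hw
  exact Sd_add hQ M hQa (hXS x hx) (hYS y hy hw)

/-- Under the "no extra directions" hypothesis on `X`, the `X`-component of a Siegel direction
at `c = x₁ + y₁` lies on the line of `x₁`. -/
lemma klB (hQ : Cfsg.Geo.IsNondegenerateQuadraticForm Q) (h : TSPair Q X Y)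
    (hk : 5 ≤ finrank F X) (M : Subgroup (Matrix.GeneralLinearGroup ι F))
    (hM : ∀ g ∈ M, ∀ v, Q ((g : Matrix ι ι F) *ᵥ v) = Q v)
    (hXY : ∀ a ∈ X, ∀ u ∈ Y, sg hQ a u ∈ M)
    (hNX : ∀ a ∈ X, a ≠ 0 → ∀ x ∈ X, x ∈ Sd hQ M a → x ∈ Submodule.span F {a})
    {x₁ y₁ x₂ y₂ : ι → F} (hx₁ : x₁ ∈ X) (hy₁ : y₁ ∈ Y) (hx₂ : x₂ ∈ X) (hy₂ : y₂ ∈ Y)
    (hc : Q (x₁ + y₁) = 0) (hw : x₂ + y₂ ∈ Sd hQ M (x₁ + y₁)) (hx₁0 : x₁ ≠ 0) :
    x₂ ∈ Submodule.span F {x₁} := by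
  have hbl := hQ.polar_bilinear
  by_contra hx₂S
  have hfr : finrank F (Submodule.span F ({x₁, x₂} : Set (ι → F))) + 2 < finrank F X := by
    have := finrank_span_pair_le (F := F) x₁ x₂
    omega
  obtain ⟨a, ha, hay₁, hay₂, haS⟩ := exists_avoid X (Submodule.span F ({x₁, x₂} : Set (ι → F)))
    (fRL hbl y₁) (fRL hbl y₂) hfr
  have hay₁' : QuadraticMap.polar Q a y₁ = 0 := hay₁
  have hay₂' : QuadraticMap.polar Q a y₂ = 0 := hay₂
  have ha0 : a ≠ 0 := fun h0 => haS (h0 ▸ Submodule.zero_mem _)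
  have hQa := h.tsX a ha
  have hx₁S : x₁ ∉ Submodule.span F ({a, x₂} : Set (ι → F)) := by
    intro hmem
    obtain ⟨α, β, hαβ⟩ := Submodule.mem_span_pair.mp hmem
    by_cases hα : α = 0
    · rw [hα, zero_smul, zero_add] at hαβ
      have hβ : β ≠ 0 := by
        intro hβ
        rw [hβ, zero_smul] at hαβ
        exact hx₁0 hαβ.symm
      apply hx₂S
      rw [Submodule.mem_span_singleton]
      exact ⟨β⁻¹, by rw [← hαβ, smul_smul, inv_mul_cancel₀ hβ, one_smul]⟩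
    · apply haS
      rw [Submodule.mem_span_pair]
      refine ⟨α⁻¹, -(α⁻¹ * β), ?_⟩
      rw [← hαβ]
      match_scalars <;> field_simp <;> ring
  have hSle : Submodule.span F ({a, x₂} : Set (ι → F)) ≤ X := by
    rw [Submodule.span_le]
    rintro v (rfl | rfl)
    · exact ha
    · exact hx₂
  obtain ⟨u, hu, huS, hx₁u⟩ := h.exists_sep hQ _ hSle hx₁ hx₁S
  have hau : QuadraticMap.polar Q a u = 0 := huS a (Submodule.subset_span (by simp))
  have hx₂u : QuadraticMap.polar Q x₂ u = 0 := huS x₂ (Submodule.subset_span (by simp))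
  have hθ : sg hQ (x₁ + y₁) (x₂ + y₂) ∈ M := by
    have := hw.2 1
    rwa [one_smul] at this
  have e1 : ((sg hQ (x₁ + y₁) (x₂ + y₂) : Matrix.GeneralLinearGroup ι F) : Matrix ι ι F) *ᵥ a
      = a := by
    rw [sg_mulVec hQ _ _ hc hw.1, hbl.add_left, hbl.add_left, h.polX hx₁ ha, h.polX hx₂ ha,
      B_comm Q y₁ a, B_comm Q y₂ a, hay₁', hay₂']
    simp
  have e2 : ((sg hQ (x₁ + y₁) (x₂ + y₂) : Matrix.GeneralLinearGroup ι F) : Matrix ι ι F) *ᵥ u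
      = u + (x₂ + y₂) - Q (x₂ + y₂) • (x₁ + y₁) := by
    rw [sg_mulVec hQ _ _ hc hw.1, hbl.add_left, hbl.add_left, hx₁u, hx₂u, h.polY hy₁ hu,
      h.polY hy₂ hu]
    simp
  have huSd : u ∈ Sd hQ M a := ⟨hau, fun t => hXY a ha _ (Y.smul_mem t hu)⟩
  have h1 := Sd_map hQ M hθ (hM _ hθ) huSd
  rw [e1, e2] at h1
  have h2 := Sd_sub hQ M hQa h1 huSd
  have hyS : y₂ - Q (x₂ + y₂) • y₁ ∈ Sd hQ M a := by
    refine ⟨?_, fun t => hXY a ha _ (Y.smul_mem t (Y.sub_mem hy₂ (Y.smul_mem _ hy₁)))⟩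
    rw [bil_sub_right hbl, hbl.smul_right, hay₁', hay₂', mul_zero, sub_zero]
  have h3 := Sd_sub hQ M hQa h2 hyS
  have e3 : u + (x₂ + y₂) - Q (x₂ + y₂) • (x₁ + y₁) - u - (y₂ - Q (x₂ + y₂) • y₁)
      = x₂ - Q (x₂ + y₂) • x₁ := by
    module
  rw [e3] at h3
  have h4 := hNX a ha ha0 _ (X.sub_mem hx₂ (X.smul_mem _ hx₁)) h3
  obtain ⟨c, hc'⟩ := Submodule.mem_span_singleton.mp h4
  by_cases hc0 : c = 0
  · rw [hc0, zero_smul] at hc'
    apply hx₂S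
    rw [Submodule.mem_span_singleton]
    exact ⟨Q (x₂ + y₂), (sub_eq_zero.mp hc'.symm).symm⟩
  · apply haS
    rw [Submodule.mem_span_pair]
    refine ⟨-(c⁻¹ * Q (x₂ + y₂)), c⁻¹, ?_⟩
    have e4 : a = c⁻¹ • (x₂ - Q (x₂ + y₂) • x₁) := by
      rw [← hc', smul_smul, inv_mul_cancel₀ hc0, one_smul]
    rw [e4]
    module

/-- Under the "no extra directions" hypotheses, elements of `M` map points of `X` into
`X ∪ Y`. -/
lemma kl_point (hQ : Cfsg.Geo.IsNondegenerateQuadraticForm Q) (h : TSPair Q X Y)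
    (hk : 5 ≤ finrank F X) (hkY : 5 ≤ finrank F Y)
    (M : Subgroup (Matrix.GeneralLinearGroup ι F))
    (hM : ∀ g ∈ M, ∀ v, Q ((g : Matrix ι ι F) *ᵥ v) = Q v)
    (hXY : ∀ a ∈ X, ∀ u ∈ Y, sg hQ a u ∈ M) (hYX : ∀ b ∈ Y, ∀ x ∈ X, sg hQ b x ∈ M)
    (hNX : ∀ a ∈ X, a ≠ 0 → ∀ x ∈ X, x ∈ Sd hQ M a → x ∈ Submodule.span F {a})
    (hNY : ∀ b ∈ Y, b ≠ 0 → ∀ y ∈ Y, y ∈ Sd hQ M b → y ∈ Submodule.span F {b})
    {g : Matrix.GeneralLinearGroup ι F} (hg : g ∈ M) {a₀ : ι → F} (ha₀ : a₀ ∈ X) :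
    (g : Matrix ι ι F) *ᵥ a₀ ∈ X ∨ (g : Matrix ι ι F) *ᵥ a₀ ∈ Y := by
  have hbl := hQ.polar_bilinear
  obtain ⟨x₁, hx₁, y₁, hy₁, hc⟩ := h.dec ((g : Matrix ι ι F) *ᵥ a₀)
  by_cases hx₁0 : x₁ = 0
  · right; rw [hc, hx₁0, zero_add]; exact hy₁
  by_cases hy₁0 : y₁ = 0
  · left; rw [hc, hy₁0, add_zero]; exact hx₁
  exfalso
  obtain ⟨T, hT⟩ : ∃ T : Submodule F (ι → F), T = Submodule.span F ({x₁, y₁} : Set (ι → F)) :=
    ⟨_, rfl⟩
  obtain ⟨S, hS⟩ : ∃ S : Submodule F (ι → F),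
    S = T.comap (Matrix.toLin' (g : Matrix ι ι F)) := ⟨_, rfl⟩
  have hfrS : finrank F S ≤ 2 := by
    have h1 := finrank_map_toLin g S
    have h2 : S.map (Matrix.toLin' (g : Matrix ι ι F)) ≤ T := by
      rw [hS]; exact Submodule.map_comap_le _ _
    have h3 := Submodule.finrank_mono h2
    have h4 := finrank_span_pair_le (F := F) x₁ y₁
    rw [← hT] at h4
    omega
  obtain ⟨u, hu, hua₀, -, huS⟩ := exists_avoid Y S (fRL hbl a₀) (fRL hbl a₀) (by omega)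
  have hua₀' : QuadraticMap.polar Q u a₀ = 0 := hua₀
  have huSd : u ∈ Sd hQ M a₀ :=
    ⟨by rw [B_comm]; exact hua₀', fun t => hXY a₀ ha₀ _ (Y.smul_mem t hu)⟩
  have h1 := Sd_map hQ M hg (hM g hg) huSd
  obtain ⟨x₂, hx₂, y₂, hy₂, hw⟩ := h.dec ((g : Matrix ι ι F) *ᵥ u)
  rw [hc, hw] at h1
  have hQc : Q (x₁ + y₁) = 0 := by rw [← hc, hM g hg]; exact h.tsX a₀ ha₀
  have hX2 := klB hQ h hk M hM hXY hNX hx₁ hy₁ hx₂ hy₂ hQc h1 hx₁0
  have hQc' : Q (y₁ + x₁) = 0 := by rw [add_comm]; exact hQc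
  have h1' : y₂ + x₂ ∈ Sd hQ M (y₁ + x₁) := by rw [add_comm y₂, add_comm y₁]; exact h1
  have hY2 := klB hQ h.symm hkY M hM hYX hNY hy₁ hx₁ hy₂ hx₂ hQc' h1' hy₁0
  apply huS
  rw [hS]
  show (Matrix.toLin' (g : Matrix ι ι F)) u ∈ T
  rw [Matrix.toLin'_apply, hw, hT]
  obtain ⟨c₁, hc₁⟩ := Submodule.mem_span_singleton.mp hX2
  obtain ⟨c₂, hc₂⟩ := Submodule.mem_span_singleton.mp hY2
  rw [Submodule.mem_span_pair]
  exact ⟨c₁, c₂, by rw [hc₁, hc₂]⟩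

lemma sub_union (g : Matrix.GeneralLinearGroup ι F) (U X Y : Submodule F (ι → F))
    (h : ∀ a ∈ U, (g : Matrix ι ι F) *ᵥ a ∈ X ∨ (g : Matrix ι ι F) *ᵥ a ∈ Y) :
    (∀ a ∈ U, (g : Matrix ι ι F) *ᵥ a ∈ X) ∨ (∀ a ∈ U, (g : Matrix ι ι F) *ᵥ a ∈ Y) := by
  by_contra hcon
  push Not at hcon
  obtain ⟨⟨a₁, ha₁, h1⟩, ⟨a₂, ha₂, h2⟩⟩ := hcon
  have h1' := (h a₁ ha₁).resolve_left h1
  have h2' := (h a₂ ha₂).resolve_right h2
  rcases h (a₁ + a₂) (U.add_mem ha₁ ha₂) with h3 | h3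
  · apply h1
    have := X.sub_mem h3 h2'
    rwa [Matrix.mulVec_add, add_sub_cancel_right] at this
  · apply h2
    have := Y.sub_mem h3 h1'
    rwa [Matrix.mulVec_add, add_sub_cancel_left] at this

variable [Fintype F]

/-- A Siegel centre in `X`, together with an element of `M` mapping `X` into `Y`, forces
`Ω ≤ M`. -/
lemma lag_finish (hQ : Cfsg.Geo.IsNondegenerateQuadraticForm Q) (hcard : 13 ≤ Fintype.card ι)
    (h : TSPair Q X Y) (M : Subgroup (Matrix.GeneralLinearGroup ι F))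
    (hM : ∀ g ∈ M, ∀ v, Q ((g : Matrix ι ι F) *ᵥ v) = Q v)
    (hYX : ∀ b ∈ Y, ∀ x ∈ X, sg hQ b x ∈ M)
    {s : Matrix.GeneralLinearGroup ι F} (hsM : s ∈ M)
    (hsX : ∀ x ∈ X, (s : Matrix ι ι F) *ᵥ x ∈ Y)
    {a : ι → F} (ha : a ∈ X) (ha0 : a ≠ 0) (haS : a ∈ sgSet hQ M) :
    Cfsg.Geo.omegaGL Q ≤ M := by
  have hbl := hQ.polar_bilinear
  obtain ⟨b, hbdef⟩ : ∃ b, b = (s : Matrix ι ι F) *ᵥ a := ⟨_, rfl⟩
  have hb : b ∈ Y := by rw [hbdef]; exact hsX a ha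
  have hbS : b ∈ sgSet hQ M := by rw [hbdef]; exact sgSet_map hQ M hM hsM haS
  have hb0 : b ≠ 0 := by
    intro h0
    apply ha0
    apply gl_mulVec_injective s
    show (s : Matrix ι ι F) *ᵥ a = (s : Matrix ι ι F) *ᵥ 0
    rw [← hbdef, h0, Matrix.mulVec_zero]
  by_cases hab : QuadraticMap.polar Q a b = 0
  · obtain ⟨b₁, hb₁, hab₁⟩ := h.partner hQ ha ha0
    have hbn : b ∉ Submodule.span F {b₁} := by
      intro hmem
      obtain ⟨c, hc⟩ := Submodule.mem_span_singleton.mp hmem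
      rw [← hc, hbl.smul_right, hab₁, mul_one] at hab
      rw [hab, zero_smul] at hc
      exact hb0 hc.symm
    obtain ⟨x, hx, hxS, hbx⟩ := h.symm.exists_sep hQ (Submodule.span F {b₁})
      ((Submodule.span_singleton_le_iff_mem b₁ Y).mpr hb₁) hb hbn
    have hb₁x : QuadraticMap.polar Q b₁ x = 0 := hxS b₁ (Submodule.mem_span_singleton_self b₁)
    have hr := hYX b₁ hb₁ x hx
    have e : ((sg hQ b₁ x : Matrix.GeneralLinearGroup ι F) : Matrix ι ι F) *ᵥ b = b - b₁ := by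
      rw [sg_mulVec hQ _ _ (h.tsY b₁ hb₁) hb₁x, h.polY hb₁ hb, B_comm Q x b, hbx]
      simp
    have hrb := sgSet_map hQ M hM hr hbS
    rw [e] at hrb
    apply omega_le_of_pair hQ hcard M hM haS hrb
    rw [bil_sub_right hbl, hab, hab₁]
    simp
  · exact omega_le_of_pair hQ hcard M hM haS hbS hab

/-- **The stabiliser in `Ω` of a pair of complementary totally singular subspaces is maximal**,
provided `Ω` contains an element interchanging them. -/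
theorem lag_maximal (hQ : Cfsg.Geo.IsNondegenerateQuadraticForm Q)
    (hcard : 13 ≤ Fintype.card ι) (X Y : Submodule F (ι → F)) (h : TSPair Q X Y)
    (hk : 5 ≤ finrank F X) (hkY : 5 ≤ finrank F Y)
    (H : Subgroup (Matrix.GeneralLinearGroup ι F))
    (hH : ∀ g : Matrix.GeneralLinearGroup ι F, g ∈ H ↔ g ∈ Cfsg.Geo.omegaGL Q ∧
      (((∀ x ∈ X, (g : Matrix ι ι F) *ᵥ x ∈ X) ∧ (∀ y ∈ Y, (g : Matrix ι ι F) *ᵥ y ∈ Y)) ∨
       ((∀ x ∈ X, (g : Matrix ι ι F) *ᵥ x ∈ Y) ∧ (∀ y ∈ Y, (g : Matrix ι ι F) *ᵥ y ∈ X))))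
    (s : Matrix.GeneralLinearGroup ι F) (hs : s ∈ Cfsg.Geo.omegaGL Q)
    (hsX : ∀ x ∈ X, (s : Matrix ι ι F) *ᵥ x ∈ Y) (hsY : ∀ y ∈ Y, (s : Matrix ι ι F) *ᵥ y ∈ X) :
    Cfsg.Geo.IsMaximalIn (Cfsg.Geo.omegaGL Q) H := by
  have hbl := hQ.polar_bilinear
  have h5 : 5 ≤ Fintype.card ι := by omega
  have hHΩ : H ≤ Cfsg.Geo.omegaGL Q := fun g hg => ((hH g).mp hg).1
  have hsH : s ∈ H := (hH s).mpr ⟨hs, Or.inr ⟨hsX, hsY⟩⟩
  have hXYH : ∀ a ∈ X, ∀ u ∈ Y, sg hQ a u ∈ H := fun a ha u hu =>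
    (hH _).mpr ⟨sg_mem_omega hQ h5 a u, Or.inl (sg_stab_pair hQ h ha hu)⟩
  have hYXH : ∀ b ∈ Y, ∀ x ∈ X, sg hQ b x ∈ H := fun b hb x hx =>
    (hH _).mpr ⟨sg_mem_omega hQ h5 b x, Or.inl (sg_stab_pair hQ h.symm hb hx).symm⟩
  have hXne : ∃ x ∈ X, x ≠ 0 := by
    apply Submodule.exists_mem_ne_zero_of_ne_bot
    intro h0
    rw [h0, finrank_bot] at hk
    omega
  have hYne : ∃ y ∈ Y, y ≠ 0 := by
    apply Submodule.exists_mem_ne_zero_of_ne_bot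
    intro h0
    rw [h0, finrank_bot] at hkY
    omega
  refine ⟨lt_of_le_of_ne hHΩ ?_, fun M hHM hMΩ => ?_⟩
  · intro hHeq
    obtain ⟨x, hx, hx0⟩ := hXne
    obtain ⟨a, ha, -, -, haS⟩ := exists_avoid X (Submodule.span F {x}) 0 0 (by
      have := finrank_span_singleton_le (F := F) x
      omega)
    obtain ⟨y, hy, hyS, hay⟩ := h.exists_sep hQ (Submodule.span F {x})
      ((Submodule.span_singleton_le_iff_mem x X).mpr hx) ha haS
    have hxy : QuadraticMap.polar Q x y = 0 := hyS x (Submodule.mem_span_singleton_self x)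
    have ha0 : a ≠ 0 := fun h0 => haS (h0 ▸ Submodule.zero_mem _)
    have hax : QuadraticMap.polar Q a x = 0 := h.polX ha hx
    have hg : sg hQ a x ∈ H := by rw [hHeq]; exact sg_mem_omega hQ h5 a x
    have e1 : ((sg hQ a x : Matrix.GeneralLinearGroup ι F) : Matrix ι ι F) *ᵥ y = y + x := by
      rw [sg_mulVec hQ _ _ (h.tsX a ha) hax, hay, hxy, h.tsX x hx]
      simp
    have e2 : ((sg hQ a x : Matrix.GeneralLinearGroup ι F) : Matrix ι ι F) *ᵥ a = a := by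
      rw [sg_mulVec hQ _ _ (h.tsX a ha) hax, polar_self_sing hQ a (h.tsX a ha), B_comm Q x a, hax]
      simp
    rcases ((hH _).mp hg).2 with ⟨-, h2⟩ | ⟨h1, -⟩
    · have h3 := h2 y hy
      rw [e1] at h3
      have hxY : x ∈ Y := by
        have h4 := Y.sub_mem h3 hy
        rwa [add_sub_cancel_left] at h4
      exact hx0 (h.inter hQ hx hxY)
    · have h3 := h1 a ha
      rw [e2] at h3
      exact ha0 (h.inter hQ ha h3)
  · by_cases hMH : M = H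
    · exact Or.inl hMH
    right
    apply le_antisymm hMΩ
    have hM : ∀ g ∈ M, ∀ v, Q ((g : Matrix ι ι F) *ᵥ v) = Q v :=
      fun g hg v => omegaGL_isom (hMΩ hg) v
    have hXY : ∀ a ∈ X, ∀ u ∈ Y, sg hQ a u ∈ M := fun a ha u hu => hHM (hXYH a ha u hu)
    have hYX : ∀ b ∈ Y, ∀ x ∈ X, sg hQ b x ∈ M := fun b hb x hx => hHM (hYXH b hb x hx)
    by_cases hNX : ∀ a ∈ X, a ≠ 0 → ∀ x ∈ X, x ∈ Sd hQ M a → x ∈ Submodule.span F {a}
    · by_cases hNY : ∀ b ∈ Y, b ≠ 0 → ∀ y ∈ Y, y ∈ Sd hQ M b → y ∈ Submodule.span F {b}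
      · exfalso
        apply hMH
        apply le_antisymm ?_ hHM
        intro g hg
        refine (hH g).mpr ⟨hMΩ hg, ?_⟩
        have hpX := sub_union g X X Y
          (fun a ha => kl_point hQ h hk hkY M hM hXY hYX hNX hNY hg ha)
        have hpY := sub_union g Y Y X
          (fun b hb => kl_point hQ h.symm hkY hk M hM hYX hXY hNY hNX hg hb)
        rcases hpX with hX | hX
        · rcases hpY with hY | hY
          · exact Or.inl ⟨hX, hY⟩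
          · exfalso
            obtain ⟨y₀, hy₀, hy₀0⟩ := hYne
            obtain ⟨x, hx, y, hy, hv⟩ := h.dec
              (((g⁻¹ : Matrix.GeneralLinearGroup ι F) : Matrix ι ι F) *ᵥ y₀)
            have e : y₀ = (g : Matrix ι ι F) *ᵥ x + (g : Matrix ι ι F) *ᵥ y := by
              rw [← Matrix.mulVec_add, ← hv, gl_mulVec_inv]
            have hy₀X : y₀ ∈ X := by rw [e]; exact X.add_mem (hX x hx) (hY y hy)
            exact hy₀0 (h.inter hQ hy₀X hy₀)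
        · rcases hpY with hY | hY
          · exfalso
            obtain ⟨x₀, hx₀, hx₀0⟩ := hXne
            obtain ⟨x, hx, y, hy, hv⟩ := h.dec
              (((g⁻¹ : Matrix.GeneralLinearGroup ι F) : Matrix ι ι F) *ᵥ x₀)
            have e : x₀ = (g : Matrix ι ι F) *ᵥ x + (g : Matrix ι ι F) *ᵥ y := by
              rw [← Matrix.mulVec_add, ← hv, gl_mulVec_inv]
            have hx₀Y : x₀ ∈ Y := by rw [e]; exact Y.add_mem (hX x hx) (hY y hy)
            exact hx₀0 (h.inter hQ hx₀ hx₀Y)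
          · exact Or.inr ⟨hX, hY⟩
      · push Not at hNY
        obtain ⟨b, hb, hb0, y, hy, hyS, hyn⟩ := hNY
        have hbS := kl1 hQ h.symm M hM hYX hb hy hyS hyn
        exact lag_finish hQ hcard h.symm M hM hXY (hHM hsH) hsY hb hb0 hbS
    · push Not at hNX
      obtain ⟨a, ha, ha0, x, hx, hxS, hxn⟩ := hNX
      have haS := kl1 hQ h M hM hXY ha hx hxS hxn
      exact lag_finish hQ hcard h M hM hYX (hHM hsH) hsX ha ha0 haS

end Pair

end Cfsg.Agent.Lib.Helper94.OrthLag
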