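import Mathlib
import Cfsg.Prelude.Def_GeometricClasses
import Cfsg.Agent.Lib.Helper94.OrthLag

set_option autoImplicit false

namespace Cfsg.Agent.Lib.Helper94.OrthLagSwap

open scoped Matrix
open Module
open Cfsg.Agent.Lib.Helper94.Basic Cfsg.Agent.Lib.Helper94.GLAux Cfsg.Agent.Lib.Helper94.Tv
  Cfsg.Agent.Lib.Helper94.QuadAbs Cfsg.Agent.Lib.Helper94.OrthSiegel
  Cfsg.Agent.Lib.Helper94.OrthRel Cfsg.Agent.Lib.Helper94.OrthND Cfsg.Agent.Lib.Helper94.OrthND2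
  Cfsg.Agent.Lib.Helper94.OrthLag
open Cfsg.Agent.Lib.Helper94.SympAbs (bil_zero_left bil_zero_right bil_neg_left bil_neg_right
  bil_sub_left bil_sub_right fRL)
open Cfsg.Agent.Lib.Helper94.OrthPara (polar_ts finrank_sup_span_singleton_eq)

section Swap

variable {ι : Type} [Fintype ι] [DecidableEq ι] {F : Type*} [Field F]
variable {Q : (ι → F) → F}

/-- The part of `X` orthogonal to `f`. -/
def cut (hQ : Cfsg.Geo.IsNondegenerateQuadraticForm Q) (X : Submodule F (ι → F)) (f : ι → F) :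
    Submodule F (ι → F) :=
  X ⊓ LinearMap.ker (fRL hQ.polar_bilinear f)

lemma mem_cut (hQ : Cfsg.Geo.IsNondegenerateQuadraticForm Q) (X : Submodule F (ι → F))
    (f x : ι → F) : x ∈ cut hQ X f ↔ x ∈ X ∧ QuadraticMap.polar Q x f = 0 := by
  unfold cut
  rw [Submodule.mem_inf, LinearMap.mem_ker]
  rfl

lemma finrank_cut (hQ : Cfsg.Geo.IsNondegenerateQuadraticForm Q) (X : Submodule F (ι → F))
    {e f : ι → F} (he : e ∈ X) (hef : QuadraticMap.polar Q e f = 1) :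
    finrank F X = finrank F (cut hQ X f) + 1 := by
  have hbl := hQ.polar_bilinear
  have hen : e ∉ cut hQ X f := by
    intro h
    have h1 := ((mem_cut hQ X f e).mp h).2
    rw [hef] at h1
    exact one_ne_zero h1
  have hsup : cut hQ X f ⊔ Submodule.span F {e} = X := by
    apply le_antisymm
    · apply sup_le
      · intro x hx; exact ((mem_cut hQ X f x).mp hx).1
      · rw [Submodule.span_singleton_le_iff_mem]; exact he
    · intro x hx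
      have e1 : x = (x - QuadraticMap.polar Q x f • e) + QuadraticMap.polar Q x f • e :=
        (sub_add_cancel _ _).symm
      rw [e1]
      apply Submodule.add_mem_sup
      · rw [mem_cut]
        refine ⟨X.sub_mem hx (X.smul_mem _ he), ?_⟩
        rw [bil_sub_left hbl, hbl.smul_left, hef, mul_one, sub_self]
      · exact Submodule.smul_mem _ _ (Submodule.mem_span_singleton_self e)
  rw [← finrank_sup_span_singleton_eq _ e hen, hsup]

lemma paired_cut (hQ : Cfsg.Geo.IsNondegenerateQuadraticForm Q) (X Y : Submodule F (ι → F))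
    {e f : ι → F} (hf : f ∈ Y) (hef : QuadraticMap.polar Q e f = 1)
    (pX : ∀ x ∈ X, x ≠ 0 → ∃ y ∈ Y, QuadraticMap.polar Q x y ≠ 0) :
    ∀ x ∈ cut hQ X f, x ≠ 0 → ∃ y ∈ cut hQ Y e, QuadraticMap.polar Q x y ≠ 0 := by
  have hbl := hQ.polar_bilinear
  intro x hx hx0
  obtain ⟨hxX, hxf⟩ := (mem_cut hQ X f x).mp hx
  obtain ⟨y, hy, hxy⟩ := pX x hxX hx0
  refine ⟨y - QuadraticMap.polar Q y e • f, ?_, ?_⟩
  · rw [mem_cut]
    refine ⟨Y.sub_mem hy (Y.smul_mem _ hf), ?_⟩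
    rw [bil_sub_left hbl, hbl.smul_left, B_comm Q f e, hef, mul_one, sub_self]
  · rw [bil_sub_right hbl, hbl.smul_right, hxf, mul_zero, sub_zero]
    exact hxy

variable [Fintype F]

/-- An element of `Ω` interchanging the members of two orthogonal hyperbolic pairs. -/
lemma refl_pair_swap (hQ : Cfsg.Geo.IsNondegenerateQuadraticForm Q)
    (h5 : 5 ≤ Fintype.card ι) {e₁ e₂ f₁ f₂ : ι → F}
    (he₁ : Q e₁ = 0) (he₂ : Q e₂ = 0) (hf₁ : Q f₁ = 0) (hf₂ : Q f₂ = 0)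
    (h11 : QuadraticMap.polar Q e₁ f₁ = 1) (h22 : QuadraticMap.polar Q e₂ f₂ = 1)
    (hee : QuadraticMap.polar Q e₁ e₂ = 0) (h12 : QuadraticMap.polar Q e₁ f₂ = 0)
    (h21 : QuadraticMap.polar Q e₂ f₁ = 0) (hff : QuadraticMap.polar Q f₁ f₂ = 0) :
    ∃ h : Matrix.GeneralLinearGroup ι F, h ∈ Cfsg.Geo.omegaGL Q ∧
      (h : Matrix ι ι F) *ᵥ e₁ = f₁ ∧ (h : Matrix ι ι F) *ᵥ f₁ = e₁ ∧
      (h : Matrix ι ι F) *ᵥ e₂ = f₂ ∧ (h : Matrix ι ι F) *ᵥ f₂ = e₂ ∧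
      ∀ v, QuadraticMap.polar Q v e₁ = 0 → QuadraticMap.polar Q v f₁ = 0 →
        QuadraticMap.polar Q v e₂ = 0 → QuadraticMap.polar Q v f₂ = 0 →
        (h : Matrix ι ι F) *ᵥ v = v := by
  have hbl := hQ.polar_bilinear
  have hQw : Q (e₁ - f₁) = -1 := by rw [Q_sub hQ, he₁, hf₁, h11]; ring
  have hQz : Q (e₂ - f₂) = -1 := by rw [Q_sub hQ, he₂, hf₂, h22]; ring
  have h11' : QuadraticMap.polar Q f₁ e₁ = 1 := by rw [B_comm]; exact h11
  have h22' : QuadraticMap.polar Q f₂ e₂ = 1 := by rw [B_comm]; exact h22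
  have hee' : QuadraticMap.polar Q e₂ e₁ = 0 := by rw [B_comm]; exact hee
  have h12' : QuadraticMap.polar Q f₂ e₁ = 0 := by rw [B_comm]; exact h12
  have h21' : QuadraticMap.polar Q f₁ e₂ = 0 := by rw [B_comm]; exact h21
  have hff' : QuadraticMap.polar Q f₂ f₁ = 0 := by rw [B_comm]; exact hff
  have e11 := polar_self_sing hQ e₁ he₁
  have e22 := polar_self_sing hQ e₂ he₂
  have f11 := polar_self_sing hQ f₁ hf₁
  have f22 := polar_self_sing hQ f₂ hf₂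
  have hwz : QuadraticMap.polar Q (e₁ - f₁) (e₂ - f₂) = 0 := by
    rw [bil_sub_left hbl, bil_sub_right hbl, bil_sub_right hbl, hee, h12, h21', hff]; ring
  obtain ⟨h, hhΩ, hh⟩ := exists_refl_pair hQ h5 (w := e₁ - f₁) (z := e₂ - f₂)
    (by rw [hQw]; simp) (by rw [hQz, hQw]) hwz
  refine ⟨h, hhΩ, ?_, ?_, ?_, ?_, ?_⟩
  · rw [hh]
    simp only [hQz, hQw, bil_sub_right hbl, hee, h12, e11, h11, inv_neg_one]
    module
  · rw [hh]
    simp only [hQz, hQw, bil_sub_right hbl, h21', hff, f11, h11', inv_neg_one]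
    module
  · rw [hh]
    simp only [hQz, hQw, bil_sub_right hbl, hee', h21, e22, h22, inv_neg_one]
    module
  · rw [hh]
    simp only [hQz, hQw, bil_sub_right hbl, h12', hff', f22, h22', inv_neg_one]
    module
  · intro v hv1 hv2 hv3 hv4
    rw [hh]
    simp only [hQz, hQw, bil_sub_right hbl, hv1, hv2, hv3, hv4, inv_neg_one]
    module

/-- **Swap.** Two totally singular subspaces in perfect duality, of even dimension, are
interchanged by an element of `Ω` fixing everything orthogonal to both. -/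
theorem exists_swap (hQ : Cfsg.Geo.IsNondegenerateQuadraticForm Q) (h5 : 5 ≤ Fintype.card ι) :
    ∀ (j : ℕ) (X Y : Submodule F (ι → F)), finrank F X = 2 * j →
    (∀ x ∈ X, Q x = 0) → (∀ y ∈ Y, Q y = 0) →
    (∀ x ∈ X, x ≠ 0 → ∃ y ∈ Y, QuadraticMap.polar Q x y ≠ 0) →
    (∀ y ∈ Y, y ≠ 0 → ∃ x ∈ X, QuadraticMap.polar Q y x ≠ 0) →
    ∃ s : Matrix.GeneralLinearGroup ι F, s ∈ Cfsg.Geo.omegaGL Q ∧
      (∀ x ∈ X, (s : Matrix ι ι F) *ᵥ x ∈ Y) ∧ (∀ y ∈ Y, (s : Matrix ι ι F) *ᵥ y ∈ X) ∧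
      (∀ v, (∀ x ∈ X, QuadraticMap.polar Q x v = 0) → (∀ y ∈ Y, QuadraticMap.polar Q y v = 0) →
        (s : Matrix ι ι F) *ᵥ v = v) := by
  have hbl := hQ.polar_bilinear
  intro j
  induction j with
  | zero =>
    intro X Y hfr tsX tsY pX pY
    have hX : X = ⊥ := by
      apply Submodule.finrank_eq_zero.mp
      simpa using hfr
    have hY : ∀ y ∈ Y, y = 0 := by
      intro y hy
      by_contra hy0
      obtain ⟨x, hx, hyx⟩ := pY y hy hy0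
      rw [hX, Submodule.mem_bot] at hx
      rw [hx, bil_zero_right hbl] at hyx
      exact hyx rfl
    refine ⟨1, Subgroup.one_mem _, fun x hx => ?_, fun y hy => ?_, fun v _ _ => ?_⟩
    · rw [hX, Submodule.mem_bot] at hx
      rw [hx, Matrix.mulVec_zero]; exact Y.zero_mem
    · rw [hY y hy, Matrix.mulVec_zero]; exact X.zero_mem
    · rw [Units.val_one, Matrix.one_mulVec]
  | succ j ih =>
    intro X Y hfr tsX tsY pX pY
    have polX : ∀ x ∈ X, ∀ x' ∈ X, QuadraticMap.polar Q x x' = 0 :=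
      fun x hx x' hx' => polar_ts X tsX x x' hx hx'
    have polY : ∀ y ∈ Y, ∀ y' ∈ Y, QuadraticMap.polar Q y y' = 0 :=
      fun y hy y' hy' => polar_ts Y tsY y y' hy hy'
    have hXne : X ≠ ⊥ := by
      intro h0
      rw [h0, finrank_bot] at hfr
      omega
    obtain ⟨e₁, he₁, he₁0⟩ := Submodule.exists_mem_ne_zero_of_ne_bot hXne
    obtain ⟨f₁', hf₁', hef₁'⟩ := pX e₁ he₁ he₁0
    obtain ⟨f₁, hf₁, h11⟩ : ∃ f₁ ∈ Y, QuadraticMap.polar Q e₁ f₁ = 1 :=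
      ⟨(QuadraticMap.polar Q e₁ f₁')⁻¹ • f₁', Y.smul_mem _ hf₁',
        by rw [hbl.smul_right, inv_mul_cancel₀ hef₁']⟩
    have h11' : QuadraticMap.polar Q f₁ e₁ = 1 := by rw [B_comm]; exact h11
    have hfr1 := finrank_cut hQ X he₁ h11
    have pX1 := paired_cut hQ X Y hf₁ h11 pX
    have pY1 := paired_cut hQ Y X he₁ h11' pY
    have hX1ne : cut hQ X f₁ ≠ ⊥ := by
      intro h0
      rw [h0, finrank_bot] at hfr1
      omega
    obtain ⟨e₂, he₂, he₂0⟩ := Submodule.exists_mem_ne_zero_of_ne_bot hX1ne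
    obtain ⟨f₂', hf₂', hef₂'⟩ := pX1 e₂ he₂ he₂0
    obtain ⟨f₂, hf₂, h22⟩ : ∃ f₂ ∈ cut hQ Y e₁, QuadraticMap.polar Q e₂ f₂ = 1 :=
      ⟨(QuadraticMap.polar Q e₂ f₂')⁻¹ • f₂', Submodule.smul_mem _ _ hf₂',
        by rw [hbl.smul_right, inv_mul_cancel₀ hef₂']⟩
    have h22' : QuadraticMap.polar Q f₂ e₂ = 1 := by rw [B_comm]; exact h22
    have hfr2 := finrank_cut hQ (cut hQ X f₁) he₂ h22
    have pX2 := paired_cut hQ (cut hQ X f₁) (cut hQ Y e₁) hf₂ h22 pX1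
    have pY2 := paired_cut hQ (cut hQ Y e₁) (cut hQ X f₁) he₂ h22' pY1
    obtain ⟨he₂X, h21⟩ := (mem_cut hQ X f₁ e₂).mp he₂
    obtain ⟨hf₂Y, h12'⟩ := (mem_cut hQ Y e₁ f₂).mp hf₂
    have h12 : QuadraticMap.polar Q e₁ f₂ = 0 := by rw [B_comm]; exact h12'
    have h21' : QuadraticMap.polar Q f₁ e₂ = 0 := by rw [B_comm]; exact h21
    have mX₂ : ∀ x, x ∈ cut hQ (cut hQ X f₁) f₂ ↔
        x ∈ X ∧ QuadraticMap.polar Q x f₁ = 0 ∧ QuadraticMap.polar Q x f₂ = 0 := by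
      intro x
      rw [mem_cut, mem_cut, and_assoc]
    have mY₂ : ∀ y, y ∈ cut hQ (cut hQ Y e₁) e₂ ↔
        y ∈ Y ∧ QuadraticMap.polar Q y e₁ = 0 ∧ QuadraticMap.polar Q y e₂ = 0 := by
      intro y
      rw [mem_cut, mem_cut, and_assoc]
    obtain ⟨s₃, hs₃Ω, hs₃X, hs₃Y, hs₃fix⟩ := ih (cut hQ (cut hQ X f₁) f₂)
      (cut hQ (cut hQ Y e₁) e₂) (by omega) (fun x hx => tsX x ((mX₂ x).mp hx).1)
      (fun y hy => tsY y ((mY₂ y).mp hy).1) pX2 pY2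
    obtain ⟨h, hhΩ, hhe₁, hhf₁, hhe₂, hhf₂, hhfix⟩ := refl_pair_swap hQ h5 (tsX e₁ he₁)
      (tsX e₂ he₂X) (tsY f₁ hf₁) (tsY f₂ hf₂Y) h11 h22 (polX e₁ he₁ e₂ he₂X) h12 h21
      (polY f₁ hf₁ f₂ hf₂Y)
    have s₃e₁ : (s₃ : Matrix ι ι F) *ᵥ e₁ = e₁ :=
      hs₃fix e₁ (fun x hx => polX x ((mX₂ x).mp hx).1 e₁ he₁) (fun y hy => ((mY₂ y).mp hy).2.1)
    have s₃f₁ : (s₃ : Matrix ι ι F) *ᵥ f₁ = f₁ :=
      hs₃fix f₁ (fun x hx => ((mX₂ x).mp hx).2.1) (fun y hy => polY y ((mY₂ y).mp hy).1 f₁ hf₁)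
    have s₃e₂ : (s₃ : Matrix ι ι F) *ᵥ e₂ = e₂ :=
      hs₃fix e₂ (fun x hx => polX x ((mX₂ x).mp hx).1 e₂ he₂X) (fun y hy => ((mY₂ y).mp hy).2.2)
    have s₃f₂ : (s₃ : Matrix ι ι F) *ᵥ f₂ = f₂ :=
      hs₃fix f₂ (fun x hx => ((mX₂ x).mp hx).2.2) (fun y hy => polY y ((mY₂ y).mp hy).1 f₂ hf₂Y)
    refine ⟨h * s₃, Subgroup.mul_mem _ hhΩ hs₃Ω, fun x hx => ?_, fun y hy => ?_,
      fun v hvX hvY => ?_⟩
    · obtain ⟨x₂, hx₂⟩ : ∃ x₂, x₂ = x - QuadraticMap.polar Q x f₁ • e₁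
          - QuadraticMap.polar Q x f₂ • e₂ := ⟨_, rfl⟩
      have hx₂m : x₂ ∈ cut hQ (cut hQ X f₁) f₂ := by
        rw [mX₂]
        refine ⟨?_, ?_, ?_⟩
        · rw [hx₂]
          exact X.sub_mem (X.sub_mem hx (X.smul_mem _ he₁)) (X.smul_mem _ he₂X)
        · rw [hx₂, bil_sub_left hbl, bil_sub_left hbl, hbl.smul_left, hbl.smul_left, h11, h21]
          ring
        · rw [hx₂, bil_sub_left hbl, bil_sub_left hbl, hbl.smul_left, hbl.smul_left, h12, h22]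
          ring
      have hy₂ := hs₃X x₂ hx₂m
      obtain ⟨hy₂Y, hy₂e₁, hy₂e₂⟩ := (mY₂ _).mp hy₂
      have hfix := hhfix _ hy₂e₁ (polY _ hy₂Y f₁ hf₁) hy₂e₂ (polY _ hy₂Y f₂ hf₂Y)
      have ex : x = x₂ + QuadraticMap.polar Q x f₁ • e₁ + QuadraticMap.polar Q x f₂ • e₂ := by
        rw [hx₂]; abel
      have e : ((h * s₃ : Matrix.GeneralLinearGroup ι F) : Matrix ι ι F) *ᵥ x
          = (s₃ : Matrix ι ι F) *ᵥ x₂ + QuadraticMap.polar Q x f₁ • f₁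
            + QuadraticMap.polar Q x f₂ • f₂ := by
        rw [Units.val_mul, ← Matrix.mulVec_mulVec]
        conv_lhs => rw [ex]
        simp only [Matrix.mulVec_add, Matrix.mulVec_smul, s₃e₁, s₃e₂, hhe₁, hhe₂, hfix]
      rw [e]
      exact Y.add_mem (Y.add_mem hy₂Y (Y.smul_mem _ hf₁)) (Y.smul_mem _ hf₂Y)
    · obtain ⟨y₂, hy₂⟩ : ∃ y₂, y₂ = y - QuadraticMap.polar Q y e₁ • f₁
          - QuadraticMap.polar Q y e₂ • f₂ := ⟨_, rfl⟩
      have hy₂m : y₂ ∈ cut hQ (cut hQ Y e₁) e₂ := by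
        rw [mY₂]
        refine ⟨?_, ?_, ?_⟩
        · rw [hy₂]
          exact Y.sub_mem (Y.sub_mem hy (Y.smul_mem _ hf₁)) (Y.smul_mem _ hf₂Y)
        · rw [hy₂, bil_sub_left hbl, bil_sub_left hbl, hbl.smul_left, hbl.smul_left, h11', h12']
          ring
        · rw [hy₂, bil_sub_left hbl, bil_sub_left hbl, hbl.smul_left, hbl.smul_left, h21', h22']
          ring
      have hx₂ := hs₃Y y₂ hy₂m
      obtain ⟨hx₂X, hx₂f₁, hx₂f₂⟩ := (mX₂ _).mp hx₂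
      have hfix := hhfix _ (polX _ hx₂X e₁ he₁) hx₂f₁ (polX _ hx₂X e₂ he₂X) hx₂f₂
      have ey : y = y₂ + QuadraticMap.polar Q y e₁ • f₁ + QuadraticMap.polar Q y e₂ • f₂ := by
        rw [hy₂]; abel
      have e : ((h * s₃ : Matrix.GeneralLinearGroup ι F) : Matrix ι ι F) *ᵥ y
          = (s₃ : Matrix ι ι F) *ᵥ y₂ + QuadraticMap.polar Q y e₁ • e₁
            + QuadraticMap.polar Q y e₂ • e₂ := by
        rw [Units.val_mul, ← Matrix.mulVec_mulVec]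
        conv_lhs => rw [ey]
        simp only [Matrix.mulVec_add, Matrix.mulVec_smul, s₃f₁, s₃f₂, hhf₁, hhf₂, hfix]
      rw [e]
      exact X.add_mem (X.add_mem hx₂X (X.smul_mem _ he₁)) (X.smul_mem _ he₂X)
    · rw [Units.val_mul, ← Matrix.mulVec_mulVec,
        hs₃fix v (fun x hx => hvX x ((mX₂ x).mp hx).1) (fun y hy => hvY y ((mY₂ y).mp hy).1)]
      exact hhfix v (by rw [B_comm]; exact hvX e₁ he₁) (by rw [B_comm]; exact hvY f₁ hf₁)
        (by rw [B_comm]; exact hvX e₂ he₂X) (by rw [B_comm]; exact hvY f₂ hf₂Y)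

end Swap

end Cfsg.Agent.Lib.Helper94.OrthLagSwap
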