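import Mathlib
import Cfsg.Prelude.Def_GeometricClasses
import Cfsg.Agent.Lib.Helper94.Basic
import Cfsg.Agent.Lib.Helper94.GLAux

set_option autoImplicit false

namespace Cfsg.Agent.Lib.Helper94.SubfieldRat

open scoped Matrix
open Cfsg.Agent.Lib.Helper94.Basic Cfsg.Agent.Lib.Helper94.GLAux

section Rat

variable {ι : Type} [Fintype ι] [DecidableEq ι] {F : Type*} [Field F] (F₀ : Subfield F)

/-- The coercion of a vector with entries in the subfield. -/
def up (u : ι → F₀) : ι → F := fun i => (u i : F)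

@[simp] lemma up_apply (u : ι → F₀) (i : ι) : up F₀ u i = (u i : F) := rfl

lemma up_add (u v : ι → F₀) : up F₀ (u + v) = up F₀ u + up F₀ v := by
  ext i; simp [up]

lemma up_sub (u v : ι → F₀) : up F₀ (u - v) = up F₀ u - up F₀ v := by
  ext i; simp [up]

lemma up_neg (u : ι → F₀) : up F₀ (-u) = -up F₀ u := by
  ext i; simp [up]

lemma up_zero : up F₀ (0 : ι → F₀) = 0 := by
  ext i; simp [up]

lemma up_smul (c : F₀) (u : ι → F₀) : up F₀ (c • u) = (c : F) • up F₀ u := by
  ext i; simp [up]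

lemma up_injective : Function.Injective (up F₀ (ι := ι)) := by
  intro u v h
  ext i
  have := congrFun h i
  simpa [up] using this

lemma up_single (j : ι) : up F₀ (Pi.single j (1 : F₀)) = Pi.single j (1 : F) := by
  ext i
  by_cases h : i = j
  · subst h; simp [up]
  · simp [up, Pi.single_eq_of_ne h]

lemma exists_up (v : ι → F) (h : ∀ i, v i ∈ F₀) : ∃ u, up F₀ u = v :=
  ⟨fun i => ⟨v i, h i⟩, rfl⟩

lemma up_eq_zero (u : ι → F₀) : up F₀ u = 0 ↔ u = 0 := by
  constructor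
  · intro h
    apply up_injective F₀
    rw [h, up_zero]
  · intro h
    rw [h, up_zero]

/-- The embedding of `GL` over the subfield. -/
def Phi : Matrix.GeneralLinearGroup ι F₀ →* Matrix.GeneralLinearGroup ι F :=
  Matrix.GeneralLinearGroup.map F₀.subtype

lemma Phi_entry (h : Matrix.GeneralLinearGroup ι F₀) (i j : ι) :
    ((Phi F₀ h : Matrix.GeneralLinearGroup ι F) : Matrix ι ι F) i j
      = (((h : Matrix ι ι F₀) i j : F₀) : F) := rfl

lemma Phi_mulVec (h : Matrix.GeneralLinearGroup ι F₀) (u : ι → F₀) :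
    ((Phi F₀ h : Matrix.GeneralLinearGroup ι F) : Matrix ι ι F) *ᵥ up F₀ u
      = up F₀ ((h : Matrix ι ι F₀) *ᵥ u) := by
  ext i
  exact (RingHom.map_mulVec F₀.subtype (h : Matrix ι ι F₀) u i).symm

lemma Phi_det (h : Matrix.GeneralLinearGroup ι F₀) :
    ((Phi F₀ h : Matrix.GeneralLinearGroup ι F) : Matrix ι ι F).det
      = (((h : Matrix ι ι F₀).det : F₀) : F) :=
  (RingHom.map_det F₀.subtype (h : Matrix ι ι F₀)).symm

/-- A matrix of `GL` with entries in the subfield lies in the image. -/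
lemma mem_range_of_entries (g : Matrix.GeneralLinearGroup ι F)
    (h : ∀ i j, (g : Matrix ι ι F) i j ∈ F₀) : g ∈ (Phi F₀ (ι := ι)).range := by
  obtain ⟨A₀, hA⟩ : ∃ A₀ : Matrix ι ι F₀, A₀ = Matrix.of fun i j => (⟨(g : Matrix ι ι F) i j, h i j⟩ : F₀) :=
    ⟨_, rfl⟩
  have hmap : A₀.map F₀.subtype = (g : Matrix ι ι F) := by
    ext i j
    simp [hA]
  have hdet : A₀.det ≠ 0 := by
    intro h0
    have h1 : (A₀.map F₀.subtype).det = F₀.subtype A₀.det :=
      (RingHom.map_det F₀.subtype A₀).symm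
    rw [hmap, h0, map_zero] at h1
    exact ((Matrix.isUnit_iff_isUnit_det _).mp g.isUnit).ne_zero h1
  refine ⟨Matrix.GeneralLinearGroup.mkOfDetNeZero A₀ hdet, ?_⟩
  apply Units.ext
  exact hmap

/-- The scalar matrix of a unit. -/
def sc (c : Fˣ) : Matrix.GeneralLinearGroup ι F :=
  Units.map (Matrix.scalar ι : F →+* Matrix ι ι F).toMonoidHom c

lemma sc_mem (c : Fˣ) : sc (ι := ι) c ∈ Cfsg.Geo.scalars ι F := ⟨c, rfl⟩

lemma sc_mulVec (c : Fˣ) (v : ι → F) :
    ((sc c : Matrix.GeneralLinearGroup ι F) : Matrix ι ι F) *ᵥ v = (c : F) • v := by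
  ext i
  simp [sc, Matrix.mulVec_diagonal]

lemma sc_entry (c : Fˣ) (i j : ι) :
    ((sc c : Matrix.GeneralLinearGroup ι F) : Matrix ι ι F) i j = if i = j then (c : F) else 0 := by
  simp [sc, Matrix.diagonal_apply]

variable {σ : F ≃+* F}

/-- Decomposition of a field element along `1, θ`. -/
lemma decomp (hinv : ∀ a : F, σ (σ a) = a) (hfix : ∀ x : F, x ∈ F₀ ↔ σ x = x) (θ : F)
    (hθ : σ θ ≠ θ) (x : F) : ∃ a b : F₀, x = (a : F) + (b : F) * θ := by
  have hd : θ - σ θ ≠ 0 := sub_ne_zero.mpr (Ne.symm hθ)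
  have hd' : σ θ - θ ≠ 0 := sub_ne_zero.mpr hθ
  have hb : (x - σ x) / (θ - σ θ) ∈ F₀ := by
    rw [hfix, map_div₀, map_sub, map_sub, hinv, hinv]
    field_simp
    ring
  have ha : x - (x - σ x) / (θ - σ θ) * θ ∈ F₀ := by
    rw [hfix, map_sub, map_mul, map_div₀, map_sub, map_sub, hinv, hinv]
    field_simp
    ring
  refine ⟨⟨_, ha⟩, ⟨_, hb⟩, ?_⟩
  simp

lemma decomp_vec (hinv : ∀ a : F, σ (σ a) = a) (hfix : ∀ x : F, x ∈ F₀ ↔ σ x = x) (θ : F)
    (hθ : σ θ ≠ θ) (v : ι → F) : ∃ u1 u2 : ι → F₀, v = up F₀ u1 + θ • up F₀ u2 := by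
  choose a b h using fun i => decomp F₀ hinv hfix θ hθ (v i)
  refine ⟨a, b, ?_⟩
  ext i
  simp [h i, mul_comm]

lemma decomp_unique (θ : F) (hθ : θ ∉ F₀) (u1 u2 u1' u2' : ι → F₀)
    (h : up F₀ u1 + θ • up F₀ u2 = up F₀ u1' + θ • up F₀ u2') : u1 = u1' ∧ u2 = u2' := by
  have key : ∀ i, u2 i = u2' i := by
    intro i
    by_contra hne
    have h1 := congrFun h i
    simp only [Pi.add_apply, Pi.smul_apply, up_apply, smul_eq_mul] at h1
    have hne' : ((u2 i : F) - (u2' i : F)) ≠ 0 := by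
      intro h0
      apply hne
      exact Subtype.ext (sub_eq_zero.mp h0)
    have h2 : θ = ((u1' i : F) - (u1 i : F)) / ((u2 i : F) - (u2' i : F)) := by
      field_simp
      linear_combination h1
    apply hθ
    rw [h2]
    exact F₀.div_mem (F₀.sub_mem (u1' i).2 (u1 i).2) (F₀.sub_mem (u2 i).2 (u2' i).2)
  have h2 : u2 = u2' := funext key
  refine ⟨?_, h2⟩
  rw [h2] at h
  exact up_injective F₀ (add_right_cancel h)

end Rat

/-- Maximality is invariant under a group isomorphism. -/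
lemma isMaximalIn_of_map {G : Type*} [Group G] (e : G ≃* G) (K H : Subgroup G)
    (h : Cfsg.Geo.IsMaximalIn (K.map e.toMonoidHom) (H.map e.toMonoidHom)) :
    Cfsg.Geo.IsMaximalIn K H := by
  obtain ⟨h1, h2⟩ := h
  refine ⟨?_, ?_⟩
  · exact (Subgroup.map_lt_map_iff_of_injective e.injective).mp h1
  · intro M hHM hMK
    rcases h2 (M.map e.toMonoidHom) (Subgroup.map_mono hHM) (Subgroup.map_mono hMK) with h3 | h3
    · left
      exact Subgroup.map_injective e.injective h3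
    · right
      exact Subgroup.map_injective e.injective h3

end Cfsg.Agent.Lib.Helper94.SubfieldRat
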