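import Mathlib
import Cfsg.Prelude.Def_GeometricClasses
import Cfsg.Agent.Lib.Helper94.Tv
import Cfsg.Agent.Lib.Helper94.SubfieldRat

/-!
# Elementary transvections and subfield structures in `GL` (helper94)

* `el i j c` : the elementary transvection `x ↦ x + c x_j e_i` as an element of `GL ι F`.
* `gtv_comm` : commutator formula for general transvections.
* `lam_cases` : for a subgroup containing the rational elementary transvections, the parameters of
  the elementary transvections it contains are all rational, or everything.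
* `mem_of_cols` : an element of `GL` whose columns (and sums of two columns) are multiples of
  rational vectors lies in the subfield group.
-/

set_option autoImplicit false

namespace Cfsg.Agent.Lib.Helper94.SfLin1

open scoped Matrix
open Cfsg.Agent.Lib.Helper94.Basic Cfsg.Agent.Lib.Helper94.GLAux Cfsg.Agent.Lib.Helper94.Tv
  Cfsg.Agent.Lib.Helper94.SubfieldRat

section GenLin

variable {ι : Type} [Fintype ι] [DecidableEq ι] {F : Type*} [Field F]

lemma gtv_congr {φ φ' : Module.Dual F (ι → F)} {w w' : ι → F} (h : φ w = 0) (h' : φ' w' = 0)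
    (e1 : φ = φ') (e2 : w = w') : gtv φ w h = gtv φ' w' h' := by
  subst e1
  subst e2
  rfl

/-- Commutator formula for transvections. -/
lemma gtv_comm (ψ φ : Module.Dual F (ι → F)) (v v' : ι → F) (hv : ψ v = 0) (hv' : φ v' = 0)
    (h : φ v = 0) :
    gtv ψ v hv * gtv φ v' hv' * (gtv ψ v hv)⁻¹ * (gtv φ v' hv')⁻¹
      = gtv (ψ v' • φ) v (by simp [h]) := by
  apply gl_ext
  intro x
  rw [gtv_inv, gtv_inv, Units.val_mul, Units.val_mul, Units.val_mul, ← Matrix.mulVec_mulVec,
    ← Matrix.mulVec_mulVec, ← Matrix.mulVec_mulVec]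
  simp only [gtv_mulVec, map_add, map_smul, LinearMap.neg_apply, LinearMap.smul_apply, hv, hv', h,
    smul_eq_mul, mul_zero, add_zero, neg_smul, map_neg, neg_zero]
  module

/-- The elementary transvection `x ↦ x + c x_j e_i`. -/
noncomputable def el (i j : ι) (c : F) : Matrix.GeneralLinearGroup ι F :=
  if h : i ≠ j then
    gtv (c • (LinearMap.proj j : (ι → F) →ₗ[F] F)) (Pi.single i 1)
      (by simp [h.symm])
  else 1

lemma el_eq {i j : ι} (hij : i ≠ j) (c : F) :
    el i j c = gtv (c • (LinearMap.proj j : (ι → F) →ₗ[F] F)) (Pi.single i 1)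
      (by simp [hij.symm]) := by
  unfold el
  rw [dif_pos hij]

lemma el_mulVec {i j : ι} (hij : i ≠ j) (c : F) (x : ι → F) :
    ((el i j c : Matrix.GeneralLinearGroup ι F) : Matrix ι ι F) *ᵥ x
      = x + (c * x j) • Pi.single i (1 : F) := by
  rw [el_eq hij, gtv_mulVec]
  simp

lemma el_mem_SL {i j : ι} (hij : i ≠ j) (c : F) : el i j c ∈ Cfsg.Geo.specialLinear ι F := by
  rw [el_eq hij]
  exact gtv_mem_SL _ _ _

lemma el_mul {i j : ι} (hij : i ≠ j) (c d : F) : el i j c * el i j d = el i j (c + d) := by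
  rw [el_eq hij, el_eq hij, el_eq hij, gtv_mul]
  apply gtv_congr
  · rw [add_smul]
  · rfl

lemma el_zero {i j : ι} (hij : i ≠ j) : el i j (0 : F) = 1 := by
  apply gl_ext
  intro x
  rw [el_mulVec hij]
  simp

lemma el_inv {i j : ι} (hij : i ≠ j) (c : F) : (el i j c)⁻¹ = el i j (-c) := by
  apply inv_eq_of_mul_eq_one_left
  rw [el_mul hij, neg_add_cancel, el_zero hij]

/-- Steinberg commutator relation. -/
lemma el_comm {i j k : ι} (hij : i ≠ j) (hjk : j ≠ k) (hik : i ≠ k) (c d : F) :
    el i j c * el j k d * (el i j c)⁻¹ * (el j k d)⁻¹ = el i k (c * d) := by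
  rw [el_eq hij, el_eq hjk, el_eq hik, gtv_comm]
  · apply gtv_congr
    · simp [smul_smul]
    · rfl
  · simp [hik.symm]

/-- A subgroup of `GL` containing all elementary transvections contains the special linear
group. -/
theorem specialLinear_le_of_el [Nontrivial ι] (M : Subgroup (Matrix.GeneralLinearGroup ι F))
    (hM : ∀ i j : ι, i ≠ j → ∀ c : F, el i j c ∈ M) :
    Cfsg.Geo.specialLinear ι F ≤ M := by
  intro g hg
  rw [mem_specialLinear_iff] at hg
  have hM' : ∀ (i j : ι) (hij : i ≠ j) (c : F),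
      Matrix.SpecialLinearGroup.toGL (Matrix.SpecialLinearGroup.transvection hij c) ∈ M := by
    intro i j hij c
    rw [toGL_transvection, ← el_eq hij]
    exact hM i j hij c
  have key : ∀ A : Matrix.SpecialLinearGroup ι F, Matrix.SpecialLinearGroup.toGL A ∈ M := by
    intro A
    refine Matrix.SpecialLinearGroup.diagonal_transvection_induction'
      (fun A => Matrix.SpecialLinearGroup.toGL A ∈ M) A ?_ ?_ ?_
    · intro i j hij c hc
      rw [diag2n_eq hij c hc]
      simp only [map_mul]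
      exact M.mul_mem (M.mul_mem (M.mul_mem (M.mul_mem (M.mul_mem (hM' _ _ _ _) (hM' _ _ _ _))
        (hM' _ _ _ _)) (hM' _ _ _ _)) (hM' _ _ _ _)) (hM' _ _ _ _)
    · intro i j hij a
      exact hM' _ _ _ _
    · intro A B hA hB
      rw [map_mul]
      exact M.mul_mem hA hB
  have h1 := key ⟨(g : Matrix ι ι F), hg⟩
  have h2 : Matrix.SpecialLinearGroup.toGL ⟨(g : Matrix ι ι F), hg⟩ = g := by
    apply Units.ext
    rfl
  rwa [h2] at h1

/-- A transvection with rational data lies in the image of `GL` over the subfield. -/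
lemma gtv_mem_range (F₀ : Subfield F) (φ : Module.Dual F (ι → F)) (w : ι → F) (h : φ w = 0)
    (hφ : ∀ q : ι, φ (Pi.single q 1) ∈ F₀) (hw : ∀ p : ι, w p ∈ F₀) :
    gtv φ w h ∈ (Phi F₀ (ι := ι)).range := by
  apply mem_range_of_entries
  intro p q
  have e : ((gtv φ w h : Matrix.GeneralLinearGroup ι F) : Matrix ι ι F) p q
      = (((gtv φ w h : Matrix.GeneralLinearGroup ι F) : Matrix ι ι F) *ᵥ Pi.single q 1) p := by
    rw [Matrix.mulVec_single_one]
    rfl
  rw [e, gtv_mulVec]
  simp only [Pi.add_apply, Pi.smul_apply, smul_eq_mul, Pi.single_apply]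
  apply F₀.add_mem
  · split_ifs
    · exact F₀.one_mem
    · exact F₀.zero_mem
  · exact F₀.mul_mem (hφ q) (hw p)

lemma el_mem_range (F₀ : Subfield F) {i j : ι} (hij : i ≠ j) (c : F) (hc : c ∈ F₀) :
    el i j c ∈ (Phi F₀ (ι := ι)).range := by
  rw [el_eq hij]
  apply gtv_mem_range
  · intro q
    simp only [LinearMap.smul_apply, LinearMap.proj_apply, Pi.single_apply, smul_eq_mul]
    split_ifs
    · rw [mul_one]; exact hc
    · rw [mul_zero]; exact F₀.zero_mem
  · intro p
    simp only [Pi.single_apply]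
    split_ifs
    · exact F₀.one_mem
    · exact F₀.zero_mem

end GenLin

section Lam

variable {ι : Type} [Fintype ι] [DecidableEq ι] {F : Type*} [Field F]

/-- Parameters of elementary transvections can be moved between positions. -/
lemma el_transfer (H : Subgroup (Matrix.GeneralLinearGroup ι F))
    (h1 : ∀ i j : ι, i ≠ j → el i j (1 : F) ∈ H) (h3 : 3 ≤ Fintype.card ι)
    {i j i' j' : ι} (hij : i ≠ j) (hij' : i' ≠ j') (c : F) (hc : el i j c ∈ H) :
    el i' j' c ∈ H := by
  -- change of column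
  have col : ∀ {a b b' : ι}, a ≠ b → a ≠ b' → el a b c ∈ H → el a b' c ∈ H := by
    intro a b b' hab hab' hmem
    by_cases hbb : b = b'
    · rw [← hbb]; exact hmem
    · have e := el_comm hab hbb hab' c (1 : F)
      rw [mul_one] at e
      rw [← e]
      exact H.mul_mem (H.mul_mem (H.mul_mem hmem (h1 b b' hbb)) (H.inv_mem hmem))
        (H.inv_mem (h1 b b' hbb))
  -- change of row
  have row : ∀ {a a' b : ι}, a ≠ b → a' ≠ b → el a b c ∈ H → el a' b c ∈ H := by
    intro a a' b hab hab' hmem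
    by_cases haa : a' = a
    · rw [haa]; exact hmem
    · have e := el_comm haa hab hab' (1 : F) c
      rw [one_mul] at e
      rw [← e]
      exact H.mul_mem (H.mul_mem (H.mul_mem (h1 a' a haa) hmem) (H.inv_mem (h1 a' a haa)))
        (H.inv_mem hmem)
  obtain ⟨k, hk⟩ : ∃ k : ι, k ≠ i ∧ k ≠ i' := by
    by_contra hcon
    push Not at hcon
    have hsub : (Finset.univ : Finset ι) ⊆ {i, i'} := by
      intro k _
      by_cases hki : k = i
      · simp [hki]
      · simp [hcon k hki]
    have := Finset.card_le_card hsub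
    have h2 : ({i, i'} : Finset ι).card ≤ 2 := Finset.card_le_two
    rw [Finset.card_univ] at this
    omega
  have s1 : el i k c ∈ H := col hij hk.1.symm hc
  have s2 : el i' k c ∈ H := row hk.1.symm hk.2.symm s1
  exact col hk.2.symm hij' s2

/-- The parameters of the elementary transvections in a subgroup containing the rational ones
are all rational, or the subgroup contains all elementary transvections. -/
theorem lam_cases (F₀ : Subfield F)
    (hgen : ∀ μ : F, μ ∉ F₀ → ∀ A : AddSubgroup F, (∀ a ∈ F₀, ∀ z ∈ A, a * z ∈ A) →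
      (∀ z ∈ A, μ * z ∈ A) → (1 : F) ∈ A → A = ⊤)
    (H : Subgroup (Matrix.GeneralLinearGroup ι F))
    (hH : ∀ i j : ι, i ≠ j → ∀ c ∈ F₀, el i j c ∈ H) (h3 : 3 ≤ Fintype.card ι) :
    (∀ i j : ι, i ≠ j → ∀ c : F, el i j c ∈ H → c ∈ F₀) ∨
      (∀ i j : ι, i ≠ j → ∀ c : F, el i j c ∈ H) := by
  have h1 : ∀ i j : ι, i ≠ j → el i j (1 : F) ∈ H := fun i j hij => hH i j hij 1 F₀.one_mem
  by_cases hex : ∃ i j : ι, i ≠ j ∧ ∃ c : F, el i j c ∈ H ∧ c ∉ F₀
  · right
    obtain ⟨i₀, j₀, h₀, μ, hμH, hμ⟩ := hex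
    obtain ⟨k, hk⟩ : ∃ k : ι, k ≠ i₀ ∧ k ≠ j₀ := by
      by_contra hcon
      push Not at hcon
      have hsub : (Finset.univ : Finset ι) ⊆ {i₀, j₀} := by
        intro k _
        by_cases hki : k = i₀
        · simp [hki]
        · simp [hcon k hki]
      have := Finset.card_le_card hsub
      have h2 : ({i₀, j₀} : Finset ι).card ≤ 2 := Finset.card_le_two
      rw [Finset.card_univ] at this
      omega
    let A : AddSubgroup F :=
      { carrier := {c | el i₀ j₀ c ∈ H}
        add_mem' := by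
          intro a b ha hb
          show el i₀ j₀ (a + b) ∈ H
          rw [← el_mul h₀]
          exact H.mul_mem ha hb
        zero_mem' := by
          show el i₀ j₀ (0 : F) ∈ H
          rw [el_zero h₀]
          exact H.one_mem
        neg_mem' := by
          intro a ha
          show el i₀ j₀ (-a) ∈ H
          rw [← el_inv h₀]
          exact H.inv_mem ha }
    have hmul : ∀ c d : F, c ∈ A → d ∈ A → c * d ∈ A := by
      intro c d hc hd
      have s1 : el i₀ k c ∈ H := el_transfer H h1 h3 h₀ hk.1.symm c hc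
      have s2 : el k j₀ d ∈ H := el_transfer H h1 h3 h₀ hk.2 d hd
      have e := el_comm hk.1.symm hk.2 h₀ c d
      show el i₀ j₀ (c * d) ∈ H
      rw [← e]
      exact H.mul_mem (H.mul_mem (H.mul_mem s1 s2) (H.inv_mem s1)) (H.inv_mem s2)
    have hA : A = ⊤ := by
      apply hgen μ hμ A
      · intro a ha z hz
        exact hmul a z (hH i₀ j₀ h₀ a ha) hz
      · intro z hz
        exact hmul μ z hμH hz
      · exact h1 i₀ j₀ h₀
    intro i j hij c
    have hc : c ∈ A := by rw [hA]; trivial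
    exact el_transfer H h1 h3 h₀ hij c hc
  · left
    push Not at hex
    intro i j hij c hc
    by_contra hcon
    exact hcon (hex i j hij c hc)

end Lam

section Cols

variable {ι : Type} [Fintype ι] [DecidableEq ι] {F : Type*} [Field F]

lemma ratio_mem (F₀ : Subfield F) (a1 a2 b1 b2 c1 c2 ρ μ : F) (ha1 : a1 ∈ F₀) (ha2 : a2 ∈ F₀)
    (hb1 : b1 ∈ F₀) (hb2 : b2 ∈ F₀) (hc1 : c1 ∈ F₀) (hc2 : c2 ∈ F₀)
    (h1 : a1 + ρ * b1 = μ * c1) (h2 : a2 + ρ * b2 = μ * c2) (hD : a1 * b2 - a2 * b1 ≠ 0) :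
    ρ ∈ F₀ := by
  have e1 : a1 * b2 - a2 * b1 = μ * (c1 * b2 - c2 * b1) := by
    linear_combination b2 * h1 - b1 * h2
  have hC : c1 * b2 - c2 * b1 ≠ 0 := by
    intro h0
    rw [h0, mul_zero] at e1
    exact hD e1
  have hμ : μ = (a1 * b2 - a2 * b1) / (c1 * b2 - c2 * b1) := by
    rw [eq_div_iff hC]
    exact e1.symm
  have hμ' : μ ∈ F₀ := by
    rw [hμ]
    exact F₀.div_mem (F₀.sub_mem (F₀.mul_mem ha1 hb2) (F₀.mul_mem ha2 hb1))
      (F₀.sub_mem (F₀.mul_mem hc1 hb2) (F₀.mul_mem hc2 hb1))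
  have e2 : ρ * (a1 * b2 - a2 * b1) = μ * (c2 * a1 - c1 * a2) := by
    linear_combination a1 * h2 - a2 * h1
  have hρ : ρ = μ * (c2 * a1 - c1 * a2) / (a1 * b2 - a2 * b1) := by
    rw [eq_div_iff hD]
    exact e2
  rw [hρ]
  exact F₀.div_mem (F₀.mul_mem hμ' (F₀.sub_mem (F₀.mul_mem hc2 ha1) (F₀.mul_mem hc1 ha2)))
    (F₀.sub_mem (F₀.mul_mem ha1 hb2) (F₀.mul_mem ha2 hb1))

/-- An element of `GL` whose columns, and sums of the column `i0` with another column, are
multiples of rational vectors lies in the subfield group. -/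
lemma mem_of_cols (F₀ : Subfield F) (i0 : ι) (g : Matrix.GeneralLinearGroup ι F)
    (h1 : ∀ j : ι, ∃ (c : F) (z : ι → F₀),
      (g : Matrix ι ι F) *ᵥ Pi.single j 1 = c • up F₀ z)
    (h2 : ∀ j : ι, j ≠ i0 → ∃ (c : F) (z : ι → F₀),
      (g : Matrix ι ι F) *ᵥ (Pi.single i0 1 + Pi.single j 1) = c • up F₀ z) :
    g ∈ (Phi F₀ (ι := ι)).range ⊔ Cfsg.Geo.scalars ι F := by
  choose c z hcz using h1
  have hg0 : ∀ x : ι → F, (g : Matrix ι ι F) *ᵥ x = 0 → x = 0 := by
    intro x hx
    apply gl_mulVec_injective g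
    show (g : Matrix ι ι F) *ᵥ x = (g : Matrix ι ι F) *ᵥ 0
    rw [hx, Matrix.mulVec_zero]
  have hsingle : ∀ j : ι, (Pi.single j (1 : F) : ι → F) ≠ 0 := by
    intro j h0
    have := congrFun h0 j
    simp at this
  have hne : ∀ j, (g : Matrix ι ι F) *ᵥ Pi.single j 1 ≠ 0 := fun j h0 =>
    hsingle j (hg0 _ h0)
  have hc0 : ∀ j, c j ≠ 0 := by
    intro j h0
    apply hne j
    rw [hcz, h0, zero_smul]
  have hz0 : ∀ j, z j ≠ 0 := by
    intro j h0
    apply hne j
    rw [hcz, h0, up_zero, smul_zero]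
  have key : ∀ j, c j / c i0 ∈ F₀ := by
    intro j
    by_cases hj : j = i0
    · rw [hj, div_self (hc0 i0)]
      exact F₀.one_mem
    obtain ⟨c', z', h'⟩ := h2 j hj
    have e1 : c i0 • up F₀ (z i0) + c j • up F₀ (z j) = c' • up F₀ z' := by
      rw [← hcz, ← hcz, ← Matrix.mulVec_add, h']
    obtain ⟨p, hp⟩ : ∃ p, z i0 p ≠ 0 := by
      by_contra hcon
      push Not at hcon
      exact hz0 i0 (funext hcon)
    have hp' : ((z i0 p : F₀) : F) ≠ 0 := fun h0 => hp (Subtype.ext h0)
    obtain ⟨q, hq⟩ : ∃ q, ((z i0 p : F₀) : F) * ((z j q : F₀) : F)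
        - ((z i0 q : F₀) : F) * ((z j p : F₀) : F) ≠ 0 := by
      by_contra hcon
      push Not at hcon
      -- then `z j` is proportional to `z i0`
      have hprop : up F₀ (z j) = (((z j p : F₀) : F) / ((z i0 p : F₀) : F)) • up F₀ (z i0) := by
        ext q
        have := hcon q
        simp only [up_apply, Pi.smul_apply, smul_eq_mul]
        field_simp
        linear_combination this
      have e4 : (g : Matrix ι ι F) *ᵥ (Pi.single j 1
          - (c j * (((z j p : F₀) : F) / ((z i0 p : F₀) : F)) / c i0) • Pi.single i0 1) = 0 := by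
        rw [Matrix.mulVec_sub, Matrix.mulVec_smul, hcz, hcz, hprop, smul_smul, smul_smul,
          sub_eq_zero]
        congr 1
        field_simp [hc0 i0]
      have e5 := congrFun (hg0 _ e4) j
      simp [Pi.single_eq_of_ne hj] at e5
    have hi0 := hc0 i0
    have ep := congrFun e1 p
    have eq := congrFun e1 q
    simp only [Pi.add_apply, Pi.smul_apply, up_apply, smul_eq_mul] at ep eq
    apply ratio_mem F₀ ((z i0 p : F₀) : F) ((z i0 q : F₀) : F) ((z j p : F₀) : F)
      ((z j q : F₀) : F) ((z' p : F₀) : F) ((z' q : F₀) : F) (c j / c i0) (c' / c i0)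
      (z i0 p).2 (z i0 q).2 (z j p).2 (z j q).2 (z' p).2 (z' q).2 ?_ ?_ hq
    · field_simp
      linear_combination ep
    · field_simp
      linear_combination eq
  have hci : (c i0)⁻¹ ≠ 0 := inv_ne_zero (hc0 i0)
  have hB : ∀ i j, ((g * sc (Units.mk0 (c i0)⁻¹ hci) : Matrix.GeneralLinearGroup ι F) :
      Matrix ι ι F) i j ∈ F₀ := by
    intro i j
    have e : ((g * sc (Units.mk0 (c i0)⁻¹ hci) : Matrix.GeneralLinearGroup ι F) :
        Matrix ι ι F) *ᵥ Pi.single j 1 = (c j / c i0) • up F₀ (z j) := by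
      rw [Units.val_mul, ← Matrix.mulVec_mulVec, sc_mulVec, Matrix.mulVec_smul,
        hcz, smul_smul, Units.val_mk0, div_eq_inv_mul]
    have e' := congrFun e i
    rw [Matrix.mulVec_single_one] at e'
    simp only [Matrix.col_apply, Pi.smul_apply, up_apply, smul_eq_mul] at e'
    rw [e']
    exact F₀.mul_mem (key j) (z j i).2
  have hg : g = (g * sc (Units.mk0 (c i0)⁻¹ hci)) * sc (Units.mk0 (c i0) (hc0 i0)) := by
    apply gl_ext
    intro x
    rw [Units.val_mul, Units.val_mul, ← Matrix.mulVec_mulVec, ← Matrix.mulVec_mulVec, sc_mulVec,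
      sc_mulVec, Units.val_mk0, Units.val_mk0, smul_smul, inv_mul_cancel₀ (hc0 i0), one_smul]
  rw [hg]
  exact Subgroup.mul_mem_sup (mem_range_of_entries F₀ _ hB) (sc_mem _)

end Cols

end Cfsg.Agent.Lib.Helper94.SfLin1
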