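import Mathlib
import Cfsg.Prelude.Def_GeometricClasses
import Cfsg.Agent.Lib.Helper94.Basic
import Cfsg.Agent.Lib.Helper94.GLAux
import Cfsg.Agent.Lib.Helper94.Tv
import Cfsg.Agent.Lib.Helper94.Tv2
import Cfsg.Agent.Lib.Helper94.SympAbs
import Cfsg.Agent.Lib.Helper94.SympGen
import Cfsg.Agent.Lib.Helper94.SympBlock

set_option autoImplicit false

namespace Cfsg.Agent.Lib.Helper94.SympRoot

open scoped Matrix
open Cfsg.Agent.Lib.Helper94.Basic Cfsg.Agent.Lib.Helper94.GLAux Cfsg.Agent.Lib.Helper94.Tv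
  Cfsg.Agent.Lib.Helper94.Tv2 Cfsg.Agent.Lib.Helper94.SympAbs Cfsg.Agent.Lib.Helper94.SympGen
  Cfsg.Agent.Lib.Helper94.SympBlock

section Root

variable {ι : Type} [Fintype ι] [DecidableEq ι] {F : Type*} [Field F]
variable {f : (ι → F) → (ι → F) → F}

/-- The linear map `x ↦ x + c f(x,b) a + c f(x,a) b`. -/
def ssLin (hf : Cfsg.Geo.IsBilinearForm f) (a b : ι → F) (c : F) : (ι → F) →ₗ[F] (ι → F) where
  toFun x := x + (c * f x b) • a + (c * f x a) • b
  map_add' x y := by
    rw [hf.add_left, hf.add_left]; module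
  map_smul' r x := by
    rw [hf.smul_left, hf.smul_left]; simp only [RingHom.id_apply]; module

@[simp] lemma ssLin_apply (hf : Cfsg.Geo.IsBilinearForm f) (a b : ι → F) (c : F) (x : ι → F) :
    ssLin hf a b c x = x + (c * f x b) • a + (c * f x a) • b := rfl

lemma ssLin_comp (hf : Cfsg.Geo.IsSymplecticForm f) (a b : ι → F) (hab : f a b = 0) (c d : F) :
    ssLin hf.bilinear a b c ∘ₗ ssLin hf.bilinear a b d = ssLin hf.bilinear a b (c + d) := by
  have hba : f b a = 0 := by rw [hf.skew, hab, neg_zero]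
  apply LinearMap.ext
  intro x
  simp only [LinearMap.comp_apply, ssLin_apply, hf.bilinear.add_left, hf.bilinear.smul_left, hab,
    hba, hf.alternating, mul_zero, add_zero]
  module

lemma ssLin_zero (hf : Cfsg.Geo.IsBilinearForm f) (a b : ι → F) :
    ssLin hf a b 0 = LinearMap.id := by
  apply LinearMap.ext
  intro x
  simp

open Classical in
/-- The short root element `x ↦ x + c f(x,b) a + c f(x,a) b` (for `f a b = 0`; the identity
otherwise). -/
noncomputable def ss (hf : Cfsg.Geo.IsSymplecticForm f) (a b : ι → F) (c : F) :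
    Matrix.GeneralLinearGroup ι F :=
  if h : f a b = 0 then
    glOfLin (ssLin hf.bilinear a b c) (ssLin hf.bilinear a b (-c))
      (by rw [ssLin_comp hf a b h, add_neg_cancel, ssLin_zero])
      (by rw [ssLin_comp hf a b h, neg_add_cancel, ssLin_zero])
  else 1

lemma ss_mulVec (hf : Cfsg.Geo.IsSymplecticForm f) (a b : ι → F) (h : f a b = 0) (c : F)
    (x : ι → F) :
    ((ss hf a b c : Matrix.GeneralLinearGroup ι F) : Matrix ι ι F) *ᵥ x
      = x + (c * f x b) • a + (c * f x a) • b := by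
  unfold ss
  rw [dif_pos h]
  simp

lemma ss_isom (hf : Cfsg.Geo.IsSymplecticForm f) (a b : ι → F) (c : F) (x y : ι → F) :
    f (((ss hf a b c : Matrix.GeneralLinearGroup ι F) : Matrix ι ι F) *ᵥ x)
      (((ss hf a b c : Matrix.GeneralLinearGroup ι F) : Matrix ι ι F) *ᵥ y) = f x y := by
  by_cases h : f a b = 0
  · have hba : f b a = 0 := by rw [hf.skew, h, neg_zero]
    rw [ss_mulVec hf a b h, ss_mulVec hf a b h]
    simp only [hf.bilinear.add_left, hf.bilinear.add_right, hf.bilinear.smul_left,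
      hf.bilinear.smul_right, hf.alternating, h, hba, mul_zero, add_zero]
    rw [hf.skew a y, hf.skew b y]
    ring
  · unfold ss
    rw [dif_neg h]
    simp

lemma ss_comm (hf : Cfsg.Geo.IsSymplecticForm f) (a b : ι → F) (c : F) :
    ss hf a b c = ss hf b a c := by
  by_cases h : f a b = 0
  · have hba : f b a = 0 := by rw [hf.skew, h, neg_zero]
    apply gl_ext
    intro x
    rw [ss_mulVec hf a b h, ss_mulVec hf b a hba]
    module
  · have hba : ¬ f b a = 0 := by
      intro h'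
      apply h
      rw [hf.skew, h', neg_zero]
    unfold ss
    rw [dif_neg h, dif_neg hba]

lemma ss_conj (hf : Cfsg.Geo.IsSymplecticForm f) (g : Matrix.GeneralLinearGroup ι F)
    (hg : ∀ x y, f ((g : Matrix ι ι F) *ᵥ x) ((g : Matrix ι ι F) *ᵥ y) = f x y)
    (a b : ι → F) (h : f a b = 0) (c : F) :
    g * ss hf a b c * g⁻¹ = ss hf ((g : Matrix ι ι F) *ᵥ a) ((g : Matrix ι ι F) *ᵥ b) c := by
  have h' : f ((g : Matrix ι ι F) *ᵥ a) ((g : Matrix ι ι F) *ᵥ b) = 0 := by rw [hg, h]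
  apply gl_ext
  intro x
  rw [ss_mulVec hf _ _ h']
  have hx : x = (g : Matrix ι ι F) *ᵥ (((g⁻¹ : Matrix.GeneralLinearGroup ι F) : Matrix ι ι F) *ᵥ x) := by
    rw [gl_mulVec_inv]
  have e1 : f x ((g : Matrix ι ι F) *ᵥ b)
      = f (((g⁻¹ : Matrix.GeneralLinearGroup ι F) : Matrix ι ι F) *ᵥ x) b := by
    conv_lhs => rw [hx]
    rw [hg]
  have e2 : f x ((g : Matrix ι ι F) *ᵥ a)
      = f (((g⁻¹ : Matrix.GeneralLinearGroup ι F) : Matrix ι ι F) *ᵥ x) a := by
    conv_lhs => rw [hx]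
    rw [hg]
  rw [e1, e2]
  simp only [Units.val_mul, ← Matrix.mulVec_mulVec]
  rw [ss_mulVec hf a b h, Matrix.mulVec_add, Matrix.mulVec_add, Matrix.mulVec_smul,
    Matrix.mulVec_smul, gl_mulVec_inv]

/-- Two short root elements with a common vector commute up to a transvection. -/
lemma ss_mul_ss (hf : Cfsg.Geo.IsSymplecticForm f) (a b b' : ι → F) (hab : f a b = 0)
    (hab' : f a b' = 0) (c c' : F) :
    ss hf a b c * ss hf a b' c' = st hf a (2 * c * c' * f b' b) * (ss hf a b' c' * ss hf a b c) := by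
  have hba : f b a = 0 := by rw [hf.skew, hab, neg_zero]
  have hba' : f b' a = 0 := by rw [hf.skew, hab', neg_zero]
  apply gl_ext
  intro x
  simp only [Units.val_mul, ← Matrix.mulVec_mulVec]
  rw [st_mulVec]
  simp only [ss_mulVec hf a b hab, ss_mulVec hf a b' hab']
  simp only [hf.bilinear.add_left, hf.bilinear.smul_left, hf.alternating, hab, hab', hba, hba',
    mul_zero, add_zero]
  rw [hf.skew b b']
  module

/-- Peeling off the component along `a`. -/
lemma ss_add_self (hf : Cfsg.Geo.IsSymplecticForm f) (a w : ι → F) (haw : f a w = 0) (l c : F) :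
    ss hf a (l • a + w) c = st hf a (2 * c * l) * ss hf a w c := by
  have hwa : f w a = 0 := by rw [hf.skew, haw, neg_zero]
  have h1 : f a (l • a + w) = 0 := by
    rw [hf.bilinear.add_right, hf.bilinear.smul_right, hf.alternating, haw, mul_zero, add_zero]
  apply gl_ext
  intro x
  simp only [Units.val_mul, ← Matrix.mulVec_mulVec]
  rw [st_mulVec, ss_mulVec hf a w haw, ss_mulVec hf _ _ h1]
  simp only [hf.bilinear.add_left, hf.bilinear.add_right, hf.bilinear.smul_left,
    hf.bilinear.smul_right, hf.alternating, hwa, mul_zero, add_zero]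
  module

end Root

section Lag

variable {ι : Type} [Fintype ι] [DecidableEq ι] {F : Type*} [Field F]
variable {f : (ι → F) → (ι → F) → F}

/-- A pair of complementary totally isotropic subspaces. -/
structure LagPair (f : (ι → F) → (ι → F) → F) (X Y : Submodule F (ι → F)) : Prop where
  isoX : ∀ x ∈ X, ∀ x' ∈ X, f x x' = 0
  isoY : ∀ y ∈ Y, ∀ y' ∈ Y, f y y' = 0
  sum : ∀ v, ∃ x ∈ X, ∃ y ∈ Y, v = x + y

lemma LagPair.symm {X Y : Submodule F (ι → F)} (h : LagPair f X Y) : LagPair f Y X :=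
  ⟨h.isoY, h.isoX, fun v => by
    obtain ⟨x, hx, y, hy, e⟩ := h.sum v
    exact ⟨y, hy, x, hx, by rw [e, add_comm]⟩⟩

/-- A vector orthogonal to `Y` lies in `Y`. -/
lemma LagPair.perp_mem (hf : Cfsg.Geo.IsSymplecticForm f) {X Y : Submodule F (ι → F)}
    (h : LagPair f X Y) (v : ι → F) (hv : ∀ y ∈ Y, f y v = 0) : v ∈ Y := by
  obtain ⟨x, hx, y, hy, e⟩ := h.sum v
  have hx0 : x = 0 := by
    by_contra hne
    obtain ⟨z, hz⟩ := (hf.nondegenerate x hne).1
    obtain ⟨zx, hzx, zy, hzy, ez⟩ := h.sum z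
    apply hz
    rw [ez, hf.bilinear.add_left, h.isoX zx hzx x hx, zero_add]
    have h1 := hv zy hzy
    rw [e, hf.bilinear.add_right, h.isoY zy hzy y hy, add_zero] at h1
    exact h1
  rw [e, hx0, zero_add]
  exact hy

lemma LagPair.inter (hf : Cfsg.Geo.IsSymplecticForm f) {X Y : Submodule F (ι → F)}
    (h : LagPair f X Y) (v : ι → F) (hX : v ∈ X) (hY : v ∈ Y) : v = 0 := by
  by_contra hne
  obtain ⟨z, hz⟩ := (hf.nondegenerate v hne).1
  obtain ⟨zx, hzx, zy, hzy, ez⟩ := h.sum z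
  apply hz
  rw [ez, hf.bilinear.add_left, h.isoX zx hzx v hX, h.isoY zy hzy v hY, add_zero]

lemma LagPair.exists_ne (hf : Cfsg.Geo.IsSymplecticForm f) {X Y : Submodule F (ι → F)}
    (h : LagPair f X Y) (x : ι → F) (hx : x ∈ X) (hx0 : x ≠ 0) : ∃ y ∈ Y, f x y ≠ 0 := by
  obtain ⟨z, hz⟩ := (hf.nondegenerate x hx0).2
  obtain ⟨zx, hzx, zy, hzy, ez⟩ := h.sum z
  refine ⟨zy, hzy, ?_⟩
  rw [ez, hf.bilinear.add_right, h.isoX x hx zx hzx, zero_add] at hz
  exact hz

/-- Separation of two independent vectors of `X` by a vector of `Y`. -/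
lemma LagPair.exists_sep (hf : Cfsg.Geo.IsSymplecticForm f) {X Y : Submodule F (ι → F)}
    (h : LagPair f X Y) (x x' : ι → F) (hx : x ∈ X) (hx' : x' ∈ X)
    (hn : x' ∉ Submodule.span F {x}) : ∃ y ∈ Y, f x y = 0 ∧ f x' y ≠ 0 := by
  have hnot : x' ∉ Y ⊔ Submodule.span F {x} := by
    intro hmem
    obtain ⟨y, hy, z, hz, e⟩ := Submodule.mem_sup.mp hmem
    obtain ⟨l, rfl⟩ := Submodule.mem_span_singleton.mp hz
    have hyX : y ∈ X := by
      have : y = x' - l • x := by rw [← e]; abel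
      rw [this]
      exact X.sub_mem hx' (X.smul_mem _ hx)
    have hy0 := h.inter hf y hyX hy
    rw [hy0, zero_add] at e
    exact hn (Submodule.mem_span_singleton.mpr ⟨l, e⟩)
  obtain ⟨r, hr, hrx⟩ := exists_perp_ne hf _ x' hnot
  have hrY : r ∈ Y := h.perp_mem hf r (fun y hy => hr y (Submodule.mem_sup_left hy))
  exact ⟨r, hrY, hr x (Submodule.mem_sup_right (Submodule.mem_span_singleton_self x)), hrx⟩

/-- A non-zero vector of a subspace of dimension at least three killed by two functionals. -/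
lemma exists_ker2 (hf : Cfsg.Geo.IsBilinearForm f) (X : Submodule F (ι → F))
    (h3 : 3 ≤ Module.finrank F X) (a b : ι → F) : ∃ x ∈ X, x ≠ 0 ∧ f x a = 0 ∧ f x b = 0 := by
  set ψ : X →ₗ[F] F × F := ((fR hf a).prod (fR hf b)) ∘ₗ X.subtype with hψ
  have hlt : Module.finrank F (F × F) < Module.finrank F X := by
    rw [Module.finrank_prod, Module.finrank_self]; omega
  have hker := LinearMap.ker_ne_bot_of_finrank_lt (f := ψ) hlt
  obtain ⟨x, hx, hx0⟩ := Submodule.exists_mem_ne_zero_of_ne_bot hker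
  have hx' : ψ x = 0 := LinearMap.mem_ker.mp hx
  have h2 : (f (x : ι → F) a, f (x : ι → F) b) = (0, 0) := by simpa [hψ] using hx'
  exact ⟨x, x.2, fun h => hx0 (Subtype.ext h), (Prod.ext_iff.mp h2).1, (Prod.ext_iff.mp h2).2⟩

/-- Cutting a subspace by one functional. -/
lemma sub_one (hf : Cfsg.Geo.IsSymplecticForm f) (A : Submodule F (ι → F)) (e w : ι → F)
    (he : e ∈ A) (hew : f e w = 1) :
    ∃ A1 : Submodule F (ι → F), (∀ a, a ∈ A1 ↔ a ∈ A ∧ f a w = 0) ∧
      Module.finrank F A1 + 1 = Module.finrank F A := by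
  set ψ : A →ₗ[F] F := (fR hf.bilinear w) ∘ₗ A.subtype with hψ
  have hψa : ∀ a : A, ψ a = f (a : ι → F) w := by
    intro a
    simp [hψ]
  have hsurj : Function.Surjective ψ := by
    intro α
    refine ⟨⟨α • e, A.smul_mem _ he⟩, ?_⟩
    rw [hψa]
    simp only [hf.bilinear.smul_left, hew, mul_one]
  refine ⟨(LinearMap.ker ψ).map A.subtype, ?_, ?_⟩
  · intro a
    constructor
    · rintro ⟨a', hker, rfl⟩
      have hker' : ψ a' = 0 := LinearMap.mem_ker.mp hker
      rw [hψa] at hker'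
      exact ⟨a'.2, hker'⟩
    · rintro ⟨ha, h1⟩
      refine ⟨⟨a, ha⟩, ?_, rfl⟩
      have hker' : ψ ⟨a, ha⟩ = 0 := by rw [hψa]; exact h1
      exact LinearMap.mem_ker.mpr hker'
  · rw [Submodule.finrank_map_subtype_eq]
    have h := LinearMap.finrank_range_add_finrank_ker ψ
    rw [LinearMap.range_eq_top.mpr hsurj, finrank_top, Module.finrank_self] at h
    omega

/-- Two totally isotropic subspaces in perfect duality are interchanged by an isometry fixing
every vector orthogonal to both. -/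
theorem exists_lag_swap (hf : Cfsg.Geo.IsSymplecticForm f) :
    ∀ (n : ℕ) (X Y : Submodule F (ι → F)), Module.finrank F X = n →
      (∀ x ∈ X, ∀ x' ∈ X, f x x' = 0) → (∀ y ∈ Y, ∀ y' ∈ Y, f y y' = 0) →
      (∀ x ∈ X, x ≠ 0 → ∃ y ∈ Y, f x y ≠ 0) → (∀ y ∈ Y, y ≠ 0 → ∃ x ∈ X, f x y ≠ 0) →
      ∃ J : Matrix.GeneralLinearGroup ι F,
        (∀ x y, f ((J : Matrix ι ι F) *ᵥ x) ((J : Matrix ι ι F) *ᵥ y) = f x y) ∧
        (∀ x ∈ X, (J : Matrix ι ι F) *ᵥ x ∈ Y) ∧ (∀ y ∈ Y, (J : Matrix ι ι F) *ᵥ y ∈ X) ∧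
        (∀ v, (∀ x ∈ X, f x v = 0) → (∀ y ∈ Y, f y v = 0) → (J : Matrix ι ι F) *ᵥ v = v) := by
  intro n
  induction n with
  | zero =>
    intro X Y hX hiX hiY hXY hYX
    have hX0 : X = ⊥ := Submodule.finrank_eq_zero.mp hX
    refine ⟨1, fun x y => by simp, ?_, ?_, fun v _ _ => by simp⟩
    · intro x hx
      rw [hX0] at hx
      rw [(Submodule.mem_bot F).mp hx]
      simp
    · intro y hy
      by_cases hy0 : y = 0
      · rw [hy0]
        simp
      · obtain ⟨x, hx, hxy⟩ := hYX y hy hy0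
        rw [hX0] at hx
        rw [(Submodule.mem_bot F).mp hx, bil_zero_left hf.bilinear] at hxy
        exact absurd rfl hxy
  | succ n ih =>
    intro X Y hX hiX hiY hXY hYX
    have hX0 : X ≠ ⊥ := by
      intro h
      rw [h] at hX
      simp at hX
    obtain ⟨e, he, he0⟩ := Submodule.exists_mem_ne_zero_of_ne_bot hX0
    obtain ⟨y0, hy0, hey0⟩ := hXY e he he0
    set w := (f e y0)⁻¹ • y0 with hw
    have hwY : w ∈ Y := Y.smul_mem _ hy0
    have hew : f e w = 1 := by rw [hw, hf.bilinear.smul_right, inv_mul_cancel₀ hey0]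
    have hwe : f w e = -1 := by rw [hf.skew, hew]
    obtain ⟨X1, hX1, hX1d⟩ := sub_one hf X e w he hew
    obtain ⟨Y1, hY1, -⟩ := sub_one hf Y w (-e) hwY
      (by rw [bil_neg_right hf.bilinear, hwe, neg_neg])
    have hY1' : ∀ a, a ∈ Y1 ↔ a ∈ Y ∧ f a e = 0 := by
      intro a
      rw [hY1, bil_neg_right hf.bilinear, neg_eq_zero]
    obtain ⟨J1, J1iso, J1X, J1Y, J1fix⟩ := ih X1 Y1 (by omega)
      (fun x hx x' hx' => hiX x ((hX1 x).mp hx).1 x' ((hX1 x').mp hx').1)
      (fun y hy y' hy' => hiY y ((hY1' y).mp hy).1 y' ((hY1' y').mp hy').1)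
      (by
        intro x1 hx1 hx10
        obtain ⟨hx1X, hx1w⟩ := (hX1 x1).mp hx1
        obtain ⟨y, hy, hxy⟩ := hXY x1 hx1X hx10
        refine ⟨y + f y e • w, (hY1' _).mpr ⟨Y.add_mem hy (Y.smul_mem _ hwY), ?_⟩, ?_⟩
        · rw [hf.bilinear.add_left, hf.bilinear.smul_left, hwe]; ring
        · rw [hf.bilinear.add_right, hf.bilinear.smul_right, hx1w, mul_zero, add_zero]
          exact hxy)
      (by
        intro y1 hy1 hy10
        obtain ⟨hy1Y, hy1e⟩ := (hY1' y1).mp hy1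
        obtain ⟨x, hx, hxy⟩ := hYX y1 hy1Y hy10
        have hey1 : f e y1 = 0 := by rw [hf.skew, hy1e, neg_zero]
        refine ⟨x - f x w • e, (hX1 _).mpr ⟨X.sub_mem hx (X.smul_mem _ he), ?_⟩, ?_⟩
        · rw [bil_sub_left hf.bilinear, hf.bilinear.smul_left, hew]; ring
        · rw [bil_sub_left hf.bilinear, hf.bilinear.smul_left, hey1, mul_zero, sub_zero]
          exact hxy)
    -- the Weyl element of the hyperbolic pair `e, w`
    have nn_apply : ∀ x, ((st hf e 1 * st hf w 1 * st hf e 1 : Matrix.GeneralLinearGroup ι F) :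
        Matrix ι ι F) *ᵥ x = x + f x w • (w - e) + f x e • (w + e) := by
      intro x
      simp only [Units.val_mul, ← Matrix.mulVec_mulVec, st_mulVec, hf.bilinear.add_left,
        hf.bilinear.smul_left, hf.alternating, hew, hwe, one_mul, mul_zero, add_zero]
      module
    have nn_iso : ∀ x y, f (((st hf e 1 * st hf w 1 * st hf e 1 : Matrix.GeneralLinearGroup ι F) :
        Matrix ι ι F) *ᵥ x) (((st hf e 1 * st hf w 1 * st hf e 1 : Matrix.GeneralLinearGroup ι F) :
        Matrix ι ι F) *ᵥ y) = f x y := by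
      intro x y
      simp only [Units.val_mul, ← Matrix.mulVec_mulVec, st_isom]
    have J1e : (J1 : Matrix ι ι F) *ᵥ e = e :=
      J1fix e (fun x hx => hiX x ((hX1 x).mp hx).1 e he) (fun y hy => ((hY1' y).mp hy).2)
    have J1w : (J1 : Matrix ι ι F) *ᵥ w = w :=
      J1fix w (fun x hx => ((hX1 x).mp hx).2) (fun y hy => hiY y ((hY1' y).mp hy).1 w hwY)
    refine ⟨J1 * (st hf e 1 * st hf w 1 * st hf e 1), ?_, ?_, ?_, ?_⟩
    · intro x y
      rw [Units.val_mul, ← Matrix.mulVec_mulVec, ← Matrix.mulVec_mulVec, J1iso, nn_iso]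
    · intro x hx
      rw [Units.val_mul, ← Matrix.mulVec_mulVec, nn_apply, hiX x hx e he, zero_smul, add_zero]
      have hx1 : x - f x w • e ∈ X1 := by
        refine (hX1 _).mpr ⟨X.sub_mem hx (X.smul_mem _ he), ?_⟩
        rw [bil_sub_left hf.bilinear, hf.bilinear.smul_left, hew]; ring
      have e1 : x + f x w • (w - e) = (x - f x w • e) + f x w • w := by module
      rw [e1, Matrix.mulVec_add, Matrix.mulVec_smul, J1w]
      exact Y.add_mem ((hY1' _).mp (J1X _ hx1)).1 (Y.smul_mem _ hwY)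
    · intro y hy
      rw [Units.val_mul, ← Matrix.mulVec_mulVec, nn_apply, hiY y hy w hwY, zero_smul, add_zero]
      have hy1 : y + f y e • w ∈ Y1 := by
        refine (hY1' _).mpr ⟨Y.add_mem hy (Y.smul_mem _ hwY), ?_⟩
        rw [hf.bilinear.add_left, hf.bilinear.smul_left, hwe]; ring
      have e1 : y + f y e • (w + e) = (y + f y e • w) + f y e • e := by module
      rw [e1, Matrix.mulVec_add, Matrix.mulVec_smul, J1e]
      exact X.add_mem ((hX1 _).mp (J1Y _ hy1)).1 (X.smul_mem _ he)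
    · intro v hvX hvY
      have h1 : f v w = 0 := by rw [hf.skew, hvY w hwY, neg_zero]
      have h2 : f v e = 0 := by rw [hf.skew, hvX e he, neg_zero]
      rw [Units.val_mul, ← Matrix.mulVec_mulVec, nn_apply, h1, h2, zero_smul, zero_smul, add_zero,
        add_zero]
      exact J1fix v (fun x hx => hvX x ((hX1 x).mp hx).1) (fun y hy => hvY y ((hY1' y).mp hy).1)

/-- The swap of a Lagrangian pair. -/
theorem LagPair.exists_swap (hf : Cfsg.Geo.IsSymplecticForm f) {X Y : Submodule F (ι → F)}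
    (h : LagPair f X Y) :
    ∃ J : Matrix.GeneralLinearGroup ι F,
      (∀ x y, f ((J : Matrix ι ι F) *ᵥ x) ((J : Matrix ι ι F) *ᵥ y) = f x y) ∧
      (∀ x ∈ X, (J : Matrix ι ι F) *ᵥ x ∈ Y) ∧ (∀ y ∈ Y, (J : Matrix ι ι F) *ᵥ y ∈ X) := by
  obtain ⟨J, h1, h2, h3, -⟩ := exists_lag_swap hf (Module.finrank F X) X Y rfl h.isoX h.isoY
    (fun x hx hx0 => h.exists_ne hf x hx hx0)
    (fun y hy hy0 => by
      obtain ⟨x, hx, hxy⟩ := h.symm.exists_ne hf y hy hy0
      exact ⟨x, hx, by rw [hf.skew]; exact neg_ne_zero.mpr hxy⟩)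
  exact ⟨J, h1, h2, h3⟩

end Lag

end Cfsg.Agent.Lib.Helper94.SympRoot
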