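import Mathlib
import Cfsg.Prelude.Def_GeometricClasses
import Cfsg.Agent.Lib.Helper94.SympAbs
import Cfsg.Agent.Lib.Helper94.SympBlock
import Cfsg.Agent.Lib.Helper94.SympRoot
import Cfsg.Agent.Lib.Helper94.SubfieldRat
import Cfsg.Agent.Lib.Helper94.SfLin1

/-!
# Symplectic root elements and rational structures (helper94)

* `st_mul`, `ss_eq_st`, `ss_mul`, `ss_inv` : calculus of transvections `st` and short root
  elements `ss`.
* `steinberg` : the commutator relation for the short root elements of a hyperbolic family.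
* `lam_cases_abs` : abstract version of the "parameters form a subfield" argument.
* `RatS`, `f0`, `f0_symp`, `Phi_st` : a symplectic form with values in the subfield on the rational
  vectors induces a symplectic form over the subfield.
-/

set_option autoImplicit false
set_option linter.unusedSimpArgs false

namespace Cfsg.Agent.Lib.Helper94.SfSp1

open scoped Matrix
open Cfsg.Agent.Lib.Helper94.Basic Cfsg.Agent.Lib.Helper94.GLAux Cfsg.Agent.Lib.Helper94.Tv
  Cfsg.Agent.Lib.Helper94.SubfieldRat Cfsg.Agent.Lib.Helper94.SympAbs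
  Cfsg.Agent.Lib.Helper94.SympBlock Cfsg.Agent.Lib.Helper94.SympRoot
  Cfsg.Agent.Lib.Helper94.SfLin1

section Calc

variable {ι : Type} [Fintype ι] [DecidableEq ι] {F : Type*} [Field F]
variable {f : (ι → F) → (ι → F) → F}

lemma st_mul (hf : Cfsg.Geo.IsSymplecticForm f) (a : ι → F) (c d : F) :
    st hf a c * st hf a d = st hf a (c + d) := by
  apply gl_ext
  intro x
  rw [Units.val_mul, ← Matrix.mulVec_mulVec, st_mulVec, st_mulVec, st_mulVec]
  simp only [hf.bilinear.add_left, hf.bilinear.smul_left, hf.alternating, mul_zero, add_zero]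
  module

lemma ss_eq_st (hf : Cfsg.Geo.IsSymplecticForm f) (a b : ι → F) (h : f a b = 0) (c : F) :
    ss hf a b c = st hf (a + b) c * st hf a (-c) * st hf b (-c) := by
  have hba : f b a = 0 := by rw [hf.skew, h, neg_zero]
  apply gl_ext
  intro x
  simp only [Units.val_mul, ← Matrix.mulVec_mulVec]
  rw [ss_mulVec hf a b h]
  simp only [st_mulVec, hf.bilinear.add_left, hf.bilinear.add_right, hf.bilinear.smul_left,
    hf.alternating, h, hba, mul_zero, add_zero, zero_add]
  module

lemma ss_mul (hf : Cfsg.Geo.IsSymplecticForm f) (a b : ι → F) (h : f a b = 0) (c d : F) :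
    ss hf a b c * ss hf a b d = ss hf a b (c + d) := by
  have hba : f b a = 0 := by rw [hf.skew, h, neg_zero]
  apply gl_ext
  intro x
  simp only [Units.val_mul, ← Matrix.mulVec_mulVec]
  simp only [ss_mulVec hf a b h, hf.bilinear.add_left, hf.bilinear.smul_left, hf.alternating, h,
    hba, mul_zero, add_zero]
  module

lemma ss_zero (hf : Cfsg.Geo.IsSymplecticForm f) (a b : ι → F) (h : f a b = 0) :
    ss hf a b 0 = 1 := by
  apply gl_ext
  intro x
  rw [ss_mulVec hf a b h]
  simp

lemma ss_inv (hf : Cfsg.Geo.IsSymplecticForm f) (a b : ι → F) (h : f a b = 0) (c : F) :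
    (ss hf a b c)⁻¹ = ss hf a b (-c) := by
  apply inv_eq_of_mul_eq_one_left
  rw [ss_mul hf a b h, neg_add_cancel, ss_zero hf a b h]

/-- The commutator relation for the short root elements attached to a hyperbolic family. -/
lemma steinberg (hf : Cfsg.Geo.IsSymplecticForm f) {ι' : Type} (e e' : ι' → (ι → F))
    (hee : ∀ i j, f (e i) (e j) = 0) (hee' : ∀ i j, f (e' i) (e' j) = 0)
    (hpair : ∀ i j, i ≠ j → f (e i) (e' j) = 0) (hone : ∀ i, f (e i) (e' i) = 1)
    (i j k : ι') (hij : i ≠ j) (hjk : j ≠ k) (hik : i ≠ k) (c d : F) :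
    ss hf (e i) (e' j) c * ss hf (e j) (e' k) d * (ss hf (e i) (e' j) c)⁻¹
        * (ss hf (e j) (e' k) d)⁻¹ = ss hf (e i) (e' k) (c * d) := by
  have hpair' : ∀ i j, i ≠ j → f (e' j) (e i) = 0 := by
    intro i j h
    rw [hf.skew, hpair i j h, neg_zero]
  have hone' : ∀ i, f (e' i) (e i) = -1 := by
    intro i
    rw [hf.skew, hone i]
  rw [ss_inv hf _ _ (hpair i j hij), ss_inv hf _ _ (hpair j k hjk)]
  apply gl_ext
  intro x
  simp only [Units.val_mul, ← Matrix.mulVec_mulVec]
  simp only [ss_mulVec hf _ _ (hpair i j hij), ss_mulVec hf _ _ (hpair j k hjk),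
    ss_mulVec hf _ _ (hpair i k hik), hf.bilinear.add_left, hf.bilinear.smul_left, hee, hee',
    hpair i j hij, hpair j k hjk, hpair i k hik, hpair' i j hij, hpair' j k hjk, hpair' i k hik,
    hpair j i hij.symm, hpair k j hjk.symm, hpair k i hik.symm, hpair' j i hij.symm,
    hpair' k j hjk.symm, hpair' k i hik.symm, hone, hone', mul_zero, add_zero, zero_add, mul_one]
  module

end Calc

section LamAbs

variable {F : Type*} [Field F]

/-- Abstract form of the "parameters form a subfield" argument for a family of root elements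
satisfying the commutator relations of type `A`. -/
theorem lam_cases_abs {G : Type*} [Group G] {ι' : Type} [Fintype ι'] [DecidableEq ι']
    (E : ι' → ι' → F → G)
    (hmul : ∀ i j, i ≠ j → ∀ c d, E i j c * E i j d = E i j (c + d))
    (hcomm : ∀ i j k, i ≠ j → j ≠ k → i ≠ k → ∀ c d,
      E i j c * E j k d * (E i j c)⁻¹ * (E j k d)⁻¹ = E i k (c * d))
    (F₀ : Subfield F)
    (hgen : ∀ μ : F, μ ∉ F₀ → ∀ A : AddSubgroup F, (∀ a ∈ F₀, ∀ z ∈ A, a * z ∈ A) →
      (∀ z ∈ A, μ * z ∈ A) → (1 : F) ∈ A → A = ⊤)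
    (H : Subgroup G) (hH : ∀ i j, i ≠ j → ∀ c ∈ F₀, E i j c ∈ H) (h3 : 3 ≤ Fintype.card ι') :
    (∀ i j, i ≠ j → ∀ c : F, E i j c ∈ H → c ∈ F₀) ∨ (∀ i j, i ≠ j → ∀ c : F, E i j c ∈ H) := by
  have hzero : ∀ i j, i ≠ j → E i j 0 = 1 := by
    intro i j hij
    have h := hmul i j hij 0 0
    rw [add_zero] at h
    exact mul_eq_left.mp h
  have hinv : ∀ i j, i ≠ j → ∀ c, (E i j c)⁻¹ = E i j (-c) := by
    intro i j hij c
    apply inv_eq_of_mul_eq_one_right
    rw [hmul i j hij, add_neg_cancel, hzero i j hij]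
  have h1 : ∀ i j, i ≠ j → E i j (1 : F) ∈ H := fun i j hij => hH i j hij 1 F₀.one_mem
  have hthird : ∀ a b : ι', ∃ k, k ≠ a ∧ k ≠ b := by
    intro a b
    by_contra hcon
    push Not at hcon
    have hsub : (Finset.univ : Finset ι') ⊆ {a, b} := by
      intro k _
      by_cases hka : k = a
      · simp [hka]
      · simp [hcon k hka]
    have := Finset.card_le_card hsub
    have h2 : ({a, b} : Finset ι').card ≤ 2 := Finset.card_le_two
    rw [Finset.card_univ] at this
    omega
  have transfer : ∀ {i j i' j' : ι'}, i ≠ j → i' ≠ j' → ∀ c : F, E i j c ∈ H → E i' j' c ∈ H := by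
    intro i j i' j' hij hij' c hc
    have col : ∀ {a b b' : ι'}, a ≠ b → a ≠ b' → E a b c ∈ H → E a b' c ∈ H := by
      intro a b b' hab hab' hmem
      by_cases hbb : b = b'
      · rw [← hbb]; exact hmem
      · have e := hcomm a b b' hab hbb hab' c (1 : F)
        rw [mul_one] at e
        rw [← e]
        exact H.mul_mem (H.mul_mem (H.mul_mem hmem (h1 b b' hbb)) (H.inv_mem hmem))
          (H.inv_mem (h1 b b' hbb))
    have row : ∀ {a a' b : ι'}, a ≠ b → a' ≠ b → E a b c ∈ H → E a' b c ∈ H := by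
      intro a a' b hab hab' hmem
      by_cases haa : a' = a
      · rw [haa]; exact hmem
      · have e := hcomm a' a b haa hab hab' (1 : F) c
        rw [one_mul] at e
        rw [← e]
        exact H.mul_mem (H.mul_mem (H.mul_mem (h1 a' a haa) hmem) (H.inv_mem (h1 a' a haa)))
          (H.inv_mem hmem)
    obtain ⟨k, hk⟩ := hthird i i'
    have s1 : E i k c ∈ H := col hij hk.1.symm hc
    have s2 : E i' k c ∈ H := row hk.1.symm hk.2.symm s1
    exact col hk.2.symm hij' s2
  by_cases hex : ∃ i j : ι', i ≠ j ∧ ∃ c : F, E i j c ∈ H ∧ c ∉ F₀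
  · right
    obtain ⟨i₀, j₀, h₀, μ, hμH, hμ⟩ := hex
    obtain ⟨k, hk⟩ := hthird i₀ j₀
    let A : AddSubgroup F :=
      { carrier := {c | E i₀ j₀ c ∈ H}
        add_mem' := by
          intro a b ha hb
          show E i₀ j₀ (a + b) ∈ H
          rw [← hmul i₀ j₀ h₀]
          exact H.mul_mem ha hb
        zero_mem' := by
          show E i₀ j₀ (0 : F) ∈ H
          rw [hzero i₀ j₀ h₀]
          exact H.one_mem
        neg_mem' := by
          intro a ha
          show E i₀ j₀ (-a) ∈ H
          rw [← hinv i₀ j₀ h₀]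
          exact H.inv_mem ha }
    have hmulA : ∀ c d : F, c ∈ A → d ∈ A → c * d ∈ A := by
      intro c d hc hd
      have s1 : E i₀ k c ∈ H := transfer h₀ hk.1.symm c hc
      have s2 : E k j₀ d ∈ H := transfer h₀ hk.2 d hd
      have e := hcomm i₀ k j₀ hk.1.symm hk.2 h₀ c d
      show E i₀ j₀ (c * d) ∈ H
      rw [← e]
      exact H.mul_mem (H.mul_mem (H.mul_mem s1 s2) (H.inv_mem s1)) (H.inv_mem s2)
    have hA : A = ⊤ := by
      apply hgen μ hμ A
      · intro a ha z hz
        exact hmulA a z (hH i₀ j₀ h₀ a ha) hz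
      · intro z hz
        exact hmulA μ z hμH hz
      · exact h1 i₀ j₀ h₀
    intro i j hij c
    have hc : c ∈ A := by rw [hA]; trivial
    exact transfer h₀ hij c hc
  · left
    push Not at hex
    intro i j hij c hc
    by_contra hcon
    exact hcon (hex i j hij c hc)

end LamAbs

section Rat

variable {ι : Type} [Fintype ι] [DecidableEq ι] {F : Type*} [Field F]
variable {f : (ι → F) → (ι → F) → F} {F₀ : Subfield F}

/-- The form takes values in the subfield on rational vectors. -/
def RatS (f : (ι → F) → (ι → F) → F) (F₀ : Subfield F) : Prop :=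
  ∀ u v : ι → F₀, f (up F₀ u) (up F₀ v) ∈ F₀

/-- The induced form over the subfield. -/
def f0 (hR : RatS f F₀) (u v : ι → F₀) : F₀ := ⟨f (up F₀ u) (up F₀ v), hR u v⟩

lemma f0_coe (hR : RatS f F₀) (u v : ι → F₀) :
    ((f0 hR u v : F₀) : F) = f (up F₀ u) (up F₀ v) := rfl

lemma f0_eq_zero (hR : RatS f F₀) (u v : ι → F₀) :
    f0 hR u v = 0 ↔ f (up F₀ u) (up F₀ v) = 0 := by
  constructor
  · intro h
    have h1 := congrArg (fun x : F₀ => (x : F)) h
    simpa [f0_coe] using h1
  · intro h
    apply Subtype.ext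
    rw [f0_coe, h]
    rfl

lemma f0_eq_one (hR : RatS f F₀) (u v : ι → F₀) :
    f0 hR u v = 1 ↔ f (up F₀ u) (up F₀ v) = 1 := by
  constructor
  · intro h
    have h1 := congrArg (fun x : F₀ => (x : F)) h
    simpa [f0_coe] using h1
  · intro h
    apply Subtype.ext
    rw [f0_coe, h]
    rfl

/-- A vector pairing trivially with all rational vectors is zero. -/
lemma eq_zero_of_rat (hf : Cfsg.Geo.IsSymplecticForm f) (F₀ : Subfield F) (y : ι → F)
    (h : ∀ b : ι → F₀, f y (up F₀ b) = 0) : y = 0 := by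
  by_contra hy
  obtain ⟨x, hx⟩ := (hf.nondegenerate y hy).2
  apply hx
  have hz : fLeft hf.bilinear y = 0 := by
    apply LinearMap.pi_ext'
    intro i
    apply LinearMap.ext_ring
    have h2 := h (Pi.single i 1)
    rw [up_single] at h2
    simp [h2]
  have := congrArg (fun φ : Module.Dual F (ι → F) => φ x) hz
  simpa using this

theorem f0_symp (hf : Cfsg.Geo.IsSymplecticForm f) (hR : RatS f F₀) :
    Cfsg.Geo.IsSymplecticForm (f0 hR) where
  bilinear :=
    { add_left := fun x y v => by
        apply Subtype.ext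
        rw [Subfield.coe_add, f0_coe, f0_coe, f0_coe, up_add, hf.bilinear.add_left]
      smul_left := fun c x v => by
        apply Subtype.ext
        rw [Subfield.coe_mul, f0_coe, f0_coe, up_smul, hf.bilinear.smul_left]
      add_right := fun v x y => by
        apply Subtype.ext
        rw [Subfield.coe_add, f0_coe, f0_coe, f0_coe, up_add, hf.bilinear.add_right]
      smul_right := fun c v x => by
        apply Subtype.ext
        rw [Subfield.coe_mul, f0_coe, f0_coe, up_smul, hf.bilinear.smul_right] }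
  skew := fun v w => by
    apply Subtype.ext
    rw [Subfield.coe_neg, f0_coe, f0_coe, hf.skew]
  alternating := fun v => by
    apply Subtype.ext
    rw [f0_coe, hf.alternating]
    rfl
  nondegenerate := by
    intro v hv
    have h1 : ∃ x, f0 hR v x ≠ 0 := by
      by_contra hcon
      push Not at hcon
      apply hv
      apply (up_eq_zero F₀ v).mp
      apply eq_zero_of_rat hf F₀
      intro b
      exact (f0_eq_zero hR _ _).mp (hcon b)
    obtain ⟨x, hx⟩ := h1
    refine ⟨⟨x, ?_⟩, ⟨x, hx⟩⟩
    intro h0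
    apply hx
    apply Subtype.ext
    have h2 := congrArg (fun x : F₀ => (x : F)) h0
    simp only [f0_coe] at h2
    rw [f0_coe, hf.skew, h2]
    simp

/-- Transvections over the subfield are transvections. -/
lemma Phi_st (hf : Cfsg.Geo.IsSymplecticForm f) (hR : RatS f F₀) (a : ι → F₀) (c : F₀) :
    Phi F₀ (st (f0_symp hf hR) a c) = st hf (up F₀ a) (c : F) := by
  apply Units.ext
  apply Matrix.ext_of_mulVec_single
  intro j
  rw [← up_single F₀ j, Phi_mulVec, st_mulVec, st_mulVec, up_add, up_smul,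
    Subfield.coe_mul, f0_coe]

lemma st_up_mem_range (hf : Cfsg.Geo.IsSymplecticForm f) (hR : RatS f F₀) (a : ι → F₀) (c : F)
    (hc : c ∈ F₀) : st hf (up F₀ a) c ∈ (Phi F₀ (ι := ι)).range := by
  have e : c = ((⟨c, hc⟩ : F₀) : F) := rfl
  rw [e, ← Phi_st hf hR]
  exact ⟨_, rfl⟩

end Rat

end Cfsg.Agent.Lib.Helper94.SfSp1
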