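import Mathlib
import Cfsg.Prelude.Def_GeometricClasses
import Cfsg.Agent.Lib.Helper94.OrthSiegel
import Cfsg.Agent.Lib.Helper94.SubfieldRat
import Cfsg.Agent.Lib.Helper94.SfSp1

/-!
# Orthogonal subfield groups: calculus of Siegel elements and rational forms (helper94)

* `sg_self`, `sg_inv`, `sg_swap`, `sg_sing_mulVec`, `steinberg_sg` : calculus of Siegel elements.
* `RatQ`, `Q0`, `Q0_nd` : a quadratic form with values in the subfield on rational vectors
  induces a nondegenerate quadratic form over the subfield.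
* `Phi_sg`, `sg_up_mem_range` : rational Siegel elements have rational matrices.
* `rat_of_pairQ` : a vector with rational pairings against all rational vectors is rational.
-/

set_option autoImplicit false
set_option linter.unusedSimpArgs false

namespace Cfsg.Agent.Lib.Helper94.SfOrth1

open scoped Matrix
open Cfsg.Agent.Lib.Helper94.Basic Cfsg.Agent.Lib.Helper94.GLAux Cfsg.Agent.Lib.Helper94.Tv
  Cfsg.Agent.Lib.Helper94.QuadAbs Cfsg.Agent.Lib.Helper94.SubfieldRat
  Cfsg.Agent.Lib.Helper94.OrthSiegel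
open Cfsg.Agent.Lib.Helper94.SympAbs (bil_zero_left bil_zero_right bil_neg_left bil_neg_right
  bil_sub_left bil_sub_right fLeft fLeft_apply fR fR_apply)

section Calc

variable {ι : Type} [Fintype ι] [DecidableEq ι] {F : Type*} [Field F] {Q : (ι → F) → F}

lemma sg_self (hQ : Cfsg.Geo.IsNondegenerateQuadraticForm Q) (a : ι → F) (t : F) :
    sg hQ a (t • a) = 1 := by
  have hbl := hQ.polar_bilinear
  by_cases h : Q a = 0 ∧ QuadraticMap.polar Q a (t • a) = 0
  · apply gl_ext
    intro x
    rw [sg_mulVec hQ _ _ h.1 h.2, Units.val_one, Matrix.one_mulVec, hbl.smul_left, hQ.smul, h.1]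
    module
  · exact sg_not hQ _ _ h

lemma sg_inv (hQ : Cfsg.Geo.IsNondegenerateQuadraticForm Q) (a w : ι → F) :
    (sg hQ a w)⁻¹ = sg hQ a (-w) := by
  have hbl := hQ.polar_bilinear
  by_cases h : Q a = 0 ∧ QuadraticMap.polar Q a w = 0
  · apply inv_eq_of_mul_eq_one_left
    have h' : QuadraticMap.polar Q a (-w) = 0 := by rw [bil_neg_right hbl, h.2, neg_zero]
    rw [sg_mul hQ a _ _ h.1 h' h.2, neg_add_cancel, sg_zero_right]
  · have h' : ¬ (Q a = 0 ∧ QuadraticMap.polar Q a (-w) = 0) := by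
      rw [bil_neg_right hbl, neg_eq_zero]
      exact h
    rw [sg_not hQ _ _ h, sg_not hQ _ _ h', inv_one]

/-- The Siegel element of a totally singular pair, with a parameter. -/
lemma sg_sing_mulVec (hQ : Cfsg.Geo.IsNondegenerateQuadraticForm Q) (a w : ι → F)
    (ha : Q a = 0) (hw : Q w = 0) (haw : QuadraticMap.polar Q a w = 0) (c : F) (x : ι → F) :
    ((sg hQ a (c • w) : Matrix.GeneralLinearGroup ι F) : Matrix ι ι F) *ᵥ x
      = x + (c * QuadraticMap.polar Q a x) • w - (c * QuadraticMap.polar Q w x) • a := by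
  have hbl := hQ.polar_bilinear
  have h' : QuadraticMap.polar Q a (c • w) = 0 := by rw [hbl.smul_right, haw, mul_zero]
  rw [sg_mulVec hQ _ _ ha h', hbl.smul_left, hQ.smul, hw]
  module

lemma sg_swap (hQ : Cfsg.Geo.IsNondegenerateQuadraticForm Q) (a w : ι → F)
    (ha : Q a = 0) (hw : Q w = 0) (haw : QuadraticMap.polar Q a w = 0) (c : F) :
    sg hQ w (c • a) = sg hQ a ((-c) • w) := by
  have hbl := hQ.polar_bilinear
  have hwa : QuadraticMap.polar Q w a = 0 := by rw [B_comm]; exact haw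
  apply gl_ext
  intro x
  rw [sg_sing_mulVec hQ w a hw ha hwa, sg_sing_mulVec hQ a w ha hw haw]
  module

/-- The commutator relation for the Siegel elements attached to a hyperbolic family. -/
lemma steinberg_sg (hQ : Cfsg.Geo.IsNondegenerateQuadraticForm Q) {ι' : Type}
    (e f : ι' → (ι → F)) (he : ∀ i, Q (e i) = 0) (hf : ∀ i, Q (f i) = 0)
    (hee : ∀ i j, QuadraticMap.polar Q (e i) (e j) = 0)
    (hff : ∀ i j, QuadraticMap.polar Q (f i) (f j) = 0)
    (hpair : ∀ i j, i ≠ j → QuadraticMap.polar Q (e i) (f j) = 0)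
    (hone : ∀ i, QuadraticMap.polar Q (e i) (f i) = 1)
    (i j k : ι') (hij : i ≠ j) (hjk : j ≠ k) (hik : i ≠ k) (c d : F) :
    sg hQ (e j) (c • f i) * sg hQ (e k) (d • f j) * (sg hQ (e j) (c • f i))⁻¹
        * (sg hQ (e k) (d • f j))⁻¹ = sg hQ (e k) ((c * d) • f i) := by
  have hbl := hQ.polar_bilinear
  have hpair' : ∀ i j, i ≠ j → QuadraticMap.polar Q (f j) (e i) = 0 := by
    intro i j h
    rw [B_comm, hpair i j h]
  have hone' : ∀ i, QuadraticMap.polar Q (f i) (e i) = 1 := by
    intro i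
    rw [B_comm, hone i]
  rw [sg_inv, sg_inv, ← neg_smul, ← neg_smul]
  apply gl_ext
  intro x
  simp only [Units.val_mul, ← Matrix.mulVec_mulVec]
  simp only [sg_sing_mulVec hQ _ _ (he j) (hf i) (hpair j i hij.symm),
    sg_sing_mulVec hQ _ _ (he k) (hf j) (hpair k j hjk.symm),
    sg_sing_mulVec hQ _ _ (he k) (hf i) (hpair k i hik.symm),
    hbl.add_right, hbl.smul_right, bil_sub_right hbl, hee, hff,
    hpair i j hij, hpair j k hjk, hpair i k hik, hpair' i j hij, hpair' j k hjk, hpair' i k hik,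
    hpair j i hij.symm, hpair k j hjk.symm, hpair k i hik.symm, hpair' j i hij.symm,
    hpair' k j hjk.symm, hpair' k i hik.symm, hone, hone', mul_zero, add_zero, zero_add, mul_one,
    sub_zero]
  module

end Calc

section Rat

variable {ι : Type} [Fintype ι] [DecidableEq ι] {F : Type*} [Field F]
variable {Q : (ι → F) → F} {F₀ : Subfield F}

/-- The quadratic form takes values in the subfield on rational vectors. -/
def RatQ (Q : (ι → F) → F) (F₀ : Subfield F) : Prop :=
  ∀ u : ι → F₀, Q (up F₀ u) ∈ F₀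

/-- The induced quadratic form over the subfield. -/
def Q0 (hR : RatQ Q F₀) (u : ι → F₀) : F₀ := ⟨Q (up F₀ u), hR u⟩

lemma Q0_coe (hR : RatQ Q F₀) (u : ι → F₀) : ((Q0 hR u : F₀) : F) = Q (up F₀ u) := rfl

lemma Q0_eq_zero (hR : RatQ Q F₀) (u : ι → F₀) : Q0 hR u = 0 ↔ Q (up F₀ u) = 0 := by
  constructor
  · intro h
    have h1 := congrArg (fun x : F₀ => (x : F)) h
    simpa [Q0_coe] using h1
  · intro h
    apply Subtype.ext
    rw [Q0_coe, h]
    rfl

lemma polar_Q0 (hR : RatQ Q F₀) (u v : ι → F₀) :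
    ((QuadraticMap.polar (Q0 hR) u v : F₀) : F) = QuadraticMap.polar Q (up F₀ u) (up F₀ v) := by
  unfold QuadraticMap.polar
  rw [Subfield.coe_sub, Subfield.coe_sub, Q0_coe, Q0_coe, Q0_coe, up_add]

lemma polar_up_mem (hR : RatQ Q F₀) (u v : ι → F₀) :
    QuadraticMap.polar Q (up F₀ u) (up F₀ v) ∈ F₀ := by
  rw [← polar_Q0 hR]
  exact SetLike.coe_mem _

lemma polar_Q0_eq_zero (hR : RatQ Q F₀) (u v : ι → F₀) :
    QuadraticMap.polar (Q0 hR) u v = 0 ↔ QuadraticMap.polar Q (up F₀ u) (up F₀ v) = 0 := by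
  constructor
  · intro h
    have h1 := congrArg (fun x : F₀ => (x : F)) h
    rw [polar_Q0] at h1
    simpa using h1
  · intro h
    apply Subtype.ext
    rw [polar_Q0, h]
    rfl

lemma polar_Q0_eq_one (hR : RatQ Q F₀) (u v : ι → F₀) :
    QuadraticMap.polar (Q0 hR) u v = 1 ↔ QuadraticMap.polar Q (up F₀ u) (up F₀ v) = 1 := by
  constructor
  · intro h
    have h1 := congrArg (fun x : F₀ => (x : F)) h
    rw [polar_Q0] at h1
    simpa using h1
  · intro h
    apply Subtype.ext
    rw [polar_Q0, h]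
    rfl

/-- A vector pairing trivially with all rational vectors is zero. -/
lemma eq_zero_of_ratQ (hQ : Cfsg.Geo.IsNondegenerateQuadraticForm Q) (F₀ : Subfield F)
    (y : ι → F) (h : ∀ b : ι → F₀, QuadraticMap.polar Q y (up F₀ b) = 0) : y = 0 := by
  by_contra hy
  obtain ⟨x, hx⟩ := (hQ.nondegenerate y hy).2
  apply hx
  have hz : fLeft hQ.polar_bilinear y = 0 := by
    apply LinearMap.pi_ext'
    intro i
    apply LinearMap.ext_ring
    have h2 := h (Pi.single i 1)
    rw [up_single] at h2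
    simp [h2]
  have := congrArg (fun φ : Module.Dual F (ι → F) => φ x) hz
  simpa using this

theorem Q0_nd (hQ : Cfsg.Geo.IsNondegenerateQuadraticForm Q) (hR : RatQ Q F₀) :
    Cfsg.Geo.IsNondegenerateQuadraticForm (Q0 hR) where
  smul := fun c v => by
    apply Subtype.ext
    rw [Subfield.coe_mul, Q0_coe, Q0_coe, up_smul, hQ.smul]
    rfl
  polar_bilinear :=
    { add_left := fun x y v => by
        apply Subtype.ext
        rw [Subfield.coe_add, polar_Q0, polar_Q0, polar_Q0, up_add, hQ.polar_bilinear.add_left]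
      smul_left := fun c x v => by
        apply Subtype.ext
        rw [Subfield.coe_mul, polar_Q0, polar_Q0, up_smul, hQ.polar_bilinear.smul_left]
      add_right := fun v x y => by
        apply Subtype.ext
        rw [Subfield.coe_add, polar_Q0, polar_Q0, polar_Q0, up_add, hQ.polar_bilinear.add_right]
      smul_right := fun c v x => by
        apply Subtype.ext
        rw [Subfield.coe_mul, polar_Q0, polar_Q0, up_smul, hQ.polar_bilinear.smul_right] }
  nondegenerate := by
    intro v hv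
    have h1 : ∃ x, QuadraticMap.polar (Q0 hR) v x ≠ 0 := by
      by_contra hcon
      push Not at hcon
      apply hv
      apply (up_eq_zero F₀ v).mp
      apply eq_zero_of_ratQ hQ F₀
      intro b
      exact (polar_Q0_eq_zero hR _ _).mp (hcon b)
    obtain ⟨x, hx⟩ := h1
    refine ⟨⟨x, ?_⟩, ⟨x, hx⟩⟩
    rw [QuadraticMap.polar_comm]
    exact hx

/-- Siegel elements over the subfield are Siegel elements. -/
lemma Phi_sg (hQ : Cfsg.Geo.IsNondegenerateQuadraticForm Q) (hR : RatQ Q F₀) (a w : ι → F₀) :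
    Phi F₀ (sg (Q0_nd hQ hR) a w) = sg hQ (up F₀ a) (up F₀ w) := by
  by_cases h : Q0 hR a = 0 ∧ QuadraticMap.polar (Q0 hR) a w = 0
  · have h' : Q (up F₀ a) = 0 ∧ QuadraticMap.polar Q (up F₀ a) (up F₀ w) = 0 :=
      ⟨(Q0_eq_zero hR a).mp h.1, (polar_Q0_eq_zero hR a w).mp h.2⟩
    apply Units.ext
    apply Matrix.ext_of_mulVec_single
    intro j
    rw [← up_single F₀ j, Phi_mulVec, sg_mulVec _ _ _ h.1 h.2, sg_mulVec _ _ _ h'.1 h'.2,
      up_sub, up_sub, up_add, up_smul, up_smul, up_smul, Subfield.coe_mul, polar_Q0, polar_Q0,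
      Q0_coe]
  · have h' : ¬ (Q (up F₀ a) = 0 ∧ QuadraticMap.polar Q (up F₀ a) (up F₀ w) = 0) := by
      intro h''
      exact h ⟨(Q0_eq_zero hR a).mpr h''.1, (polar_Q0_eq_zero hR a w).mpr h''.2⟩
    rw [sg_not _ _ _ h, sg_not _ _ _ h', map_one]

lemma sg_up_mem_range (hQ : Cfsg.Geo.IsNondegenerateQuadraticForm Q) (hR : RatQ Q F₀)
    (a w : ι → F₀) : sg hQ (up F₀ a) (up F₀ w) ∈ (Phi F₀ (ι := ι)).range := by
  rw [← Phi_sg hQ hR]
  exact ⟨_, rfl⟩

/-- A vector with rational pairings against all rational vectors is rational. -/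
lemma rat_of_pairQ (hQ : Cfsg.Geo.IsNondegenerateQuadraticForm Q) (hR : RatQ Q F₀) (z : ι → F)
    (h : ∀ b : ι → F₀, QuadraticMap.polar Q z (up F₀ b) ∈ F₀) : ∃ z₀ : ι → F₀, z = up F₀ z₀ := by
  have hQ0 := Q0_nd hQ hR
  choose d hd using fun q => exists_rep hQ0 (LinearMap.proj q : (ι → F₀) →ₗ[F₀] F₀)
  have key : ∀ q (x : ι → F), x q = QuadraticMap.polar Q x (up F₀ (d q)) := by
    intro q x
    have e : (LinearMap.proj q : (ι → F) →ₗ[F] F) = fR hQ.polar_bilinear (up F₀ (d q)) := by
      apply LinearMap.pi_ext'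
      intro i
      apply LinearMap.ext_ring
      have h1 := hd q (Pi.single i 1)
      have h2 := congrArg (fun t : F₀ => (t : F)) h1
      simp only [LinearMap.proj_apply, polar_Q0, up_single] at h2
      simp only [LinearMap.coe_comp, LinearMap.coe_single, Function.comp_apply,
        LinearMap.proj_apply, fR_apply]
      rw [← h2]
      by_cases hq : q = i
      · subst hq
        simp
      · simp [Pi.single_eq_of_ne hq]
    have := congrArg (fun φ : Module.Dual F (ι → F) => φ x) e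
    simpa using this
  refine ⟨fun q => ⟨QuadraticMap.polar Q z (up F₀ (d q)), h (d q)⟩, ?_⟩
  ext q
  rw [key q z]
  rfl

end Rat

end Cfsg.Agent.Lib.Helper94.SfOrth1
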