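import Mathlib
import Cfsg.Prelude.Def_GeometricClasses
import Cfsg.Agent.Lib.Helper94.OrthRel
import Cfsg.Agent.Lib.Helper94.SfOrth1

/-!
# Existence lemmas for quadratic spaces over finite fields (helper94)

* `exists_sing_comb` : three vectors have a nontrivial singular combination (Chevalley-Warning).
* `exists_sing_perp` : a nonzero singular vector orthogonal to a subspace of codimension `≥ 3`.
* `sing_adjust`, `sum_sing3`, `exists_partner`, `exists_frame3`, `exists_connect`.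
* `sg_move` : a Siegel element moving one singular vector to another.
-/

set_option autoImplicit false
set_option linter.unusedSimpArgs false

namespace Cfsg.Agent.Lib.Helper94.SfOrth2

open scoped Matrix
open Module
open Cfsg.Agent.Lib.Helper94.Basic Cfsg.Agent.Lib.Helper94.GLAux Cfsg.Agent.Lib.Helper94.Tv
  Cfsg.Agent.Lib.Helper94.QuadAbs Cfsg.Agent.Lib.Helper94.OrthSiegel
  Cfsg.Agent.Lib.Helper94.OrthRel
open Cfsg.Agent.Lib.Helper94.SympAbs (bil_zero_left bil_zero_right bil_neg_left bil_neg_right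
  bil_sub_left bil_sub_right fR fR_apply fRL)

section CW

variable {ι : Type} [Fintype ι] [DecidableEq ι] {K : Type*} [Field K] {Q : (ι → K) → K}

lemma Q_comb3 (hQ : Cfsg.Geo.IsNondegenerateQuadraticForm Q) (x₁ x₂ x₃ : ι → K) (c : Fin 3 → K) :
    Q (c 0 • x₁ + c 1 • x₂ + c 2 • x₃) = c 0 ^ 2 * Q x₁ + c 1 ^ 2 * Q x₂ + c 2 ^ 2 * Q x₃
      + c 0 * c 1 * QuadraticMap.polar Q x₁ x₂ + c 0 * c 2 * QuadraticMap.polar Q x₁ x₃
      + c 1 * c 2 * QuadraticMap.polar Q x₂ x₃ := by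
  have hbl := hQ.polar_bilinear
  simp only [Q_add Q, hQ.smul, hbl.add_left, hbl.smul_left, hbl.smul_right]
  ring

variable [Fintype K]

/-- Three vectors have a nontrivial singular linear combination. -/
lemma exists_sing_comb (hQ : Cfsg.Geo.IsNondegenerateQuadraticForm Q) (x₁ x₂ x₃ : ι → K) :
    ∃ c : Fin 3 → K, c ≠ 0 ∧ Q (c 0 • x₁ + c 1 • x₂ + c 2 • x₃) = 0 := by
  classical
  obtain ⟨p, hp⟩ := CharP.exists K
  haveI := hp
  have hpp : p.Prime := CharP.char_is_prime K p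
  obtain ⟨f, hfdef⟩ : ∃ f : MvPolynomial (Fin 3) K, f =
      MvPolynomial.C (Q x₁) * MvPolynomial.X 0 ^ 2 + MvPolynomial.C (Q x₂) * MvPolynomial.X 1 ^ 2
      + MvPolynomial.C (Q x₃) * MvPolynomial.X 2 ^ 2
      + MvPolynomial.C (QuadraticMap.polar Q x₁ x₂) * (MvPolynomial.X 0 * MvPolynomial.X 1)
      + MvPolynomial.C (QuadraticMap.polar Q x₁ x₃) * (MvPolynomial.X 0 * MvPolynomial.X 2)
      + MvPolynomial.C (QuadraticMap.polar Q x₂ x₃) * (MvPolynomial.X 1 * MvPolynomial.X 2) :=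
    ⟨_, rfl⟩
  have hsq : ∀ (a : K) (i : Fin 3),
      (MvPolynomial.C a * MvPolynomial.X i ^ 2 : MvPolynomial (Fin 3) K).totalDegree ≤ 2 := by
    intro a i
    refine (MvPolynomial.totalDegree_mul _ _).trans ?_
    rw [MvPolynomial.totalDegree_C, MvPolynomial.totalDegree_X_pow]
  have hmx : ∀ (a : K) (i j : Fin 3),
      (MvPolynomial.C a * (MvPolynomial.X i * MvPolynomial.X j) :
        MvPolynomial (Fin 3) K).totalDegree ≤ 2 := by
    intro a i j
    refine (MvPolynomial.totalDegree_mul _ _).trans ?_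
    rw [MvPolynomial.totalDegree_C]
    refine (Nat.add_le_add_left (MvPolynomial.totalDegree_mul _ _) 0).trans ?_
    rw [MvPolynomial.totalDegree_X, MvPolynomial.totalDegree_X]
  have hdeg : f.totalDegree < Fintype.card (Fin 3) := by
    rw [Fintype.card_fin, hfdef]
    have h1 := hsq (Q x₁) 0
    have h2 := hsq (Q x₂) 1
    have h3 := hsq (Q x₃) 2
    have h4 := hmx (QuadraticMap.polar Q x₁ x₂) 0 1
    have h5 := hmx (QuadraticMap.polar Q x₁ x₃) 0 2
    have h6 := hmx (QuadraticMap.polar Q x₂ x₃) 1 2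
    have a1 := MvPolynomial.totalDegree_add
      (MvPolynomial.C (Q x₁) * MvPolynomial.X 0 ^ 2 : MvPolynomial (Fin 3) K)
      (MvPolynomial.C (Q x₂) * MvPolynomial.X 1 ^ 2)
    have a2 := MvPolynomial.totalDegree_add
      (MvPolynomial.C (Q x₁) * MvPolynomial.X 0 ^ 2 + MvPolynomial.C (Q x₂) * MvPolynomial.X 1 ^ 2
        : MvPolynomial (Fin 3) K)
      (MvPolynomial.C (Q x₃) * MvPolynomial.X 2 ^ 2)
    have a3 := MvPolynomial.totalDegree_add
      (MvPolynomial.C (Q x₁) * MvPolynomial.X 0 ^ 2 + MvPolynomial.C (Q x₂) * MvPolynomial.X 1 ^ 2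
        + MvPolynomial.C (Q x₃) * MvPolynomial.X 2 ^ 2 : MvPolynomial (Fin 3) K)
      (MvPolynomial.C (QuadraticMap.polar Q x₁ x₂) * (MvPolynomial.X 0 * MvPolynomial.X 1))
    have a4 := MvPolynomial.totalDegree_add
      (MvPolynomial.C (Q x₁) * MvPolynomial.X 0 ^ 2 + MvPolynomial.C (Q x₂) * MvPolynomial.X 1 ^ 2
        + MvPolynomial.C (Q x₃) * MvPolynomial.X 2 ^ 2
        + MvPolynomial.C (QuadraticMap.polar Q x₁ x₂) * (MvPolynomial.X 0 * MvPolynomial.X 1)
        : MvPolynomial (Fin 3) K)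
      (MvPolynomial.C (QuadraticMap.polar Q x₁ x₃) * (MvPolynomial.X 0 * MvPolynomial.X 2))
    have a5 := MvPolynomial.totalDegree_add
      (MvPolynomial.C (Q x₁) * MvPolynomial.X 0 ^ 2 + MvPolynomial.C (Q x₂) * MvPolynomial.X 1 ^ 2
        + MvPolynomial.C (Q x₃) * MvPolynomial.X 2 ^ 2
        + MvPolynomial.C (QuadraticMap.polar Q x₁ x₂) * (MvPolynomial.X 0 * MvPolynomial.X 1)
        + MvPolynomial.C (QuadraticMap.polar Q x₁ x₃) * (MvPolynomial.X 0 * MvPolynomial.X 2)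
        : MvPolynomial (Fin 3) K)
      (MvPolynomial.C (QuadraticMap.polar Q x₂ x₃) * (MvPolynomial.X 1 * MvPolynomial.X 2))
    omega
  have heval : ∀ c : Fin 3 → K, MvPolynomial.eval c f = Q (c 0 • x₁ + c 1 • x₂ + c 2 • x₃) := by
    intro c
    rw [Q_comb3 hQ, hfdef]
    simp only [map_add, map_mul, map_pow, MvPolynomial.eval_C, MvPolynomial.eval_X]
    ring
  have hdvd := char_dvd_card_solutions p hdeg
  by_contra hcon
  push Not at hcon
  have hone : Fintype.card {x : Fin 3 → K // MvPolynomial.eval x f = 0} = 1 := by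
    rw [Fintype.card_eq_one_iff]
    refine ⟨⟨0, ?_⟩, ?_⟩
    · rw [heval]
      simp [Q_zero hQ]
    · rintro ⟨c, hc⟩
      apply Subtype.ext
      by_contra hne
      apply hcon c hne
      rw [← heval]
      exact hc
  rw [hone] at hdvd
  exact hpp.one_lt.ne' (Nat.dvd_one.mp hdvd)

/-- The orthogonal complement is large. -/
lemma finrank_perpS (hQ : Cfsg.Geo.IsNondegenerateQuadraticForm Q) (U : Submodule K (ι → K)) :
    Fintype.card ι ≤ finrank K (perpS hQ U) + finrank K U := by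
  set Φ : (ι → K) →ₗ[K] Module.Dual K U :=
    (Submodule.dualRestrict U) ∘ₗ (fRL hQ.polar_bilinear) with hΦ
  have hker : LinearMap.ker Φ = perpS hQ U := by
    ext y
    rw [LinearMap.mem_ker, mem_perpS]
    constructor
    · intro h u hu
      have h1 := congrArg (fun ψ : Module.Dual K U => ψ ⟨u, hu⟩) h
      simpa [hΦ, fRL, Submodule.dualRestrict_apply] using h1
    · intro h
      apply LinearMap.ext
      intro u
      simpa [hΦ, fRL, Submodule.dualRestrict_apply] using h u.1 u.2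
  have h3 := LinearMap.finrank_range_add_finrank_ker Φ
  have h4 : finrank K (LinearMap.range Φ) ≤ finrank K U := by
    have := Submodule.finrank_le (LinearMap.range Φ)
    rwa [Subspace.dual_finrank_eq] at this
  rw [Module.finrank_fintype_fun_eq_card, hker] at h3
  omega

/-- A nonzero singular vector orthogonal to a subspace of codimension at least three. -/
lemma exists_sing_perp (hQ : Cfsg.Geo.IsNondegenerateQuadraticForm Q) (U : Submodule K (ι → K))
    (hU : finrank K U + 3 ≤ Fintype.card ι) :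
    ∃ b, b ≠ 0 ∧ Q b = 0 ∧ ∀ u ∈ U, QuadraticMap.polar Q u b = 0 := by
  have h1 := finrank_perpS hQ U
  have h3 : 3 ≤ finrank K (perpS hQ U) := by omega
  obtain ⟨v, hv⟩ := exists_linearIndependent_of_le_finrank h3
  obtain ⟨c, hc0, hc⟩ := exists_sing_comb hQ (v 0 : ι → K) (v 1 : ι → K) (v 2 : ι → K)
  have hmem : c 0 • (v 0 : ι → K) + c 1 • (v 1 : ι → K) + c 2 • (v 2 : ι → K) ∈ perpS hQ U :=
    Submodule.add_mem _ (Submodule.add_mem _ (Submodule.smul_mem _ _ (v 0).2)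
      (Submodule.smul_mem _ _ (v 1).2)) (Submodule.smul_mem _ _ (v 2).2)
  refine ⟨_, ?_, hc, (mem_perpS hQ U _).mp hmem⟩
  intro h0
  apply hc0
  have h4 : ∑ i, c i • v i = 0 := by
    apply Subtype.ext
    rw [Fin.sum_univ_three]
    simpa using h0
  have h5 := Fintype.linearIndependent_iff.mp hv c h4
  funext i
  exact h5 i

/-- A nonzero singular vector orthogonal to a family of vectors. -/
lemma exists_sing_perp_fam (hQ : Cfsg.Geo.IsNondegenerateQuadraticForm Q) {k : ℕ}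
    (v : Fin k → (ι → K)) (hk : k + 3 ≤ Fintype.card ι) :
    ∃ b, b ≠ 0 ∧ Q b = 0 ∧ ∀ i, QuadraticMap.polar Q (v i) b = 0 := by
  have h1 : finrank K (Submodule.span K (Set.range v)) ≤ k := by
    have := finrank_range_le_card (R := K) v
    rwa [Fintype.card_fin] at this
  obtain ⟨b, hb0, hb, hperp⟩ := exists_sing_perp hQ (Submodule.span K (Set.range v)) (by omega)
  exact ⟨b, hb0, hb, fun i => hperp _ (Submodule.subset_span ⟨i, rfl⟩)⟩

/-- A hyperbolic pair orthogonal to a family of vectors. -/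
lemma exists_hyp_fam (hQ : Cfsg.Geo.IsNondegenerateQuadraticForm Q) {k : ℕ}
    (v : Fin k → (ι → K)) (hk : 2 * k + 6 < Fintype.card ι) :
    ∃ y1 y2, (∀ i, QuadraticMap.polar Q (v i) y1 = 0) ∧ (∀ i, QuadraticMap.polar Q (v i) y2 = 0) ∧
      Q y1 = 0 ∧ Q y2 = 0 ∧ QuadraticMap.polar Q y1 y2 = 1 := by
  have h1 : finrank K (Submodule.span K (Set.range v)) ≤ k := by
    have := finrank_range_le_card (R := K) v
    rwa [Fintype.card_fin] at this
  obtain ⟨y1, y2, h1', h2', h11, h22, h12⟩ :=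
    exists_hyp_perp hQ (Submodule.span K (Set.range v)) (by omega)
  exact ⟨y1, y2, fun i => h1' _ (Submodule.subset_span ⟨i, rfl⟩),
    fun i => h2' _ (Submodule.subset_span ⟨i, rfl⟩), h11, h22, h12⟩

/-- A singular vector with prescribed pairings against a family of vectors. -/
lemma sing_adjust_fam (hQ : Cfsg.Geo.IsNondegenerateQuadraticForm Q) {k : ℕ}
    (v : Fin k → (ι → K)) (hk : 2 * k + 6 < Fintype.card ι) (t : ι → K) :
    ∃ d, Q d = 0 ∧ ∀ i, QuadraticMap.polar Q (v i) d = QuadraticMap.polar Q (v i) t := by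
  have hbl := hQ.polar_bilinear
  obtain ⟨y1, y2, h1, h2, h11, h22, h12⟩ := exists_hyp_fam hQ v hk
  obtain ⟨τ₁, hτ₁⟩ : ∃ τ₁ : K, τ₁ = QuadraticMap.polar Q t y1 := ⟨_, rfl⟩
  obtain ⟨τ₂, hτ₂⟩ : ∃ τ₂ : K, τ₂ = QuadraticMap.polar Q t y2 := ⟨_, rfl⟩
  refine ⟨t + ((1 - τ₂) • y1 + (τ₁ * τ₂ - Q t - τ₁) • y2), ?_, fun i => ?_⟩
  · rw [Q_add Q, Q_add Q, hQ.smul, hQ.smul, h11, h22, hbl.add_right, hbl.smul_right,
      hbl.smul_right, hbl.smul_left, hbl.smul_right, h12, ← hτ₁, ← hτ₂]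
    ring
  · rw [hbl.add_right, hbl.add_right, hbl.smul_right, hbl.smul_right, h1 i, h2 i]
    ring

/-- Every vector orthogonal to a family is a sum of three singular vectors orthogonal to it. -/
lemma sum_sing3_fam (hQ : Cfsg.Geo.IsNondegenerateQuadraticForm Q) {k : ℕ}
    (v : Fin k → (ι → K)) (hk : 2 * k + 8 < Fintype.card ι) (x : ι → K)
    (hx : ∀ i, QuadraticMap.polar Q (v i) x = 0) :
    ∃ s₁ s₂ s₃, Q s₁ = 0 ∧ Q s₂ = 0 ∧ Q s₃ = 0 ∧ (∀ i, QuadraticMap.polar Q (v i) s₁ = 0) ∧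
      (∀ i, QuadraticMap.polar Q (v i) s₂ = 0) ∧ (∀ i, QuadraticMap.polar Q (v i) s₃ = 0) ∧
      x = s₁ + s₂ + s₃ := by
  have hbl := hQ.polar_bilinear
  obtain ⟨y1, y2, h1, h2, h11, h22, h12⟩ :=
    exists_hyp_fam hQ (Fin.cons x v : Fin (k + 1) → (ι → K)) (by omega)
  have hx1 : QuadraticMap.polar Q x y1 = 0 := by
    have := h1 0
    simpa using this
  have hx2 : QuadraticMap.polar Q x y2 = 0 := by
    have := h2 0
    simpa using this
  have hv1 : ∀ i, QuadraticMap.polar Q (v i) y1 = 0 := by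
    intro i
    have := h1 i.succ
    simpa using this
  have hv2 : ∀ i, QuadraticMap.polar Q (v i) y2 = 0 := by
    intro i
    have := h2 i.succ
    simpa using this
  refine ⟨x + (y1 + (-Q x) • y2), -y1, Q x • y2, ?_, ?_, ?_, fun i => ?_, fun i => ?_,
    fun i => ?_, ?_⟩
  · rw [Q_add Q, Q_add Q, hQ.smul, h11, h22, hbl.add_right, hbl.smul_right, hbl.smul_right, h12,
      hx1, hx2]
    ring
  · rw [Q_neg hQ, h11]
  · rw [hQ.smul, h22, mul_zero]
  · rw [hbl.add_right, hbl.add_right, hbl.smul_right, hx i, hv1 i, hv2 i]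
    ring
  · rw [bil_neg_right hbl, hv1 i, neg_zero]
  · rw [hbl.smul_right, hv2 i, mul_zero]
  · module

/-- Every vector is a sum of three singular vectors. -/
lemma sum_sing3 (hQ : Cfsg.Geo.IsNondegenerateQuadraticForm Q) (hcard : 8 < Fintype.card ι)
    (x : ι → K) : ∃ s₁ s₂ s₃, Q s₁ = 0 ∧ Q s₂ = 0 ∧ Q s₃ = 0 ∧ x = s₁ + s₂ + s₃ := by
  obtain ⟨s₁, s₂, s₃, h1, h2, h3, -, -, -, h⟩ :=
    sum_sing3_fam hQ (Fin.elim0 : Fin 0 → (ι → K)) (by omega) x (fun i => i.elim0)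
  exact ⟨s₁, s₂, s₃, h1, h2, h3, h⟩

omit [Fintype K] in
/-- A singular partner of a nonzero singular vector. -/
lemma exists_partner (hQ : Cfsg.Geo.IsNondegenerateQuadraticForm Q) (b : ι → K) (hb0 : b ≠ 0)
    (hb : Q b = 0) : ∃ f, Q f = 0 ∧ QuadraticMap.polar Q b f = 1 := by
  have hbl := hQ.polar_bilinear
  obtain ⟨x, hx⟩ := (hQ.nondegenerate b hb0).2
  obtain ⟨x', hx'⟩ : ∃ x' : ι → K, x' = (QuadraticMap.polar Q b x)⁻¹ • x := ⟨_, rfl⟩
  have h1 : QuadraticMap.polar Q b x' = 1 := by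
    rw [hx', hbl.smul_right, inv_mul_cancel₀ hx]
  have h1' : QuadraticMap.polar Q x' b = 1 := by rw [B_comm]; exact h1
  refine ⟨x' + (-Q x') • b, ?_, ?_⟩
  · rw [Q_add_smul hQ, hb, h1']
    ring
  · rw [hbl.add_right, hbl.smul_right, h1, polar_self_sing hQ b hb]
    ring

/-- Three mutually orthogonal hyperbolic pairs. -/
lemma exists_frame3 (hQ : Cfsg.Geo.IsNondegenerateQuadraticForm Q) (hcard : 13 ≤ Fintype.card ι) :
    ∃ e f : Fin 3 → (ι → K), (∀ i, Q (e i) = 0) ∧ (∀ i, Q (f i) = 0) ∧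
      (∀ i j, QuadraticMap.polar Q (e i) (e j) = 0) ∧
      (∀ i j, QuadraticMap.polar Q (f i) (f j) = 0) ∧
      (∀ i j, i ≠ j → QuadraticMap.polar Q (e i) (f j) = 0) ∧
      (∀ i, QuadraticMap.polar Q (e i) (f i) = 1) := by
  have hbl := hQ.polar_bilinear
  obtain ⟨e₀, f₀, -, -, he₀, hf₀, hef₀⟩ :=
    exists_hyp_fam hQ (Fin.elim0 : Fin 0 → (ι → K)) (by omega)
  obtain ⟨e₁, f₁, h1, h2, he₁, hf₁, hef₁⟩ :=
    exists_hyp_fam hQ (![e₀, f₀] : Fin 2 → (ι → K)) (by omega)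
  have h10 : QuadraticMap.polar Q e₀ e₁ = 0 := h1 0
  have h11 : QuadraticMap.polar Q f₀ e₁ = 0 := h1 1
  have h20 : QuadraticMap.polar Q e₀ f₁ = 0 := h2 0
  have h21 : QuadraticMap.polar Q f₀ f₁ = 0 := h2 1
  obtain ⟨e₂, he₂0, he₂, h3⟩ :=
    exists_sing_perp_fam hQ (![e₀, f₀, e₁, f₁] : Fin 4 → (ι → K)) (by omega)
  have h30 : QuadraticMap.polar Q e₀ e₂ = 0 := h3 0
  have h31 : QuadraticMap.polar Q f₀ e₂ = 0 := h3 1
  have h32 : QuadraticMap.polar Q e₁ e₂ = 0 := h3 2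
  have h33 : QuadraticMap.polar Q f₁ e₂ = 0 := h3 3
  obtain ⟨f', hf', hef'⟩ := exists_partner hQ e₂ he₂0 he₂
  obtain ⟨x', hx'⟩ : ∃ x' : ι → K, x' = f' - QuadraticMap.polar Q f' f₀ • e₀
      - QuadraticMap.polar Q f' e₀ • f₀ - QuadraticMap.polar Q f' f₁ • e₁
      - QuadraticMap.polar Q f' e₁ • f₁ := ⟨_, rfl⟩
  have c := fun x y => B_comm Q x y
  have s := fun x hx => polar_self_sing hQ x hx
  have hx0 : QuadraticMap.polar Q e₀ x' = 0 := by
    rw [hx']
    simp only [bil_sub_right hbl, hbl.smul_right, s e₀ he₀, hef₀, h10, h20, c e₀ f']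
    ring
  have hx1 : QuadraticMap.polar Q f₀ x' = 0 := by
    rw [hx']
    simp only [bil_sub_right hbl, hbl.smul_right, s f₀ hf₀, c f₀ e₀, hef₀, h11, h21, c f₀ f']
    ring
  have hx2 : QuadraticMap.polar Q e₁ x' = 0 := by
    rw [hx']
    simp only [bil_sub_right hbl, hbl.smul_right, s e₁ he₁, hef₁, c e₁ e₀, c e₁ f₀, h10, h11,
      c e₁ f']
    ring
  have hx3 : QuadraticMap.polar Q f₁ x' = 0 := by
    rw [hx']
    simp only [bil_sub_right hbl, hbl.smul_right, s f₁ hf₁, c f₁ e₁, hef₁, c f₁ e₀, c f₁ f₀, h20,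
      h21, c f₁ f']
    ring
  have hx4 : QuadraticMap.polar Q e₂ x' = 1 := by
    rw [hx']
    simp only [bil_sub_right hbl, hbl.smul_right, c e₂ e₀, c e₂ f₀, c e₂ e₁, c e₂ f₁, h30, h31,
      h32, h33, hef']
    ring
  obtain ⟨f₂, hf₂def⟩ : ∃ f₂ : ι → K, f₂ = x' + (-Q x') • e₂ := ⟨_, rfl⟩
  have hf₂ : Q f₂ = 0 := by
    rw [hf₂def, Q_add_smul hQ, he₂, c x' e₂, hx4]
    ring
  have hy0 : QuadraticMap.polar Q e₀ f₂ = 0 := by
    rw [hf₂def, hbl.add_right, hbl.smul_right, hx0, h30]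
    ring
  have hy1 : QuadraticMap.polar Q f₀ f₂ = 0 := by
    rw [hf₂def, hbl.add_right, hbl.smul_right, hx1, h31]
    ring
  have hy2 : QuadraticMap.polar Q e₁ f₂ = 0 := by
    rw [hf₂def, hbl.add_right, hbl.smul_right, hx2, h32]
    ring
  have hy3 : QuadraticMap.polar Q f₁ f₂ = 0 := by
    rw [hf₂def, hbl.add_right, hbl.smul_right, hx3, h33]
    ring
  have hy4 : QuadraticMap.polar Q e₂ f₂ = 1 := by
    rw [hf₂def, hbl.add_right, hbl.smul_right, hx4, s e₂ he₂]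
    ring
  refine ⟨![e₀, e₁, e₂], ![f₀, f₁, f₂], ?_, ?_, ?_, ?_, ?_, ?_⟩
  · intro i
    fin_cases i
    · exact he₀
    · exact he₁
    · exact he₂
  · intro i
    fin_cases i
    · exact hf₀
    · exact hf₁
    · exact hf₂
  · intro i j
    fin_cases i <;> fin_cases j
    · exact s e₀ he₀
    · exact h10
    · exact h30
    · exact (c e₁ e₀).trans h10
    · exact s e₁ he₁
    · exact h32
    · exact (c e₂ e₀).trans h30
    · exact (c e₂ e₁).trans h32
    · exact s e₂ he₂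
  · intro i j
    fin_cases i <;> fin_cases j
    · exact s f₀ hf₀
    · exact h21
    · exact hy1
    · exact (c f₁ f₀).trans h21
    · exact s f₁ hf₁
    · exact hy3
    · exact (c f₂ f₀).trans hy1
    · exact (c f₂ f₁).trans hy3
    · exact s f₂ hf₂
  · intro i j hij
    fin_cases i <;> fin_cases j
    · exact absurd rfl hij
    · exact h20
    · exact hy0
    · exact (c e₁ f₀).trans h11
    · exact absurd rfl hij
    · exact hy2
    · exact (c e₂ f₀).trans h31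
    · exact (c e₂ f₁).trans h33
    · exact absurd rfl hij
  · intro i
    fin_cases i
    · exact hef₀
    · exact hef₁
    · exact hy4

/-- A singular vector orthogonal to `a` and to neither of two vectors outside the line of `a`. -/
lemma exists_connect (hQ : Cfsg.Geo.IsNondegenerateQuadraticForm Q)
    (hcard : 13 ≤ Fintype.card ι) (a s s' : ι → K)
    (hs : s ∉ Submodule.span K {a}) (hs' : s' ∉ Submodule.span K {a}) :
    ∃ d, Q d = 0 ∧ QuadraticMap.polar Q a d = 0 ∧ QuadraticMap.polar Q s d ≠ 0 ∧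
      QuadraticMap.polar Q s' d ≠ 0 := by
  have hbl := hQ.polar_bilinear
  obtain ⟨y, hay, hsy, hs'y⟩ : ∃ y, QuadraticMap.polar Q a y = 0 ∧ QuadraticMap.polar Q s y ≠ 0 ∧
      QuadraticMap.polar Q s' y ≠ 0 := by
    obtain ⟨y1, hy1a, hy1⟩ := exists_perp_ne hQ _ s hs
    obtain ⟨y2, hy2a, hy2⟩ := exists_perp_ne hQ _ s' hs'
    have ha1 := hy1a a (Submodule.mem_span_singleton_self a)
    have ha2 := hy2a a (Submodule.mem_span_singleton_self a)
    by_cases h1 : QuadraticMap.polar Q s' y1 = 0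
    · by_cases h2 : QuadraticMap.polar Q s y2 = 0
      · refine ⟨y1 + y2, ?_, ?_, ?_⟩
        · rw [hbl.add_right, ha1, ha2, add_zero]
        · rw [hbl.add_right, h2, add_zero]; exact hy1
        · rw [hbl.add_right, h1, zero_add]; exact hy2
      · exact ⟨y2, ha2, h2, hy2⟩
    · exact ⟨y1, ha1, hy1, h1⟩
  obtain ⟨d, hd, hd'⟩ := sing_adjust_fam hQ (![a, s, s'] : Fin 3 → (ι → K)) (by omega) y
  have h0 : QuadraticMap.polar Q a d = QuadraticMap.polar Q a y := hd' 0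
  have h1 : QuadraticMap.polar Q s d = QuadraticMap.polar Q s y := hd' 1
  have h2 : QuadraticMap.polar Q s' d = QuadraticMap.polar Q s' y := hd' 2
  exact ⟨d, hd, h0.trans hay, by rw [h1]; exact hsy, by rw [h2]; exact hs'y⟩

omit [Fintype K] in
/-- A Siegel element moving a singular vector to another one. -/
lemma sg_move (hQ : Cfsg.Geo.IsNondegenerateQuadraticForm Q) (d s s'' : ι → K) (hd : Q d = 0)
    (hs : Q s = 0) (hs'' : Q s'' = 0) (β : K) (hβ : β ≠ 0)
    (h1 : QuadraticMap.polar Q d s = β) (h2 : QuadraticMap.polar Q d s'' = β) :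
    QuadraticMap.polar Q d (β⁻¹ • (s'' - s)) = 0 ∧
    ((sg hQ d (β⁻¹ • (s'' - s)) : Matrix.GeneralLinearGroup ι K) : Matrix ι ι K) *ᵥ s = s'' := by
  have hbl := hQ.polar_bilinear
  have hdw : QuadraticMap.polar Q d (β⁻¹ • (s'' - s)) = 0 := by
    rw [hbl.smul_right, bil_sub_right hbl, h1, h2, sub_self, mul_zero]
  refine ⟨hdw, ?_⟩
  obtain ⟨γ, hγ⟩ : ∃ γ : K, γ = β⁻¹ := ⟨_, rfl⟩
  have hγβ : γ * β = 1 := by rw [hγ, inv_mul_cancel₀ hβ]
  rw [← hγ] at hdw ⊢
  rw [sg_mulVec hQ _ _ hd hdw, hbl.smul_left, bil_sub_left hbl, polar_self_sing hQ s hs, hQ.smul,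
    Q_sub hQ, hs, hs'', h1]
  have e1 : γ ^ 2 * (0 + 0 - QuadraticMap.polar Q s'' s) * β = -(γ * QuadraticMap.polar Q s'' s) := by
    linear_combination (-(γ * QuadraticMap.polar Q s'' s)) * hγβ
  have e2 : β • γ • (s'' - s) = s'' - s := by
    rw [smul_smul, mul_comm, hγβ, one_smul]
  rw [e1, e2]
  module

/-- A totally singular triple through a given singular vector, with independence certificates. -/
lemma exists_ts_triple (hQ : Cfsg.Geo.IsNondegenerateQuadraticForm Q)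
    (hcard : 13 ≤ Fintype.card ι) (u : ι → K) :
    ∃ s₁ s₂ y₁ y₂, Q s₁ = 0 ∧ Q s₂ = 0 ∧ QuadraticMap.polar Q u s₁ = 0 ∧
      QuadraticMap.polar Q u s₂ = 0 ∧ QuadraticMap.polar Q s₁ s₂ = 0 ∧
      QuadraticMap.polar Q u y₁ = 0 ∧ QuadraticMap.polar Q u y₂ = 0 ∧
      QuadraticMap.polar Q s₁ y₁ = 1 ∧ QuadraticMap.polar Q s₂ y₁ = 0 ∧
      QuadraticMap.polar Q s₁ y₂ = 0 ∧ QuadraticMap.polar Q s₂ y₂ = 1 := by
  obtain ⟨s₁, y₁, h1, h2, hs₁, -, h12⟩ := exists_hyp_fam hQ (![u] : Fin 1 → (ι → K)) (by omega)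
  obtain ⟨s₂, y₂, h3, h4, hs₂, -, h34⟩ :=
    exists_hyp_fam hQ (![u, s₁, y₁] : Fin 3 → (ι → K)) (by omega)
  have c := fun x y => B_comm Q x y
  exact ⟨s₁, s₂, y₁, y₂, hs₁, hs₂, h1 0, h3 0, h3 1, h2 0, h4 0, h12, (c s₂ y₁).trans (h3 2),
    h4 1, h34⟩

end CW

end Cfsg.Agent.Lib.Helper94.SfOrth2
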