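import Mathlib
import Cfsg.Prelude.Def_GeometricClasses
import Cfsg.Agent.Lib.Helper94.SfOrth2

/-!
# Sharper existence lemmas for quadratic spaces over finite fields (helper94)

* `exists_hyp_perp3` : a hyperbolic pair orthogonal to `U` when `2 dim U + 3 ≤ n`.
* `exists_hyp_fam3`, `sum_sing3_fam3`, `exists_perp_ne_fam`.
-/

set_option autoImplicit false
set_option linter.unusedSimpArgs false

namespace Cfsg.Agent.Lib.Helper94.QExt1

open scoped Matrix
open Module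
open Cfsg.Agent.Lib.Helper94.Basic Cfsg.Agent.Lib.Helper94.GLAux Cfsg.Agent.Lib.Helper94.Tv
  Cfsg.Agent.Lib.Helper94.QuadAbs Cfsg.Agent.Lib.Helper94.OrthSiegel
  Cfsg.Agent.Lib.Helper94.OrthRel Cfsg.Agent.Lib.Helper94.SfOrth2
open Cfsg.Agent.Lib.Helper94.SympAbs (bil_zero_left bil_zero_right bil_neg_left bil_neg_right
  bil_sub_left bil_sub_right fR fR_apply fRL)

section Ex

variable {ι : Type} [Fintype ι] [DecidableEq ι] {K : Type*} [Field K] [Fintype K]
variable {Q : (ι → K) → K}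

/-- A singular vector orthogonal to `U` and outside `U`. -/
lemma exists_sing_perp_notin (hQ : Cfsg.Geo.IsNondegenerateQuadraticForm Q)
    (U : Submodule K (ι → K)) (hU : 2 * finrank K U + 3 ≤ Fintype.card ι) :
    ∃ y, Q y = 0 ∧ (∀ u ∈ U, QuadraticMap.polar Q u y = 0) ∧ y ∉ U := by
  have h1 := finrank_perpS hQ U
  obtain ⟨C, hC⟩ := Submodule.exists_isCompl (U ⊓ perpS hQ U)
  have h2 := Submodule.finrank_add_eq_of_isCompl hC
  have h3 : finrank K ↥(U ⊓ perpS hQ U) ≤ finrank K U := Submodule.finrank_mono inf_le_left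
  have h4 := Submodule.finrank_sup_add_finrank_inf_eq C (perpS hQ U)
  have h5 : finrank K ↥(C ⊔ perpS hQ U) ≤ Fintype.card ι := by
    have := Submodule.finrank_le (C ⊔ perpS hQ U)
    rwa [Module.finrank_fintype_fun_eq_card] at this
  have h6 : finrank K (ι → K) = Fintype.card ι := Module.finrank_fintype_fun_eq_card K
  have h7 : 3 ≤ finrank K ↥(C ⊓ perpS hQ U) := by omega
  obtain ⟨v, hv⟩ := exists_linearIndependent_of_le_finrank h7
  obtain ⟨c, hc0, hc⟩ := exists_sing_comb hQ (v 0 : ι → K) (v 1 : ι → K) (v 2 : ι → K)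
  have hmem : c 0 • (v 0 : ι → K) + c 1 • (v 1 : ι → K) + c 2 • (v 2 : ι → K)
      ∈ C ⊓ perpS hQ U :=
    Submodule.add_mem _ (Submodule.add_mem _ (Submodule.smul_mem _ _ (v 0).2)
      (Submodule.smul_mem _ _ (v 1).2)) (Submodule.smul_mem _ _ (v 2).2)
  refine ⟨_, hc, (mem_perpS hQ U _).mp hmem.2, ?_⟩
  intro hyU
  apply hc0
  have h0 : c 0 • (v 0 : ι → K) + c 1 • (v 1 : ι → K) + c 2 • (v 2 : ι → K) = 0 := by
    have h8 : c 0 • (v 0 : ι → K) + c 1 • (v 1 : ι → K) + c 2 • (v 2 : ι → K)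
        ∈ (U ⊓ perpS hQ U) ⊓ C := ⟨⟨hyU, hmem.2⟩, hmem.1⟩
    rw [hC.inf_eq_bot] at h8
    exact (Submodule.mem_bot K).mp h8
  have h4 : ∑ i, c i • v i = 0 := by
    apply Subtype.ext
    rw [Fin.sum_univ_three]
    simpa using h0
  have h5 := Fintype.linearIndependent_iff.mp hv c h4
  funext i
  exact h5 i

/-- A hyperbolic pair orthogonal to a subspace `U` with `2 dim U + 3 ≤ n`. -/
lemma exists_hyp_perp3 (hQ : Cfsg.Geo.IsNondegenerateQuadraticForm Q) (U : Submodule K (ι → K))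
    (hU : 2 * finrank K U + 3 ≤ Fintype.card ι) :
    ∃ y1 y2, (∀ u ∈ U, QuadraticMap.polar Q u y1 = 0) ∧ (∀ u ∈ U, QuadraticMap.polar Q u y2 = 0) ∧
      Q y1 = 0 ∧ Q y2 = 0 ∧ QuadraticMap.polar Q y1 y2 = 1 := by
  have hbl := hQ.polar_bilinear
  obtain ⟨y, hQy, hyU, hy⟩ := exists_sing_perp_notin hQ U hU
  obtain ⟨p2, hp2, hyp2'⟩ := exists_perp_ne hQ U y hy
  obtain ⟨v, hv⟩ : ∃ v, v = p2 + (-(Q p2) / QuadraticMap.polar Q y p2) • y := ⟨_, rfl⟩
  have hQv : Q v = 0 := by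
    rw [hv, Q_add_smul hQ, hQy, B_comm Q p2 y]
    field_simp
    ring
  have hyv : QuadraticMap.polar Q y v = QuadraticMap.polar Q y p2 := by
    rw [hv, hbl.add_right, hbl.smul_right, B_self hQ, hQy]
    ring
  refine ⟨(QuadraticMap.polar Q y p2)⁻¹ • y, v, fun u hu => ?_, fun u hu => ?_, ?_, hQv, ?_⟩
  · rw [hbl.smul_right, hyU u hu, mul_zero]
  · rw [hv, hbl.add_right, hbl.smul_right, hyU u hu, hp2 u hu]; simp
  · rw [hQ.smul, hQy, mul_zero]
  · rw [hbl.smul_left, hyv, inv_mul_cancel₀ hyp2']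

/-- A hyperbolic pair orthogonal to a family of `k` vectors, `2k + 3 ≤ n`. -/
lemma exists_hyp_fam3 (hQ : Cfsg.Geo.IsNondegenerateQuadraticForm Q) {k : ℕ}
    (v : Fin k → (ι → K)) (hk : 2 * k + 3 ≤ Fintype.card ι) :
    ∃ y1 y2, (∀ i, QuadraticMap.polar Q (v i) y1 = 0) ∧ (∀ i, QuadraticMap.polar Q (v i) y2 = 0) ∧
      Q y1 = 0 ∧ Q y2 = 0 ∧ QuadraticMap.polar Q y1 y2 = 1 := by
  have h1 : finrank K (Submodule.span K (Set.range v)) ≤ k := by
    have := finrank_range_le_card (R := K) v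
    rwa [Fintype.card_fin] at this
  obtain ⟨y1, y2, h1', h2', h11, h22, h12⟩ :=
    exists_hyp_perp3 hQ (Submodule.span K (Set.range v)) (by omega)
  exact ⟨y1, y2, fun i => h1' _ (Submodule.subset_span ⟨i, rfl⟩),
    fun i => h2' _ (Submodule.subset_span ⟨i, rfl⟩), h11, h22, h12⟩

/-- Every vector orthogonal to a family is a sum of three singular vectors orthogonal to it. -/
lemma sum_sing3_fam3 (hQ : Cfsg.Geo.IsNondegenerateQuadraticForm Q) {k : ℕ}
    (v : Fin k → (ι → K)) (hk : 2 * k + 5 ≤ Fintype.card ι) (x : ι → K)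
    (hx : ∀ i, QuadraticMap.polar Q (v i) x = 0) :
    ∃ s₁ s₂ s₃, Q s₁ = 0 ∧ Q s₂ = 0 ∧ Q s₃ = 0 ∧ (∀ i, QuadraticMap.polar Q (v i) s₁ = 0) ∧
      (∀ i, QuadraticMap.polar Q (v i) s₂ = 0) ∧ (∀ i, QuadraticMap.polar Q (v i) s₃ = 0) ∧
      x = s₁ + s₂ + s₃ := by
  have hbl := hQ.polar_bilinear
  obtain ⟨y1, y2, h1, h2, h11, h22, h12⟩ :=
    exists_hyp_fam3 hQ (Fin.cons x v : Fin (k + 1) → (ι → K)) (by omega)
  have hx1 : QuadraticMap.polar Q x y1 = 0 := by
    have := h1 0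
    simpa using this
  have hx2 : QuadraticMap.polar Q x y2 = 0 := by
    have := h2 0
    simpa using this
  have hv1 : ∀ i, QuadraticMap.polar Q (v i) y1 = 0 := by
    intro i
    have := h1 i.succ
    simpa using this
  have hv2 : ∀ i, QuadraticMap.polar Q (v i) y2 = 0 := by
    intro i
    have := h2 i.succ
    simpa using this
  refine ⟨x + (y1 + (-Q x) • y2), -y1, Q x • y2, ?_, ?_, ?_, fun i => ?_, fun i => ?_,
    fun i => ?_, ?_⟩
  · rw [Q_add Q, Q_add Q, hQ.smul, h11, h22, hbl.add_right, hbl.smul_right, hbl.smul_right, h12,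
      hx1, hx2]
    ring
  · rw [Q_neg hQ, h11]
  · rw [hQ.smul, h22, mul_zero]
  · rw [hbl.add_right, hbl.add_right, hbl.smul_right, hx i, hv1 i, hv2 i]
    ring
  · rw [bil_neg_right hbl, hv1 i, neg_zero]
  · rw [hbl.smul_right, hv2 i, mul_zero]
  · module

omit [Fintype K] in
/-- Separation of a vector from the span of a family. -/
lemma exists_perp_ne_fam (hQ : Cfsg.Geo.IsNondegenerateQuadraticForm Q) {k : ℕ}
    (v : Fin k → (ι → K)) (x : ι → K) (hx : ∀ c : Fin k → K, x ≠ ∑ i, c i • v i) :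
    ∃ r, (∀ i, QuadraticMap.polar Q (v i) r = 0) ∧ QuadraticMap.polar Q x r ≠ 0 := by
  have hx' : x ∉ Submodule.span K (Set.range v) := by
    intro h
    obtain ⟨c, hc⟩ := (Submodule.mem_span_range_iff_exists_fun K).mp h
    exact hx c hc.symm
  obtain ⟨r, hr, hxr⟩ := exists_perp_ne hQ _ x hx'
  exact ⟨r, fun i => hr _ (Submodule.subset_span ⟨i, rfl⟩), hxr⟩

end Ex

end Cfsg.Agent.Lib.Helper94.QExt1
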