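import Mathlib
import Cfsg.Prelude.Def_GeometricClasses
import Cfsg.Agent.Lib.Helper94.QExt1

/-!
# Quadratic spaces with a quadratic extension field acting by similitudes (helper94)

`JCtx Q J t N` : `J` is a matrix with `Q(Jx) = N Q(x)`, adjoint `t - J` for the polar form and
anisotropic norm form `x² + t x y + N y²`.  The elements `T a β = sg a (β • J a)` commute with
`J`; `WS M u` is the space of `w ⊥ u` with all `sg u (β • w) ∈ M`.
-/

set_option autoImplicit false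
set_option linter.unusedSimpArgs false

namespace Cfsg.Agent.Lib.Helper94.QExt2

open scoped Matrix
open Module
open Cfsg.Agent.Lib.Helper94.Basic Cfsg.Agent.Lib.Helper94.GLAux Cfsg.Agent.Lib.Helper94.Tv
  Cfsg.Agent.Lib.Helper94.QuadAbs Cfsg.Agent.Lib.Helper94.OrthSiegel
  Cfsg.Agent.Lib.Helper94.SfOrth1 Cfsg.Agent.Lib.Helper94.SfOrth2 Cfsg.Agent.Lib.Helper94.QExt1
open Cfsg.Agent.Lib.Helper94.SympAbs (bil_zero_left bil_zero_right bil_neg_left bil_neg_right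
  bil_sub_left bil_sub_right)

section Ctx

variable {ι : Type} [Fintype ι] [DecidableEq ι] {F : Type*} [Field F] {Q : (ι → F) → F}
variable {J : Matrix ι ι F} {t N : F}

/-- The data of a quadratic extension acting by similitudes. -/
structure JCtx (Q : (ι → F) → F) (J : Matrix ι ι F) (t N : F) : Prop where
  nd : Cfsg.Geo.IsNondegenerateQuadraticForm Q
  QJ : ∀ x, Q (J *ᵥ x) = N * Q x
  BJ : ∀ x, QuadraticMap.polar Q x (J *ᵥ x) = t * Q x
  adj : ∀ x y, QuadraticMap.polar Q (J *ᵥ x) y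
    = t * QuadraticMap.polar Q x y - QuadraticMap.polar Q x (J *ᵥ y)
  BJJ : ∀ x y, QuadraticMap.polar Q (J *ᵥ x) (J *ᵥ y) = N * QuadraticMap.polar Q x y
  JJ : ∀ x, J *ᵥ (J *ᵥ x) = t • (J *ᵥ x) - N • x
  norm : ∀ x y : F, x ^ 2 + t * x * y + N * y ^ 2 = 0 → x = 0 ∧ y = 0

lemma JCtx.adj' (c : JCtx Q J t N) (x y : ι → F) :
    QuadraticMap.polar Q x (J *ᵥ y)
      = t * QuadraticMap.polar Q x y - QuadraticMap.polar Q (J *ᵥ x) y := by
  rw [c.adj]; ring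

lemma JCtx.QJ0 (c : JCtx Q J t N) {a : ι → F} (ha : Q a = 0) : Q (J *ᵥ a) = 0 := by
  rw [c.QJ, ha, mul_zero]

lemma JCtx.BJ0 (c : JCtx Q J t N) {a : ι → F} (ha : Q a = 0) :
    QuadraticMap.polar Q a (J *ᵥ a) = 0 := by
  rw [c.BJ, ha, mul_zero]

lemma JCtx.BJ0' (c : JCtx Q J t N) {a : ι → F} (ha : Q a = 0) :
    QuadraticMap.polar Q (J *ᵥ a) a = 0 := by
  rw [B_comm, c.BJ0 ha]

/-- `z ⊥ a, Ja` implies `Jz ⊥ a, Ja`. -/
lemma JCtx.perpJ (c : JCtx Q J t N) {a z : ι → F} (h1 : QuadraticMap.polar Q a z = 0)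
    (h2 : QuadraticMap.polar Q (J *ᵥ a) z = 0) :
    QuadraticMap.polar Q a (J *ᵥ z) = 0 ∧ QuadraticMap.polar Q (J *ᵥ a) (J *ᵥ z) = 0 := by
  refine ⟨by rw [c.adj', h1, h2]; ring, by rw [c.BJJ, h1, mul_zero]⟩

/-- `z ⊥ a, Ja` implies `a, Ja ⊥ z, Jz` (all orders). -/
lemma JCtx.perpJ' (c : JCtx Q J t N) {a z : ι → F} (h1 : QuadraticMap.polar Q a z = 0)
    (h2 : QuadraticMap.polar Q (J *ᵥ a) z = 0) :
    QuadraticMap.polar Q z a = 0 ∧ QuadraticMap.polar Q z (J *ᵥ a) = 0 ∧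
    QuadraticMap.polar Q (J *ᵥ z) a = 0 ∧ QuadraticMap.polar Q (J *ᵥ z) (J *ᵥ a) = 0 := by
  obtain ⟨h3, h4⟩ := c.perpJ h1 h2
  refine ⟨by rw [B_comm]; exact h1, by rw [B_comm]; exact h2, by rw [B_comm]; exact h3,
    by rw [B_comm]; exact h4⟩

/-- The action of `F[J]` is torsion free. -/
lemma JCtx.tf (c : JCtx Q J t N) {x y : F} {v : ι → F} (h : x • v + y • J *ᵥ v = 0)
    (hv : v ≠ 0) : x = 0 ∧ y = 0 := by
  have h1 : J *ᵥ (x • v + y • J *ᵥ v) = 0 := by rw [h, Matrix.mulVec_zero]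
  rw [Matrix.mulVec_add, Matrix.mulVec_smul, Matrix.mulVec_smul, c.JJ] at h1
  have h2 : (x ^ 2 + t * x * y + N * y ^ 2) • v = 0 := by
    have e : (x ^ 2 + t * x * y + N * y ^ 2) • v
        = (x + y * t) • (x • v + y • J *ᵥ v)
          - y • (x • J *ᵥ v + y • (t • J *ᵥ v - N • v)) := by module
    rw [e, h, h1, smul_zero, smul_zero, sub_zero]
  exact c.norm x y ((smul_eq_zero.mp h2).resolve_right hv)

lemma JCtx.J_ne (c : JCtx Q J t N) {v : ι → F} (hv : v ≠ 0) :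
    J *ᵥ v ∉ Submodule.span F {v} := by
  intro h
  obtain ⟨a, ha⟩ := Submodule.mem_span_singleton.mp h
  have h1 : (-a) • v + (1 : F) • J *ᵥ v = 0 := by rw [← ha]; module
  exact one_ne_zero (c.tf h1 hv).2

/-- Extraction of coefficients by pairing with `z, Jz`. -/
lemma JCtx.ext2 (c : JCtx Q J t N) {x z : ι → F} {γ δ : F}
    (hxz : QuadraticMap.polar Q x z ≠ 0 ∨ QuadraticMap.polar Q (J *ᵥ x) z ≠ 0)
    (h1 : QuadraticMap.polar Q (γ • x + δ • J *ᵥ x) z = 0)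
    (h2 : QuadraticMap.polar Q (γ • x + δ • J *ᵥ x) (J *ᵥ z) = 0) : γ = 0 ∧ δ = 0 := by
  have hbl := c.nd.polar_bilinear
  rw [hbl.add_left, hbl.smul_left, hbl.smul_left] at h1 h2
  rw [c.BJJ, c.adj'] at h2
  obtain ⟨p, hp⟩ : ∃ p : F, p = QuadraticMap.polar Q x z := ⟨_, rfl⟩
  obtain ⟨q, hq⟩ : ∃ q : F, q = QuadraticMap.polar Q (J *ᵥ x) z := ⟨_, rfl⟩
  rw [← hp, ← hq] at h1 h2 hxz
  have hD : q ^ 2 + t * q * (-p) + N * (-p) ^ 2 ≠ 0 := by
    intro h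
    obtain ⟨h3, h4⟩ := c.norm _ _ h
    rcases hxz with h5 | h5
    · exact h5 (neg_eq_zero.mp h4)
    · exact h5 h3
  constructor
  · have : γ * (q ^ 2 + t * q * (-p) + N * (-p) ^ 2) = 0 := by
      linear_combination (N * p) * h1 - q * h2
    exact (mul_eq_zero.mp this).resolve_right hD
  · have : δ * (q ^ 2 + t * q * (-p) + N * (-p) ^ 2) = 0 := by
      linear_combination (-(t * p - q)) * h1 + p * h2
    exact (mul_eq_zero.mp this).resolve_right hD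

/-- The elements `sg a (β • J a)`. -/
noncomputable def T (c : JCtx Q J t N) (a : ι → F) (β : F) : Matrix.GeneralLinearGroup ι F :=
  sg c.nd a (β • J *ᵥ a)

lemma T_mulVec (c : JCtx Q J t N) {a : ι → F} (ha : Q a = 0) (β : F) (x : ι → F) :
    ((T c a β : Matrix.GeneralLinearGroup ι F) : Matrix ι ι F) *ᵥ x
      = x + (β * QuadraticMap.polar Q a x) • J *ᵥ a
        - (β * QuadraticMap.polar Q (J *ᵥ a) x) • a :=
  sg_sing_mulVec c.nd a (J *ᵥ a) ha (c.QJ0 ha) (c.BJ0 ha) β x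

lemma T_comm (c : JCtx Q J t N) {a : ι → F} (ha : Q a = 0) (β : F) (x : ι → F) :
    J *ᵥ (((T c a β : Matrix.GeneralLinearGroup ι F) : Matrix ι ι F) *ᵥ x)
      = ((T c a β : Matrix.GeneralLinearGroup ι F) : Matrix ι ι F) *ᵥ (J *ᵥ x) := by
  rw [T_mulVec c ha, T_mulVec c ha, Matrix.mulVec_sub, Matrix.mulVec_add, Matrix.mulVec_smul,
    Matrix.mulVec_smul, c.JJ, c.BJJ, c.adj' a x]
  module

lemma T_isom (c : JCtx Q J t N) (a : ι → F) (β : F) (x : ι → F) :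
    Q (((T c a β : Matrix.GeneralLinearGroup ι F) : Matrix ι ι F) *ᵥ x) = Q x :=
  sg_isom c.nd _ _ x

end Ctx

section W

variable {ι : Type} [Fintype ι] [DecidableEq ι] {F : Type*} [Field F] {Q : (ι → F) → F}
variable {J : Matrix ι ι F} {t N : F}

/-- The vectors `w ⊥ u` all of whose Siegel elements `sg u (β • w)` lie in `M`. -/
def WS (hQ : Cfsg.Geo.IsNondegenerateQuadraticForm Q)
    (M : Subgroup (Matrix.GeneralLinearGroup ι F)) (u : ι → F) : Submodule F (ι → F) where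
  carrier := {w | QuadraticMap.polar Q u w = 0 ∧ ∀ β : F, sg hQ u (β • w) ∈ M}
  add_mem' := by
    rintro a b ⟨ha, ha'⟩ ⟨hb, hb'⟩
    have hbl := hQ.polar_bilinear
    refine ⟨by rw [hbl.add_right, ha, hb, add_zero], fun β => ?_⟩
    by_cases hu : Q u = 0
    · rw [smul_add, ← sg_mul hQ u _ _ hu (by rw [hbl.smul_right, ha, mul_zero])
        (by rw [hbl.smul_right, hb, mul_zero])]
      exact M.mul_mem (ha' β) (hb' β)
    · rw [sg_not hQ _ _ (fun h => hu h.1)]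
      exact M.one_mem
  zero_mem' := ⟨bil_zero_right hQ.polar_bilinear u, fun β => by
    rw [smul_zero, sg_zero_right]; exact M.one_mem⟩
  smul_mem' := by
    rintro c a ⟨ha, ha'⟩
    refine ⟨by rw [hQ.polar_bilinear.smul_right, ha, mul_zero], fun β => ?_⟩
    rw [smul_smul]
    exact ha' _

lemma mem_WS (hQ : Cfsg.Geo.IsNondegenerateQuadraticForm Q)
    (M : Subgroup (Matrix.GeneralLinearGroup ι F)) (u w : ι → F) :
    w ∈ WS hQ M u ↔ QuadraticMap.polar Q u w = 0 ∧ ∀ β : F, sg hQ u (β • w) ∈ M := Iff.rfl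

lemma W_self (hQ : Cfsg.Geo.IsNondegenerateQuadraticForm Q)
    (M : Subgroup (Matrix.GeneralLinearGroup ι F)) {u : ι → F} (hu : Q u = 0) :
    u ∈ WS hQ M u :=
  ⟨polar_self_sing hQ u hu, fun β => by rw [sg_self]; exact M.one_mem⟩

lemma W_J (c : JCtx Q J t N) (M : Subgroup (Matrix.GeneralLinearGroup ι F))
    (hT : ∀ a, Q a = 0 → ∀ β, T c a β ∈ M) {u : ι → F} (hu : Q u = 0) :
    J *ᵥ u ∈ WS c.nd M u :=
  ⟨c.BJ0 hu, fun β => hT u hu β⟩

lemma W_map (hQ : Cfsg.Geo.IsNondegenerateQuadraticForm Q)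
    (M : Subgroup (Matrix.GeneralLinearGroup ι F))
    (hiso : ∀ m ∈ M, ∀ v, Q ((m : Matrix ι ι F) *ᵥ v) = Q v)
    {m : Matrix.GeneralLinearGroup ι F} (hm : m ∈ M) {u w : ι → F} (hw : w ∈ WS hQ M u) :
    (m : Matrix ι ι F) *ᵥ w ∈ WS hQ M ((m : Matrix ι ι F) *ᵥ u) := by
  refine ⟨by rw [polar_of_isom m (hiso m hm)]; exact hw.1, fun β => ?_⟩
  have h := sg_conj hQ m (hiso m hm) u (β • w)
  rw [Matrix.mulVec_smul] at h
  rw [← h]
  exact M.mul_mem (M.mul_mem hm (hw.2 β)) (M.inv_mem hm)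

/-- The basic closure property: for `b` singular with `b, Jb ⊥ u`. -/
lemma W_E (c : JCtx Q J t N) (M : Subgroup (Matrix.GeneralLinearGroup ι F))
    (hT : ∀ a, Q a = 0 → ∀ β, T c a β ∈ M)
    (hiso : ∀ m ∈ M, ∀ v, Q ((m : Matrix ι ι F) *ᵥ v) = Q v)
    {u b w : ι → F} (hb : Q b = 0) (hbu : QuadraticMap.polar Q b u = 0)
    (hJbu : QuadraticMap.polar Q (J *ᵥ b) u = 0) (hw : w ∈ WS c.nd M u) :
    QuadraticMap.polar Q b w • J *ᵥ b - QuadraticMap.polar Q (J *ᵥ b) w • b ∈ WS c.nd M u := by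
  have h1 := W_map c.nd M hiso (hT b hb 1) hw
  have h2 : ((T c b 1 : Matrix.GeneralLinearGroup ι F) : Matrix ι ι F) *ᵥ u = u := by
    rw [T_mulVec c hb, hbu, hJbu]
    module
  rw [h2, T_mulVec c hb] at h1
  have h3 := Submodule.sub_mem _ h1 hw
  have e : QuadraticMap.polar Q b w • J *ᵥ b - QuadraticMap.polar Q (J *ᵥ b) w • b
      = w + (1 * QuadraticMap.polar Q b w) • J *ᵥ b
        - (1 * QuadraticMap.polar Q (J *ᵥ b) w) • b - w := by module
  rw [e]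
  exact h3

lemma W_top (hQ : Cfsg.Geo.IsNondegenerateQuadraticForm Q)
    (M : Subgroup (Matrix.GeneralLinearGroup ι F)) {u : ι → F} (hu : Q u = 0)
    (h : ∀ w, QuadraticMap.polar Q u w = 0 → w ∈ WS hQ M u) : u ∈ sgSet hQ M := by
  refine ⟨hu, fun w => ?_⟩
  by_cases hw : QuadraticMap.polar Q u w = 0
  · have := (h w hw).2 1
    rwa [one_smul] at this
  · rw [sg_not hQ _ _ (fun h' => hw h'.2)]
    exact M.one_mem

end W

end Cfsg.Agent.Lib.Helper94.QExt2
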