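import Mathlib
import Cfsg.Prelude.Def_GeometricClasses
import Cfsg.Agent.Lib.Helper94.QExt2

/-!
# Overgroups of the extension-field subgroup of `Ω` : the spaces `WS M u` (helper94)

Under `JCtx`, if `M` contains all `T a β` and consists of isometries, then from one vector
`w ∈ WS M u` outside `F u + F J u` we get `WS M u = u^⊥`.
-/

set_option autoImplicit false
set_option linter.unusedSimpArgs false

namespace Cfsg.Agent.Lib.Helper94.QExt3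

open scoped Matrix
open Module
open Cfsg.Agent.Lib.Helper94.Basic Cfsg.Agent.Lib.Helper94.GLAux Cfsg.Agent.Lib.Helper94.Tv
  Cfsg.Agent.Lib.Helper94.QuadAbs Cfsg.Agent.Lib.Helper94.OrthSiegel
  Cfsg.Agent.Lib.Helper94.SfOrth1 Cfsg.Agent.Lib.Helper94.SfOrth2 Cfsg.Agent.Lib.Helper94.QExt1
  Cfsg.Agent.Lib.Helper94.QExt2
open Cfsg.Agent.Lib.Helper94.SympAbs (bil_zero_left bil_zero_right bil_neg_left bil_neg_right
  bil_sub_left bil_sub_right)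

lemma fam4 {V : Type*} (P : V → Prop) (a b c d : V) :
    (∀ i, P ((![a, b, c, d] : Fin 4 → V) i)) ↔ P a ∧ P b ∧ P c ∧ P d := by
  constructor
  · intro h
    exact ⟨h 0, h 1, h 2, h 3⟩
  · rintro ⟨h0, h1, h2, h3⟩ i
    fin_cases i
    · exact h0
    · exact h1
    · exact h2
    · exact h3

section Main

variable {ι : Type} [Fintype ι] [DecidableEq ι] {F : Type*} [Field F] [Fintype F]
variable {Q : (ι → F) → F} {J : Matrix ι ι F} {t N : F}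

omit [Fintype F] in
lemma case2A (c : JCtx Q J t N) (M : Subgroup (Matrix.GeneralLinearGroup ι F))
    (hT : ∀ a, Q a = 0 → ∀ β, T c a β ∈ M)
    (hiso : ∀ m ∈ M, ∀ v, Q ((m : Matrix ι ι F) *ᵥ v) = Q v)
    {u w : ι → F} (hu : Q u = 0) (hw : w ∈ WS c.nd M u)
    (hδ : QuadraticMap.polar Q (J *ᵥ u) w ≠ 0) {b₁ : ι → F} (hb₁ : Q b₁ = 0)
    (h1 : QuadraticMap.polar Q u b₁ = 0) (h2 : QuadraticMap.polar Q (J *ᵥ u) b₁ = 0)
    (h3 : QuadraticMap.polar Q w b₁ = 0) (h4 : QuadraticMap.polar Q (J *ᵥ w) b₁ = 0) :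
    b₁ ∈ WS c.nd M u := by
  have hbl := c.nd.polar_bilinear
  have hb : Q (u + b₁) = 0 := by rw [Q_add Q, hu, hb₁, h1]; ring
  have hbu : QuadraticMap.polar Q (u + b₁) u = 0 := by
    rw [hbl.add_left, polar_self_sing c.nd u hu, B_comm Q b₁ u, h1, add_zero]
  have hJbu : QuadraticMap.polar Q (J *ᵥ (u + b₁)) u = 0 := by
    rw [Matrix.mulVec_add, hbl.add_left, c.BJ0' hu, c.adj, B_comm Q b₁ u, h1,
      B_comm Q b₁ (J *ᵥ u), h2]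
    ring
  have hE := W_E c M hT hiso hb hbu hJbu hw
  have e1 : QuadraticMap.polar Q (u + b₁) w = 0 := by
    rw [hbl.add_left, hw.1, B_comm Q b₁ w, h3, add_zero]
  have e2 : QuadraticMap.polar Q (J *ᵥ (u + b₁)) w = QuadraticMap.polar Q (J *ᵥ u) w := by
    rw [Matrix.mulVec_add, hbl.add_left, c.adj b₁ w, B_comm Q b₁ w, h3, B_comm Q b₁ (J *ᵥ w), h4]
    ring
  rw [e1, e2, zero_smul, zero_sub] at hE
  have h5 : u + b₁ ∈ WS c.nd M u := by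
    have := Submodule.smul_mem _ (-(QuadraticMap.polar Q (J *ᵥ u) w)⁻¹) hE
    convert this using 1
    rw [smul_neg, neg_smul, neg_neg, smul_smul, inv_mul_cancel₀ hδ, one_smul]
  have := Submodule.sub_mem _ h5 (W_self c.nd M hu)
  simpa using this

lemma case2 (c : JCtx Q J t N) (hcard : 13 ≤ Fintype.card ι)
    (M : Subgroup (Matrix.GeneralLinearGroup ι F))
    (hT : ∀ a, Q a = 0 → ∀ β, T c a β ∈ M)
    (hiso : ∀ m ∈ M, ∀ v, Q ((m : Matrix ι ι F) *ᵥ v) = Q v)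
    {u w : ι → F} (hu : Q u = 0) (hw : w ∈ WS c.nd M u) (hQw : Q w = 0)
    (hδ : QuadraticMap.polar Q (J *ᵥ u) w ≠ 0) (x : ι → F)
    (hx : QuadraticMap.polar Q u x = 0) : x ∈ WS c.nd M u := by
  have hbl := c.nd.polar_bilinear
  obtain ⟨δ, hδd⟩ : ∃ δ, δ = QuadraticMap.polar Q (J *ᵥ u) w := ⟨_, rfl⟩
  have hδ0 : δ ≠ 0 := by rw [hδd]; exact hδ
  obtain ⟨α, hα⟩ : ∃ α, α = -QuadraticMap.polar Q (J *ᵥ w) x / δ := ⟨_, rfl⟩
  obtain ⟨β, hβ⟩ : ∃ β, β = QuadraticMap.polar Q w x / δ := ⟨_, rfl⟩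
  obtain ⟨γ, hγ⟩ : ∃ γ, γ = QuadraticMap.polar Q (J *ᵥ u) x / δ := ⟨_, rfl⟩
  obtain ⟨x', hx'⟩ : ∃ x', x' = x - α • u - β • J *ᵥ u - γ • w := ⟨_, rfl⟩
  have huu := polar_self_sing c.nd u hu
  have hww := polar_self_sing c.nd w hQw
  have huw := hw.1
  have hwu : QuadraticMap.polar Q w u = 0 := by rw [B_comm]; exact huw
  have hwJu : QuadraticMap.polar Q w (J *ᵥ u) = δ := by rw [B_comm, hδd]
  have hJwu : QuadraticMap.polar Q (J *ᵥ w) u = -δ := by rw [c.adj, hwu, hwJu]; ring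
  have hJuJu : QuadraticMap.polar Q (J *ᵥ u) (J *ᵥ u) = 0 := by rw [c.BJJ, huu, mul_zero]
  have hJwJu : QuadraticMap.polar Q (J *ᵥ w) (J *ᵥ u) = 0 := by rw [c.BJJ, hwu, mul_zero]
  have p1 : QuadraticMap.polar Q u x' = 0 := by
    rw [hx', bil_sub_right hbl, bil_sub_right hbl, bil_sub_right hbl, hbl.smul_right,
      hbl.smul_right, hbl.smul_right, hx, huu, c.BJ0 hu, huw]
    ring
  have p2 : QuadraticMap.polar Q (J *ᵥ u) x' = 0 := by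
    rw [hx', bil_sub_right hbl, bil_sub_right hbl, bil_sub_right hbl, hbl.smul_right,
      hbl.smul_right, hbl.smul_right, c.BJ0' hu, hJuJu, ← hδd, hγ]
    field_simp
    ring
  have p3 : QuadraticMap.polar Q w x' = 0 := by
    rw [hx', bil_sub_right hbl, bil_sub_right hbl, bil_sub_right hbl, hbl.smul_right,
      hbl.smul_right, hbl.smul_right, hwu, hwJu, hww, hβ]
    field_simp
    ring
  have p4 : QuadraticMap.polar Q (J *ᵥ w) x' = 0 := by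
    rw [hx', bil_sub_right hbl, bil_sub_right hbl, bil_sub_right hbl, hbl.smul_right,
      hbl.smul_right, hbl.smul_right, hJwu, hJwJu, c.BJ0' hQw, hα]
    field_simp
    ring
  obtain ⟨s₁, s₂, s₃, hs₁, hs₂, hs₃, hv₁, hv₂, hv₃, hsum⟩ :=
    sum_sing3_fam3 c.nd (![u, J *ᵥ u, w, J *ᵥ w] : Fin 4 → (ι → F)) (by omega) x'
      ((fam4 (fun v => QuadraticMap.polar Q v x' = 0) _ _ _ _).mpr ⟨p1, p2, p3, p4⟩)
  have hA : ∀ s, Q s = 0 → (∀ i, QuadraticMap.polar Q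
      ((![u, J *ᵥ u, w, J *ᵥ w] : Fin 4 → (ι → F)) i) s = 0) → s ∈ WS c.nd M u := by
    intro s hs hv
    obtain ⟨a1, a2, a3, a4⟩ := (fam4 (fun v => QuadraticMap.polar Q v s = 0) _ _ _ _).mp hv
    exact case2A c M hT hiso hu hw hδ hs a1 a2 a3 a4
  have e : x = s₁ + s₂ + s₃ + α • u + β • J *ᵥ u + γ • w := by
    rw [← hsum, hx']
    module
  rw [e]
  exact add_mem (add_mem (add_mem (add_mem (add_mem (hA s₁ hs₁ hv₁) (hA s₂ hs₂ hv₂))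
    (hA s₃ hs₃ hv₃)) (Submodule.smul_mem _ _ (W_self c.nd M hu)))
    (Submodule.smul_mem _ _ (W_J c M hT hu))) (Submodule.smul_mem _ _ hw)

omit [Fintype F] in
lemma case1a (c : JCtx Q J t N) (M : Subgroup (Matrix.GeneralLinearGroup ι F))
    (hT : ∀ a, Q a = 0 → ∀ β, T c a β ∈ M)
    (hiso : ∀ m ∈ M, ∀ v, Q ((m : Matrix ι ι F) *ᵥ v) = Q v)
    {u w b b₁ : ι → F} (hw : w ∈ WS c.nd M u)
    (hb : Q b = 0) (hbu : QuadraticMap.polar Q b u = 0)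
    (hJbu : QuadraticMap.polar Q (J *ᵥ b) u = 0)
    (hb₁ : Q b₁ = 0) (hb₁u : QuadraticMap.polar Q b₁ u = 0)
    (hJb₁u : QuadraticMap.polar Q (J *ᵥ b₁) u = 0)
    (hb₁w : QuadraticMap.polar Q b₁ w = 0) (hJb₁w : QuadraticMap.polar Q (J *ᵥ b₁) w = 0)
    (hbb : QuadraticMap.polar Q b b₁ = 0) :
    QuadraticMap.polar Q b w • J *ᵥ b₁ - QuadraticMap.polar Q (J *ᵥ b) w • b₁
      ∈ WS c.nd M u := by
  have hbl := c.nd.polar_bilinear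
  have h1 : Q (b + b₁) = 0 := by rw [Q_add Q, hb, hb₁, hbb]; ring
  have h2 : QuadraticMap.polar Q (b + b₁) u = 0 := by rw [hbl.add_left, hbu, hb₁u, add_zero]
  have h3 : QuadraticMap.polar Q (J *ᵥ (b + b₁)) u = 0 := by
    rw [Matrix.mulVec_add, hbl.add_left, hJbu, hJb₁u, add_zero]
  have hE1 := W_E c M hT hiso h1 h2 h3 hw
  have hE0 := W_E c M hT hiso hb hbu hJbu hw
  have h4 : QuadraticMap.polar Q (b + b₁) w = QuadraticMap.polar Q b w := by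
    rw [hbl.add_left, hb₁w, add_zero]
  have h5 : QuadraticMap.polar Q (J *ᵥ (b + b₁)) w = QuadraticMap.polar Q (J *ᵥ b) w := by
    rw [Matrix.mulVec_add, hbl.add_left, hJb₁w, add_zero]
  rw [h4, h5] at hE1
  have := Submodule.sub_mem _ hE1 hE0
  convert this using 1
  rw [Matrix.mulVec_add]
  module

omit [Fintype F] in
lemma case1b (c : JCtx Q J t N) (M : Subgroup (Matrix.GeneralLinearGroup ι F))
    (hT : ∀ a, Q a = 0 → ∀ β, T c a β ∈ M)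
    (hiso : ∀ m ∈ M, ∀ v, Q ((m : Matrix ι ι F) *ᵥ v) = Q v)
    {u w b₁ : ι → F} (hw : w ∈ WS c.nd M u) (hQw : Q w = 0)
    (h0 : QuadraticMap.polar Q (J *ᵥ u) w = 0)
    (hb₁ : Q b₁ = 0) (h1 : QuadraticMap.polar Q u b₁ = 0)
    (h2 : QuadraticMap.polar Q (J *ᵥ u) b₁ = 0)
    (h3 : QuadraticMap.polar Q w b₁ = 0) (h4 : QuadraticMap.polar Q (J *ᵥ w) b₁ = 0)
    (hsp : ∀ c' : Fin 4 → F, w ≠ ∑ i, c' i • (![u, J *ᵥ u, b₁, J *ᵥ b₁] : Fin 4 → (ι → F)) i) :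
    b₁ ∈ WS c.nd M u ∧ J *ᵥ b₁ ∈ WS c.nd M u := by
  have hbl := c.nd.polar_bilinear
  obtain ⟨z₀, hz₀, hwz₀⟩ := exists_perp_ne_fam c.nd _ w hsp
  obtain ⟨z1, z2, z3, z4⟩ := (fam4 (fun v => QuadraticMap.polar Q v z₀ = 0) _ _ _ _).mp hz₀
  have wu := hw.1
  have wb₁ : QuadraticMap.polar Q b₁ w = 0 := by rw [B_comm]; exact h3
  have wJb₁ : QuadraticMap.polar Q (J *ᵥ b₁) w = 0 := by
    rw [c.adj, wb₁, B_comm Q b₁ (J *ᵥ w), h4]; ring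
  obtain ⟨b₀, hb₀d⟩ : ∃ b₀, b₀ = z₀ - (Q z₀ / QuadraticMap.polar Q w z₀) • w := ⟨_, rfl⟩
  have hQb₀ : Q b₀ = 0 := by
    rw [hb₀d, Q_sub c.nd, c.nd.smul, hQw, hbl.smul_right, B_comm Q z₀ w]
    field_simp
    ring
  have q1 : QuadraticMap.polar Q u b₀ = 0 := by
    rw [hb₀d, bil_sub_right hbl, hbl.smul_right, z1, wu]; ring
  have q2 : QuadraticMap.polar Q (J *ᵥ u) b₀ = 0 := by
    rw [hb₀d, bil_sub_right hbl, hbl.smul_right, z2, h0]; ring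
  have q3 : QuadraticMap.polar Q b₁ b₀ = 0 := by
    rw [hb₀d, bil_sub_right hbl, hbl.smul_right, z3, wb₁]; ring
  have q4 : QuadraticMap.polar Q (J *ᵥ b₁) b₀ = 0 := by
    rw [hb₀d, bil_sub_right hbl, hbl.smul_right, z4, wJb₁]; ring
  have hp : QuadraticMap.polar Q b₀ w ≠ 0 := by
    rw [hb₀d, bil_sub_left hbl, hbl.smul_left, polar_self_sing c.nd w hQw, mul_zero, sub_zero,
      B_comm]
    exact hwz₀
  have b₁u : QuadraticMap.polar Q b₁ u = 0 := by rw [B_comm]; exact h1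
  have Jb₁u : QuadraticMap.polar Q (J *ᵥ b₁) u = 0 := by
    rw [c.adj, b₁u, B_comm Q b₁ (J *ᵥ u), h2]; ring
  have b₀u : QuadraticMap.polar Q b₀ u = 0 := by rw [B_comm]; exact q1
  have Jb₀u : QuadraticMap.polar Q (J *ᵥ b₀) u = 0 := by
    rw [c.adj, b₀u, B_comm Q b₀ (J *ᵥ u), q2]; ring
  have b₀b₁ : QuadraticMap.polar Q b₀ b₁ = 0 := by rw [B_comm]; exact q3
  have hx₁ := case1a c M hT hiso hw hQb₀ b₀u Jb₀u hb₁ b₁u Jb₁u wb₁ wJb₁ b₀b₁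
  have JJb₀u : QuadraticMap.polar Q (J *ᵥ (J *ᵥ b₀)) u = 0 := by
    rw [c.adj, Jb₀u, B_comm Q (J *ᵥ b₀) (J *ᵥ u), c.BJJ, q1]; ring
  have Jb₀b₁ : QuadraticMap.polar Q (J *ᵥ b₀) b₁ = 0 := by
    rw [c.adj, b₀b₁, B_comm Q b₀ (J *ᵥ b₁), q4]; ring
  have hx₂ := case1a c M hT hiso hw (c.QJ0 hQb₀) Jb₀u JJb₀u hb₁ b₁u Jb₁u wb₁ wJb₁ Jb₀b₁
  obtain ⟨p, hpd⟩ : ∃ p, p = QuadraticMap.polar Q b₀ w := ⟨_, rfl⟩
  obtain ⟨q, hqd⟩ : ∃ q, q = QuadraticMap.polar Q (J *ᵥ b₀) w := ⟨_, rfl⟩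
  have e3 : QuadraticMap.polar Q (J *ᵥ (J *ᵥ b₀)) w = t * q - N * p := by
    rw [c.JJ, bil_sub_left hbl, hbl.smul_left, hbl.smul_left, ← hpd, ← hqd]
  rw [e3, ← hqd] at hx₂
  rw [← hpd, ← hqd] at hx₁
  have hD : q ^ 2 + t * q * (-p) + N * (-p) ^ 2 ≠ 0 := by
    intro h
    apply hp
    rw [← hpd]
    exact neg_eq_zero.mp (c.norm _ _ h).2
  constructor
  · have h6 := Submodule.smul_mem _ (-(q ^ 2 + t * q * (-p) + N * (-p) ^ 2)⁻¹)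
      (Submodule.sub_mem _ (Submodule.smul_mem _ q hx₁) (Submodule.smul_mem _ p hx₂))
    convert h6 using 1
    have e : q • (p • J *ᵥ b₁ - q • b₁) - p • (q • J *ᵥ b₁ - (t * q - N * p) • b₁)
        = (-(q ^ 2 + t * q * (-p) + N * (-p) ^ 2)) • b₁ := by module
    rw [e, smul_smul, neg_mul_neg, inv_mul_cancel₀ hD, one_smul]
  · have h6 := Submodule.smul_mem _ (-(q ^ 2 + t * q * (-p) + N * (-p) ^ 2)⁻¹)
      (Submodule.sub_mem _ (Submodule.smul_mem _ (t * q - N * p) hx₁) (Submodule.smul_mem _ q hx₂))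
    convert h6 using 1
    have e : (t * q - N * p) • (p • J *ᵥ b₁ - q • b₁) - q • (q • J *ᵥ b₁ - (t * q - N * p) • b₁)
        = (-(q ^ 2 + t * q * (-p) + N * (-p) ^ 2)) • J *ᵥ b₁ := by module
    rw [e, smul_smul, neg_mul_neg, inv_mul_cancel₀ hD, one_smul]

omit [Fintype F] in
lemma case1n (c : JCtx Q J t N) {u w b₁ z : ι → F}
    (hwK : ∀ α β : F, w ≠ α • u + β • J *ᵥ u)
    (z1 : QuadraticMap.polar Q u z = 0) (z2 : QuadraticMap.polar Q (J *ᵥ u) z = 0)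
    (z3 : QuadraticMap.polar Q w z = 0) (z4 : QuadraticMap.polar Q (J *ᵥ w) z = 0)
    (hbz : QuadraticMap.polar Q b₁ z ≠ 0) :
    ∀ c' : Fin 4 → F, w ≠ ∑ i, c' i • (![u, J *ᵥ u, b₁, J *ᵥ b₁] : Fin 4 → (ι → F)) i := by
  intro c' h
  have hbl := c.nd.polar_bilinear
  have h' : w = c' 0 • u + c' 1 • J *ᵥ u + c' 2 • b₁ + c' 3 • J *ᵥ b₁ := by
    rw [Fin.sum_univ_four] at h
    exact h
  have e : c' 2 • b₁ + c' 3 • J *ᵥ b₁ = w - c' 0 • u - c' 1 • J *ᵥ u := by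
    rw [h']
    module
  obtain ⟨g1, g2⟩ := c.perpJ z1 z2
  obtain ⟨g3, g4⟩ := c.perpJ z3 z4
  have k1 : QuadraticMap.polar Q (c' 2 • b₁ + c' 3 • J *ᵥ b₁) z = 0 := by
    rw [e, bil_sub_left hbl, bil_sub_left hbl, hbl.smul_left, hbl.smul_left, z3, z1, z2]; ring
  have k2 : QuadraticMap.polar Q (c' 2 • b₁ + c' 3 • J *ᵥ b₁) (J *ᵥ z) = 0 := by
    rw [e, bil_sub_left hbl, bil_sub_left hbl, hbl.smul_left, hbl.smul_left, g3, g1, g2]; ring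
  obtain ⟨k3, k4⟩ := c.ext2 (Or.inl hbz) k1 k2
  apply hwK (c' 0) (c' 1)
  rw [h', k3, k4]
  module

lemma case1P (c : JCtx Q J t N) (hcard : 13 ≤ Fintype.card ι)
    (M : Subgroup (Matrix.GeneralLinearGroup ι F))
    (hT : ∀ a, Q a = 0 → ∀ β, T c a β ∈ M)
    (hiso : ∀ m ∈ M, ∀ v, Q ((m : Matrix ι ι F) *ᵥ v) = Q v)
    {u w : ι → F} (hw : w ∈ WS c.nd M u) (hQw : Q w = 0)
    (h0 : QuadraticMap.polar Q (J *ᵥ u) w = 0)
    (hwK : ∀ α β : F, w ≠ α • u + β • J *ᵥ u) :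
    ∀ x, QuadraticMap.polar Q u x = 0 → QuadraticMap.polar Q (J *ᵥ u) x = 0 →
      QuadraticMap.polar Q w x = 0 → QuadraticMap.polar Q (J *ᵥ w) x = 0 → x ∈ WS c.nd M u := by
  have hbl := c.nd.polar_bilinear
  obtain ⟨y₁, y₂, hy₁, hy₂, hQ₁, hQ₂, h12⟩ :=
    exists_hyp_fam3 c.nd (![u, J *ᵥ u, w, J *ᵥ w] : Fin 4 → (ι → F)) (by omega)
  obtain ⟨a1, a2, a3, a4⟩ := (fam4 (fun v => QuadraticMap.polar Q v y₁ = 0) _ _ _ _).mp hy₁
  obtain ⟨b1, b2, b3, b4⟩ := (fam4 (fun v => QuadraticMap.polar Q v y₂ = 0) _ _ _ _).mp hy₂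
  have good : ∀ s z, Q s = 0 → QuadraticMap.polar Q u s = 0 →
      QuadraticMap.polar Q (J *ᵥ u) s = 0 → QuadraticMap.polar Q w s = 0 →
      QuadraticMap.polar Q (J *ᵥ w) s = 0 → QuadraticMap.polar Q u z = 0 →
      QuadraticMap.polar Q (J *ᵥ u) z = 0 → QuadraticMap.polar Q w z = 0 →
      QuadraticMap.polar Q (J *ᵥ w) z = 0 → QuadraticMap.polar Q s z ≠ 0 → s ∈ WS c.nd M u := by
    intro s z hs s1 s2 s3 s4 z1 z2 z3 z4 hsz
    exact (case1b c M hT hiso hw hQw h0 hs s1 s2 s3 s4 (case1n c hwK z1 z2 z3 z4 hsz)).1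
  have hne : QuadraticMap.polar Q y₁ y₂ ≠ 0 := by rw [h12]; exact one_ne_zero
  have hy₁W : y₁ ∈ WS c.nd M u := good y₁ y₂ hQ₁ a1 a2 a3 a4 b1 b2 b3 b4 hne
  have key : ∀ s, Q s = 0 → QuadraticMap.polar Q u s = 0 →
      QuadraticMap.polar Q (J *ᵥ u) s = 0 → QuadraticMap.polar Q w s = 0 →
      QuadraticMap.polar Q (J *ᵥ w) s = 0 → s ∈ WS c.nd M u := by
    intro s hs s1 s2 s3 s4
    by_cases hsy₂ : QuadraticMap.polar Q s y₂ = 0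
    · by_cases hsy₁ : QuadraticMap.polar Q s y₁ = 0
      · have hs' : Q (s + y₁) = 0 := by rw [Q_add Q, hs, hQ₁, hsy₁]; ring
        have h5 := good (s + y₁) y₂ hs' (by rw [hbl.add_right, s1, a1, add_zero])
          (by rw [hbl.add_right, s2, a2, add_zero]) (by rw [hbl.add_right, s3, a3, add_zero])
          (by rw [hbl.add_right, s4, a4, add_zero]) b1 b2 b3 b4
          (by rw [hbl.add_left, hsy₂, h12, zero_add]; exact one_ne_zero)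
        have := Submodule.sub_mem _ h5 hy₁W
        simpa using this
      · exact good s y₁ hs s1 s2 s3 s4 a1 a2 a3 a4 hsy₁
    · exact good s y₂ hs s1 s2 s3 s4 b1 b2 b3 b4 hsy₂
  intro x x1 x2 x3 x4
  obtain ⟨s₁, s₂, s₃, hs₁, hs₂, hs₃, hv₁, hv₂, hv₃, hsum⟩ :=
    sum_sing3_fam3 c.nd (![u, J *ᵥ u, w, J *ᵥ w] : Fin 4 → (ι → F)) (by omega) x
      ((fam4 (fun v => QuadraticMap.polar Q v x = 0) _ _ _ _).mpr ⟨x1, x2, x3, x4⟩)
  obtain ⟨c1, c2, c3, c4⟩ := (fam4 (fun v => QuadraticMap.polar Q v s₁ = 0) _ _ _ _).mp hv₁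
  obtain ⟨d1, d2, d3, d4⟩ := (fam4 (fun v => QuadraticMap.polar Q v s₂ = 0) _ _ _ _).mp hv₂
  obtain ⟨e1, e2, e3, e4⟩ := (fam4 (fun v => QuadraticMap.polar Q v s₃ = 0) _ _ _ _).mp hv₃
  rw [hsum]
  exact add_mem (add_mem (key s₁ hs₁ c1 c2 c3 c4) (key s₂ hs₂ d1 d2 d3 d4))
    (key s₃ hs₃ e1 e2 e3 e4)

lemma case1 (c : JCtx Q J t N) (hcard : 13 ≤ Fintype.card ι)
    (M : Subgroup (Matrix.GeneralLinearGroup ι F))
    (hT : ∀ a, Q a = 0 → ∀ β, T c a β ∈ M)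
    (hiso : ∀ m ∈ M, ∀ v, Q ((m : Matrix ι ι F) *ᵥ v) = Q v)
    {u w : ι → F} (hw : w ∈ WS c.nd M u) (hQw : Q w = 0)
    (h0 : QuadraticMap.polar Q (J *ᵥ u) w = 0)
    (hwK : ∀ α β : F, w ≠ α • u + β • J *ᵥ u) :
    ∀ x, QuadraticMap.polar Q u x = 0 → QuadraticMap.polar Q (J *ᵥ u) x = 0 →
      x ∈ WS c.nd M u := by
  have hbl := c.nd.polar_bilinear
  have hP₁ := case1P c hcard M hT hiso hw hQw h0 hwK
  obtain ⟨y₁, y₂, hy₁, hy₂, hQ₁, hQ₂, h12⟩ :=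
    exists_hyp_fam3 c.nd (![u, J *ᵥ u, w, J *ᵥ w] : Fin 4 → (ι → F)) (by omega)
  obtain ⟨a1, a2, a3, a4⟩ := (fam4 (fun v => QuadraticMap.polar Q v y₁ = 0) _ _ _ _).mp hy₁
  obtain ⟨b1, b2, b3, b4⟩ := (fam4 (fun v => QuadraticMap.polar Q v y₂ = 0) _ _ _ _).mp hy₂
  have hy₁W : y₁ ∈ WS c.nd M u := hP₁ y₁ a1 a2 a3 a4
  have hy₁K : ∀ α β : F, y₁ ≠ α • u + β • J *ᵥ u := by
    intro α β h
    have h5 : QuadraticMap.polar Q (α • u + β • J *ᵥ u) y₂ = 0 := by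
      rw [hbl.add_left, hbl.smul_left, hbl.smul_left, b1, b2]; ring
    rw [← h, h12] at h5
    exact one_ne_zero h5
  have hP₂ := case1P c hcard M hT hiso hy₁W hQ₁ a2 hy₁K
  have hsp := case1n c (b₁ := y₁) hwK b1 b2 b3 b4 (by rw [h12]; exact one_ne_zero)
  obtain ⟨y, hy, hwy⟩ := exists_perp_ne_fam c.nd _ w hsp
  obtain ⟨d1, d2, d3, d4⟩ := (fam4 (fun v => QuadraticMap.polar Q v y = 0) _ _ _ _).mp hy
  obtain ⟨d1', d2'⟩ := c.perpJ d1 d2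
  obtain ⟨d3', d4'⟩ := c.perpJ d3 d4
  have hyW : y ∈ WS c.nd M u := hP₂ y d1 d2 d3 d4
  have hJyW : J *ᵥ y ∈ WS c.nd M u := hP₂ _ d1' d2' d3' d4'
  intro x x1 x2
  obtain ⟨p, hp⟩ : ∃ p, p = QuadraticMap.polar Q w y := ⟨_, rfl⟩
  obtain ⟨q, hq⟩ : ∃ q, q = QuadraticMap.polar Q w (J *ᵥ y) := ⟨_, rfl⟩
  have hJwy : QuadraticMap.polar Q (J *ᵥ w) y = t * p - q := by rw [c.adj, ← hp, ← hq]
  have hJwJy : QuadraticMap.polar Q (J *ᵥ w) (J *ᵥ y) = N * p := by rw [c.BJJ, ← hp]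
  obtain ⟨D, hDd⟩ : ∃ D, D = q ^ 2 + t * q * (-p) + N * (-p) ^ 2 := ⟨_, rfl⟩
  have hD : D ≠ 0 := by
    intro h
    apply hwy
    rw [← hp]
    rw [hDd] at h
    exact neg_eq_zero.mp (c.norm _ _ h).2
  obtain ⟨e₁, he₁⟩ : ∃ e₁, e₁ = QuadraticMap.polar Q w x := ⟨_, rfl⟩
  obtain ⟨e₂, he₂⟩ : ∃ e₂, e₂ = QuadraticMap.polar Q (J *ᵥ w) x := ⟨_, rfl⟩
  obtain ⟨α, hα⟩ : ∃ α, α = (e₁ * N * p - q * e₂) / D := ⟨_, rfl⟩
  obtain ⟨β, hβ⟩ : ∃ β, β = (p * e₂ - (t * p - q) * e₁) / D := ⟨_, rfl⟩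
  have hx₁ : x - α • y - β • J *ᵥ y ∈ WS c.nd M u := by
    apply hP₁
    · rw [bil_sub_right hbl, bil_sub_right hbl, hbl.smul_right, hbl.smul_right, x1, d1, d1']
      ring
    · rw [bil_sub_right hbl, bil_sub_right hbl, hbl.smul_right, hbl.smul_right, x2, d2, d2']
      ring
    · rw [bil_sub_right hbl, bil_sub_right hbl, hbl.smul_right, hbl.smul_right, ← he₁, ← hp,
        ← hq, hα, hβ]
      field_simp
      rw [hDd]
      ring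
    · rw [bil_sub_right hbl, bil_sub_right hbl, hbl.smul_right, hbl.smul_right, ← he₂, hJwy,
        hJwJy, hα, hβ]
      field_simp
      rw [hDd]
      ring
  have e : x = (x - α • y - β • J *ᵥ y) + α • y + β • J *ᵥ y := by module
  rw [e]
  exact add_mem (add_mem hx₁ (Submodule.smul_mem _ _ hyW)) (Submodule.smul_mem _ _ hJyW)

end Main

end Cfsg.Agent.Lib.Helper94.QExt3
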