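import Mathlib
import Cfsg.Prelude.Def_GeometricClasses
import Cfsg.Agent.Lib.Helper94.QExt3

/-!
# Overgroups of the extension-field subgroup of `Ω` : main theorem (helper94)

`main` : under `JCtx`, a group `M` of isometries containing all `T a β` and an element `g` with
`g J g⁻¹ ∉ F + F J` contains `Ω`.  `proper` : `Ω` contains such an element.
-/

set_option autoImplicit false
set_option linter.unusedSimpArgs false

namespace Cfsg.Agent.Lib.Helper94.QExt4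

open scoped Matrix
open Module
open Cfsg.Agent.Lib.Helper94.Basic Cfsg.Agent.Lib.Helper94.GLAux Cfsg.Agent.Lib.Helper94.Tv
  Cfsg.Agent.Lib.Helper94.QuadAbs Cfsg.Agent.Lib.Helper94.OrthSiegel
  Cfsg.Agent.Lib.Helper94.SfOrth1 Cfsg.Agent.Lib.Helper94.SfOrth2 Cfsg.Agent.Lib.Helper94.QExt1
  Cfsg.Agent.Lib.Helper94.QExt2 Cfsg.Agent.Lib.Helper94.QExt3
open Cfsg.Agent.Lib.Helper94.SympAbs (bil_zero_left bil_zero_right bil_neg_left bil_neg_right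
  bil_sub_left bil_sub_right)

section Main

variable {ι : Type} [Fintype ι] [DecidableEq ι] {F : Type*} [Field F] [Fintype F]
variable {Q : (ι → F) → F} {J : Matrix ι ι F} {t N : F}

lemma half_full (c : JCtx Q J t N) (hcard : 13 ≤ Fintype.card ι)
    (M : Subgroup (Matrix.GeneralLinearGroup ι F))
    (hT : ∀ a, Q a = 0 → ∀ β, T c a β ∈ M)
    (hiso : ∀ m ∈ M, ∀ v, Q ((m : Matrix ι ι F) *ᵥ v) = Q v)
    {u : ι → F} (hu : Q u = 0) (hu0 : u ≠ 0)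
    (hH : ∀ x, QuadraticMap.polar Q u x = 0 → QuadraticMap.polar Q (J *ᵥ u) x = 0 →
      x ∈ WS c.nd M u) :
    ∀ x, QuadraticMap.polar Q u x = 0 → x ∈ WS c.nd M u := by
  have hbl := c.nd.polar_bilinear
  obtain ⟨b, hb, hub, hJub, -⟩ :=
    exists_connect c.nd hcard u (J *ᵥ u) (J *ᵥ u) (c.J_ne hu0) (c.J_ne hu0)
  obtain ⟨ρ, hρ⟩ : ∃ ρ, ρ = QuadraticMap.polar Q (J *ᵥ u) b := ⟨_, rfl⟩
  have hρ0 : ρ ≠ 0 := by rw [hρ]; exact hJub
  have hbu : QuadraticMap.polar Q b u = 0 := by rw [B_comm]; exact hub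
  have hJbu : QuadraticMap.polar Q (J *ᵥ b) u = -ρ := by
    rw [c.adj, hbu, B_comm Q b (J *ᵥ u), ← hρ]; ring
  obtain ⟨u', hu'⟩ : ∃ u', u' = u + ρ • b := ⟨_, rfl⟩
  have hTu : ((T c b 1 : Matrix.GeneralLinearGroup ι F) : Matrix ι ι F) *ᵥ u = u' := by
    rw [T_mulVec c hb, hbu, hJbu, hu']
    module
  have hQu' : Q u' = 0 := by rw [← hTu, T_isom c]; exact hu
  obtain ⟨b₁, d₁, hb₁, hd₁, hQb₁, hQd₁, hbd⟩ :=
    exists_hyp_fam3 c.nd (![u, J *ᵥ u, b, J *ᵥ b] : Fin 4 → (ι → F)) (by omega)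
  obtain ⟨a1, a2, a3, a4⟩ := (fam4 (fun v => QuadraticMap.polar Q v b₁ = 0) _ _ _ _).mp hb₁
  obtain ⟨e1, e2, e3, e4⟩ := (fam4 (fun v => QuadraticMap.polar Q v d₁ = 0) _ _ _ _).mp hd₁
  have hb₁W : b₁ ∈ WS c.nd M u := hH b₁ a1 a2
  have hd₁W : d₁ ∈ WS c.nd M u := hH d₁ e1 e2
  have hd₁W' : d₁ ∈ WS c.nd M u' := by
    have h := W_map c.nd M hiso (hT b hb 1) hd₁W
    rw [hTu, T_mulVec c hb, e3, e4] at h
    simpa using h
  have huu' : QuadraticMap.polar Q u u' = 0 := by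
    rw [hu', hbl.add_right, hbl.smul_right, polar_self_sing c.nd u hu, hub]; ring
  have hb₁u' : QuadraticMap.polar Q b₁ u' = 0 := by
    rw [hu', hbl.add_right, hbl.smul_right, B_comm Q b₁ u, a1, B_comm Q b₁ b, a3]; ring
  have hu'd₁ : QuadraticMap.polar Q u' d₁ = 0 := by
    rw [hu', hbl.add_left, hbl.smul_left, e1, e3]; ring
  have hu'u : QuadraticMap.polar Q u' u = 0 := by rw [B_comm]; exact huu'
  have hu'W : u' ∈ WS c.nd M u := by
    refine ⟨huu', fun β => ?_⟩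
    have hX := hb₁W.2 β
    have hY := hd₁W'.2 1
    rw [one_smul] at hY
    have hXu' : ((sg c.nd u (β • b₁) : Matrix.GeneralLinearGroup ι F) : Matrix ι ι F) *ᵥ u'
        = u' := by
      rw [sg_sing_mulVec c.nd u b₁ hu hQb₁ a1, huu', hb₁u']
      module
    have hXd : ((sg c.nd u (β • b₁) : Matrix.GeneralLinearGroup ι F) : Matrix ι ι F) *ᵥ d₁
        = d₁ - β • u := by
      rw [sg_sing_mulVec c.nd u b₁ hu hQb₁ a1, e1, hbd]
      module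
    have h1 := sg_conj c.nd (sg c.nd u (β • b₁)) (sg_isom c.nd _ _) u' d₁
    rw [hXu', hXd] at h1
    have h2 : sg c.nd u' (d₁ - β • u) * sg c.nd u' (-d₁) = sg c.nd u' ((-β) • u) := by
      rw [sg_mul c.nd u' _ _ hQu'
        (by rw [bil_sub_right hbl, hbl.smul_right, hu'd₁, hu'u]; ring)
        (by rw [bil_neg_right hbl, hu'd₁, neg_zero])]
      congr 1
      module
    have h3 : sg c.nd u' ((-β) • u) ∈ M := by
      rw [← h2, ← h1, ← sg_inv]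
      exact M.mul_mem (M.mul_mem (M.mul_mem hX hY) (M.inv_mem hX)) (M.inv_mem hY)
    have h4 := sg_swap c.nd u u' hu hQu' huu' (-β)
    rw [h4, neg_neg] at h3
    exact h3
  have hbW : b ∈ WS c.nd M u := by
    have h := Submodule.smul_mem _ ρ⁻¹ (Submodule.sub_mem _ hu'W (W_self c.nd M hu))
    convert h using 1
    rw [hu', add_sub_cancel_left, smul_smul, inv_mul_cancel₀ hρ0, one_smul]
  intro x hx
  have h5 : x - (QuadraticMap.polar Q (J *ᵥ u) x / ρ) • b ∈ WS c.nd M u := by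
    apply hH
    · rw [bil_sub_right hbl, hbl.smul_right, hx, hub]; ring
    · rw [bil_sub_right hbl, hbl.smul_right, ← hρ]
      field_simp
      ring
  have := Submodule.add_mem _ h5 (Submodule.smul_mem _ (QuadraticMap.polar Q (J *ᵥ u) x / ρ) hbW)
  simpa using this

lemma second (c : JCtx Q J t N) (hcard : 13 ≤ Fintype.card ι)
    (M : Subgroup (Matrix.GeneralLinearGroup ι F))
    (hT : ∀ a, Q a = 0 → ∀ β, T c a β ∈ M)
    (hiso : ∀ m ∈ M, ∀ v, Q ((m : Matrix ι ι F) *ᵥ v) = Q v)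
    {u : ι → F} (hu : u ∈ sgSet c.nd M) (hu0 : u ≠ 0) :
    ∃ f ∈ sgSet c.nd M, QuadraticMap.polar Q u f ≠ 0 := by
  have hbl := c.nd.polar_bilinear
  have hQu := hu.1
  obtain ⟨b, hb, hub, hJub, -⟩ :=
    exists_connect c.nd hcard u (J *ᵥ u) (J *ᵥ u) (c.J_ne hu0) (c.J_ne hu0)
  obtain ⟨ρ, hρ⟩ : ∃ ρ, ρ = QuadraticMap.polar Q (J *ᵥ u) b := ⟨_, rfl⟩
  have hρ0 : ρ ≠ 0 := by rw [hρ]; exact hJub
  have hbu : QuadraticMap.polar Q b u = 0 := by rw [B_comm]; exact hub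
  have hJbu : QuadraticMap.polar Q (J *ᵥ b) u = -ρ := by
    rw [c.adj, hbu, B_comm Q b (J *ᵥ u), ← hρ]; ring
  obtain ⟨u', hu'⟩ : ∃ u', u' = u + ρ • b := ⟨_, rfl⟩
  have hTu : ((T c b 1 : Matrix.GeneralLinearGroup ι F) : Matrix ι ι F) *ᵥ u = u' := by
    rw [T_mulVec c hb, hbu, hJbu, hu']
    module
  have hQu' : Q u' = 0 := by rw [← hTu, T_isom c]; exact hQu
  have hu'S : u' ∈ sgSet c.nd M := by
    rw [← hTu]
    exact sgSet_map c.nd M hiso (hT b hb 1) hu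
  have hJuu' : QuadraticMap.polar Q (J *ᵥ u) u' = ρ ^ 2 := by
    rw [hu', hbl.add_right, hbl.smul_right, c.BJ0' hQu, ← hρ]; ring
  have hu'0 : u' ≠ 0 := by
    intro h
    rw [h, bil_zero_right hbl] at hJuu'
    exact (pow_ne_zero 2 hρ0) hJuu'.symm
  have huu' : QuadraticMap.polar Q u u' = 0 := by
    rw [hu', hbl.add_right, hbl.smul_right, polar_self_sing c.nd u hQu, hub]; ring
  have hs : u ∉ Submodule.span F {u'} := by
    intro h
    obtain ⟨a, ha⟩ := Submodule.mem_span_singleton.mp h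
    have h1 : QuadraticMap.polar Q (J *ᵥ u) (a • u') = a * ρ ^ 2 := by
      rw [hbl.smul_right, hJuu']
    rw [ha, c.BJ0' hQu] at h1
    have ha0 : a = 0 := (mul_eq_zero.mp h1.symm).resolve_right (pow_ne_zero 2 hρ0)
    rw [ha0, zero_smul] at ha
    exact hu0 ha.symm
  obtain ⟨b₂, hb₂, hu'b₂, hub₂, hJu'b₂⟩ :=
    exists_connect c.nd hcard u' u (J *ᵥ u') hs (c.J_ne hu'0)
  refine ⟨((T c b₂ 1 : Matrix.GeneralLinearGroup ι F) : Matrix ι ι F) *ᵥ u',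
    sgSet_map c.nd M hiso (hT b₂ hb₂ 1) hu'S, ?_⟩
  have hb₂u' : QuadraticMap.polar Q b₂ u' = 0 := by rw [B_comm]; exact hu'b₂
  have hJb₂u' : QuadraticMap.polar Q (J *ᵥ b₂) u' = - QuadraticMap.polar Q (J *ᵥ u') b₂ := by
    rw [c.adj, hb₂u', B_comm Q b₂ (J *ᵥ u')]; ring
  rw [T_mulVec c hb₂, hb₂u', hJb₂u', bil_sub_right hbl, hbl.add_right, hbl.smul_right,
    hbl.smul_right, huu']
  have e : (0 : F) + 1 * 0 * QuadraticMap.polar Q u (J *ᵥ b₂)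
      - 1 * -QuadraticMap.polar Q (J *ᵥ u') b₂ * QuadraticMap.polar Q u b₂
      = QuadraticMap.polar Q (J *ᵥ u') b₂ * QuadraticMap.polar Q u b₂ := by ring
  rw [e]
  exact mul_ne_zero hJu'b₂ hub₂

omit [Fintype F] in
lemma link (c : JCtx Q J t N) {A : Matrix ι ι F} {a y₁ y₂ : ι → F} (ha0 : a ≠ 0)
    (h1 : QuadraticMap.polar Q a y₂ = 0) (h2 : QuadraticMap.polar Q (J *ᵥ a) y₂ = 0)
    (h12 : QuadraticMap.polar Q y₁ y₂ ≠ 0) {α β α' β' α'' β'' : F}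
    (hA : A *ᵥ a = α • a + β • J *ᵥ a) (hA' : A *ᵥ y₁ = α' • y₁ + β' • J *ᵥ y₁)
    (hA'' : A *ᵥ (a + y₁) = α'' • (a + y₁) + β'' • J *ᵥ (a + y₁)) : α = α' ∧ β = β' := by
  have hbl := c.nd.polar_bilinear
  rw [Matrix.mulVec_add, Matrix.mulVec_add, hA, hA'] at hA''
  have e : (α' - α'') • y₁ + (β' - β'') • J *ᵥ y₁ = (α'' - α) • a + (β'' - β) • J *ᵥ a := by
    linear_combination (norm := module) hA''
  obtain ⟨g1, g2⟩ := c.perpJ h1 h2
  have k1 : QuadraticMap.polar Q ((α' - α'') • y₁ + (β' - β'') • J *ᵥ y₁) y₂ = 0 := by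
    rw [e, hbl.add_left, hbl.smul_left, hbl.smul_left, h1, h2]; ring
  have k2 : QuadraticMap.polar Q ((α' - α'') • y₁ + (β' - β'') • J *ᵥ y₁) (J *ᵥ y₂) = 0 := by
    rw [e, hbl.add_left, hbl.smul_left, hbl.smul_left, g1, g2]; ring
  obtain ⟨k3, k4⟩ := c.ext2 (Or.inl h12) k1 k2
  rw [k3, k4, zero_smul, zero_smul, add_zero] at e
  obtain ⟨k5, k6⟩ := c.tf e.symm ha0
  constructor
  · linear_combination -k5 - k3
  · linear_combination -k6 - k4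

lemma step3 (c : JCtx Q J t N) (hcard : 13 ≤ Fintype.card ι) (A : Matrix ι ι F)
    (h : ∀ u, Q u = 0 → ∃ α β : F, A *ᵥ u = α • u + β • J *ᵥ u) :
    ∃ α β : F, A = α • (1 : Matrix ι ι F) + β • J := by
  have hbl := c.nd.polar_bilinear
  obtain ⟨u₀, hu₀0, hu₀, -⟩ :=
    exists_sing_perp_fam c.nd (Fin.elim0 : Fin 0 → (ι → F)) (by omega)
  obtain ⟨α₀, β₀, h₀⟩ := h u₀ hu₀
  refine ⟨α₀, β₀, ?_⟩
  have key : ∀ u', Q u' = 0 → A *ᵥ u' = α₀ • u' + β₀ • J *ᵥ u' := by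
    intro u' hu'
    by_cases hu'0 : u' = 0
    · rw [hu'0]
      simp
    obtain ⟨y₁, y₂, hy₁, hy₂, hQ₁, hQ₂, h12⟩ :=
      exists_hyp_fam3 c.nd (![u₀, J *ᵥ u₀, u', J *ᵥ u'] : Fin 4 → (ι → F)) (by omega)
    obtain ⟨a1, a2, a3, a4⟩ := (fam4 (fun v => QuadraticMap.polar Q v y₁ = 0) _ _ _ _).mp hy₁
    obtain ⟨b1, b2, b3, b4⟩ := (fam4 (fun v => QuadraticMap.polar Q v y₂ = 0) _ _ _ _).mp hy₂
    obtain ⟨α₁, β₁, h₁⟩ := h y₁ hQ₁
    obtain ⟨α', β', h'⟩ := h u' hu'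
    obtain ⟨α₂, β₂, h₂⟩ := h (u₀ + y₁) (by rw [Q_add Q, hu₀, hQ₁, a1]; ring)
    obtain ⟨α₃, β₃, h₃⟩ := h (u' + y₁) (by rw [Q_add Q, hu', hQ₁, a3]; ring)
    have hne : QuadraticMap.polar Q y₁ y₂ ≠ 0 := by rw [h12]; exact one_ne_zero
    obtain ⟨r1, r2⟩ := link c hu₀0 b1 b2 hne h₀ h₁ h₂
    obtain ⟨r3, r4⟩ := link c hu'0 b3 b4 hne h' h₁ h₃
    rw [h', r3, r4, ← r1, ← r2]
  apply Matrix.toLin'.injective
  apply LinearMap.ext
  intro x
  obtain ⟨s₁, s₂, s₃, hs₁, hs₂, hs₃, rfl⟩ := sum_sing3 c.nd (by omega) x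
  simp only [Matrix.toLin'_apply, Matrix.mulVec_add, key _ hs₁, key _ hs₂, key _ hs₃,
    Matrix.add_mulVec, Matrix.smul_mulVec, Matrix.one_mulVec]

/-- The main theorem: an overgroup `M ≤ O(Q)` of the `T a β` that does not normalise `F[J]`
contains `Ω`. -/
theorem main (c : JCtx Q J t N) (hcard : 13 ≤ Fintype.card ι)
    (M : Subgroup (Matrix.GeneralLinearGroup ι F))
    (hT : ∀ a, Q a = 0 → ∀ β, T c a β ∈ M)
    (hiso : ∀ m ∈ M, ∀ v, Q ((m : Matrix ι ι F) *ᵥ v) = Q v)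
    {g : Matrix.GeneralLinearGroup ι F} (hg : g ∈ M)
    (hgJ : ¬ ∃ α β : F, (g : Matrix ι ι F) * J
      * ((g⁻¹ : Matrix.GeneralLinearGroup ι F) : Matrix ι ι F) = α • (1 : Matrix ι ι F) + β • J) :
    Cfsg.Geo.omegaGL Q ≤ M := by
  have hbl := c.nd.polar_bilinear
  have h3 : ∃ u, Q u = 0 ∧ ∀ α β : F, ((g : Matrix ι ι F) * J
      * ((g⁻¹ : Matrix.GeneralLinearGroup ι F) : Matrix ι ι F)) *ᵥ u ≠ α • u + β • J *ᵥ u := by
    by_contra hcon
    push Not at hcon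
    exact hgJ (step3 c hcard _ hcon)
  obtain ⟨u, hu, huK⟩ := h3
  have hu0 : u ≠ 0 := by
    rintro rfl
    exact huK 0 0 (by simp)
  obtain ⟨u₁, hu₁⟩ : ∃ u₁, u₁ = ((g⁻¹ : Matrix.GeneralLinearGroup ι F) : Matrix ι ι F) *ᵥ u :=
    ⟨_, rfl⟩
  have hgu₁ : (g : Matrix ι ι F) *ᵥ u₁ = u := by rw [hu₁, gl_mulVec_inv]
  have hQu₁ : Q u₁ = 0 := by rw [← hiso g hg, hgu₁]; exact hu
  obtain ⟨w, hw⟩ : ∃ w, w = (g : Matrix ι ι F) *ᵥ (J *ᵥ u₁) := ⟨_, rfl⟩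
  have hwe : ((g : Matrix ι ι F) * J
      * ((g⁻¹ : Matrix.GeneralLinearGroup ι F) : Matrix ι ι F)) *ᵥ u = w := by
    rw [hw, hu₁, Matrix.mulVec_mulVec, Matrix.mulVec_mulVec, mul_assoc]
  have hwW : w ∈ WS c.nd M u := by
    have := W_map c.nd M hiso hg (W_J c M hT hQu₁)
    rwa [hgu₁, ← hw] at this
  have hQw : Q w = 0 := by rw [hw, hiso g hg, c.QJ0 hQu₁]
  have hwK : ∀ α β : F, w ≠ α • u + β • J *ᵥ u := by rw [← hwe]; exact huK
  have hfull : ∀ x, QuadraticMap.polar Q u x = 0 → x ∈ WS c.nd M u := by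
    by_cases h0 : QuadraticMap.polar Q (J *ᵥ u) w = 0
    · exact half_full c hcard M hT hiso hu hu0 (case1 c hcard M hT hiso hwW hQw h0 hwK)
    · exact case2 c hcard M hT hiso hu hwW hQw h0
  have huS := W_top c.nd M hu hfull
  obtain ⟨f, hf, huf⟩ := second c hcard M hT hiso huS hu0
  exact omega_le_of_pair c.nd hcard M hiso huS hf huf

/-- `Ω` contains an element not normalising `F[J]`. -/
theorem proper (c : JCtx Q J t N) (hcard : 13 ≤ Fintype.card ι) :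
    ∃ g ∈ Cfsg.Geo.omegaGL Q, ¬ ∃ α β : F, (g : Matrix ι ι F) * J
      * ((g⁻¹ : Matrix.GeneralLinearGroup ι F) : Matrix ι ι F)
        = α • (1 : Matrix ι ι F) + β • J := by
  have hbl := c.nd.polar_bilinear
  obtain ⟨a, ha0, ha, -⟩ :=
    exists_sing_perp_fam c.nd (Fin.elim0 : Fin 0 → (ι → F)) (by omega)
  obtain ⟨b, hb, hab, hJab, -⟩ :=
    exists_connect c.nd hcard a (J *ᵥ a) (J *ᵥ a) (c.J_ne ha0) (c.J_ne ha0)
  refine ⟨sg c.nd a ((1 : F) • b), sg_mem_omega c.nd (by omega) _ _, ?_⟩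
  rintro ⟨α, β, h⟩
  have hS : ∀ x, ((sg c.nd a ((1 : F) • b) : Matrix.GeneralLinearGroup ι F) : Matrix ι ι F)
      *ᵥ (J *ᵥ x)
      = α • ((sg c.nd a ((1 : F) • b) : Matrix.GeneralLinearGroup ι F) : Matrix ι ι F) *ᵥ x
        + β • J *ᵥ (((sg c.nd a ((1 : F) • b) : Matrix.GeneralLinearGroup ι F) : Matrix ι ι F)
          *ᵥ x) := by
    intro x
    have h1 : ((sg c.nd a ((1 : F) • b) : Matrix.GeneralLinearGroup ι F) : Matrix ι ι F) * J
        = (α • (1 : Matrix ι ι F) + β • J)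
          * ((sg c.nd a ((1 : F) • b) : Matrix.GeneralLinearGroup ι F) : Matrix ι ι F) := by
      rw [← h, mul_assoc, ← Units.val_mul, inv_mul_cancel, Units.val_one, mul_one]
    have h2 := congrArg (fun m : Matrix ι ι F => m *ᵥ x) h1
    simp only [← Matrix.mulVec_mulVec, Matrix.add_mulVec, Matrix.smul_mulVec,
      Matrix.one_mulVec] at h2
    exact h2
  have hSx : ∀ x, ((sg c.nd a ((1 : F) • b) : Matrix.GeneralLinearGroup ι F) : Matrix ι ι F)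
      *ᵥ x = x + (1 * QuadraticMap.polar Q a x) • b - (1 * QuadraticMap.polar Q b x) • a :=
    sg_sing_mulVec c.nd a b ha hb hab 1
  obtain ⟨x, hx0, -, hx⟩ :=
    exists_sing_perp_fam c.nd (![a, J *ᵥ a, b, J *ᵥ b] : Fin 4 → (ι → F)) (by omega)
  obtain ⟨x1, x2, x3, x4⟩ := (fam4 (fun v => QuadraticMap.polar Q v x = 0) _ _ _ _).mp hx
  obtain ⟨x1', x2'⟩ := c.perpJ x1 x2
  obtain ⟨x3', x4'⟩ := c.perpJ x3 x4
  have e1 := hS x
  rw [hSx, hSx, x1', x3', x1, x3] at e1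
  simp only [mul_zero, zero_smul, add_zero, sub_zero] at e1
  have e2 : α • x + (β - 1) • J *ᵥ x = 0 := by
    linear_combination (norm := module) -e1
  obtain ⟨hα, hβ⟩ := c.tf e2 hx0
  have hβ1 : β = 1 := sub_eq_zero.mp hβ
  have e3 := hS a
  rw [hSx, hSx, hα, hβ1, c.BJ0 ha, polar_self_sing c.nd a ha, B_comm Q b a, hab] at e3
  simp only [mul_zero, zero_smul, add_zero, sub_zero, one_smul, zero_add] at e3
  have e4 : QuadraticMap.polar Q b (J *ᵥ a) • a = 0 := by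
    linear_combination (norm := module) -e3
  rcases smul_eq_zero.mp e4 with h5 | h5
  · rw [B_comm] at h5
    exact hJab h5
  · exact ha0 h5

end Main

end Cfsg.Agent.Lib.Helper94.QExt4
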