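import Mathlib
import Cfsg.Prelude.Def_GeometricClasses
import Cfsg.Agent.Lib.Helper94.QExt4

/-!
# Maximality of the normaliser of a quadratic extension field in `Ω` (helper94)

`maximalK` : for a non-degenerate quadratic form `Q` in dimension at least `13` over a finite
field and a field subalgebra `K` of degree `2` that is not self-adjoint and acts by similitudes
of `Q`, the normaliser of `K` in `Ω` is maximal in `Ω`.
-/

set_option autoImplicit false
set_option linter.unusedSimpArgs false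

namespace Cfsg.Agent.Lib.Helper94.QExt5

open scoped Matrix
open Module
open Cfsg.Agent.Lib.Helper94.Basic Cfsg.Agent.Lib.Helper94.GLAux Cfsg.Agent.Lib.Helper94.Tv
  Cfsg.Agent.Lib.Helper94.QuadAbs Cfsg.Agent.Lib.Helper94.OrthSiegel
  Cfsg.Agent.Lib.Helper94.SfOrth1 Cfsg.Agent.Lib.Helper94.SfOrth2 Cfsg.Agent.Lib.Helper94.QExt1
  Cfsg.Agent.Lib.Helper94.QExt2 Cfsg.Agent.Lib.Helper94.QExt3 Cfsg.Agent.Lib.Helper94.QExt4
open Cfsg.Agent.Lib.Helper94.SympAbs (bil_zero_left bil_zero_right bil_neg_left bil_neg_right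
  bil_sub_left bil_sub_right)

section Alg

variable {ι : Type} [Fintype ι] [DecidableEq ι] {F : Type*} [Field F] {Q : (ι → F) → F}

lemma mat_ext {A B : Matrix ι ι F} (h : ∀ x, A *ᵥ x = B *ᵥ x) : A = B := by
  apply Matrix.toLin'.injective
  apply LinearMap.ext
  intro x
  simp only [Matrix.toLin'_apply, h x]

lemma eq_zero_of_polar (hQ : Cfsg.Geo.IsNondegenerateQuadraticForm Q) {v : ι → F}
    (h : ∀ y, QuadraticMap.polar Q v y = 0) : v = 0 := by
  by_contra hv
  obtain ⟨y, hy⟩ := (hQ.nondegenerate v hv).2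
  exact hy (h y)

lemma exists_Q_ne (hQ : Cfsg.Geo.IsNondegenerateQuadraticForm Q) [Nonempty ι] :
    ∃ v, Q v ≠ 0 := by
  by_contra hcon
  push Not at hcon
  obtain ⟨i⟩ := (inferInstance : Nonempty ι)
  have hv : (Pi.single i 1 : ι → F) ≠ 0 := by
    intro h
    have := congrFun h i
    simp at this
  obtain ⟨y, hy⟩ := (hQ.nondegenerate _ hv).2
  apply hy
  unfold QuadraticMap.polar
  rw [hcon, hcon, hcon]
  ring

/-- The context `JCtx` from a non-self-adjoint field subalgebra of degree two acting by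
similitudes. -/
theorem ctx_of [Nonempty ι] (hQ : Cfsg.Geo.IsNondegenerateQuadraticForm Q)
    (K : Subalgebra F (Matrix ι ι F)) (hK : Cfsg.Geo.IsFieldSubalgebra 2 K)
    (hnsa : ¬ Cfsg.Geo.IsSelfAdjointFor (QuadraticMap.polar Q) K)
    (hsc : ∀ k ∈ K, ∃ c : F, ∀ v : (ι → F), Q (Matrix.mulVec k v) = c * Q v) :
    ∃ (J : Matrix ι ι F) (t N : F), JCtx Q J t N ∧ J ∈ K ∧
      ∀ k, k ∈ K ↔ ∃ α β : F, k = α • (1 : Matrix ι ι F) + β • J := by
  have hbl := hQ.polar_bilinear
  unfold Cfsg.Geo.IsSelfAdjointFor at hnsa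
  push Not at hnsa
  obtain ⟨J, hJ, u₀, v₀, hJuv⟩ := hnsa
  obtain ⟨N, hN⟩ := hsc J hJ
  obtain ⟨N₁, hN₁⟩ := hsc (1 + J) (K.add_mem K.one_mem hJ)
  have hN₁' : ∀ v, Q (v + J *ᵥ v) = N₁ * Q v := by
    intro v
    have := hN₁ v
    rwa [Matrix.add_mulVec, Matrix.one_mulVec] at this
  have hBJ : ∀ x, QuadraticMap.polar Q x (J *ᵥ x) = (N₁ - 1 - N) * Q x := by
    intro x
    unfold QuadraticMap.polar
    rw [hN₁', hN]
    ring
  have hBJJ : ∀ x y, QuadraticMap.polar Q (J *ᵥ x) (J *ᵥ y) = N * QuadraticMap.polar Q x y := by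
    intro x y
    unfold QuadraticMap.polar
    rw [← Matrix.mulVec_add, hN, hN, hN]
    ring
  have hadj : ∀ x y, QuadraticMap.polar Q (J *ᵥ x) y
      = (N₁ - 1 - N) * QuadraticMap.polar Q x y - QuadraticMap.polar Q x (J *ᵥ y) := by
    intro x y
    have h1 := hN₁' (x + y)
    have e : x + y + J *ᵥ (x + y) = (x + J *ᵥ x) + (y + J *ᵥ y) := by
      rw [Matrix.mulVec_add]
      abel
    rw [e, Q_add Q, hN₁' x, hN₁' y, Q_add Q x y, hbl.add_left, hbl.add_right, hbl.add_right,
      hBJJ] at h1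
    linear_combination h1
  have hJJ : ∀ x, J *ᵥ (J *ᵥ x) = (N₁ - 1 - N) • (J *ᵥ x) - N • x := by
    intro x
    have h1 : J *ᵥ (J *ᵥ x) - ((N₁ - 1 - N) • (J *ᵥ x) - N • x) = 0 := by
      apply eq_zero_of_polar hQ
      intro y
      rw [bil_sub_left hbl, bil_sub_left hbl, hbl.smul_left, hbl.smul_left, hadj (J *ᵥ x) y,
        hBJJ]
      ring
    exact sub_eq_zero.mp h1
  have hJns : ∀ a : F, J ≠ a • (1 : Matrix ι ι F) := by
    intro a h
    apply hJuv
    rw [h, Matrix.smul_mulVec, Matrix.smul_mulVec, Matrix.one_mulVec, Matrix.one_mulVec,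
      hbl.smul_left, hbl.smul_right]
  have hnorm : ∀ x y : F, x ^ 2 + (N₁ - 1 - N) * x * y + N * y ^ 2 = 0 → x = 0 ∧ y = 0 := by
    intro x y hxy
    have hk : x • (1 : Matrix ι ι F) + y • J ∈ K :=
      K.add_mem (K.smul_mem K.one_mem _) (K.smul_mem hJ _)
    have hk0 : x • (1 : Matrix ι ι F) + y • J = 0 := by
      by_contra hne
      obtain ⟨k', -, hkk'⟩ := hK.inv _ hk hne
      obtain ⟨v, hv⟩ := exists_Q_ne hQ
      apply hv
      have h1 : Q ((x • (1 : Matrix ι ι F) + y • J) *ᵥ (k' *ᵥ v)) = Q v := by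
        rw [Matrix.mulVec_mulVec, hkk', Matrix.one_mulVec]
      rw [← h1, Matrix.add_mulVec, Matrix.smul_mulVec, Matrix.smul_mulVec, Matrix.one_mulVec,
        Q_add Q, hQ.smul, hQ.smul, hN, hbl.smul_left, hbl.smul_right, hBJ]
      linear_combination Q (k' *ᵥ v) * hxy
    have hy : y = 0 := by
      by_contra hy
      apply hJns (-x / y)
      have h2 : y • J = (-x) • (1 : Matrix ι ι F) := by
        rw [neg_smul]
        exact eq_neg_of_add_eq_zero_right hk0
      have h3 : J = y⁻¹ • (y • J) := by rw [smul_smul, inv_mul_cancel₀ hy, one_smul]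
      rw [h3, h2, smul_smul]
      congr 1
      field_simp
    refine ⟨?_, hy⟩
    rw [hy, zero_smul, add_zero] at hk0
    obtain ⟨i⟩ := (inferInstance : Nonempty ι)
    have := congrFun (congrFun hk0 i) i
    simpa using this
  have c : JCtx Q J (N₁ - 1 - N) N :=
    { nd := hQ, QJ := hN, BJ := hBJ, adj := hadj, BJJ := hBJJ, JJ := hJJ, norm := hnorm }
  refine ⟨J, N₁ - 1 - N, N, c, hJ, fun k => ⟨fun hk => ?_, ?_⟩⟩
  · have hli : LinearIndependent F ![(1 : Matrix ι ι F), J] := by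
      rw [LinearIndependent.pair_iff]
      intro s r hsr
      have hr : r = 0 := by
        by_contra hr
        apply hJns (-s / r)
        have h2 : r • J = (-s) • (1 : Matrix ι ι F) := by
          rw [neg_smul]
          exact eq_neg_of_add_eq_zero_right hsr
        have h3 : J = r⁻¹ • (r • J) := by rw [smul_smul, inv_mul_cancel₀ hr, one_smul]
        rw [h3, h2, smul_smul]
        congr 1
        field_simp
      refine ⟨?_, hr⟩
      rw [hr, zero_smul, add_zero] at hsr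
      obtain ⟨i⟩ := (inferInstance : Nonempty ι)
      have := congrFun (congrFun hsr i) i
      simpa using this
    have hfr := finrank_span_eq_card hli
    rw [Fintype.card_fin] at hfr
    have hle : Submodule.span F (Set.range ![(1 : Matrix ι ι F), J]) ≤ Subalgebra.toSubmodule K := by
      rw [Submodule.span_le]
      rintro _ ⟨i, rfl⟩
      fin_cases i
      · exact K.one_mem
      · exact hJ
    have heq : Submodule.span F (Set.range ![(1 : Matrix ι ι F), J]) = Subalgebra.toSubmodule K := by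
      apply Submodule.eq_of_le_of_finrank_eq hle
      rw [hfr, Subalgebra.finrank_toSubmodule, hK.finrank_eq]
    have hk' : k ∈ Submodule.span F (Set.range ![(1 : Matrix ι ι F), J]) := by
      rw [heq]
      exact hk
    obtain ⟨c', hc'⟩ := (Submodule.mem_span_range_iff_exists_fun F).mp hk'
    rw [Fin.sum_univ_two] at hc'
    exact ⟨c' 0, c' 1, hc'.symm⟩
  · rintro ⟨α, β, rfl⟩
    exact K.add_mem (K.smul_mem K.one_mem _) (K.smul_mem hJ _)

/-- An invertible matrix commuting with `J` normalises `K = F + F J`. -/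
lemma norm_of_comm {J : Matrix ι ι F} (K : Subalgebra F (Matrix ι ι F))
    (hKJ : ∀ k, k ∈ K ↔ ∃ α β : F, k = α • (1 : Matrix ι ι F) + β • J)
    (g : Matrix.GeneralLinearGroup ι F) (hg : (g : Matrix ι ι F) * J = J * (g : Matrix ι ι F)) :
    g ∈ Cfsg.Geo.subalgebraNormalizer K := by
  have h1 : (g : Matrix ι ι F) * ((g⁻¹ : Matrix.GeneralLinearGroup ι F) : Matrix ι ι F) = 1 := by
    rw [← Units.val_mul, mul_inv_cancel, Units.val_one]
  have h2 : ((g⁻¹ : Matrix.GeneralLinearGroup ι F) : Matrix ι ι F) * (g : Matrix ι ι F) = 1 := by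
    rw [← Units.val_mul, inv_mul_cancel, Units.val_one]
  have hfix : ∀ k ∈ K, (g : Matrix ι ι F) * k
      * ((g⁻¹ : Matrix.GeneralLinearGroup ι F) : Matrix ι ι F) = k := by
    intro k hk
    obtain ⟨α, β, rfl⟩ := (hKJ k).mp hk
    rw [mul_add, add_mul, Matrix.mul_smul, Matrix.mul_smul, Matrix.smul_mul, Matrix.smul_mul,
      mul_one, h1, hg, mul_assoc, h1, mul_one]
  intro k
  constructor
  · intro hk
    rw [hfix k hk]
    exact hk
  · intro hk
    have h3 := hfix _ hk
    have h4 : k = (g : Matrix ι ι F) * k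
        * ((g⁻¹ : Matrix.GeneralLinearGroup ι F) : Matrix ι ι F) := by
      have h5 := congrArg (fun m : Matrix ι ι F =>
        ((g⁻¹ : Matrix.GeneralLinearGroup ι F) : Matrix ι ι F) * m * (g : Matrix ι ι F)) h3
      simp only [mul_assoc] at h5
      rw [h2, mul_one, mul_one,
        ← mul_assoc ((g⁻¹ : Matrix.GeneralLinearGroup ι F) : Matrix ι ι F) (g : Matrix ι ι F),
        h2, one_mul,
        ← mul_assoc ((g⁻¹ : Matrix.GeneralLinearGroup ι F) : Matrix ι ι F) (g : Matrix ι ι F),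
        h2, one_mul, ← mul_assoc] at h5
      exact h5.symm
    rw [h4]
    exact hk

end Alg

section Max

variable {ι : Type} [Fintype ι] [DecidableEq ι] {F : Type*} [Field F] [Fintype F]
variable {Q : (ι → F) → F}

/-- The normaliser in `Ω` of a quadratic extension field acting by similitudes is maximal. -/
theorem maximalK (hcard : 13 ≤ Fintype.card ι) (hQ : Cfsg.Geo.IsNondegenerateQuadraticForm Q)
    (K : Subalgebra F (Matrix ι ι F)) (hK : Cfsg.Geo.IsFieldSubalgebra 2 K)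
    (hnsa : ¬ Cfsg.Geo.IsSelfAdjointFor (QuadraticMap.polar Q) K)
    (hsc : ∀ k ∈ K, ∃ c : F, ∀ v : (ι → F), Q (Matrix.mulVec k v) = c * Q v) :
    Cfsg.Geo.IsMaximalIn (Cfsg.Geo.omegaGL Q)
      (Cfsg.Geo.subalgebraNormalizer K ⊓ Cfsg.Geo.omegaGL Q) := by
  haveI : Nonempty ι := Fintype.card_pos_iff.mp (by omega)
  obtain ⟨J, t, N, c, hJ, hKJ⟩ := ctx_of hQ K hK hnsa hsc
  have hTN : ∀ a, Q a = 0 → ∀ β, T c a β ∈
      Cfsg.Geo.subalgebraNormalizer K ⊓ Cfsg.Geo.omegaGL Q := by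
    intro a ha β
    refine ⟨?_, sg_mem_omega c.nd (by omega) _ _⟩
    apply norm_of_comm K hKJ
    apply mat_ext
    intro x
    rw [← Matrix.mulVec_mulVec, ← Matrix.mulVec_mulVec, T_comm c ha]
  refine ⟨lt_of_le_of_ne inf_le_right ?_, ?_⟩
  · intro h
    obtain ⟨g, hg, hgJ⟩ := proper c hcard
    rw [← h] at hg
    exact hgJ ((hKJ _).mp ((hg.1 J).mp hJ))
  · intro M hHM hMΩ
    by_cases hM : M = Cfsg.Geo.subalgebraNormalizer K ⊓ Cfsg.Geo.omegaGL Q
    · left
      exact hM
    right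
    apply le_antisymm hMΩ
    obtain ⟨g, hgM, hgH⟩ : ∃ g ∈ M, g ∉ Cfsg.Geo.subalgebraNormalizer K ⊓ Cfsg.Geo.omegaGL Q := by
      by_contra hcon
      push Not at hcon
      exact hM (le_antisymm hcon hHM)
    have hgN : g ∉ Cfsg.Geo.subalgebraNormalizer K := fun h => hgH ⟨h, hMΩ hgM⟩
    have hex : ∃ g' ∈ M, ∃ k ∈ K, (g' : Matrix ι ι F) * k
        * ((g'⁻¹ : Matrix.GeneralLinearGroup ι F) : Matrix ι ι F) ∉ K := by
      have h1 : ¬ ∀ k : Matrix ι ι F, k ∈ K ↔ (g : Matrix ι ι F) * k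
          * ((g⁻¹ : Matrix.GeneralLinearGroup ι F) : Matrix ι ι F) ∈ K := hgN
      push Not at h1
      obtain ⟨k, hk⟩ := h1
      rcases hk with ⟨hkK, h⟩ | ⟨hkK, hk'⟩
      · exact ⟨g, hgM, k, hkK, h⟩
      · refine ⟨g⁻¹, M.inv_mem hgM, _, hk', ?_⟩
        have e : ((g⁻¹ : Matrix.GeneralLinearGroup ι F) : Matrix ι ι F)
            * ((g : Matrix ι ι F) * k * ((g⁻¹ : Matrix.GeneralLinearGroup ι F) : Matrix ι ι F))
            * (((g⁻¹)⁻¹ : Matrix.GeneralLinearGroup ι F) : Matrix ι ι F) = k := by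
          have h2 : ((g⁻¹ : Matrix.GeneralLinearGroup ι F) : Matrix ι ι F) * (g : Matrix ι ι F)
              = 1 := by
            rw [← Units.val_mul, inv_mul_cancel, Units.val_one]
          rw [inv_inv, ← mul_assoc, ← mul_assoc, h2, one_mul, mul_assoc, h2, mul_one]
        rw [e]
        exact hkK
    obtain ⟨g', hg'M, k, hk, hgk⟩ := hex
    obtain ⟨α, β, rfl⟩ := (hKJ k).mp hk
    have hgJ : ¬ ∃ α' β' : F, (g' : Matrix ι ι F) * J
        * ((g'⁻¹ : Matrix.GeneralLinearGroup ι F) : Matrix ι ι F)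
          = α' • (1 : Matrix ι ι F) + β' • J := by
      rintro ⟨α', β', h⟩
      apply hgk
      have h1 : (g' : Matrix ι ι F) * ((g'⁻¹ : Matrix.GeneralLinearGroup ι F) : Matrix ι ι F)
          = 1 := by
        rw [← Units.val_mul, mul_inv_cancel, Units.val_one]
      have e : (g' : Matrix ι ι F) * (α • (1 : Matrix ι ι F) + β • J)
          * ((g'⁻¹ : Matrix.GeneralLinearGroup ι F) : Matrix ι ι F)
          = α • (1 : Matrix ι ι F) + β • (α' • (1 : Matrix ι ι F) + β' • J) := by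
        rw [← h, mul_add, add_mul, Matrix.mul_smul, Matrix.mul_smul, Matrix.smul_mul,
          Matrix.smul_mul, mul_one, h1]
      rw [e]
      exact K.add_mem (K.smul_mem K.one_mem _)
        (K.smul_mem (K.add_mem (K.smul_mem K.one_mem _) (K.smul_mem hJ _)) _)
    exact main c hcard M (fun a ha β => hHM (hTN a ha β))
      (fun m hm v => omegaGL_isom (hMΩ hm) v) hg'M hgJ

end Max

end Cfsg.Agent.Lib.Helper94.QExt5
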