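import Mathlib
import Cfsg.Prelude.Def_GeometricClasses
import Cfsg.Agent.Lib.Helper94.SfLin1
import Cfsg.Agent.Lib.Helper98.SL2Sub

/-!
# Overgroups of the subfield group in `SL` (helper94)

For a subgroup `H` of `GL` containing the rational transvections and such that the parameters
of its elementary transvections are rational (`Hyp`):

* `col_of_zero` : a column of an element of `H` with a zero entry is a multiple of a rational
  vector;
* `no_triple` : a column of an element of `H` cannot have a non-rational ratio of two entries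
  and a third non-zero entry (given a generation property of `SL₂`).
-/

set_option autoImplicit false

namespace Cfsg.Agent.Lib.Helper94.SfLin2

open scoped Matrix MatrixGroups
open Cfsg.Agent.Lib.Helper94.Basic Cfsg.Agent.Lib.Helper94.GLAux Cfsg.Agent.Lib.Helper94.Tv
  Cfsg.Agent.Lib.Helper94.SubfieldRat Cfsg.Agent.Lib.Helper94.SfLin1
open Cfsg.Agent.Lib.Helper98.SL2Sub (u l u_inv l_inv)

section Main

variable {ι : Type} [Fintype ι] [DecidableEq ι] {F : Type*} [Field F]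

/-- Hypotheses on an overgroup of the subfield group. -/
structure Hyp (F₀ : Subfield F) (H : Subgroup (Matrix.GeneralLinearGroup ι F)) : Prop where
  rat : ∀ (φ : Module.Dual F (ι → F)) (w : ι → F) (h : φ w = 0),
    (∀ q : ι, φ (Pi.single q 1) ∈ F₀) → (∀ p : ι, w p ∈ F₀) → gtv φ w h ∈ H
  lam : ∀ i j : ι, i ≠ j → ∀ c : F, el i j c ∈ H → c ∈ F₀

variable {F₀ : Subfield F} {H : Subgroup (Matrix.GeneralLinearGroup ι F)}

lemma Hyp.el_rat (hH : Hyp F₀ H) {i j : ι} (hij : i ≠ j) (c : F) (hc : c ∈ F₀) :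
    el i j c ∈ H := by
  rw [el_eq hij]
  apply hH.rat
  · intro q
    simp only [LinearMap.smul_apply, LinearMap.proj_apply, Pi.single_apply, smul_eq_mul]
    split_ifs
    · rw [mul_one]; exact hc
    · rw [mul_zero]; exact F₀.zero_mem
  · intro p
    simp only [Pi.single_apply]
    split_ifs
    · exact F₀.one_mem
    · exact F₀.zero_mem

omit [DecidableEq ι] in
lemma exists_notMem (s : Finset ι) (h : s.card < Fintype.card ι) : ∃ k, k ∉ s := by
  by_contra hcon
  push Not at hcon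
  have e : s = Finset.univ := Finset.eq_univ_iff_forall.mpr hcon
  rw [e, Finset.card_univ] at h
  exact lt_irrefl _ h

/-- The functional of a transvection of `H` with centre a basis vector is rational. -/
lemma centre_rat (hH : Hyp F₀ H) (h3 : 3 ≤ Fintype.card ι) (ψ : Module.Dual F (ι → F)) (l₀ : ι)
    (hψ : ψ (Pi.single l₀ 1) = 0) (hmem : gtv ψ (Pi.single l₀ 1) hψ ∈ H) (m : ι) (hm : m ≠ l₀) :
    ψ (Pi.single m 1) ∈ F₀ := by
  obtain ⟨k', hk'⟩ := exists_notMem ({l₀, m} : Finset ι)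
    (lt_of_le_of_lt Finset.card_le_two (by omega))
  simp only [Finset.mem_insert, Finset.mem_singleton, not_or] at hk'
  have hmk : m ≠ k' := Ne.symm hk'.2
  have hlk : l₀ ≠ k' := Ne.symm hk'.1
  have h1 : el m k' (1 : F) ∈ H := hH.el_rat hmk 1 F₀.one_mem
  have key : el l₀ k' (ψ (Pi.single m 1))
      = gtv ψ (Pi.single l₀ 1) hψ * el m k' (1 : F) * (gtv ψ (Pi.single l₀ 1) hψ)⁻¹
        * (el m k' (1 : F))⁻¹ := by
    rw [el_eq hmk, gtv_comm, el_eq hlk]
    · apply gtv_congr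
      · simp [smul_smul]
      · rfl
    · simp [hlk]
  apply hH.lam l₀ k' hlk
  rw [key]
  exact H.mul_mem (H.mul_mem (H.mul_mem hmem h1) (H.inv_mem hmem)) (H.inv_mem h1)

/-- The centre of a transvection of `H` with axis a coordinate hyperplane is rational up to the
scalar of the functional. -/
lemma axis_rat (hH : Hyp F₀ H) (h3 : 3 ≤ Fintype.card ι) (φ : Module.Dual F (ι → F)) (μ : F)
    (s : ι) (hφ : ∀ x, φ x = μ * x s) (w : ι → F) (hw : φ w = 0) (hmem : gtv φ w hw ∈ H)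
    (m' : ι) (hm' : m' ≠ s) : μ * w m' ∈ F₀ := by
  obtain ⟨k', hk'⟩ := exists_notMem ({s, m'} : Finset ι)
    (lt_of_le_of_lt Finset.card_le_two (by omega))
  simp only [Finset.mem_insert, Finset.mem_singleton, not_or] at hk'
  have hkm : k' ≠ m' := hk'.2
  have hks : k' ≠ s := hk'.1
  have h1 : el k' m' (1 : F) ∈ H := hH.el_rat hkm 1 F₀.one_mem
  have hφk : φ (Pi.single k' 1) = 0 := by
    rw [hφ]
    simp [hks.symm]
  have key : el k' s (μ * w m')
      = el k' m' (1 : F) * gtv φ w hw * (el k' m' (1 : F))⁻¹ * (gtv φ w hw)⁻¹ := by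
    rw [el_eq hkm, gtv_comm _ _ _ _ _ _ hφk]
    apply gl_ext
    intro x
    rw [gtv_mulVec, el_mulVec hks]
    simp only [LinearMap.smul_apply, LinearMap.proj_apply, smul_eq_mul, hφ]
    congr 2
    ring
  apply hH.lam k' s hks
  rw [key]
  exact H.mul_mem (H.mul_mem (H.mul_mem h1 hmem) (H.inv_mem h1)) (H.inv_mem hmem)

/-- A column of an element of `H` with a zero entry is a multiple of a rational vector. -/
theorem col_of_zero (hH : Hyp F₀ H) (h3 : 3 ≤ Fintype.card ι)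
    (g : Matrix.GeneralLinearGroup ι F) (hg : g ∈ H) (j s : ι)
    (hs : ((g : Matrix ι ι F) *ᵥ Pi.single j 1) s = 0) :
    ∃ (c : F) (z : ι → F₀), (g : Matrix ι ι F) *ᵥ Pi.single j 1 = c • up F₀ z := by
  obtain ⟨m, hm⟩ := exists_notMem ({s} : Finset ι) (by rw [Finset.card_singleton]; omega)
  rw [Finset.mem_singleton] at hm
  by_cases hex : ∃ k, k ≠ j ∧
      (((g⁻¹ : Matrix.GeneralLinearGroup ι F) : Matrix ι ι F) *ᵥ Pi.single m 1) k ≠ 0
  · obtain ⟨k, hkj, hμ⟩ := hex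
    have hjk : j ≠ k := Ne.symm hkj
    have hT : g * el j k (1 : F) * g⁻¹ ∈ H :=
      H.mul_mem (H.mul_mem hg (hH.el_rat hjk 1 F₀.one_mem)) (H.inv_mem hg)
    rw [el_eq hjk, gtv_conj] at hT
    have h2 : el m s (1 : F) ∈ H := hH.el_rat hm 1 F₀.one_mem
    rw [el_eq hm] at h2
    have hc := H.mul_mem (H.mul_mem (H.mul_mem hT h2) (H.inv_mem hT)) (H.inv_mem h2)
    rw [gtv_comm _ _ _ _ _ _
      (by rw [LinearMap.smul_apply, LinearMap.proj_apply, hs, smul_zero])] at hc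
    have hax := axis_rat hH h3 _
      ((((g⁻¹ : Matrix.GeneralLinearGroup ι F) : Matrix ι ι F) *ᵥ Pi.single m 1) k) s
      (by intro x; simp [Matrix.toLin'_apply]) _ _ hc
    refine ⟨((((g⁻¹ : Matrix.GeneralLinearGroup ι F) : Matrix ι ι F) *ᵥ Pi.single m 1) k)⁻¹,
      fun p => ⟨(((g⁻¹ : Matrix.GeneralLinearGroup ι F) : Matrix ι ι F) *ᵥ Pi.single m 1) k
        * ((g : Matrix ι ι F) *ᵥ Pi.single j 1) p, ?_⟩, ?_⟩
    · by_cases hp : p = s
      · rw [hp, hs, mul_zero]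
        exact F₀.zero_mem
      · exact hax p hp
    · ext p
      simp only [Pi.smul_apply, up_apply, smul_eq_mul]
      rw [← mul_assoc, inv_mul_cancel₀ hμ, one_mul]
  · push Not at hex
    obtain ⟨c, hcdef⟩ : ∃ c : F,
        c = (((g⁻¹ : Matrix.GeneralLinearGroup ι F) : Matrix ι ι F) *ᵥ Pi.single m 1) j :=
      ⟨_, rfl⟩
    have e1 : ((g⁻¹ : Matrix.GeneralLinearGroup ι F) : Matrix ι ι F) *ᵥ Pi.single m 1
        = c • Pi.single j (1 : F) := by
      ext k
      by_cases hk : k = j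
      · rw [hk, hcdef]
        simp
      · rw [hex k hk]
        simp [Pi.single_eq_of_ne hk]
    have e2 : (Pi.single m 1 : ι → F) = c • ((g : Matrix ι ι F) *ᵥ Pi.single j 1) := by
      have := congrArg (fun x => (g : Matrix ι ι F) *ᵥ x) e1
      simp only [gl_mulVec_inv, Matrix.mulVec_smul] at this
      exact this
    have hc0 : c ≠ 0 := by
      intro h0
      rw [h0, zero_smul] at e2
      have := congrFun e2 m
      simp at this
    refine ⟨c⁻¹, Pi.single m 1, ?_⟩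
    rw [up_single, e2, smul_smul, inv_mul_cancel₀ hc0, one_smul]

end Main

section Triple

variable {ι : Type} [Fintype ι] [DecidableEq ι] {F : Type*} [Field F]

open Cfsg.Agent.Lib.Helper98.SL2Sub (mul00 mul01 mul10 mul11)

/-- The relation between an element of `SL₂` and an element of `GL` acting on the plane spanned
by `e` and `w`. -/
def Rel (e w : ι → F) (χ : Module.Dual F (ι → F)) (i i' : ι) (a c β : F) (S : SL(2, F))
    (h : Matrix.GeneralLinearGroup ι F) : Prop :=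
  ∃ α₁ α₂ α₃ β₁ β₂ β₃ : F,
    (∀ x : ι → F, (h : Matrix ι ι F) *ᵥ x
      = x + (α₁ * x i + α₂ * x i' + α₃ * χ x) • e + (β₁ * x i + β₂ * x i' + β₃ * χ x) • w) ∧
    S.1 0 0 = 1 + α₃ * c ∧ S.1 0 1 = α₁ + α₂ * β ∧ S.1 1 0 = a * β₃ * c ∧
    S.1 1 1 = 1 + β₁ * a + β₂ * (a * β)

lemma Rel.one (e w : ι → F) (χ : Module.Dual F (ι → F)) (i i' : ι) (a c β : F) :
    Rel e w χ i i' a c β 1 1 := by
  refine ⟨0, 0, 0, 0, 0, 0, ?_, ?_, ?_, ?_, ?_⟩
  · intro x
    simp
  · simp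
  · simp
  · simp
  · simp

lemma Rel.mul {e w : ι → F} {χ : Module.Dual F (ι → F)} {i i' : ι} {a c β : F}
    (hei : e i = 0) (hei' : e i' = 0) (hχe : χ e = c) (hwi : w i = a) (hwi' : w i' = a * β)
    (hχw : χ w = 0) {S S' : SL(2, F)} {h h' : Matrix.GeneralLinearGroup ι F}
    (h1 : Rel e w χ i i' a c β S h) (h2 : Rel e w χ i i' a c β S' h') :
    Rel e w χ i i' a c β (S * S') (h * h') := by
  obtain ⟨α₁, α₂, α₃, β₁, β₂, β₃, hact, h00, h01, h10, h11⟩ := h1
  obtain ⟨α₁', α₂', α₃', β₁', β₂', β₃', hact', h00', h01', h10', h11'⟩ := h2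
  refine ⟨α₁ + (1 + α₃ * c) * α₁' + (α₁ * a + α₂ * (a * β)) * β₁',
    α₂ + (1 + α₃ * c) * α₂' + (α₁ * a + α₂ * (a * β)) * β₂',
    α₃ + (1 + α₃ * c) * α₃' + (α₁ * a + α₂ * (a * β)) * β₃',
    β₁ + (1 + β₁ * a + β₂ * (a * β)) * β₁' + β₃ * c * α₁',
    β₂ + (1 + β₁ * a + β₂ * (a * β)) * β₂' + β₃ * c * α₂',
    β₃ + (1 + β₁ * a + β₂ * (a * β)) * β₃' + β₃ * c * α₃', ?_, ?_, ?_, ?_, ?_⟩
  · intro x
    rw [Units.val_mul, ← Matrix.mulVec_mulVec, hact' x, hact]
    simp only [Pi.add_apply, Pi.smul_apply, smul_eq_mul, map_add, map_smul, hei, hei', hχe, hwi,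
      hwi', hχw, mul_zero, add_zero]
    module
  · rw [mul00, h00, h01, h00', h10']
    ring
  · rw [mul01, h00, h01, h01', h11']
    ring
  · rw [mul10, h10, h11, h00', h10']
    ring
  · rw [mul11, h10, h11, h01', h11']
    ring

/-- A column of an element of `H` cannot have a non-rational ratio of two entries together with
a third non-zero entry. -/
theorem no_triple {F₀ : Subfield F} {H : Subgroup (Matrix.GeneralLinearGroup ι F)}
    (hH : Hyp F₀ H) (h4 : 4 ≤ Fintype.card ι)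
    (hN3 : ∀ β γ : F, β ∉ F₀ → γ ≠ 0 → Subgroup.closure
      ({S : SL(2, F) | ∃ s ∈ F₀, ∃ s' ∈ F₀, S = u (s + s' * β)} ∪
        {S : SL(2, F) | ∃ s ∈ F₀, S = l (γ * s)}) = ⊤)
    (hbig : ∀ β : F, ∃ ζ : F, ∀ s ∈ F₀, ∀ s' ∈ F₀, ζ ≠ s + s' * β)
    (g : Matrix.GeneralLinearGroup ι F) (hg : g ∈ H) (j i i' t : ι) (hii' : i ≠ i')
    (hit : i ≠ t) (hi't : i' ≠ t)
    (hwi0 : ((g : Matrix ι ι F) *ᵥ Pi.single j 1) i ≠ 0)
    (hβ0 : ((g : Matrix ι ι F) *ᵥ Pi.single j 1) i' / ((g : Matrix ι ι F) *ᵥ Pi.single j 1) i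
      ∉ F₀)
    (hwt0 : ((g : Matrix ι ι F) *ᵥ Pi.single j 1) t ≠ 0) : False := by
  have h3 : 3 ≤ Fintype.card ι := by omega
  obtain ⟨w, hwdef⟩ : ∃ w : ι → F, w = (g : Matrix ι ι F) *ᵥ Pi.single j 1 := ⟨_, rfl⟩
  rw [← hwdef] at hwi0 hβ0 hwt0
  obtain ⟨l₀, hl₀⟩ := exists_notMem ({i, i', t} : Finset ι)
    (lt_of_le_of_lt Finset.card_le_three (by omega))
  simp only [Finset.mem_insert, Finset.mem_singleton, not_or] at hl₀
  obtain ⟨hli, hli', hlt⟩ := hl₀
  have hginvw : ((g⁻¹ : Matrix.GeneralLinearGroup ι F) : Matrix ι ι F) *ᵥ w = Pi.single j 1 := by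
    rw [hwdef, gl_inv_mulVec]
  -- choose `k`
  obtain ⟨k, hkj, hc0⟩ : ∃ k, k ≠ j ∧
      (((g⁻¹ : Matrix.GeneralLinearGroup ι F) : Matrix ι ι F) *ᵥ Pi.single l₀ 1) k ≠ 0 := by
    by_contra hcon
    push Not at hcon
    obtain ⟨c', hcdef⟩ : ∃ c' : F,
        c' = (((g⁻¹ : Matrix.GeneralLinearGroup ι F) : Matrix ι ι F) *ᵥ Pi.single l₀ 1) j :=
      ⟨_, rfl⟩
    have e1 : ((g⁻¹ : Matrix.GeneralLinearGroup ι F) : Matrix ι ι F) *ᵥ Pi.single l₀ 1
        = c' • Pi.single j (1 : F) := by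
      ext k
      by_cases hk : k = j
      · rw [hk, hcdef]
        simp
      · rw [hcon k hk]
        simp [Pi.single_eq_of_ne hk]
    have e2 : (Pi.single l₀ 1 : ι → F) = c' • w := by
      have := congrArg (fun x => (g : Matrix ι ι F) *ᵥ x) e1
      simp only [gl_mulVec_inv, Matrix.mulVec_smul] at this
      rw [hwdef]
      exact this
    have e3 := congrFun e2 i
    have e4 := congrFun e2 l₀
    simp only [Pi.smul_apply, smul_eq_mul, Pi.single_eq_same] at e4
    rw [Pi.single_eq_of_ne (Ne.symm hli)] at e3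
    simp only [Pi.smul_apply, smul_eq_mul] at e3
    rcases mul_eq_zero.mp e3.symm with h0 | h0
    · rw [h0, zero_mul] at e4
      exact one_ne_zero e4
    · exact hwi0 h0
  have hjk : j ≠ k := Ne.symm hkj
  obtain ⟨χ, hχdef⟩ : ∃ χ : Module.Dual F (ι → F),
      χ = (LinearMap.proj k : (ι → F) →ₗ[F] F) ∘ₗ
        Matrix.toLin' ((g⁻¹ : Matrix.GeneralLinearGroup ι F) : Matrix ι ι F) := ⟨_, rfl⟩
  have hχ : ∀ x, χ x = (((g⁻¹ : Matrix.GeneralLinearGroup ι F) : Matrix ι ι F) *ᵥ x) k := by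
    intro x
    rw [hχdef]
    simp [Matrix.toLin'_apply]
  obtain ⟨a, hadef⟩ : ∃ a : F, a = w i := ⟨_, rfl⟩
  obtain ⟨β, hβdef⟩ : ∃ β : F, β = w i' / w i := ⟨_, rfl⟩
  obtain ⟨c, hcdef⟩ : ∃ c : F, c = χ (Pi.single l₀ 1) := ⟨_, rfl⟩
  rw [← hβdef] at hβ0
  rw [← hadef] at hwi0
  have hc0' : c ≠ 0 := by
    rw [hcdef, hχ]
    exact hc0
  have hei : (Pi.single l₀ (1 : F) : ι → F) i = 0 := Pi.single_eq_of_ne (Ne.symm hli) _
  have hei' : (Pi.single l₀ (1 : F) : ι → F) i' = 0 := Pi.single_eq_of_ne (Ne.symm hli') _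
  have het : (Pi.single l₀ (1 : F) : ι → F) t = 0 := Pi.single_eq_of_ne (Ne.symm hlt) _
  have hwi : w i = a := hadef.symm
  have hwi' : w i' = a * β := by
    rw [hβdef, ← hadef]
    field_simp
  have hχw : χ w = 0 := by
    rw [hχ, hginvw]
    exact Pi.single_eq_of_ne hkj _
  -- the generators
  have hgen : ∀ S ∈ ({S : SL(2, F) | ∃ s ∈ F₀, ∃ s' ∈ F₀, S = u (s + s' * β)} ∪
        {S : SL(2, F) | ∃ s ∈ F₀, S = l (a * c * s)}),
      ∃ h ∈ H, Rel (Pi.single l₀ (1 : F)) w χ i i' a c β S h := by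
    rintro S (⟨s, hs, s', hs', rfl⟩ | ⟨s, hs, rfl⟩)
    · refine ⟨el l₀ i s * el l₀ i' s', H.mul_mem (hH.el_rat hli s hs) (hH.el_rat hli' s' hs'),
        s, s', 0, 0, 0, 0, ?_, ?_, ?_, ?_, ?_⟩
      · intro x
        rw [Units.val_mul, ← Matrix.mulVec_mulVec, el_mulVec hli', el_mulVec hli]
        simp only [Pi.add_apply, Pi.smul_apply, smul_eq_mul, hei, mul_zero, add_zero, zero_mul,
          zero_smul]
        module
      · simp
      · simp
      · simp
      · simp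
    · refine ⟨g * el j k s * g⁻¹,
        H.mul_mem (H.mul_mem hg (hH.el_rat hjk s hs)) (H.inv_mem hg),
        0, 0, 0, 0, 0, s, ?_, ?_, ?_, ?_, ?_⟩
      · intro x
        rw [Units.val_mul, Units.val_mul, ← Matrix.mulVec_mulVec, ← Matrix.mulVec_mulVec,
          el_mulVec hjk, Matrix.mulVec_add, Matrix.mulVec_smul, gl_mulVec_inv, ← hwdef, hχ]
        simp only [zero_mul, add_zero, zero_smul, zero_add]
      · simp
      · simp
      · simp
        ring
      · simp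
  have hgeninv : ∀ S ∈ ({S : SL(2, F) | ∃ s ∈ F₀, ∃ s' ∈ F₀, S = u (s + s' * β)} ∪
        {S : SL(2, F) | ∃ s ∈ F₀, S = l (a * c * s)}),
      S⁻¹ ∈ ({S : SL(2, F) | ∃ s ∈ F₀, ∃ s' ∈ F₀, S = u (s + s' * β)} ∪
        {S : SL(2, F) | ∃ s ∈ F₀, S = l (a * c * s)}) := by
    rintro S (⟨s, hs, s', hs', rfl⟩ | ⟨s, hs, rfl⟩)
    · left
      refine ⟨-s, F₀.neg_mem hs, -s', F₀.neg_mem hs', ?_⟩
      rw [u_inv]
      congr 1
      ring
    · right
      refine ⟨-s, F₀.neg_mem hs, ?_⟩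
      rw [l_inv]
      congr 1
      ring
  have hall : ∀ S : SL(2, F), ∃ h ∈ H, Rel (Pi.single l₀ (1 : F)) w χ i i' a c β S h := by
    intro S
    have hS : S ∈ Subgroup.closure
        ({S : SL(2, F) | ∃ s ∈ F₀, ∃ s' ∈ F₀, S = u (s + s' * β)} ∪
          {S : SL(2, F) | ∃ s ∈ F₀, S = l (a * c * s)}) := by
      rw [hN3 β (a * c) hβ0 (mul_ne_zero hwi0 hc0')]
      trivial
    induction hS using Subgroup.closure_induction'' with
    | mem x hx => exact hgen x hx
    | inv_mem x hx => exact hgen _ (hgeninv x hx)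
    | one => exact ⟨1, H.one_mem, Rel.one _ _ _ _ _ _ _ _⟩
    | mul x y _ _ hx hy =>
      obtain ⟨h, hh, hr⟩ := hx
      obtain ⟨h', hh', hr'⟩ := hy
      exact ⟨h * h', H.mul_mem hh hh', Rel.mul hei hei' hcdef.symm hwi hwi' hχw hr hr'⟩
  obtain ⟨ζ, hζ⟩ := hbig β
  obtain ⟨h, hh, α₁, α₂, α₃, β₁, β₂, β₃, hact, h00, h01, h10, h11⟩ := hall (u ζ)
  simp only [Cfsg.Agent.Lib.Helper98.SL2Sub.u00, Cfsg.Agent.Lib.Helper98.SL2Sub.u01,
    Cfsg.Agent.Lib.Helper98.SL2Sub.u10, Cfsg.Agent.Lib.Helper98.SL2Sub.u11] at h00 h01 h10 h11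
  have hα₃ : α₃ = 0 := by
    have : α₃ * c = 0 := by linear_combination -h00
    exact (mul_eq_zero.mp this).resolve_right hc0'
  have hβ₃ : β₃ = 0 := by
    have : a * β₃ * c = 0 := h10.symm
    rcases mul_eq_zero.mp this with h0 | h0
    · exact (mul_eq_zero.mp h0).resolve_left hwi0
    · exact absurd h0 hc0'
  have hββ : β₁ + β₂ * β = 0 := by
    have : a * (β₁ + β₂ * β) = 0 := by linear_combination -h11
    exact (mul_eq_zero.mp this).resolve_left hwi0
  subst hα₃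
  subst hβ₃
  have hact' : ∀ x : ι → F, (h : Matrix ι ι F) *ᵥ x
      = x + (α₁ * x i + α₂ * x i') • Pi.single l₀ (1 : F) + (β₁ * x i + β₂ * x i') • w := by
    intro x
    rw [hact x]
    simp only [zero_mul, add_zero]
  have hhe : (h : Matrix ι ι F) *ᵥ Pi.single l₀ (1 : F) = Pi.single l₀ 1 := by
    rw [hact', hei, hei']
    simp
  have hhw : (h : Matrix ι ι F) *ᵥ w = w + (a * ζ) • Pi.single l₀ (1 : F) := by
    rw [hact', hwi, hwi']
    have e1 : α₁ * a + α₂ * (a * β) = a * ζ := by rw [h01]; ring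
    have e2 : β₁ * a + β₂ * (a * β) = 0 := by linear_combination a * hββ
    rw [e1, e2, zero_smul, add_zero]
  -- Step A
  have hinve : ((h⁻¹ : Matrix.GeneralLinearGroup ι F) : Matrix ι ι F) *ᵥ Pi.single l₀ (1 : F)
      = Pi.single l₀ 1 := by
    conv_lhs => rw [← hhe]
    rw [gl_inv_mulVec]
  have hT : h * el l₀ t (1 : F) * h⁻¹ ∈ H :=
    H.mul_mem (H.mul_mem hh (hH.el_rat hlt 1 F₀.one_mem)) (H.inv_mem hh)
  rw [el_eq hlt, gtv_conj] at hT
  have hT' : gtv (((1 : F) • (LinearMap.proj t : (ι → F) →ₗ[F] F)) ∘ₗ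
      Matrix.toLin' ((h⁻¹ : Matrix.GeneralLinearGroup ι F) : Matrix ι ι F)) (Pi.single l₀ 1)
      (by
        simp only [LinearMap.comp_apply, Matrix.toLin'_apply, LinearMap.smul_apply,
          LinearMap.proj_apply, smul_eq_mul, one_mul]
        rw [hinve]
        exact het) ∈ H := by
    have e : gtv (((1 : F) • (LinearMap.proj t : (ι → F) →ₗ[F] F)) ∘ₗ
        Matrix.toLin' ((h⁻¹ : Matrix.GeneralLinearGroup ι F) : Matrix ι ι F)) (Pi.single l₀ 1)
        (by
          simp only [LinearMap.comp_apply, Matrix.toLin'_apply, LinearMap.smul_apply,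
            LinearMap.proj_apply, smul_eq_mul, one_mul]
          rw [hinve]
          exact het)
        = gtv (((1 : F) • (LinearMap.proj t : (ι → F) →ₗ[F] F)) ∘ₗ
          Matrix.toLin' ((h⁻¹ : Matrix.GeneralLinearGroup ι F) : Matrix ι ι F))
          ((h : Matrix ι ι F) *ᵥ Pi.single l₀ 1)
          (by
            simp only [LinearMap.comp_apply, Matrix.toLin'_apply, LinearMap.smul_apply,
              LinearMap.proj_apply, smul_eq_mul, one_mul]
            rw [gl_inv_mulVec]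
            exact het) := by
      apply gtv_congr
      · rfl
      · exact hhe.symm
    rw [e]
    exact hT
  have hcr := centre_rat hH h3 _ l₀ _ hT'
  have hinv1 : ((h⁻¹ : Matrix.GeneralLinearGroup ι F) : Matrix ι ι F) *ᵥ Pi.single i 1
      = Pi.single i 1 - β₁ • w - (α₁ - β₁ * (a * ζ)) • Pi.single l₀ (1 : F) := by
    have e : (h : Matrix ι ι F) *ᵥ (Pi.single i 1 - β₁ • w
        - (α₁ - β₁ * (a * ζ)) • Pi.single l₀ (1 : F)) = Pi.single i 1 := by
      rw [Matrix.mulVec_sub, Matrix.mulVec_sub, Matrix.mulVec_smul, Matrix.mulVec_smul, hhe, hhw,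
        hact']
      simp only [Pi.single_eq_same, Pi.single_eq_of_ne hii'.symm, mul_one, mul_zero, add_zero]
      module
    rw [← e, gl_inv_mulVec, e]
  have hinv2 : ((h⁻¹ : Matrix.GeneralLinearGroup ι F) : Matrix ι ι F) *ᵥ Pi.single i' 1
      = Pi.single i' 1 - β₂ • w - (α₂ - β₂ * (a * ζ)) • Pi.single l₀ (1 : F) := by
    have e : (h : Matrix ι ι F) *ᵥ (Pi.single i' 1 - β₂ • w
        - (α₂ - β₂ * (a * ζ)) • Pi.single l₀ (1 : F)) = Pi.single i' 1 := by
      rw [Matrix.mulVec_sub, Matrix.mulVec_sub, Matrix.mulVec_smul, Matrix.mulVec_smul, hhe, hhw,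
        hact']
      simp only [Pi.single_eq_same, Pi.single_eq_of_ne hii', mul_one, mul_zero, add_zero, zero_add]
      module
    rw [← e, gl_inv_mulVec, e]
  have hb1 : β₁ * w t ∈ F₀ := by
    have := hcr i (Ne.symm hli)
    simp only [LinearMap.comp_apply, Matrix.toLin'_apply, LinearMap.smul_apply,
      LinearMap.proj_apply, smul_eq_mul, one_mul] at this
    rw [hinv1] at this
    simp only [Pi.sub_apply, Pi.smul_apply, smul_eq_mul, het, Pi.single_eq_of_ne hit.symm,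
      mul_zero, sub_zero, zero_sub] at this
    have h2 := F₀.neg_mem this
    rwa [neg_neg] at h2
  have hb2 : β₂ * w t ∈ F₀ := by
    have := hcr i' (Ne.symm hli')
    simp only [LinearMap.comp_apply, Matrix.toLin'_apply, LinearMap.smul_apply,
      LinearMap.proj_apply, smul_eq_mul, one_mul] at this
    rw [hinv2] at this
    simp only [Pi.sub_apply, Pi.smul_apply, smul_eq_mul, het, Pi.single_eq_of_ne hi't.symm,
      mul_zero, sub_zero, zero_sub] at this
    have h2 := F₀.neg_mem this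
    rwa [neg_neg] at h2
  have hβ₂ : β₂ = 0 := by
    by_contra hne
    apply hβ0
    have e : β = -(β₁ * w t) / (β₂ * w t) := by
      rw [eq_div_iff (mul_ne_zero hne hwt0)]
      linear_combination (w t) * hββ
    rw [e]
    exact F₀.div_mem (F₀.neg_mem hb1) hb2
  have hβ₁ : β₁ = 0 := by
    rw [hβ₂, zero_mul, add_zero] at hββ
    exact hββ
  subst hβ₂
  subst hβ₁
  -- Step B
  have hψ0 : (α₁ • (LinearMap.proj i : (ι → F) →ₗ[F] F) + α₂ • (LinearMap.proj i' : (ι → F) →ₗ[F] F))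
      (Pi.single l₀ (1 : F)) = 0 := by
    simp [hei, hei']
  have hheq : h = gtv (α₁ • (LinearMap.proj i : (ι → F) →ₗ[F] F)
      + α₂ • (LinearMap.proj i' : (ι → F) →ₗ[F] F)) (Pi.single l₀ (1 : F)) hψ0 := by
    apply gl_ext
    intro x
    rw [hact', gtv_mulVec]
    simp
  rw [hheq] at hh
  have hcr2 := centre_rat hH h3 _ l₀ _ hh
  have ha1 : α₁ ∈ F₀ := by
    have := hcr2 i (Ne.symm hli)
    simpa [Pi.single_eq_of_ne hii'.symm] using this
  have ha2 : α₂ ∈ F₀ := by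
    have := hcr2 i' (Ne.symm hli')
    simpa [Pi.single_eq_of_ne hii'] using this
  exact hζ α₁ ha1 α₂ ha2 h01

end Triple

end Cfsg.Agent.Lib.Helper94.SfLin2
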