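import Mathlib
import Cfsg.Prelude.Def_GeometricClasses
import Cfsg.Agent.Lib.Helper94.SympGen

set_option autoImplicit false

namespace Cfsg.Agent.Lib.Helper94.SympPair

open scoped Matrix
open Cfsg.Agent.Lib.Helper94.Basic Cfsg.Agent.Lib.Helper94.GLAux Cfsg.Agent.Lib.Helper94.Tv
  Cfsg.Agent.Lib.Helper94.Tv2 Cfsg.Agent.Lib.Helper94.SympAbs Cfsg.Agent.Lib.Helper94.SympGen

section Pair

variable {ι : Type} [Fintype ι] [DecidableEq ι] {F : Type*} [Field F]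
variable {f : (ι → F) → (ι → F) → F}

/-- A vector orthogonal to `x` and non-orthogonal to `y` and `y'`. -/
lemma exists_perp_both (hf : Cfsg.Geo.IsSymplecticForm f) (x y y' : ι → F)
    (hy : y ∉ Submodule.span F {x}) (hy' : y' ∉ Submodule.span F {x}) :
    ∃ z, f x z = 0 ∧ f y z ≠ 0 ∧ f y' z ≠ 0 := by
  obtain ⟨z1, hz1, hz1'⟩ := exists_perp_ne hf (Submodule.span F {x}) y hy
  obtain ⟨z2, hz2, hz2'⟩ := exists_perp_ne hf (Submodule.span F {x}) y' hy'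
  have hx1 : f x z1 = 0 := hz1 x (Submodule.mem_span_singleton_self x)
  have hx2 : f x z2 = 0 := hz2 x (Submodule.mem_span_singleton_self x)
  by_cases h1 : f y' z1 = 0
  · by_cases h2 : f y z2 = 0
    · refine ⟨z1 + z2, ?_, ?_, ?_⟩
      · rw [hf.bilinear.add_right, hx1, hx2, add_zero]
      · rw [hf.bilinear.add_right, h2, add_zero]; exact hz1'
      · rw [hf.bilinear.add_right, h1, zero_add]; exact hz2'
    · exact ⟨z2, hx2, h2, hz2'⟩
  · exact ⟨z1, hx1, hz1', h1⟩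

/-- Moving `y` to `y'` while fixing `x` (all orthogonal to `x`, outside its span). -/
lemma exists_map_fix (hf : Cfsg.Geo.IsSymplecticForm f) (x y y' : ι → F)
    (hxy : f x y = 0) (hxy' : f x y' = 0)
    (hy : y ∉ Submodule.span F {x}) (hy' : y' ∉ Submodule.span F {x}) :
    ∃ h : Matrix.GeneralLinearGroup ι F,
      (∀ M : Subgroup (Matrix.GeneralLinearGroup ι F), (∀ a c, st hf a c ∈ M) → h ∈ M) ∧
      (∀ u v, f ((h : Matrix ι ι F) *ᵥ u) ((h : Matrix ι ι F) *ᵥ v) = f u v) ∧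
      (h : Matrix ι ι F) *ᵥ x = x ∧ (h : Matrix ι ι F) *ᵥ y = y' := by
  have key : ∀ w w' : ι → F, f x w = 0 → f x w' = 0 → f w w' ≠ 0 →
      ((st hf (w - w') (f w w')⁻¹ : Matrix.GeneralLinearGroup ι F) : Matrix ι ι F) *ᵥ x = x := by
    intro w w' h1 h2 _
    apply st_fix
    rw [bil_sub_right hf.bilinear, h1, h2, sub_zero]
  by_cases h0 : f y y' = 0
  · obtain ⟨z, hxz, hyz, hy'z⟩ := exists_perp_both hf x y y' hy hy'
    have hzy' : f z y' ≠ 0 := by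
      rw [hf.skew]; exact neg_ne_zero.mpr hy'z
    refine ⟨st hf (z - y') (f z y')⁻¹ * st hf (y - z) (f y z)⁻¹, fun M hM => M.mul_mem (hM _ _) (hM _ _),
      fun u v => ?_, ?_, ?_⟩
    · rw [Units.val_mul, ← Matrix.mulVec_mulVec, ← Matrix.mulVec_mulVec, st_isom hf, st_isom hf]
    · rw [Units.val_mul, ← Matrix.mulVec_mulVec, key y z hxy hxz hyz, key z y' hxz hxy' hzy']
    · rw [Units.val_mul, ← Matrix.mulVec_mulVec, exists_map_of_ne hf y z hyz,
        exists_map_of_ne hf z y' hzy']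
  · exact ⟨st hf (y - y') (f y y')⁻¹, fun M hM => hM _ _, fun u v => st_isom hf _ _ u v,
      key y y' hxy hxy' h0, exists_map_of_ne hf y y' h0⟩

/-- Transitivity on pairs of orthogonal independent vectors. -/
lemma exists_map_pair (hf : Cfsg.Geo.IsSymplecticForm f) (w1 w2 u1 u2 : ι → F)
    (hw : f w1 w2 = 0) (hu : f u1 u2 = 0) (hw1 : w1 ≠ 0) (hu1 : u1 ≠ 0)
    (hw2 : w2 ∉ Submodule.span F {w1}) (hu2 : u2 ∉ Submodule.span F {u1}) :
    ∃ h : Matrix.GeneralLinearGroup ι F,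
      (∀ M : Subgroup (Matrix.GeneralLinearGroup ι F), (∀ a c, st hf a c ∈ M) → h ∈ M) ∧
      (∀ u v, f ((h : Matrix ι ι F) *ᵥ u) ((h : Matrix ι ι F) *ᵥ v) = f u v) ∧
      (h : Matrix ι ι F) *ᵥ w1 = u1 ∧ (h : Matrix ι ι F) *ᵥ w2 = u2 := by
  obtain ⟨h1, h1M, h1iso, h1w⟩ := exists_map hf w1 u1 hw1 hu1
  have hy : (h1 : Matrix ι ι F) *ᵥ w2 ∉ Submodule.span F {u1} := by
    intro hmem
    obtain ⟨c, hc⟩ := Submodule.mem_span_singleton.mp hmem
    apply hw2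
    rw [Submodule.mem_span_singleton]
    refine ⟨c, ?_⟩
    apply gl_mulVec_injective h1
    show (h1 : Matrix ι ι F) *ᵥ (c • w1) = (h1 : Matrix ι ι F) *ᵥ w2
    rw [Matrix.mulVec_smul, h1w, hc]
  have hxy : f u1 ((h1 : Matrix ι ι F) *ᵥ w2) = 0 := by
    rw [← h1w, h1iso, hw]
  obtain ⟨h2, h2M, h2iso, h2x, h2y⟩ := exists_map_fix hf u1 _ u2 hxy hu hy hu2
  refine ⟨h2 * h1, fun M hM => M.mul_mem (h2M M hM) (h1M M hM), fun u v => ?_, ?_, ?_⟩
  · rw [Units.val_mul, ← Matrix.mulVec_mulVec, ← Matrix.mulVec_mulVec, h2iso, h1iso]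
  · rw [Units.val_mul, ← Matrix.mulVec_mulVec, h1w, h2x]
  · rw [Units.val_mul, ← Matrix.mulVec_mulVec, h2y]

end Pair

end Cfsg.Agent.Lib.Helper94.SympPair
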