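import Mathlib
import Cfsg.Prelude.Def_GeometricClasses
import Cfsg.Agent.Lib.Helper94.Basic
import Cfsg.Agent.Lib.Helper94.GLAux
import Cfsg.Agent.Lib.Helper94.Tv
import Cfsg.Agent.Lib.Helper94.Tv2
import Cfsg.Agent.Lib.Helper94.UnitAbs
import Cfsg.Agent.Lib.Helper94.UnitGen

set_option autoImplicit false

namespace Cfsg.Agent.Lib.Helper94.UnitRoot

open scoped Matrix
open Cfsg.Agent.Lib.Helper94.Basic Cfsg.Agent.Lib.Helper94.GLAux Cfsg.Agent.Lib.Helper94.Tv
  Cfsg.Agent.Lib.Helper94.Tv2 Cfsg.Agent.Lib.Helper94.UnitAbs Cfsg.Agent.Lib.Helper94.UnitGen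

section UtSet

variable {ι : Type} [Fintype ι] [DecidableEq ι] {F : Type*} [Field F]
variable {σ : F ≃+* F} {f : (ι → F) → (ι → F) → F}

lemma ut_not (hf : Cfsg.Geo.IsUnitaryForm σ f) (a : ι → F) (κ : F)
    (h : ¬ (f a a = 0 ∧ σ κ = -κ)) : ut hf a κ = 1 := by
  unfold ut
  rw [dif_neg h]

lemma ut_zero (hf : Cfsg.Geo.IsUnitaryForm σ f) (κ : F) : ut hf (0 : ι → F) κ = 1 := by
  by_cases h : f (0 : ι → F) 0 = 0 ∧ σ κ = -κ
  · apply gl_ext
    intro x
    rw [ut_mulVec hf _ _ h.1 h.2]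
    simp
  · exact ut_not hf _ _ h

/-- The isotropic vectors all of whose unitary transvections lie in `M`. -/
def utSet (hf : Cfsg.Geo.IsUnitaryForm σ f) (M : Subgroup (Matrix.GeneralLinearGroup ι F)) :
    Set (ι → F) := {a | f a a = 0 ∧ ∀ κ : F, ut hf a κ ∈ M}

lemma utSet_zero (hf : Cfsg.Geo.IsUnitaryForm σ f) (M : Subgroup (Matrix.GeneralLinearGroup ι F)) :
    (0 : ι → F) ∈ utSet hf M :=
  ⟨zero_left hf 0, fun κ => by rw [ut_zero]; exact M.one_mem⟩

lemma utSet_map (hf : Cfsg.Geo.IsUnitaryForm σ f) (M : Subgroup (Matrix.GeneralLinearGroup ι F))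
    (hM : ∀ g ∈ M, ∀ x y, f ((g : Matrix ι ι F) *ᵥ x) ((g : Matrix ι ι F) *ᵥ y) = f x y)
    {g : Matrix.GeneralLinearGroup ι F} (hg : g ∈ M) {a : ι → F} (ha : a ∈ utSet hf M) :
    (g : Matrix ι ι F) *ᵥ a ∈ utSet hf M := by
  refine ⟨by rw [hM g hg]; exact ha.1, fun κ => ?_⟩
  rw [← ut_conj hf g (hM g hg)]
  exact M.mul_mem (M.mul_mem hg (ha.2 κ)) (M.inv_mem hg)

lemma utSet_smul (hf : Cfsg.Geo.IsUnitaryForm σ f) (M : Subgroup (Matrix.GeneralLinearGroup ι F))
    {a : ι → F} (ha : a ∈ utSet hf M) (c : F) : c • a ∈ utSet hf M := by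
  have h1 : f (c • a) (c • a) = 0 := by rw [hf.smul_left, smul_right hf, ha.1]; ring
  refine ⟨h1, fun κ => ?_⟩
  by_cases hκ : σ κ = -κ
  · have h2 : σ (κ * (c * σ c)) = -(κ * (c * σ c)) := by
      rw [map_mul, map_mul, hf.involutive, hκ]; ring
    have e : ut hf (c • a) κ = ut hf a (κ * (c * σ c)) := by
      apply gl_ext
      intro x
      rw [ut_mulVec hf _ _ h1 hκ, ut_mulVec hf _ _ ha.1 h2, smul_right hf, smul_smul]
      congr 2
      ring
    rw [e]
    exact ha.2 _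
  · rw [ut_not hf _ _ (fun h => hκ h.2)]
    exact M.one_mem

/-- The hyperbolic line rule. -/
lemma utSet_hyp (hf : Cfsg.Geo.IsUnitaryForm σ f) (M : Subgroup (Matrix.GeneralLinearGroup ι F))
    (hM : ∀ g ∈ M, ∀ x y, f ((g : Matrix ι ι F) *ᵥ x) ((g : Matrix ι ι F) *ᵥ y) = f x y)
    {a b : ι → F} (ha : a ∈ utSet hf M) (hb : b ∈ utSet hf M) (hab : f a b ≠ 0) (μ : F)
    (hiso : f (a + μ • b) (a + μ • b) = 0) : a + μ • b ∈ utSet hf M := by
  have hba : f b a ≠ 0 := fun h => hab ((eq_zero_comm hf _ _).mp h)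
  have h1 : σ μ * f a b + μ * f b a = 0 := by
    have h := hiso
    rw [hf.add_left, add_right hf, add_right hf, hf.smul_left, hf.smul_left, smul_right hf,
      smul_right hf, ha.1, hb.1] at h
    linear_combination h
  have hκ : σ (μ / f a b) = -(μ / f a b) := by
    rw [map_div₀, herm' hf a b]
    field_simp
    linear_combination h1
  have h2 := utSet_map hf M hM (hb.2 (μ / f a b)) ha
  rwa [ut_mulVec hf _ _ hb.1 hκ, div_mul_cancel₀ _ hab] at h2

/-- If every isotropic vector is a transvection vector for `M`, then `M` contains every isometry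
of determinant one. -/
theorem mem_of_utSet_univ [Fintype F] (hf : Cfsg.Geo.IsUnitaryForm σ f)
    (hcard : 9 ≤ Fintype.card ι)
    (M : Subgroup (Matrix.GeneralLinearGroup ι F)) (h : ∀ a, f a a = 0 → a ∈ utSet hf M)
    (g : Matrix.GeneralLinearGroup ι F)
    (hg : ∀ x y, f ((g : Matrix ι ι F) *ᵥ x) ((g : Matrix ι ι F) *ᵥ y) = f x y)
    (hdet : (g : Matrix ι ι F).det = 1) : g ∈ M := by
  apply isom_mem_of_ut hf hcard M _ g hg hdet
  intro a κ
  by_cases ha : f a a = 0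
  · exact (h a ha).2 κ
  · rw [ut_not hf _ _ (fun h' => ha h'.1)]
    exact M.one_mem

/-- Every skew element is of the form `z - σ z`. -/
lemma skew_surj (hf : Cfsg.Geo.IsUnitaryForm σ f) (κ : F) (hκ : σ κ = -κ) :
    ∃ z : F, z - σ z = κ := by
  obtain ⟨κ0, hκ0, hκ0'⟩ := exists_skew_ne hf
  have ha : σ (κ / κ0) = κ / κ0 := by
    rw [map_div₀, hκ, hκ0', neg_div_neg_eq]
  obtain ⟨c, hc⟩ := tr_surj hf (κ / κ0) ha
  refine ⟨c * κ0, ?_⟩
  rw [map_mul, hκ0']
  have : (c + σ c) * κ0 = κ := by rw [hc, div_mul_cancel₀ _ hκ0]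
  linear_combination this

end UtSet

section Su

variable {ι : Type} [Fintype ι] [DecidableEq ι] {F : Type*} [Field F]
variable {σ : F ≃+* F} {f : (ι → F) → (ι → F) → F}

/-- A fixed non-zero skew element. -/
noncomputable def skew0 (hf : Cfsg.Geo.IsUnitaryForm σ f) : F :=
  Classical.choose (exists_skew_ne hf)

lemma skew0_ne (hf : Cfsg.Geo.IsUnitaryForm σ f) : skew0 hf ≠ 0 :=
  (Classical.choose_spec (exists_skew_ne hf)).1

lemma skew0_skew (hf : Cfsg.Geo.IsUnitaryForm σ f) : σ (skew0 hf) = -skew0 hf :=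
  (Classical.choose_spec (exists_skew_ne hf)).2

/-- A product of three transvections: `x ↦ x + (κ σ(l) f(x,b)) a + (κ l f(x,a)) b`. -/
lemma sv_mulVec (hf : Cfsg.Geo.IsUnitaryForm σ f) (a b : ι → F) (ha : f a a = 0)
    (hb : f b b = 0) (hab : f a b = 0) (κ : F) (hκ : σ κ = -κ) (l : F) (x : ι → F) :
    ((ut hf (a + l • b) κ * ut hf a (-κ) * ut hf (l • b) (-κ) : Matrix.GeneralLinearGroup ι F) :
      Matrix ι ι F) *ᵥ x = x + (κ * σ l * f x b) • a + (κ * l * f x a) • b := by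
  have hba : f b a = 0 := (eq_zero_comm hf _ _).mp hab
  have h1 : f (a + l • b) (a + l • b) = 0 := by
    simp only [hf.add_left, add_right hf, hf.smul_left, smul_right hf, ha, hb, hab, hba, mul_zero,
      add_zero]
  have h2 : f (l • b) (l • b) = 0 := by
    simp only [hf.smul_left, smul_right hf, hb, mul_zero]
  have hnκ : σ (-κ) = -(-κ) := by rw [map_neg, hκ]
  rw [Units.val_mul, Units.val_mul, ← Matrix.mulVec_mulVec, ← Matrix.mulVec_mulVec,
    ut_mulVec hf _ _ h2 hnκ, ut_mulVec hf _ _ ha hnκ, ut_mulVec hf _ _ h1 hκ]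
  simp only [hf.add_left, add_right hf, hf.smul_left, smul_right hf, ha, hb, hab, hba, mul_zero,
    add_zero, zero_add]
  module

open Classical in
/-- The short root element `x ↦ x + (c f(x,b)) a - (σ c f(x,a)) b` (for `a`, `b` isotropic and
orthogonal; the identity otherwise). -/
noncomputable def su (hf : Cfsg.Geo.IsUnitaryForm σ f) (a b : ι → F) (c : F) :
    Matrix.GeneralLinearGroup ι F :=
  if f a a = 0 ∧ f b b = 0 ∧ f a b = 0 then
    ut hf (a + (-σ c / skew0 hf) • b) (skew0 hf) * ut hf a (-skew0 hf) *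
      ut hf ((-σ c / skew0 hf) • b) (-skew0 hf)
  else 1

lemma su_mulVec (hf : Cfsg.Geo.IsUnitaryForm σ f) (a b : ι → F) (ha : f a a = 0)
    (hb : f b b = 0) (hab : f a b = 0) (c : F) (x : ι → F) :
    ((su hf a b c : Matrix.GeneralLinearGroup ι F) : Matrix ι ι F) *ᵥ x
      = x + (c * f x b) • a - (σ c * f x a) • b := by
  unfold su
  rw [if_pos ⟨ha, hb, hab⟩, sv_mulVec hf a b ha hb hab _ (skew0_skew hf)]
  have hκ0 := skew0_ne hf
  have e1 : skew0 hf * σ (-σ c / skew0 hf) = c := by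
    rw [map_div₀, map_neg, hf.involutive, skew0_skew hf]
    field_simp
  have e2 : skew0 hf * (-σ c / skew0 hf) = -σ c := by
    field_simp
  rw [e1, e2]
  module

lemma su_not (hf : Cfsg.Geo.IsUnitaryForm σ f) (a b : ι → F) (c : F)
    (h : ¬ (f a a = 0 ∧ f b b = 0 ∧ f a b = 0)) : su hf a b c = 1 := by
  unfold su
  rw [if_neg h]

lemma su_isom (hf : Cfsg.Geo.IsUnitaryForm σ f) (a b : ι → F) (c : F) (x y : ι → F) :
    f (((su hf a b c : Matrix.GeneralLinearGroup ι F) : Matrix ι ι F) *ᵥ x)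
      (((su hf a b c : Matrix.GeneralLinearGroup ι F) : Matrix ι ι F) *ᵥ y) = f x y := by
  unfold su
  split_ifs with h
  · simp only [Units.val_mul, ← Matrix.mulVec_mulVec, ut_isom]
  · simp

/-- Short root elements lie in every subgroup containing all unitary transvections. -/
lemma su_mem (hf : Cfsg.Geo.IsUnitaryForm σ f) (M : Subgroup (Matrix.GeneralLinearGroup ι F))
    (hM : ∀ a κ, ut hf a κ ∈ M) (a b : ι → F) (c : F) : su hf a b c ∈ M := by
  unfold su
  split_ifs with h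
  · exact M.mul_mem (M.mul_mem (hM _ _) (hM _ _)) (hM _ _)
  · exact M.one_mem

lemma su_mem_SL (hf : Cfsg.Geo.IsUnitaryForm σ f) (a b : ι → F) (c : F) :
    su hf a b c ∈ Cfsg.Geo.specialLinear ι F :=
  su_mem hf _ (fun a κ => ut_mem_SL hf a κ) a b c

lemma su_conj (hf : Cfsg.Geo.IsUnitaryForm σ f) (g : Matrix.GeneralLinearGroup ι F)
    (hg : ∀ x y, f ((g : Matrix ι ι F) *ᵥ x) ((g : Matrix ι ι F) *ᵥ y) = f x y)
    (a b : ι → F) (c : F) :
    g * su hf a b c * g⁻¹ = su hf ((g : Matrix ι ι F) *ᵥ a) ((g : Matrix ι ι F) *ᵥ b) c := by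
  by_cases h : f a a = 0 ∧ f b b = 0 ∧ f a b = 0
  · have ha' : f ((g : Matrix ι ι F) *ᵥ a) ((g : Matrix ι ι F) *ᵥ a) = 0 := by rw [hg, h.1]
    have hb' : f ((g : Matrix ι ι F) *ᵥ b) ((g : Matrix ι ι F) *ᵥ b) = 0 := by rw [hg, h.2.1]
    have hab' : f ((g : Matrix ι ι F) *ᵥ a) ((g : Matrix ι ι F) *ᵥ b) = 0 := by rw [hg, h.2.2]
    apply gl_ext
    intro x
    rw [su_mulVec hf _ _ ha' hb' hab']
    have hx : x = (g : Matrix ι ι F) *ᵥ (((g⁻¹ : Matrix.GeneralLinearGroup ι F) : Matrix ι ι F) *ᵥ x) := by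
      rw [gl_mulVec_inv]
    have e1 : f x ((g : Matrix ι ι F) *ᵥ b)
        = f (((g⁻¹ : Matrix.GeneralLinearGroup ι F) : Matrix ι ι F) *ᵥ x) b := by
      conv_lhs => rw [hx]
      rw [hg]
    have e2 : f x ((g : Matrix ι ι F) *ᵥ a)
        = f (((g⁻¹ : Matrix.GeneralLinearGroup ι F) : Matrix ι ι F) *ᵥ x) a := by
      conv_lhs => rw [hx]
      rw [hg]
    rw [e1, e2]
    simp only [Units.val_mul, ← Matrix.mulVec_mulVec]
    rw [su_mulVec hf a b h.1 h.2.1 h.2.2, Matrix.mulVec_sub, Matrix.mulVec_add, Matrix.mulVec_smul,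
      Matrix.mulVec_smul, gl_mulVec_inv]
  · have h' : ¬ (f ((g : Matrix ι ι F) *ᵥ a) ((g : Matrix ι ι F) *ᵥ a) = 0 ∧
        f ((g : Matrix ι ι F) *ᵥ b) ((g : Matrix ι ι F) *ᵥ b) = 0 ∧
        f ((g : Matrix ι ι F) *ᵥ a) ((g : Matrix ι ι F) *ᵥ b) = 0) := by
      rw [hg, hg, hg]
      exact h
    rw [su_not hf _ _ _ h, su_not hf _ _ _ h']
    group

lemma su_symm (hf : Cfsg.Geo.IsUnitaryForm σ f) (a b : ι → F) (c : F) :
    su hf b a c = su hf a b (-σ c) := by
  by_cases h : f a a = 0 ∧ f b b = 0 ∧ f a b = 0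
  · have hba : f b a = 0 := (eq_zero_comm hf _ _).mp h.2.2
    apply gl_ext
    intro x
    rw [su_mulVec hf b a h.2.1 h.1 hba, su_mulVec hf a b h.1 h.2.1 h.2.2, map_neg, hf.involutive]
    module
  · have h' : ¬ (f b b = 0 ∧ f a a = 0 ∧ f b a = 0) := by
      rintro ⟨h1, h2, h3⟩
      exact h ⟨h2, h1, (eq_zero_comm hf _ _).mp h3⟩
    rw [su_not hf _ _ _ h, su_not hf _ _ _ h']

/-- Two short root elements with a common vector commute up to a transvection. -/
lemma su_mul_su (hf : Cfsg.Geo.IsUnitaryForm σ f) (a b b' : ι → F) (ha : f a a = 0)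
    (hb : f b b = 0) (hb' : f b' b' = 0) (hab : f a b = 0) (hab' : f a b' = 0) (c c' : F) :
    su hf a b c * su hf a b' c' =
      ut hf a (c' * σ c * f b b' - c * σ c' * f b' b) * (su hf a b' c' * su hf a b c) := by
  have hba : f b a = 0 := (eq_zero_comm hf _ _).mp hab
  have hba' : f b' a = 0 := (eq_zero_comm hf _ _).mp hab'
  have hκ : σ (c' * σ c * f b b' - c * σ c' * f b' b) = -(c' * σ c * f b b' - c * σ c' * f b' b) := by
    rw [map_sub, map_mul, map_mul, map_mul, map_mul, hf.involutive, hf.involutive, herm' hf,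
      herm' hf]
    ring
  apply gl_ext
  intro x
  simp only [Units.val_mul, ← Matrix.mulVec_mulVec]
  rw [ut_mulVec hf _ _ ha hκ]
  simp only [su_mulVec hf a b ha hb hab, su_mulVec hf a b' ha hb' hab']
  simp only [hf.add_left, sub_left hf, hf.smul_left, ha, hab, hab', hba, hba', hb, hb', mul_zero,
    add_zero, sub_zero]
  module

/-- Peeling off the component along `a`. -/
lemma su_add_self (hf : Cfsg.Geo.IsUnitaryForm σ f) (a w : ι → F) (ha : f a a = 0)
    (hw : f w w = 0) (haw : f a w = 0) (l c : F) :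
    su hf a (l • a + w) c = ut hf a (c * σ l - σ c * l) * su hf a w c := by
  have hwa : f w a = 0 := (eq_zero_comm hf _ _).mp haw
  have h1 : f (l • a + w) (l • a + w) = 0 := by
    simp only [hf.add_left, add_right hf, hf.smul_left, smul_right hf, ha, hw, haw, hwa, mul_zero,
      add_zero]
  have h2 : f a (l • a + w) = 0 := by
    simp only [add_right hf, smul_right hf, ha, haw, mul_zero, add_zero]
  have hκ : σ (c * σ l - σ c * l) = -(c * σ l - σ c * l) := by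
    rw [map_sub, map_mul, map_mul, hf.involutive, hf.involutive]
    ring
  apply gl_ext
  intro x
  simp only [Units.val_mul, ← Matrix.mulVec_mulVec]
  rw [ut_mulVec hf _ _ ha hκ, su_mulVec hf a w ha hw haw, su_mulVec hf _ _ ha h1 h2]
  simp only [hf.add_left, sub_left hf, add_right hf, hf.smul_left, smul_right hf, ha, hwa,
    mul_zero, add_zero, sub_zero]
  module

end Su

section Lag

variable {ι : Type} [Fintype ι] [DecidableEq ι] {F : Type*} [Field F]
variable {σ : F ≃+* F} {f : (ι → F) → (ι → F) → F}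

/-- A pair of complementary totally isotropic subspaces. -/
structure ULag (f : (ι → F) → (ι → F) → F) (X Y : Submodule F (ι → F)) : Prop where
  isoX : ∀ x ∈ X, ∀ x' ∈ X, f x x' = 0
  isoY : ∀ y ∈ Y, ∀ y' ∈ Y, f y y' = 0
  sum : ∀ v, ∃ x ∈ X, ∃ y ∈ Y, v = x + y

lemma ULag.symm {X Y : Submodule F (ι → F)} (h : ULag f X Y) : ULag f Y X :=
  ⟨h.isoY, h.isoX, fun v => by
    obtain ⟨x, hx, y, hy, e⟩ := h.sum v
    exact ⟨y, hy, x, hx, by rw [e, add_comm]⟩⟩

/-- A vector orthogonal to `Y` lies in `Y`. -/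
lemma ULag.perp_mem (hf : Cfsg.Geo.IsUnitaryForm σ f) {X Y : Submodule F (ι → F)}
    (h : ULag f X Y) (v : ι → F) (hv : ∀ y ∈ Y, f y v = 0) : v ∈ Y := by
  obtain ⟨x, hx, y, hy, e⟩ := h.sum v
  have hx0 : x = 0 := by
    by_contra hne
    obtain ⟨z, hz⟩ := (hf.nondegenerate x hne).1
    obtain ⟨zx, hzx, zy, hzy, ez⟩ := h.sum z
    apply hz
    rw [ez, hf.add_left, h.isoX zx hzx x hx, zero_add]
    have h1 := hv zy hzy
    rw [e, add_right hf, h.isoY zy hzy y hy, add_zero] at h1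
    exact h1
  rw [e, hx0, zero_add]
  exact hy

lemma ULag.inter (hf : Cfsg.Geo.IsUnitaryForm σ f) {X Y : Submodule F (ι → F)}
    (h : ULag f X Y) (v : ι → F) (hX : v ∈ X) (hY : v ∈ Y) : v = 0 := by
  by_contra hne
  obtain ⟨z, hz⟩ := (hf.nondegenerate v hne).1
  obtain ⟨zx, hzx, zy, hzy, ez⟩ := h.sum z
  apply hz
  rw [ez, hf.add_left, h.isoX zx hzx v hX, h.isoY zy hzy v hY, add_zero]

lemma ULag.exists_ne (hf : Cfsg.Geo.IsUnitaryForm σ f) {X Y : Submodule F (ι → F)}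
    (h : ULag f X Y) (x : ι → F) (hx : x ∈ X) (hx0 : x ≠ 0) : ∃ y ∈ Y, f x y ≠ 0 := by
  obtain ⟨z, hz⟩ := (hf.nondegenerate x hx0).2
  obtain ⟨zx, hzx, zy, hzy, ez⟩ := h.sum z
  refine ⟨zy, hzy, ?_⟩
  rw [ez, add_right hf, h.isoX x hx zx hzx, zero_add] at hz
  exact hz

/-- Separation of two independent vectors of `X` by a vector of `Y`. -/
lemma ULag.exists_sep (hf : Cfsg.Geo.IsUnitaryForm σ f) {X Y : Submodule F (ι → F)}
    (h : ULag f X Y) (x x' : ι → F) (hx : x ∈ X) (hx' : x' ∈ X)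
    (hn : x' ∉ Submodule.span F {x}) : ∃ y ∈ Y, f x y = 0 ∧ f x' y ≠ 0 := by
  have hnot : x' ∉ Y ⊔ Submodule.span F {x} := by
    intro hmem
    obtain ⟨y, hy, z, hz, e⟩ := Submodule.mem_sup.mp hmem
    obtain ⟨l, rfl⟩ := Submodule.mem_span_singleton.mp hz
    have hyX : y ∈ X := by
      have : y = x' - l • x := by rw [← e]; abel
      rw [this]
      exact X.sub_mem hx' (X.smul_mem _ hx)
    have hy0 := h.inter hf y hyX hy
    rw [hy0, zero_add] at e
    exact hn (Submodule.mem_span_singleton.mpr ⟨l, e⟩)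
  obtain ⟨r, hr, hrx⟩ := exists_perp_ne hf _ x' hnot
  have hrY : r ∈ Y := h.perp_mem hf r (fun y hy => hr y (Submodule.mem_sup_left hy))
  exact ⟨r, hrY, hr x (Submodule.mem_sup_right (Submodule.mem_span_singleton_self x)), hrx⟩

/-- A non-zero vector of a subspace of dimension at least three killed by two functionals. -/
lemma exists_ker2 (hf : Cfsg.Geo.IsUnitaryForm σ f) (X : Submodule F (ι → F))
    (h3 : 3 ≤ Module.finrank F X) (a b : ι → F) : ∃ x ∈ X, x ≠ 0 ∧ f x a = 0 ∧ f x b = 0 := by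
  set ψ : X →ₗ[F] F × F := ((fR hf a).prod (fR hf b)) ∘ₗ X.subtype with hψ
  have hlt : Module.finrank F (F × F) < Module.finrank F X := by
    rw [Module.finrank_prod, Module.finrank_self]; omega
  have hker := LinearMap.ker_ne_bot_of_finrank_lt (f := ψ) hlt
  obtain ⟨x, hx, hx0⟩ := Submodule.exists_mem_ne_zero_of_ne_bot hker
  have hx' : ψ x = 0 := LinearMap.mem_ker.mp hx
  have h2 : (f (x : ι → F) a, f (x : ι → F) b) = (0, 0) := by simpa [hψ] using hx'
  exact ⟨x, x.2, fun h => hx0 (Subtype.ext h), (Prod.ext_iff.mp h2).1, (Prod.ext_iff.mp h2).2⟩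

/-- Cutting a subspace by one functional. -/
lemma sub_one (hf : Cfsg.Geo.IsUnitaryForm σ f) (A : Submodule F (ι → F)) (e w : ι → F)
    (he : e ∈ A) (hew : f e w = 1) :
    ∃ A1 : Submodule F (ι → F), (∀ a, a ∈ A1 ↔ a ∈ A ∧ f a w = 0) ∧
      Module.finrank F A1 + 1 = Module.finrank F A := by
  set ψ : A →ₗ[F] F := (fR hf w) ∘ₗ A.subtype with hψ
  have hψa : ∀ a : A, ψ a = f (a : ι → F) w := by
    intro a
    simp [hψ]
  have hsurj : Function.Surjective ψ := by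
    intro α
    refine ⟨⟨α • e, A.smul_mem _ he⟩, ?_⟩
    rw [hψa]
    simp only [hf.smul_left, hew, mul_one]
  refine ⟨(LinearMap.ker ψ).map A.subtype, ?_, ?_⟩
  · intro a
    constructor
    · rintro ⟨a', hker, rfl⟩
      have hker' : ψ a' = 0 := LinearMap.mem_ker.mp hker
      rw [hψa] at hker'
      exact ⟨a'.2, hker'⟩
    · rintro ⟨ha, h1⟩
      refine ⟨⟨a, ha⟩, ?_, rfl⟩
      have hker' : ψ ⟨a, ha⟩ = 0 := by rw [hψa]; exact h1
      exact LinearMap.mem_ker.mpr hker'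
  · rw [Submodule.finrank_map_subtype_eq]
    have h := LinearMap.finrank_range_add_finrank_ker ψ
    rw [LinearMap.range_eq_top.mpr hsurj, finrank_top, Module.finrank_self] at h
    omega

/-- Two totally isotropic subspaces in perfect duality are interchanged by a product of unitary
transvections fixing every vector orthogonal to both. -/
theorem exists_lag_swap (hf : Cfsg.Geo.IsUnitaryForm σ f) :
    ∀ (n : ℕ) (X Y : Submodule F (ι → F)), Module.finrank F X = n →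
      (∀ x ∈ X, ∀ x' ∈ X, f x x' = 0) → (∀ y ∈ Y, ∀ y' ∈ Y, f y y' = 0) →
      (∀ x ∈ X, x ≠ 0 → ∃ y ∈ Y, f x y ≠ 0) → (∀ y ∈ Y, y ≠ 0 → ∃ x ∈ X, f x y ≠ 0) →
      ∃ J : Matrix.GeneralLinearGroup ι F,
        (∀ M : Subgroup (Matrix.GeneralLinearGroup ι F), (∀ a κ, ut hf a κ ∈ M) → J ∈ M) ∧
        (∀ x y, f ((J : Matrix ι ι F) *ᵥ x) ((J : Matrix ι ι F) *ᵥ y) = f x y) ∧
        (∀ x ∈ X, (J : Matrix ι ι F) *ᵥ x ∈ Y) ∧ (∀ y ∈ Y, (J : Matrix ι ι F) *ᵥ y ∈ X) ∧
        (∀ v, (∀ x ∈ X, f x v = 0) → (∀ y ∈ Y, f y v = 0) → (J : Matrix ι ι F) *ᵥ v = v) := by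
  intro n
  induction n with
  | zero =>
    intro X Y hX hiX hiY hXY hYX
    have hX0 : X = ⊥ := Submodule.finrank_eq_zero.mp hX
    refine ⟨1, fun M _ => M.one_mem, fun x y => by simp, ?_, ?_, fun v _ _ => by simp⟩
    · intro x hx
      rw [hX0] at hx
      rw [(Submodule.mem_bot F).mp hx]
      simp
    · intro y hy
      by_cases hy0 : y = 0
      · rw [hy0]
        simp
      · obtain ⟨x, hx, hxy⟩ := hYX y hy hy0
        rw [hX0] at hx
        rw [(Submodule.mem_bot F).mp hx, zero_left hf] at hxy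
        exact absurd rfl hxy
  | succ n ih =>
    intro X Y hX hiX hiY hXY hYX
    have hX0 : X ≠ ⊥ := by
      intro h
      rw [h] at hX
      simp at hX
    obtain ⟨e, he, he0⟩ := Submodule.exists_mem_ne_zero_of_ne_bot hX0
    obtain ⟨y0, hy0, hey0⟩ := hXY e he he0
    obtain ⟨w, hw⟩ : ∃ w, w = (σ (f e y0))⁻¹ • y0 := ⟨_, rfl⟩
    have hwY : w ∈ Y := by rw [hw]; exact Y.smul_mem _ hy0
    have hew : f e w = 1 := by
      rw [hw, smul_right hf, map_inv₀, hf.involutive, inv_mul_cancel₀ hey0]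
    have hwe : f w e = 1 := by rw [hf.herm, hew, map_one]
    have hee : f e e = 0 := hiX e he e he
    have hww : f w w = 0 := hiY w hwY w hwY
    obtain ⟨X1, hX1, hX1d⟩ := sub_one hf X e w he hew
    obtain ⟨Y1, hY1, -⟩ := sub_one hf Y w e hwY hwe
    obtain ⟨J1, J1M, J1iso, J1X, J1Y, J1fix⟩ := ih X1 Y1 (by omega)
      (fun x hx x' hx' => hiX x ((hX1 x).mp hx).1 x' ((hX1 x').mp hx').1)
      (fun y hy y' hy' => hiY y ((hY1 y).mp hy).1 y' ((hY1 y').mp hy').1)
      (by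
        intro x1 hx1 hx10
        obtain ⟨hx1X, hx1w⟩ := (hX1 x1).mp hx1
        obtain ⟨y, hy, hxy⟩ := hXY x1 hx1X hx10
        refine ⟨y - f y e • w, (hY1 _).mpr ⟨Y.sub_mem hy (Y.smul_mem _ hwY), ?_⟩, ?_⟩
        · rw [sub_left hf, hf.smul_left, hwe]; ring
        · rw [sub_right hf, smul_right hf, hx1w, mul_zero, sub_zero]
          exact hxy)
      (by
        intro y1 hy1 hy10
        obtain ⟨hy1Y, hy1e⟩ := (hY1 y1).mp hy1
        obtain ⟨x, hx, hxy⟩ := hYX y1 hy1Y hy10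
        have hey1 : f e y1 = 0 := (eq_zero_comm hf _ _).mp hy1e
        refine ⟨x - f x w • e, (hX1 _).mpr ⟨X.sub_mem hx (X.smul_mem _ he), ?_⟩, ?_⟩
        · rw [sub_left hf, hf.smul_left, hew]; ring
        · rw [sub_left hf, hf.smul_left, hey1, mul_zero, sub_zero]
          exact hxy)
    -- the Weyl element of the hyperbolic pair `e, w`
    obtain ⟨κ, hκ0, hκ⟩ := exists_skew_ne hf
    have hκ' : σ (-κ⁻¹) = -(-κ⁻¹) := by rw [map_neg, map_inv₀, hκ, inv_neg]
    have nn_apply : ∀ x, ((ut hf e κ * ut hf w (-κ⁻¹) * ut hf e κ : Matrix.GeneralLinearGroup ι F) :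
        Matrix ι ι F) *ᵥ x
          = x + (κ * f x e) • e + (-κ⁻¹ * f x w) • w - f x e • w - f x w • e := by
      intro x
      rw [Units.val_mul, Units.val_mul, ← Matrix.mulVec_mulVec, ← Matrix.mulVec_mulVec,
        ut_mulVec hf e κ hee hκ, ut_mulVec hf w _ hww hκ', ut_mulVec hf e κ hee hκ]
      simp only [hf.add_left, hf.smul_left, hee, hww, hew, hwe, mul_zero, add_zero, mul_one]
      match_scalars <;> field_simp <;> ring
    have nn_iso : ∀ x y, f (((ut hf e κ * ut hf w (-κ⁻¹) * ut hf e κ : Matrix.GeneralLinearGroup ι F) :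
        Matrix ι ι F) *ᵥ x) (((ut hf e κ * ut hf w (-κ⁻¹) * ut hf e κ : Matrix.GeneralLinearGroup ι F) :
        Matrix ι ι F) *ᵥ y) = f x y := by
      intro x y
      simp only [Units.val_mul, ← Matrix.mulVec_mulVec, ut_isom]
    have J1e : (J1 : Matrix ι ι F) *ᵥ e = e :=
      J1fix e (fun x hx => hiX x ((hX1 x).mp hx).1 e he) (fun y hy => ((hY1 y).mp hy).2)
    have J1w : (J1 : Matrix ι ι F) *ᵥ w = w :=
      J1fix w (fun x hx => ((hX1 x).mp hx).2) (fun y hy => hiY y ((hY1 y).mp hy).1 w hwY)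
    refine ⟨J1 * (ut hf e κ * ut hf w (-κ⁻¹) * ut hf e κ), ?_, ?_, ?_, ?_, ?_⟩
    · intro M hM
      exact M.mul_mem (J1M M hM) (M.mul_mem (M.mul_mem (hM _ _) (hM _ _)) (hM _ _))
    · intro x y
      rw [Units.val_mul, ← Matrix.mulVec_mulVec, ← Matrix.mulVec_mulVec, J1iso, nn_iso]
    · intro x hx
      rw [Units.val_mul, ← Matrix.mulVec_mulVec, nn_apply, hiX x hx e he]
      have hx1 : x - f x w • e ∈ X1 := by
        refine (hX1 _).mpr ⟨X.sub_mem hx (X.smul_mem _ he), ?_⟩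
        rw [sub_left hf, hf.smul_left, hew]; ring
      have e1 : x + (κ * 0) • e + (-κ⁻¹ * f x w) • w - (0 : F) • w - f x w • e
          = (x - f x w • e) + (-κ⁻¹ * f x w) • w := by module
      rw [e1, Matrix.mulVec_add, Matrix.mulVec_smul, J1w]
      exact Y.add_mem ((hY1 _).mp (J1X _ hx1)).1 (Y.smul_mem _ hwY)
    · intro y hy
      rw [Units.val_mul, ← Matrix.mulVec_mulVec, nn_apply, hiY y hy w hwY]
      have hy1 : y - f y e • w ∈ Y1 := by
        refine (hY1 _).mpr ⟨Y.sub_mem hy (Y.smul_mem _ hwY), ?_⟩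
        rw [sub_left hf, hf.smul_left, hwe]; ring
      have e1 : y + (κ * f y e) • e + (-κ⁻¹ * 0) • w - f y e • w - (0 : F) • e
          = (y - f y e • w) + (κ * f y e) • e := by module
      rw [e1, Matrix.mulVec_add, Matrix.mulVec_smul, J1e]
      exact X.add_mem ((hX1 _).mp (J1Y _ hy1)).1 (X.smul_mem _ he)
    · intro v hvX hvY
      have h1 : f v w = 0 := (eq_zero_comm hf _ _).mp (hvY w hwY)
      have h2 : f v e = 0 := (eq_zero_comm hf _ _).mp (hvX e he)
      rw [Units.val_mul, ← Matrix.mulVec_mulVec, nn_apply, h1, h2]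
      have e1 : v + (κ * 0) • e + (-κ⁻¹ * 0) • w - (0 : F) • w - (0 : F) • e = v := by module
      rw [e1]
      exact J1fix v (fun x hx => hvX x ((hX1 x).mp hx).1) (fun y hy => hvY y ((hY1 y).mp hy).1)

/-- The swap of a Lagrangian pair. -/
theorem ULag.exists_swap (hf : Cfsg.Geo.IsUnitaryForm σ f) {X Y : Submodule F (ι → F)}
    (h : ULag f X Y) :
    ∃ J : Matrix.GeneralLinearGroup ι F,
      (∀ M : Subgroup (Matrix.GeneralLinearGroup ι F), (∀ a κ, ut hf a κ ∈ M) → J ∈ M) ∧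
      (∀ x y, f ((J : Matrix ι ι F) *ᵥ x) ((J : Matrix ι ι F) *ᵥ y) = f x y) ∧
      (∀ x ∈ X, (J : Matrix ι ι F) *ᵥ x ∈ Y) ∧ (∀ y ∈ Y, (J : Matrix ι ι F) *ᵥ y ∈ X) := by
  obtain ⟨J, h0, h1, h2, h3, -⟩ := exists_lag_swap hf (Module.finrank F X) X Y rfl h.isoX h.isoY
    (fun x hx hx0 => h.exists_ne hf x hx hx0)
    (fun y hy hy0 => by
      obtain ⟨x, hx, hxy⟩ := h.symm.exists_ne hf y hy hy0
      exact ⟨x, hx, fun h0 => hxy ((eq_zero_comm hf _ _).mp h0)⟩)
  exact ⟨J, h0, h1, h2, h3⟩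

end Lag

end Cfsg.Agent.Lib.Helper94.UnitRoot
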