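import Mathlib
import Cfsg.Prelude.Def_GeometricClasses
import Cfsg.Agent.Lib.Helper94.SubfieldRat
import Cfsg.Agent.Lib.Helper94.SympPair
import Cfsg.Agent.Lib.Helper94.UnitRoot

set_option autoImplicit false

namespace Cfsg.Agent.Lib.Helper94.SubfieldSp

open scoped Matrix
open Cfsg.Agent.Lib.Helper94.Basic Cfsg.Agent.Lib.Helper94.GLAux Cfsg.Agent.Lib.Helper94.Tv
  Cfsg.Agent.Lib.Helper94.UnitAbs Cfsg.Agent.Lib.Helper94.UnitGen
  Cfsg.Agent.Lib.Helper94.UnitRoot Cfsg.Agent.Lib.Helper94.SubfieldRat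
open Cfsg.Agent.Lib.Helper94.SympAbs (st st_mulVec st_isom st_mem_SL)
open Cfsg.Agent.Lib.Helper94.SympPair (exists_map_pair)
open Cfsg.Agent.Lib.Helper94.SympGen (exists_hyp_perp2)

section Abs

variable {ι : Type} [Fintype ι] [DecidableEq ι] {F : Type*} [Field F]
variable {σ : F ≃+* F} {f : (ι → F) → (ι → F) → F}

/-- A rational structure on which `ζ f` is an alternating form with values in the subfield. -/
structure RatSymp (σ : F ≃+* F) (f : (ι → F) → (ι → F) → F) (F₀ : Subfield F) (ζ : F) :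
    Prop where
  fix : ∀ x : F, x ∈ F₀ ↔ σ x = x
  ne : ζ ≠ 0
  skew : σ ζ = -ζ
  rat : ∀ u v : ι → F₀, ζ * f (up F₀ u) (up F₀ v) ∈ F₀
  alt : ∀ u : ι → F₀, f (up F₀ u) (up F₀ u) = 0

variable {F₀ : Subfield F} {ζ : F}

/-- The induced form over the subfield. -/
def f0 (hR : RatSymp σ f F₀ ζ) (u v : ι → F₀) : F₀ :=
  ⟨ζ * f (up F₀ u) (up F₀ v), hR.rat u v⟩

lemma f0_coe (hR : RatSymp σ f F₀ ζ) (u v : ι → F₀) :
    ((f0 hR u v : F₀) : F) = ζ * f (up F₀ u) (up F₀ v) := rfl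

lemma RatSymp.fixed (hR : RatSymp σ f F₀ ζ) (c : F₀) : σ (c : F) = c := (hR.fix c).mp c.2

lemma f0_skew (hf : Cfsg.Geo.IsUnitaryForm σ f) (hR : RatSymp σ f F₀ ζ) (v w : ι → F₀) :
    f0 hR v w = - f0 hR w v := by
  apply Subtype.ext
  rw [Subfield.coe_neg, f0_coe, f0_coe]
  have h1 : σ (ζ * f (up F₀ w) (up F₀ v)) = ζ * f (up F₀ w) (up F₀ v) :=
    (hR.fix _).mp (hR.rat w v)
  rw [map_mul, hR.skew, herm' hf] at h1
  linear_combination -h1

lemma f0_eq_zero (hR : RatSymp σ f F₀ ζ) (u v : ι → F₀) :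
    f0 hR u v = 0 ↔ f (up F₀ u) (up F₀ v) = 0 := by
  constructor
  · intro h
    have h1 := congrArg (fun x : F₀ => (x : F)) h
    simp only [f0_coe, ZeroMemClass.coe_zero] at h1
    exact (mul_eq_zero.mp h1).resolve_left hR.ne
  · intro h
    apply Subtype.ext
    rw [f0_coe, h, mul_zero]
    rfl

theorem f0_symp (hf : Cfsg.Geo.IsUnitaryForm σ f) (hR : RatSymp σ f F₀ ζ) :
    Cfsg.Geo.IsSymplecticForm (f0 hR) where
  bilinear :=
    { add_left := fun x y v => by
        apply Subtype.ext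
        rw [Subfield.coe_add, f0_coe, f0_coe, f0_coe, up_add, hf.add_left, mul_add]
      smul_left := fun c x v => by
        apply Subtype.ext
        rw [Subfield.coe_mul, f0_coe, f0_coe, up_smul, hf.smul_left]
        ring
      add_right := fun v x y => by
        apply Subtype.ext
        rw [Subfield.coe_add, f0_coe, f0_coe, f0_coe, up_add, add_right hf, mul_add]
      smul_right := fun c v x => by
        apply Subtype.ext
        rw [Subfield.coe_mul, f0_coe, f0_coe, up_smul, smul_right hf, hR.fixed]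
        ring }
  skew := f0_skew hf hR
  alternating := fun v => by
    apply Subtype.ext
    rw [f0_coe, hR.alt, mul_zero]
    rfl
  nondegenerate := by
    intro v hv
    have h1 : ∃ x, f0 hR x v ≠ 0 := by
      by_contra hcon
      push Not at hcon
      have hupv : up F₀ v ≠ 0 := fun h => hv ((up_eq_zero F₀ v).mp h)
      obtain ⟨x, hx⟩ := (hf.nondegenerate _ hupv).1
      apply hx
      have hz : fR hf (up F₀ v) = 0 := by
        apply LinearMap.pi_ext'
        intro i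
        apply LinearMap.ext_ring
        have h2 := (f0_eq_zero hR _ _).mp (hcon (Pi.single i 1))
        rw [up_single] at h2
        simp [h2]
      have := congrArg (fun φ : Module.Dual F (ι → F) => φ x) hz
      simpa using this
    refine ⟨h1, ?_⟩
    obtain ⟨x, hx⟩ := h1
    refine ⟨x, ?_⟩
    rw [f0_skew hf hR]
    exact neg_ne_zero.mpr hx

/-- Symplectic transvections over the subfield are unitary transvections. -/
lemma Phi_st (hf : Cfsg.Geo.IsUnitaryForm σ f) (hR : RatSymp σ f F₀ ζ) (a : ι → F₀) (c : F₀) :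
    Phi F₀ (st (f0_symp hf hR) a c) = ut hf (up F₀ a) ((c : F) * ζ) := by
  apply Units.ext
  apply Matrix.ext_of_mulVec_single
  intro j
  have hκ : σ ((c : F) * ζ) = -((c : F) * ζ) := by
    rw [map_mul, hR.fixed, hR.skew]; ring
  rw [← up_single F₀ j, Phi_mulVec, st_mulVec, ut_mulVec hf _ _ (hR.alt a) hκ, up_add, up_smul,
    Subfield.coe_mul, f0_coe]
  congr 2
  ring

lemma ut_up_mem_range (hf : Cfsg.Geo.IsUnitaryForm σ f) (hR : RatSymp σ f F₀ ζ) (a : ι → F₀)
    (κ : F) : ut hf (up F₀ a) κ ∈ (Phi F₀ (ι := ι)).range := by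
  by_cases hκ : σ κ = -κ
  · have hc : κ / ζ ∈ F₀ := by
      rw [hR.fix, map_div₀, hκ, hR.skew, neg_div_neg_eq]
    have e : κ = ((⟨κ / ζ, hc⟩ : F₀) : F) * ζ := by
      show κ = κ / ζ * ζ
      rw [div_mul_cancel₀ _ hR.ne]
    rw [e, ← Phi_st hf hR]
    exact ⟨_, rfl⟩
  · rw [ut_not hf _ _ (fun h => hκ h.2)]
    exact Subgroup.one_mem _

/-- Elements of the subfield group map rational vectors to multiples of rational vectors. -/
lemma rat_of_mem (F₀ : Subfield F) (g : Matrix.GeneralLinearGroup ι F)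
    (hg : g ∈ (Phi F₀ (ι := ι)).range ⊔ Cfsg.Geo.scalars ι F) :
    ∃ c : F, ∀ u : ι → F₀, ∃ z : ι → F₀, (g : Matrix ι ι F) *ᵥ up F₀ u = c • up F₀ z := by
  obtain ⟨y, hy, z, hz, e⟩ := Subgroup.mem_sup_of_normal_right.mp hg
  obtain ⟨h, hh⟩ := MonoidHom.mem_range.mp hy
  rw [Cfsg.Geo.mem_scalars_iff] at hz
  obtain ⟨c, hc⟩ := hz
  refine ⟨c, fun u => ⟨(h : Matrix ι ι F₀) *ᵥ u, ?_⟩⟩
  rw [← e, ← hh, Units.val_mul, ← Matrix.mulVec_mulVec, hc, Matrix.smul_mulVec, Matrix.one_mulVec,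
    Matrix.mulVec_smul, Phi_mulVec]

/-- An element of `GL` mapping every rational vector to a multiple of a rational vector lies in
the subfield group. -/
lemma mem_of_rat (F₀ : Subfield F) (hinv : ∀ a : F, σ (σ a) = a)
    (hfix : ∀ x : F, x ∈ F₀ ↔ σ x = x) (i0 : ι) (g : Matrix.GeneralLinearGroup ι F)
    (h : ∀ u : ι → F₀, ∃ (c : F) (z : ι → F₀), (g : Matrix ι ι F) *ᵥ up F₀ u = c • up F₀ z) :
    g ∈ (Phi F₀ (ι := ι)).range ⊔ Cfsg.Geo.scalars ι F := by
  choose c z hcz using fun j => h (Pi.single j 1)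
  have hg0 : ∀ x : ι → F, (g : Matrix ι ι F) *ᵥ x = 0 → x = 0 := by
    intro x hx
    apply gl_mulVec_injective g
    show (g : Matrix ι ι F) *ᵥ x = (g : Matrix ι ι F) *ᵥ 0
    rw [hx, Matrix.mulVec_zero]
  have hsingle : ∀ j : ι, up F₀ (Pi.single j (1 : F₀)) ≠ 0 := by
    intro j h0
    have := congrFun h0 j
    simp [up] at this
  have hne : ∀ j, (g : Matrix ι ι F) *ᵥ up F₀ (Pi.single j 1) ≠ 0 := fun j h0 =>
    hsingle j (hg0 _ h0)
  have hc0 : ∀ j, c j ≠ 0 := by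
    intro j h0
    apply hne j
    rw [hcz, h0, zero_smul]
  have hz0 : ∀ j, z j ≠ 0 := by
    intro j h0
    apply hne j
    rw [hcz, h0, up_zero, smul_zero]
  have key : ∀ j, c j / c i0 ∈ F₀ := by
    intro j
    by_cases hj : j = i0
    · rw [hj, div_self (hc0 i0)]
      exact F₀.one_mem
    by_contra hnot
    have hσ : σ (c j / c i0) ≠ c j / c i0 := fun e => hnot ((hfix _).mpr e)
    obtain ⟨c', z', h'⟩ := h (Pi.single i0 1 + Pi.single j 1)
    have e1 : c i0 • up F₀ (z i0) + c j • up F₀ (z j) = c' • up F₀ z' := by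
      rw [← hcz, ← hcz, ← Matrix.mulVec_add, ← up_add, h']
    obtain ⟨m1, m2, hm⟩ := decomp F₀ hinv hfix (c j / c i0) hσ (c' / c i0)
    have e2 : up F₀ (z i0) + (c j / c i0) • up F₀ (z j)
        = up F₀ (m1 • z') + (c j / c i0) • up F₀ (m2 • z') := by
      have e3 : up F₀ (z i0) + (c j / c i0) • up F₀ (z j)
          = (c i0)⁻¹ • (c i0 • up F₀ (z i0) + c j • up F₀ (z j)) := by
        rw [smul_add, smul_smul, smul_smul, inv_mul_cancel₀ (hc0 i0), one_smul, div_eq_inv_mul]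
      rw [e3, e1, smul_smul, ← div_eq_inv_mul, hm, up_smul, up_smul, add_smul, smul_smul,
        mul_comm]
    obtain ⟨h1, h2⟩ := decomp_unique F₀ _ hnot _ _ _ _ e2
    have hm1 : m1 ≠ 0 := by
      intro h0
      apply hz0 i0
      rw [h1, h0, zero_smul]
    have e4 : (g : Matrix ι ι F) *ᵥ ((c j * (m2 : F)) • up F₀ (Pi.single i0 1)
        - (c i0 * (m1 : F)) • up F₀ (Pi.single j 1)) = 0 := by
      rw [Matrix.mulVec_sub, Matrix.mulVec_smul, Matrix.mulVec_smul, hcz, hcz, h1, h2, up_smul,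
        up_smul, smul_smul, smul_smul, smul_smul, smul_smul, sub_eq_zero]
      congr 1
      ring
    have e5 := congrFun (hg0 _ e4) j
    simp only [Pi.sub_apply, Pi.smul_apply, up_apply, Pi.zero_apply, smul_eq_mul,
      Pi.single_eq_same, Pi.single_eq_of_ne hj, OneMemClass.coe_one, ZeroMemClass.coe_zero,
      mul_zero, mul_one, zero_sub, neg_eq_zero] at e5
    rcases mul_eq_zero.mp e5 with h0 | h0
    · exact hc0 i0 h0
    · exact hm1 (Subtype.ext h0)
  have hci : (c i0)⁻¹ ≠ 0 := inv_ne_zero (hc0 i0)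
  have hB : ∀ i j, ((g * sc (Units.mk0 (c i0)⁻¹ hci) : Matrix.GeneralLinearGroup ι F) :
      Matrix ι ι F) i j ∈ F₀ := by
    intro i j
    have e : ((g * sc (Units.mk0 (c i0)⁻¹ hci) : Matrix.GeneralLinearGroup ι F) :
        Matrix ι ι F) *ᵥ Pi.single j 1 = (c j / c i0) • up F₀ (z j) := by
      rw [Units.val_mul, ← Matrix.mulVec_mulVec, sc_mulVec, Matrix.mulVec_smul, ← up_single F₀ j,
        hcz, smul_smul, Units.val_mk0, div_eq_inv_mul]
    have e' := congrFun e i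
    rw [Matrix.mulVec_single_one] at e'
    simp only [Matrix.col_apply, Pi.smul_apply, up_apply, smul_eq_mul] at e'
    rw [e']
    exact F₀.mul_mem (key j) (z j i).2
  have hg : g = (g * sc (Units.mk0 (c i0)⁻¹ hci)) * sc (Units.mk0 (c i0) (hc0 i0)) := by
    apply gl_ext
    intro x
    rw [Units.val_mul, Units.val_mul, ← Matrix.mulVec_mulVec, ← Matrix.mulVec_mulVec, sc_mulVec,
      sc_mulVec, Units.val_mk0, Units.val_mk0, smul_smul, inv_mul_cancel₀ (hc0 i0), one_smul]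
  rw [hg]
  exact Subgroup.mul_mem_sup (mem_range_of_entries F₀ _ hB) (sc_mem _)

/-- Isotropic vectors have isotropic rational components. -/
lemma iso_pair (hf : Cfsg.Geo.IsUnitaryForm σ f) (hR : RatSymp σ f F₀ ζ) (θ : F) (hθ : σ θ ≠ θ)
    (u1 u2 : ι → F₀) :
    f (up F₀ u1 + θ • up F₀ u2) (up F₀ u1 + θ • up F₀ u2) = 0 ↔ f0 hR u1 u2 = 0 := by
  have h1 : σ (ζ * f (up F₀ u1) (up F₀ u2)) = ζ * f (up F₀ u1) (up F₀ u2) :=
    (hR.fix _).mp (hR.rat u1 u2)
  rw [map_mul, hR.skew, herm' hf] at h1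
  have h2 : f (up F₀ u2) (up F₀ u1) = - f (up F₀ u1) (up F₀ u2) := by
    have := hR.ne
    have h3 : ζ * (f (up F₀ u2) (up F₀ u1) + f (up F₀ u1) (up F₀ u2)) = 0 := by
      linear_combination -h1
    have h4 := (mul_eq_zero.mp h3).resolve_left hR.ne
    linear_combination h4
  have e : f (up F₀ u1 + θ • up F₀ u2) (up F₀ u1 + θ • up F₀ u2)
      = (σ θ - θ) * f (up F₀ u1) (up F₀ u2) := by
    rw [hf.add_left, add_right hf, add_right hf, hf.smul_left, hf.smul_left, smul_right hf,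
      smul_right hf, hR.alt, hR.alt, h2]
    ring
  rw [e, f0_eq_zero hR]
  constructor
  · intro h
    exact (mul_eq_zero.mp h).resolve_left (sub_ne_zero.mpr hθ)
  · intro h
    rw [h, mul_zero]

/-- The subfield group of symplectic type is maximal in the special isometry group. -/
theorem maximal [Fintype F] (hf : Cfsg.Geo.IsUnitaryForm σ f) (hcard : 9 ≤ Fintype.card ι)
    (hR : RatSymp σ f F₀ ζ) (K : Subgroup (Matrix.GeneralLinearGroup ι F))
    (hK : ∀ g : Matrix.GeneralLinearGroup ι F, g ∈ K ↔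
      (∀ x y, f ((g : Matrix ι ι F) *ᵥ x) ((g : Matrix ι ι F) *ᵥ y) = f x y) ∧
        (g : Matrix ι ι F).det = 1) :
    Cfsg.Geo.IsMaximalIn K (((Phi F₀ (ι := ι)).range ⊔ Cfsg.Geo.scalars ι F) ⊓ K) := by
  have hf0 := f0_symp hf hR
  obtain ⟨θ, hθ⟩ := exists_not_fixed hf
  have hθ' : θ ∉ F₀ := fun h => hθ ((hR.fix θ).mp h)
  have hne : Nonempty ι := by
    rw [← Fintype.card_pos_iff]; omega
  obtain ⟨i0⟩ := hne
  have hutK : ∀ a κ, ut hf a κ ∈ K := fun a κ =>
    (hK _).mpr ⟨ut_isom hf a κ, (mem_specialLinear_iff _).mp (ut_mem_SL hf a κ)⟩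
  refine ⟨lt_of_le_of_ne inf_le_right ?_, ?_⟩
  · -- properness
    intro heq
    have hu1 : (Pi.single i0 (1 : F₀) : ι → F₀) ≠ 0 := by
      intro h0
      have := congrFun h0 i0
      simp at this
    obtain ⟨u3, hu3⟩ := (hf0.nondegenerate _ hu1).1
    obtain ⟨u2, y2, h21, h23, -, -, hy⟩ :=
      exists_hyp_perp2 hf0 (by omega) (Pi.single i0 (1 : F₀)) u3
    set u1 : ι → F₀ := Pi.single i0 (1 : F₀) with hu1def
    have hu2 : u2 ≠ 0 := by
      intro h0
      apply hy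
      rw [h0]
      exact SympAbs.bil_zero_left hf0.bilinear y2
    have h12 : f0 hR u1 u2 = 0 := by
      rw [f0_skew hf hR, h21, neg_zero]
    have h32 : f0 hR u3 u2 = 0 := by
      rw [f0_skew hf hR, h23, neg_zero]
    have hiso : f (up F₀ u1 + θ • up F₀ u2) (up F₀ u1 + θ • up F₀ u2) = 0 :=
      (iso_pair hf hR θ hθ u1 u2).mpr h12
    have hk : ut hf (up F₀ u1 + θ • up F₀ u2) ζ ∈ (Phi F₀ (ι := ι)).range ⊔ Cfsg.Geo.scalars ι F := by
      have : ut hf (up F₀ u1 + θ • up F₀ u2) ζ ∈ K := hutK _ _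
      rw [← heq] at this
      exact this.1
    obtain ⟨c, hc⟩ := rat_of_mem F₀ _ hk
    obtain ⟨z, hz⟩ := hc u3
    obtain ⟨m1, m2, hm⟩ := decomp F₀ hf.involutive hR.fix θ hθ c
    have e1 : ζ * f (up F₀ u3) (up F₀ u1 + θ • up F₀ u2) = ((f0 hR u3 u1 : F₀) : F) := by
      have h32' := (f0_eq_zero hR _ _).mp h32
      rw [add_right hf, smul_right hf, h32', f0_coe]
      ring
    have e2 : up F₀ (u3 + f0 hR u3 u1 • u1) + θ • up F₀ (f0 hR u3 u1 • u2)
        = up F₀ (m1 • z) + θ • up F₀ (m2 • z) := by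
      have e3 : up F₀ (u3 + f0 hR u3 u1 • u1) + θ • up F₀ (f0 hR u3 u1 • u2)
          = ((ut hf (up F₀ u1 + θ • up F₀ u2) ζ : Matrix.GeneralLinearGroup ι F) : Matrix ι ι F)
              *ᵥ up F₀ u3 := by
        rw [ut_mulVec hf _ _ hiso hR.skew, e1, up_add, up_smul, up_smul, smul_add, smul_smul,
          smul_smul, mul_comm θ, add_assoc]
      rw [e3, hz, hm, up_smul, up_smul, add_smul, smul_smul, mul_comm θ]
    obtain ⟨h1, h2⟩ := decomp_unique F₀ θ hθ' _ _ _ _ e2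
    have hm2 : m2 ≠ 0 := by
      intro h0
      rw [h0, zero_smul] at h2
      rcases smul_eq_zero.mp h2 with h3 | h3
      · exact hu3 h3
      · exact hu2 h3
    have e4 : m2 * f0 hR z u1 = 0 := by
      rw [← hf0.bilinear.smul_left, ← h2, hf0.bilinear.smul_left, f0_skew hf hR u2 u1, h12]
      ring
    have e5 : f0 hR z u1 = 0 := (mul_eq_zero.mp e4).resolve_left hm2
    have e6 : f0 hR u3 u1 = m1 * f0 hR z u1 := by
      rw [← hf0.bilinear.smul_left, ← h1, hf0.bilinear.add_left, hf0.bilinear.smul_left,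
        hf0.alternating, mul_zero, add_zero]
    apply hu3
    rw [e6, e5, mul_zero]
  · -- maximality
    intro M hHM hMK
    by_cases hMH : M = ((Phi F₀ (ι := ι)).range ⊔ Cfsg.Geo.scalars ι F) ⊓ K
    · exact Or.inl hMH
    right
    have hMiso : ∀ g ∈ M, ∀ x y, f ((g : Matrix ι ι F) *ᵥ x) ((g : Matrix ι ι F) *ᵥ y) = f x y :=
      fun g hg => ((hK g).mp (hMK hg)).1
    have hrat : ∀ a : ι → F₀, up F₀ a ∈ utSet hf M := fun a =>
      ⟨hR.alt a, fun κ => hHM ⟨Subgroup.mem_sup_left (ut_up_mem_range hf hR a κ), hutK _ _⟩⟩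
    obtain ⟨g, hgM, hgH⟩ := SetLike.exists_of_lt (lt_of_le_of_ne hHM (Ne.symm hMH))
    have hgR : g ∉ (Phi F₀ (ι := ι)).range ⊔ Cfsg.Geo.scalars ι F := fun h => hgH ⟨h, hMK hgM⟩
    have hex : ∃ u : ι → F₀, ¬ ∃ (c : F) (z : ι → F₀),
        (g : Matrix ι ι F) *ᵥ up F₀ u = c • up F₀ z := by
      by_contra hcon
      push Not at hcon
      apply hgR
      exact mem_of_rat F₀ hf.involutive hR.fix i0 g hcon
    obtain ⟨u, hu⟩ := hex
    obtain ⟨w1, w2, hw⟩ := decomp_vec F₀ hf.involutive hR.fix θ hθ ((g : Matrix ι ι F) *ᵥ up F₀ u)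
    have hv0 : up F₀ w1 + θ • up F₀ w2 ∈ utSet hf M := by
      rw [← hw]
      exact utSet_map hf M hMiso hgM (hrat u)
    have hw1 : w1 ≠ 0 := by
      intro h0
      apply hu
      refine ⟨θ, w2, ?_⟩
      rw [hw, h0, up_zero, zero_add]
    have hw2 : w2 ∉ Submodule.span F₀ {w1} := by
      intro hmem
      obtain ⟨r, hr⟩ := Submodule.mem_span_singleton.mp hmem
      apply hu
      refine ⟨1 + θ * r, w1, ?_⟩
      rw [hw, ← hr, up_smul, add_smul, one_smul, smul_smul]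
    have hw12 : f0 hR w1 w2 = 0 := (iso_pair hf hR θ hθ w1 w2).mp hv0.1
    have hPhiM : ∀ a c, st hf0 a c ∈ M.comap (Phi F₀ (ι := ι)) := by
      intro a c
      rw [Subgroup.mem_comap, Phi_st hf hR]
      exact (hrat a).2 _
    have hall : ∀ a, f a a = 0 → a ∈ utSet hf M := by
      intro a ha
      obtain ⟨u1, u2, hau⟩ := decomp_vec F₀ hf.involutive hR.fix θ hθ a
      by_cases h1 : u1 = 0
      · rw [hau, h1, up_zero, zero_add]
        exact utSet_smul hf M (hrat u2) θ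
      by_cases h2 : u2 ∈ Submodule.span F₀ {u1}
      · obtain ⟨r, hr⟩ := Submodule.mem_span_singleton.mp h2
        have e : a = (1 + θ * r) • up F₀ u1 := by
          rw [hau, ← hr, up_smul, add_smul, one_smul, smul_smul]
        rw [e]
        exact utSet_smul hf M (hrat u1) _
      have hu12 : f0 hR u1 u2 = 0 := by
        rw [hau] at ha
        exact (iso_pair hf hR θ hθ u1 u2).mp ha
      obtain ⟨h, hhM, -, hh1, hh2⟩ := exists_map_pair hf0 w1 w2 u1 u2 hw12 hu12 hw1 h1 hw2 h2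
      have hh : Phi F₀ h ∈ M := hhM _ hPhiM
      have e : a = ((Phi F₀ h : Matrix.GeneralLinearGroup ι F) : Matrix ι ι F)
          *ᵥ (up F₀ w1 + θ • up F₀ w2) := by
        rw [Matrix.mulVec_add, Matrix.mulVec_smul, Phi_mulVec, Phi_mulVec, hh1, hh2, hau]
      rw [e]
      exact utSet_map hf M hMiso hh hv0
    apply le_antisymm hMK
    intro k hk
    obtain ⟨hk1, hk2⟩ := (hK k).mp hk
    exact mem_of_utSet_univ hf hcard M hall k hk1 hk2

end Abs

end Cfsg.Agent.Lib.Helper94.SubfieldSp
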