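import Mathlib
import Cfsg.Prelude.Def_GeometricClasses
import Cfsg.Agent.Lib.Helper94.SfLin2
import Cfsg.Agent.Lib.Helper94.SubfieldSp
import Cfsg.Agent.Lib.Helper98.SL2Sub
import Cfsg.Agent.Lib.Helper98.SL2Field
import Cfsg.Agent.Lib.Helper6.DE5

/-!
# Generation of `SL₂` by two root groups over different lattices (helper94)

* `gen3_big`, `gen3_two` : the subgroup of `SL₂(F)` generated by the `u (s + s' β)` and the
  `l (γ s)` (`s, s'` in the subfield `F₀` of prime odd index, `β ∉ F₀`, `γ ≠ 0`) is everything.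
* `hbig_of_card` : `F₀ + F₀ β` is a proper subset of `F` if the degree is at least three.
-/

set_option autoImplicit false

namespace Cfsg.Agent.Lib.Helper94.SfLin3

open scoped Matrix MatrixGroups
open Cfsg.Agent.Lib.Helper98.SL2Sub Cfsg.Agent.Lib.Helper98.SL2Field
open Cfsg.Agent.Lib.Helper98.ClassEq (Ng mem_Ng)
open Cfsg.Agent.Lib.Helper6.DE2 (cm)
open Cfsg.Agent.Lib.Helper6.DE4 (Bor mem_Bor subgroups)
open Cfsg.Agent.Lib.Helper6.DE5 (card_cent_cm')

section Gen3

variable {F : Type*} [Field F]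

theorem gen3_big [Finite F] (F₀ : Subfield F) (r : ℕ) (hr : r.Prime) (hr2 : r ≠ 2)
    (hcard : Nat.card F = Nat.card F₀ ^ r) (hq : 2 < Nat.card F₀) (β γ : F) (hβ : β ∉ F₀)
    (hγ : γ ≠ 0) :
    Subgroup.closure ({S : SL(2, F) | ∃ s ∈ F₀, ∃ s' ∈ F₀, S = u (s + s' * β)} ∪
        {S : SL(2, F) | ∃ s ∈ F₀, S = l (γ * s)}) = ⊤ := by
  have hb := hb_of_card F₀ hq
  have hsq := hsq_of_odd F₀ r hr hr2 hcard
  have hgen := hgen_of_prime F₀ r hr hcard
  obtain ⟨K, hK⟩ : ∃ K : Subgroup SL(2, F), K = Subgroup.closure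
      ({S : SL(2, F) | ∃ s ∈ F₀, ∃ s' ∈ F₀, S = u (s + s' * β)} ∪
        {S : SL(2, F) | ∃ s ∈ F₀, S = l (γ * s)}) := ⟨_, rfl⟩
  rw [← hK]
  have hu : ∀ s ∈ F₀, ∀ s' ∈ F₀, u (s + s' * β) ∈ K := by
    intro s hs s' hs'
    rw [hK]
    exact Subgroup.subset_closure (Or.inl ⟨s, hs, s', hs', rfl⟩)
  have hl : ∀ s ∈ F₀, l (γ * s) ∈ K := by
    intro s hs
    rw [hK]
    exact Subgroup.subset_closure (Or.inr ⟨s, hs, rfl⟩)
  by_cases hγ' : γ ∈ F₀
  · have htop := N_eq_top F₀ hb hsq hgen β hβ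
    have hle : N F₀ β ≤ K.comap (MulAut.conj (w⁻¹ : SL(2, F))).toMonoidHom := by
      rw [N, Subgroup.closure_le]
      rintro x (⟨a, ha, rfl⟩ | ⟨a, ha, rfl⟩)
      · show (MulAut.conj (w⁻¹ : SL(2, F))) (u a) ∈ K
        rw [MulAut.conj_apply, inv_inv]
        have e : u a = w * l (-a) * w⁻¹ := by rw [w_l_w, neg_neg]
        have e2 : (w : SL(2, F))⁻¹ * u a * w = l (-a) := by
          rw [e]
          group
        rw [e2]
        have e3 : -a = γ * (-a / γ) := by
          field_simp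
        rw [e3]
        exact hl _ (F₀.div_mem (F₀.neg_mem ha) hγ')
      · show (MulAut.conj (w⁻¹ : SL(2, F))) (l (β * a)) ∈ K
        rw [MulAut.conj_apply, inv_inv]
        have e : l (β * a) = w * u (-(β * a)) * w⁻¹ := by rw [w_u_w, neg_neg]
        have e2 : (w : SL(2, F))⁻¹ * l (β * a) * w = u (-(β * a)) := by
          rw [e]
          group
        rw [e2]
        have e3 : -(β * a) = 0 + (-a) * β := by ring
        rw [e3]
        exact hu 0 F₀.zero_mem _ (F₀.neg_mem ha)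
    rw [htop] at hle
    rw [eq_top_iff]
    intro x _
    have h1 : (MulAut.conj (w⁻¹ : SL(2, F))) (w * x * w⁻¹) ∈ K := hle (Subgroup.mem_top _)
    rw [MulAut.conj_apply, inv_inv] at h1
    have e : (w : SL(2, F))⁻¹ * (w * x * w⁻¹) * w = x := by group
    rwa [e] at h1
  · have htop := N_eq_top F₀ hb hsq hgen γ hγ'
    have hle : N F₀ γ ≤ K := by
      rw [N, Subgroup.closure_le]
      rintro x (⟨a, ha, rfl⟩ | ⟨a, ha, rfl⟩)
      · have e : a = a + 0 * β := by ring
        rw [e]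
        exact hu a ha 0 F₀.zero_mem
      · exact hl a ha
    rw [htop] at hle
    exact top_le_iff.mp hle

theorem gen3_two [Fintype F] (F₀ : Subfield F)
    (hgen : ∀ μ : F, μ ∉ F₀ → ∀ A : AddSubgroup F, (∀ a ∈ F₀, ∀ z ∈ A, a * z ∈ A) →
      (∀ z ∈ A, μ * z ∈ A) → (1 : F) ∈ A → A = ⊤)
    (hq : Nat.card F₀ = 2) (β γ : F) (hβ : β ∉ F₀) (hγ : γ ≠ 0) :
    Subgroup.closure ({S : SL(2, F) | ∃ s ∈ F₀, ∃ s' ∈ F₀, S = u (s + s' * β)} ∪
        {S : SL(2, F) | ∃ s ∈ F₀, S = l (γ * s)}) = ⊤ := by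
  have h01 : ∀ x ∈ F₀, x = 0 ∨ x = 1 := by
    intro x hx
    obtain ⟨y, hy, hyu⟩ := (Nat.card_eq_two_iff' (0 : F₀)).mp hq
    by_cases hx0 : x = 0
    · exact Or.inl hx0
    · right
      have h1 : (⟨x, hx⟩ : F₀) = y := hyu _ (fun h => hx0 (congrArg Subtype.val h))
      have h2 : (1 : F₀) = y := hyu _ one_ne_zero
      have := congrArg Subtype.val (h1.trans h2.symm)
      exact this
  have h2 : (2 : F) = 0 := by
    rcases h01 (1 + 1) (F₀.add_mem F₀.one_mem F₀.one_mem) with h | h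
    · rw [← h]
      norm_num
    · exfalso
      have : (1 : F) = 0 := by linear_combination h
      exact one_ne_zero this
  have hchar : CharP F 2 := CharTwo.of_one_ne_zero_of_two_eq_zero one_ne_zero h2
  have hβ0 : β ≠ 0 := fun h => hβ (h ▸ F₀.zero_mem)
  have hβ1 : 1 + β ≠ 0 := by
    intro h
    apply hβ
    have : β = 1 := by linear_combination h - h2
    rw [this]
    exact F₀.one_mem
  obtain ⟨K, hK⟩ : ∃ K : Subgroup SL(2, F), K = Subgroup.closure
      ({S : SL(2, F) | ∃ s ∈ F₀, ∃ s' ∈ F₀, S = u (s + s' * β)} ∪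
        {S : SL(2, F) | ∃ s ∈ F₀, S = l (γ * s)}) := ⟨_, rfl⟩
  rw [← hK]
  have hu : ∀ s ∈ F₀, ∀ s' ∈ F₀, u (s + s' * β) ∈ K := by
    intro s hs s' hs'
    rw [hK]
    exact Subgroup.subset_closure (Or.inl ⟨s, hs, s', hs', rfl⟩)
  have hl : ∀ s ∈ F₀, l (γ * s) ∈ K := by
    intro s hs
    rw [hK]
    exact Subgroup.subset_closure (Or.inr ⟨s, hs, rfl⟩)
  have hu1 : u 1 ∈ K := by
    have := hu 1 F₀.one_mem 0 F₀.zero_mem
    simpa using this
  have huβ : u β ∈ K := by
    have := hu 0 F₀.zero_mem 1 F₀.one_mem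
    simpa using this
  have hlγ : l γ ∈ K := by
    have := hl 1 F₀.one_mem
    simpa using this
  obtain ⟨g, hcase⟩ := subgroups K
  have hconj : ∀ x ∈ K, g * x * g⁻¹ ∈ K.map (MulAut.conj g).toMonoidHom := by
    intro x hx
    exact Subgroup.mem_map_of_mem _ hx
  rcases hcase with hB | ⟨t, ht, hN⟩ | ⟨k, ⟨b, hbk, hb0, hb1⟩, hS⟩
  · exfalso
    have e1 := (mem_Bor _).mp (hB (hconj _ hu1))
    have e2 := (mem_Bor _).mp (hB (hconj _ hlγ))
    rw [mul10, mul10, mul11, inv00, inv10] at e1 e2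
    simp only [u00, u01, u10, u11, l00, l01, l10, l11, mul_one, mul_zero, add_zero,
      zero_add] at e1 e2
    have hdet := det_eq g
    have hg10 : g.1 1 0 = 0 := by
      have : (g.1 1 0) ^ 2 = 0 := by linear_combination -e1
      exact pow_eq_zero_iff (two_ne_zero) |>.mp this
    have hg11 : g.1 1 1 = 0 := by
      have : γ * (g.1 1 1) ^ 2 = 0 := by linear_combination e2
      rcases mul_eq_zero.mp this with h | h
      · exact absurd h hγ
      · exact pow_eq_zero_iff (two_ne_zero) |>.mp h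
    rw [hg10, hg11] at hdet
    simp at hdet
  · exfalso
    have hinv : ∀ x : F, x ≠ 0 →
        (g * u x * g⁻¹) * (g * u x * g⁻¹) = 1 ∧ g * u x * g⁻¹ ≠ 1 := by
      intro x hx
      constructor
      · have e : (g * u x * g⁻¹) * (g * u x * g⁻¹) = g * (u x * u x) * g⁻¹ := by group
        rw [e, u_mul]
        have e2 : x + x = 0 := by linear_combination x * h2
        rw [e2, u_zero]
        group
      · intro h1
        have e : u x = 1 := by
          have h3 : g⁻¹ * (g * u x * g⁻¹) * g = g⁻¹ * 1 * g := by rw [h1]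
          rw [show g⁻¹ * (g * u x * g⁻¹) * g = u x by group, show g⁻¹ * 1 * g = 1 by group]
            at h3
          exact h3
        rw [← u_zero] at e
        exact hx (u_injective e)
    have hodd : ¬ 2 ∣ Nat.card (Subgroup.centralizer ({cm t} : Set SL(2, F))) := by
      have hev : Fintype.card F % 2 = 0 := FiniteField.even_card_of_char_two (ringChar.eq F 2)
      have hpos : 2 ≤ Fintype.card F := Fintype.one_lt_card
      rcases card_cent_cm' ht with h | h <;> rw [h] <;> omega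
    have hcent : ∀ y : SL(2, F), y ∈ Subgroup.centralizer ({cm t} : Set SL(2, F)) →
        y * y = 1 → y = 1 := by
      intro y hy hyy
      by_contra hne
      have hord : orderOf y = 2 := orderOf_eq_prime (by rw [pow_two]; exact hyy) hne
      have hd := Subgroup.orderOf_dvd_natCard _ hy
      rw [hord] at hd
      exact hodd hd
    have hy1 := hN (hconj _ hu1)
    have hy2 := hN (hconj _ huβ)
    rw [mem_Ng] at hy1 hy2
    have hy1' : (g * u 1 * g⁻¹) * cm t * (g * u 1 * g⁻¹)⁻¹ = (cm t)⁻¹ := by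
      rcases hy1 with h | h
      · exfalso
        apply (hinv 1 one_ne_zero).2
        apply hcent _ _ (hinv 1 one_ne_zero).1
        rw [Subgroup.mem_centralizer_singleton_iff]
        exact mul_inv_eq_iff_eq_mul.mp h
      · exact h
    have hy2' : (g * u β * g⁻¹) * cm t * (g * u β * g⁻¹)⁻¹ = (cm t)⁻¹ := by
      rcases hy2 with h | h
      · exfalso
        apply (hinv β hβ0).2
        apply hcent _ _ (hinv β hβ0).1
        rw [Subgroup.mem_centralizer_singleton_iff]
        exact mul_inv_eq_iff_eq_mul.mp h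
      · exact h
    have hy3 : g * u (1 + β) * g⁻¹ ∈ Subgroup.centralizer ({cm t} : Set SL(2, F)) := by
      rw [Subgroup.mem_centralizer_singleton_iff]
      have e : g * u (1 + β) * g⁻¹ = (g * u 1 * g⁻¹) * (g * u β * g⁻¹) := by
        rw [← u_mul]
        group
      rw [e]
      obtain ⟨y₁, hy₁⟩ : ∃ y₁ : SL(2, F), y₁ = g * u 1 * g⁻¹ := ⟨_, rfl⟩
      obtain ⟨y₂, hy₂⟩ : ∃ y₂ : SL(2, F), y₂ = g * u β * g⁻¹ := ⟨_, rfl⟩
      rw [← hy₁] at hy1'
      rw [← hy₂] at hy2'
      rw [← hy₁, ← hy₂]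
      have a1 : y₁ * cm t = (cm t)⁻¹ * y₁ := mul_inv_eq_iff_eq_mul.mp hy1'
      have a2 : y₂ * cm t = (cm t)⁻¹ * y₂ := mul_inv_eq_iff_eq_mul.mp hy2'
      have a1' : y₁ * (cm t)⁻¹ = cm t * y₁ := by
        calc y₁ * (cm t)⁻¹ = cm t * ((cm t)⁻¹ * y₁) * (cm t)⁻¹ := by group
          _ = cm t * (y₁ * cm t) * (cm t)⁻¹ := by rw [a1]
          _ = cm t * y₁ := by group
      calc y₁ * y₂ * cm t = y₁ * (y₂ * cm t) := mul_assoc _ _ _
        _ = y₁ * ((cm t)⁻¹ * y₂) := by rw [a2]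
        _ = (y₁ * (cm t)⁻¹) * y₂ := by group
        _ = cm t * y₁ * y₂ := by rw [a1']
        _ = cm t * (y₁ * y₂) := mul_assoc _ _ _
    exact (hinv _ hβ1).2 (hcent _ hy3 (hinv _ hβ1).1)
  · have hk : ∀ x : F, x ∈ k := by
      have hb : b ∉ F₀ := by
        intro h
        rcases h01 b h with h | h
        · exact hb0 h
        · exact hb1 h
      have hA := hgen b hb k.toSubring.toAddSubgroup (by
          intro a ha z hz
          rcases h01 a ha with h | h
          · rw [h, zero_mul]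
            exact k.zero_mem
          · rw [h, one_mul]
            exact hz) (fun z hz => k.mul_mem hbk hz) k.one_mem
      intro x
      have : x ∈ k.toSubring.toAddSubgroup := by
        rw [hA]
        trivial
      exact this
    rw [eq_top_iff]
    intro x _
    have hx : g * x * g⁻¹ ∈ Sk k := by
      rw [mem_Sk]
      exact ⟨hk _, hk _, hk _, hk _⟩
    rw [← hS] at hx
    obtain ⟨y, hy, hyx⟩ := Subgroup.mem_map.mp hx
    have hyx' : g * y * g⁻¹ = g * x * g⁻¹ := hyx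
    have : y = x := mul_left_cancel (mul_right_cancel hyx')
    rw [← this]
    exact hy

/-- `F₀ + F₀ β` is not everything when the degree is at least three. -/
lemma hbig_of_card [Finite F] (F₀ : Subfield F) (r : ℕ) (h3 : 3 ≤ r)
    (hcard : Nat.card F = Nat.card F₀ ^ r) (β : F) :
    ∃ ζ : F, ∀ s ∈ F₀, ∀ s' ∈ F₀, ζ ≠ s + s' * β := by
  by_contra hcon
  push Not at hcon
  have hsurj : Function.Surjective (fun p : F₀ × F₀ => (p.1 : F) + (p.2 : F) * β) := by
    intro ζ
    obtain ⟨s, hs, s', hs', e⟩ := hcon ζ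
    exact ⟨(⟨s, hs⟩, ⟨s', hs'⟩), e.symm⟩
  have hle := Nat.card_le_card_of_surjective _ hsurj
  rw [Nat.card_prod, hcard] at hle
  have h2 := card_subfield_two_le F₀
  have hlt : Nat.card F₀ ^ 2 < Nat.card F₀ ^ r := Nat.pow_lt_pow_right (by omega) (by omega)
  rw [pow_two] at hlt
  omega

end Gen3

section Cols

open Cfsg.Agent.Lib.Helper94.Basic Cfsg.Agent.Lib.Helper94.GLAux Cfsg.Agent.Lib.Helper94.Tv
  Cfsg.Agent.Lib.Helper94.SubfieldRat Cfsg.Agent.Lib.Helper94.SfLin1
  Cfsg.Agent.Lib.Helper94.SfLin2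

variable {ι : Type} [Fintype ι] [DecidableEq ι] {F : Type*} [Field F]

/-- Columns are multiples of rational vectors: the case of small degree. -/
theorem col_rat_small [Finite F] (F₀ : Subfield F)
    (hfin : Module.finrank F₀ F < Fintype.card ι) (h3 : 3 ≤ Fintype.card ι)
    {H : Subgroup (Matrix.GeneralLinearGroup ι F)} (hH : Hyp F₀ H)
    (g : Matrix.GeneralLinearGroup ι F) (hg : g ∈ H) (j : ι) :
    ∃ (c : F) (z : ι → F₀), (g : Matrix ι ι F) *ᵥ Pi.single j 1 = c • up F₀ z := by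
  obtain ⟨w, hwdef⟩ : ∃ w : ι → F, w = (g : Matrix ι ι F) *ᵥ Pi.single j 1 := ⟨_, rfl⟩
  rw [← hwdef]
  obtain ⟨L, hLdef⟩ : ∃ L : (ι → F₀) →ₗ[F₀] F,
      L = ∑ p, (LinearMap.proj p : (ι → F₀) →ₗ[F₀] F₀).smulRight (w p) := ⟨_, rfl⟩
  have hL : ∀ a : ι → F₀, L a = ∑ p, (a p : F) * w p := by
    intro a
    rw [hLdef]
    simp [LinearMap.sum_apply, Subfield.smul_def]
  have hker : LinearMap.ker L ≠ ⊥ := by
    apply LinearMap.ker_ne_bot_of_finrank_lt
    rw [Module.finrank_fintype_fun_eq_card]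
    exact hfin
  obtain ⟨a, ha, ha0⟩ := (Submodule.ne_bot_iff _).mp hker
  rw [LinearMap.mem_ker, hL] at ha
  obtain ⟨s, hs⟩ : ∃ s, a s ≠ 0 := by
    by_contra hcon
    push Not at hcon
    exact ha0 (funext hcon)
  have hs' : ((a s : F₀) : F) ≠ 0 := fun h => hs (Subtype.ext h)
  obtain ⟨b, hbdef⟩ : ∃ b : ι → F,
      b = fun p => (a p : F) / (a s : F) - (Pi.single s (1 : F) : ι → F) p := ⟨_, rfl⟩
  have hbmem : ∀ p, b p ∈ F₀ := by
    intro p
    rw [hbdef]
    apply F₀.sub_mem (F₀.div_mem (a p).2 (a s).2)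
    simp only [Pi.single_apply]
    split_ifs
    · exact F₀.one_mem
    · exact F₀.zero_mem
  have hbs : b s = 0 := by
    rw [hbdef]
    simp [div_self hs']
  obtain ⟨ψ, hψdef⟩ : ∃ ψ : Module.Dual F (ι → F),
      ψ = ∑ p, b p • (LinearMap.proj p : (ι → F) →ₗ[F] F) := ⟨_, rfl⟩
  have hψ : ∀ x, ψ x = ∑ p, b p * x p := by
    intro x
    rw [hψdef]
    simp [LinearMap.sum_apply]
  have hψe : ∀ q, ψ (Pi.single q 1) = b q := by
    intro q
    rw [hψ]
    simp [Pi.single_apply]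
  have hψs : ψ (Pi.single s 1) = 0 := by rw [hψe, hbs]
  have hψw : ψ w = - w s := by
    rw [hψ, hbdef]
    simp only [sub_mul, Finset.sum_sub_distrib]
    have e1 : ∑ p, (a p : F) / (a s : F) * w p = 0 := by
      have : ∑ p, (a p : F) / (a s : F) * w p = (∑ p, (a p : F) * w p) / (a s : F) := by
        rw [Finset.sum_div]
        apply Finset.sum_congr rfl
        intro p _
        ring
      rw [this, ha, zero_div]
    have e2 : ∑ p, (Pi.single s (1 : F) : ι → F) p * w p = w s := by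
      simp [Pi.single_apply]
    rw [e1, e2, zero_sub]
  have hh₁ : gtv ψ (Pi.single s 1) hψs ∈ H := by
    apply hH.rat
    · intro q
      rw [hψe]
      exact hbmem q
    · intro p
      simp only [Pi.single_apply]
      split_ifs
      · exact F₀.one_mem
      · exact F₀.zero_mem
  have hmem : gtv ψ (Pi.single s 1) hψs * g ∈ H := H.mul_mem hh₁ hg
  have hzero : (((gtv ψ (Pi.single s 1) hψs * g : Matrix.GeneralLinearGroup ι F) :
      Matrix ι ι F) *ᵥ Pi.single j 1) s = 0 := by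
    rw [Units.val_mul, ← Matrix.mulVec_mulVec, ← hwdef, gtv_mulVec, hψw]
    simp
  obtain ⟨c, z, hcz⟩ := col_of_zero hH h3 _ hmem j s hzero
  rw [Units.val_mul, ← Matrix.mulVec_mulVec, ← hwdef] at hcz
  have hw : w = c • (up F₀ z + (-ψ) (up F₀ z) • Pi.single s (1 : F)) := by
    have h1 := congrArg (fun x => (((gtv ψ (Pi.single s 1) hψs)⁻¹ :
      Matrix.GeneralLinearGroup ι F) : Matrix ι ι F) *ᵥ x) hcz
    simp only [gl_inv_mulVec] at h1
    rw [h1, Matrix.mulVec_smul, gtv_inv, gtv_mulVec]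
  obtain ⟨z', hz'⟩ := exists_up F₀ (up F₀ z + (-ψ) (up F₀ z) • Pi.single s (1 : F)) (by
    intro p
    simp only [Pi.add_apply, Pi.smul_apply, up_apply, LinearMap.neg_apply, smul_eq_mul]
    apply F₀.add_mem (z p).2
    apply F₀.mul_mem
    · apply F₀.neg_mem
      rw [hψ]
      exact F₀.sum_mem (fun p _ => F₀.mul_mem (hbmem p) (z p).2)
    · simp only [Pi.single_apply]
      split_ifs
      · exact F₀.one_mem
      · exact F₀.zero_mem)
  exact ⟨c, z', by rw [hz', ← hw]⟩

/-- Columns are multiples of rational vectors: the case of large degree. -/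
theorem col_rat_big (F₀ : Subfield F) (h4 : 4 ≤ Fintype.card ι)
    {H : Subgroup (Matrix.GeneralLinearGroup ι F)} (hH : Hyp F₀ H)
    (hN3 : ∀ β γ : F, β ∉ F₀ → γ ≠ 0 → Subgroup.closure
      ({S : SL(2, F) | ∃ s ∈ F₀, ∃ s' ∈ F₀, S = u (s + s' * β)} ∪
        {S : SL(2, F) | ∃ s ∈ F₀, S = l (γ * s)}) = ⊤)
    (hbig : ∀ β : F, ∃ ζ : F, ∀ s ∈ F₀, ∀ s' ∈ F₀, ζ ≠ s + s' * β)
    (g : Matrix.GeneralLinearGroup ι F) (hg : g ∈ H) (j : ι) :
    ∃ (c : F) (z : ι → F₀), (g : Matrix ι ι F) *ᵥ Pi.single j 1 = c • up F₀ z := by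
  by_contra hcon
  obtain ⟨w, hwdef⟩ : ∃ w : ι → F, w = (g : Matrix ι ι F) *ᵥ Pi.single j 1 := ⟨_, rfl⟩
  rw [← hwdef] at hcon
  obtain ⟨i, hi⟩ : ∃ i, w i ≠ 0 := by
    by_contra h0
    push Not at h0
    apply hcon
    refine ⟨0, 0, ?_⟩
    rw [zero_smul]
    exact funext h0
  obtain ⟨i', hi'⟩ : ∃ i', w i' / w i ∉ F₀ := by
    by_contra h0
    push Not at h0
    apply hcon
    refine ⟨w i, fun p => ⟨w p / w i, h0 p⟩, ?_⟩
    ext p
    simp only [Pi.smul_apply, up_apply, smul_eq_mul]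
    field_simp
  have hii' : i ≠ i' := by
    intro h
    apply hi'
    rw [← h, div_self hi]
    exact F₀.one_mem
  obtain ⟨t, ht⟩ := exists_notMem ({i, i'} : Finset ι)
    (lt_of_le_of_lt Finset.card_le_two (by omega))
  simp only [Finset.mem_insert, Finset.mem_singleton, not_or] at ht
  by_cases hwt : w t = 0
  · apply hcon
    rw [hwdef]
    exact col_of_zero hH (by omega) g hg j t (by rw [← hwdef]; exact hwt)
  · exact no_triple hH h4 hN3 hbig g hg j i i' t hii' (Ne.symm ht.1) (Ne.symm ht.2)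
      (by rw [← hwdef]; exact hi) (by rw [← hwdef]; exact hi') (by rw [← hwdef]; exact hwt)

/-- **Maximality of the subfield group in the special linear group.** -/
theorem main [Fintype F] (F₀ : Subfield F) (r : ℕ) (hr : r.Prime)
    (hcard : Fintype.card F = Nat.card F₀ ^ r) (h4 : 4 ≤ Fintype.card ι) :
    Cfsg.Geo.IsMaximalIn (Cfsg.Geo.specialLinear ι F)
      (((Phi F₀ (ι := ι)).range ⊔ Cfsg.Geo.scalars ι F) ⊓ Cfsg.Geo.specialLinear ι F) := by
  have hcard' : Nat.card F = Nat.card F₀ ^ r := by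
    rw [Nat.card_eq_fintype_card]
    exact hcard
  have hq2 := card_subfield_two_le F₀
  have hfin : Module.finrank F₀ F = r := by
    have h1 := Module.natCard_eq_pow_finrank (K := F₀) (V := F)
    rw [hcard'] at h1
    exact (Nat.pow_right_injective hq2 h1).symm
  have hgen := hgen_of_prime F₀ r hr hcard'
  haveI : Nontrivial ι := Fintype.one_lt_card_iff_nontrivial.mp (by omega)
  obtain ⟨i0, -⟩ := exists_notMem (∅ : Finset ι) (by rw [Finset.card_empty]; omega)
  obtain ⟨j0, hj0⟩ := exists_notMem ({i0} : Finset ι) (by rw [Finset.card_singleton]; omega)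
  rw [Finset.mem_singleton] at hj0
  refine ⟨lt_of_le_of_ne inf_le_right ?_, ?_⟩
  · intro heq
    obtain ⟨lam, hlam⟩ : ∃ lam : F, lam ∉ F₀ := by
      by_contra hcon
      push Not at hcon
      have e : Nat.card F₀ = Nat.card F :=
        Nat.card_congr (Equiv.subtypeUnivEquiv hcon)
      rw [hcard'] at e
      have hlt : Nat.card F₀ ^ 1 < Nat.card F₀ ^ r :=
        Nat.pow_lt_pow_right (by omega) hr.one_lt
      rw [pow_one] at hlt
      omega
    have hmem : el j0 i0 lam ∈ ((Phi F₀ (ι := ι)).range ⊔ Cfsg.Geo.scalars ι F) ⊓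
        Cfsg.Geo.specialLinear ι F := by
      rw [heq]
      exact el_mem_SL hj0 lam
    obtain ⟨c, hc⟩ := Cfsg.Agent.Lib.Helper94.SubfieldSp.rat_of_mem F₀ _ hmem.1
    obtain ⟨z, hz⟩ := hc (Pi.single i0 1)
    rw [up_single, el_mulVec hj0] at hz
    have e1 := congrFun hz i0
    have e2 := congrFun hz j0
    simp only [Pi.add_apply, Pi.smul_apply, smul_eq_mul, Pi.single_eq_same, up_apply, mul_one,
      Pi.single_eq_of_ne (Ne.symm hj0), Pi.single_eq_of_ne hj0, mul_zero, add_zero,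
      zero_add] at e1 e2
    have hc0 : c ≠ 0 := by
      intro h0
      rw [h0, zero_mul] at e1
      exact one_ne_zero e1
    have hz0 : ((z i0 : F₀) : F) ≠ 0 := by
      intro h0
      rw [h0, mul_zero] at e1
      exact one_ne_zero e1
    apply hlam
    have e3 : lam = ((z j0 : F₀) : F) / ((z i0 : F₀) : F) := by
      rw [eq_div_iff hz0]
      linear_combination ((z i0 : F₀) : F) * e2 - ((z j0 : F₀) : F) * e1
    rw [e3]
    exact F₀.div_mem (z j0).2 (z i0).2
  · intro M hHM hMK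
    have hrat : ∀ (φ : Module.Dual F (ι → F)) (w : ι → F) (h : φ w = 0),
        (∀ q : ι, φ (Pi.single q 1) ∈ F₀) → (∀ p : ι, w p ∈ F₀) → gtv φ w h ∈ M :=
      fun φ w h hφ hw =>
        hHM ⟨Subgroup.mem_sup_left (gtv_mem_range F₀ φ w h hφ hw), gtv_mem_SL _ _ _⟩
    have hel : ∀ i j : ι, i ≠ j → ∀ c ∈ F₀, el i j c ∈ M := fun i j hij c hc =>
      hHM ⟨Subgroup.mem_sup_left (el_mem_range F₀ hij c hc), el_mem_SL hij c⟩
    rcases lam_cases F₀ hgen M hel (by omega) with hlam | hall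
    · left
      apply le_antisymm _ hHM
      have hH : Hyp F₀ M := ⟨hrat, hlam⟩
      have hcol : ∀ g ∈ M, ∀ j : ι, ∃ (c : F) (z : ι → F₀),
          (g : Matrix ι ι F) *ᵥ Pi.single j 1 = c • up F₀ z := by
        intro g hg j
        by_cases hrn : r < Fintype.card ι
        · exact col_rat_small F₀ (by rw [hfin]; exact hrn) (by omega) hH g hg j
        · have hr3 : 3 ≤ r := by omega
          have hr2 : r ≠ 2 := by omega
          have hN3 : ∀ β γ : F, β ∉ F₀ → γ ≠ 0 → Subgroup.closure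
              ({S : SL(2, F) | ∃ s ∈ F₀, ∃ s' ∈ F₀, S = u (s + s' * β)} ∪
                {S : SL(2, F) | ∃ s ∈ F₀, S = l (γ * s)}) = ⊤ := by
            intro β γ hβ hγ
            by_cases hq : 2 < Nat.card F₀
            · exact gen3_big F₀ r hr hr2 hcard' hq β γ hβ hγ
            · exact gen3_two F₀ hgen (by omega) β γ hβ hγ
          exact col_rat_big F₀ h4 hH hN3 (hbig_of_card F₀ r hr3 hcard') g hg j
      intro g hg
      refine ⟨?_, hMK hg⟩
      apply mem_of_cols F₀ i0 g (hcol g hg)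
      intro j hj
      have h1 := hcol (g * el j i0 1) (M.mul_mem hg (hel j i0 hj 1 F₀.one_mem)) i0
      rw [Units.val_mul, ← Matrix.mulVec_mulVec, el_mulVec hj] at h1
      simpa using h1
    · right
      exact le_antisymm hMK (specialLinear_le_of_el M hall)

end Cols

end Cfsg.Agent.Lib.Helper94.SfLin3
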