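import Mathlib
import Cfsg.Prelude.Def_GeometricClasses
import Cfsg.Agent.Lib.Helper94.SfOrth2

/-!
# Overgroups of the orthogonal subfield group: the dichotomy (helper94)

For a group `M` of isometries of `Q` containing the rational Siegel elements:

* `transfer` : the parameter sets of the root subgroups of any two rational totally singular pairs
  correspond up to a rational scalar.
* `dichQ` : either all rational root elements of `M` have rational parameters (`LLq`), or `M`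
  contains all root elements of rational totally singular pairs (`AllQ`).
* `all_imp_omega` : in the second case `M` contains `Ω`.
-/

set_option autoImplicit false
set_option linter.unusedSimpArgs false

namespace Cfsg.Agent.Lib.Helper94.SfOrth3

open scoped Matrix
open Module
open Cfsg.Agent.Lib.Helper94.Basic Cfsg.Agent.Lib.Helper94.GLAux Cfsg.Agent.Lib.Helper94.Tv
  Cfsg.Agent.Lib.Helper94.QuadAbs Cfsg.Agent.Lib.Helper94.OrthSiegel
  Cfsg.Agent.Lib.Helper94.SubfieldRat Cfsg.Agent.Lib.Helper94.SfOrth1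
  Cfsg.Agent.Lib.Helper94.SfOrth2
open Cfsg.Agent.Lib.Helper94.SympAbs (bil_zero_left bil_zero_right bil_neg_left bil_neg_right
  bil_sub_left bil_sub_right fR fR_apply fRL fLeft fLeft_apply)
open Cfsg.Agent.Lib.Helper94.SfSp1 (lam_cases_abs)

section Span

variable {ι : Type} [Fintype ι] [DecidableEq ι] {K : Type*} [Field K] {Q : (ι → K) → K}

lemma nspan_of_perp (hQ : Cfsg.Geo.IsNondegenerateQuadraticForm Q) {x y f : ι → K}
    (hfx : QuadraticMap.polar Q f x ≠ 0) (hfy : QuadraticMap.polar Q f y = 0) :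
    x ∉ Submodule.span K {y} := by
  intro h
  obtain ⟨μ, rfl⟩ := Submodule.mem_span_singleton.mp h
  apply hfx
  rw [hQ.polar_bilinear.smul_right, hfy, mul_zero]

lemma nspan_of_perp' (hQ : Cfsg.Geo.IsNondegenerateQuadraticForm Q) {x y f : ι → K}
    (hx : x ≠ 0) (hfx : QuadraticMap.polar Q f x = 0) (hfy : QuadraticMap.polar Q f y ≠ 0) :
    x ∉ Submodule.span K {y} := by
  intro h
  obtain ⟨μ, rfl⟩ := Submodule.mem_span_singleton.mp h
  rw [hQ.polar_bilinear.smul_right] at hfx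
  rcases mul_eq_zero.mp hfx with h0 | h0
  · apply hx
    rw [h0, zero_smul]
  · exact hfy h0

omit [Fintype ι] [DecidableEq ι] in
lemma nspan_symm {x y : ι → K} (hx : x ≠ 0) (h : y ∉ Submodule.span K {x}) :
    x ∉ Submodule.span K {y} := by
  intro h'
  obtain ⟨μ, rfl⟩ := Submodule.mem_span_singleton.mp h'
  apply h
  have hμ : μ ≠ 0 := by
    intro h0
    apply hx
    rw [h0, zero_smul]
  rw [Submodule.mem_span_singleton]
  exact ⟨μ⁻¹, by rw [smul_smul, inv_mul_cancel₀ hμ, one_smul]⟩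

end Span

section Main

variable {ι : Type} [Fintype ι] [DecidableEq ι] {F : Type*} [Field F] [Fintype F]
variable {Q : (ι → F) → F} {F₀ : Subfield F}

/-- The context: `M` consists of isometries and contains the rational Siegel elements. -/
structure CtxO (hQ : Cfsg.Geo.IsNondegenerateQuadraticForm Q) (F₀ : Subfield F)
    (M : Subgroup (Matrix.GeneralLinearGroup ι F)) : Prop where
  iso : ∀ g ∈ M, ∀ v, Q ((g : Matrix ι ι F) *ᵥ v) = Q v
  rat : ∀ a w : ι → F₀, sg hQ (up F₀ a) (up F₀ w) ∈ M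

variable {hQ : Cfsg.Geo.IsNondegenerateQuadraticForm Q}
variable {M : Subgroup (Matrix.GeneralLinearGroup ι F)}

omit [Fintype F] in
lemma CtxO.conj (hC : CtxO hQ F₀ M) {g : Matrix.GeneralLinearGroup ι F} (hg : g ∈ M)
    {a w : ι → F} (h : sg hQ a w ∈ M) :
    sg hQ ((g : Matrix ι ι F) *ᵥ a) ((g : Matrix ι ι F) *ᵥ w) ∈ M := by
  rw [← sg_conj hQ g (hC.iso g hg)]
  exact M.mul_mem (M.mul_mem hg h) (M.inv_mem hg)

omit [Fintype F] in
lemma tr_symm (hR : RatQ Q F₀) (a s : ι → F₀) (ha : Q0 hR a = 0)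
    (hs : Q0 hR s = 0) (has : QuadraticMap.polar (Q0 hR) a s = 0) (c : F)
    (h : sg hQ (up F₀ a) (c • up F₀ s) ∈ M) : sg hQ (up F₀ s) ((-c) • up F₀ a) ∈ M := by
  rw [sg_swap hQ _ _ ((Q0_eq_zero hR a).mp ha) ((Q0_eq_zero hR s).mp hs)
    ((polar_Q0_eq_zero hR a s).mp has), neg_neg]
  exact h

lemma tr_step (hC : CtxO hQ F₀ M) (hR : RatQ Q F₀) (hcard : 13 ≤ Fintype.card ι)
    (a s s' : ι → F₀) (hs : Q0 hR s = 0) (hs' : Q0 hR s' = 0)
    (has : QuadraticMap.polar (Q0 hR) a s = 0) (has' : QuadraticMap.polar (Q0 hR) a s' = 0)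
    (hsa : s ∉ Submodule.span F₀ {a}) (hs'a : s' ∉ Submodule.span F₀ {a}) :
    ∃ lam : F₀, lam ≠ 0 ∧ ∀ c : F, sg hQ (up F₀ a) (c • up F₀ s) ∈ M →
      sg hQ (up F₀ a) ((c * (lam : F)) • up F₀ s') ∈ M := by
  classical
  haveI : Fintype F₀ := Fintype.ofFinite F₀
  have hQ0 := Q0_nd hQ hR
  have hbl := hQ0.polar_bilinear
  obtain ⟨d, hd, had, hsd, hs'd⟩ := exists_connect hQ0 hcard a s s' hsa hs'a
  obtain ⟨β, hβ⟩ : ∃ β : F₀, β = QuadraticMap.polar (Q0 hR) d s := ⟨_, rfl⟩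
  obtain ⟨β', hβ'⟩ : ∃ β' : F₀, β' = QuadraticMap.polar (Q0 hR) d s' := ⟨_, rfl⟩
  have hβ0 : β ≠ 0 := by rw [hβ, B_comm]; exact hsd
  have hβ'0 : β' ≠ 0 := by rw [hβ', B_comm]; exact hs'd
  obtain ⟨s'', hs''def⟩ : ∃ s'' : ι → F₀, s'' = (β * β'⁻¹) • s' := ⟨_, rfl⟩
  have hs'' : Q0 hR s'' = 0 := by rw [hs''def, hQ0.smul, hs', mul_zero]
  have h2 : QuadraticMap.polar (Q0 hR) d s'' = β := by
    rw [hs''def, hbl.smul_right, ← hβ', mul_assoc, inv_mul_cancel₀ hβ'0, mul_one]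
  obtain ⟨hdw, hmv⟩ := sg_move hQ0 d s s'' hd hs hs'' β hβ0 hβ.symm h2
  obtain ⟨y, hy⟩ : ∃ y : ι → F₀, y = β⁻¹ • (s'' - s) := ⟨_, rfl⟩
  rw [← hy] at hdw hmv
  have hda : QuadraticMap.polar (Q0 hR) d a = 0 := by rw [B_comm]; exact had
  have hya : QuadraticMap.polar (Q0 hR) y a = 0 := by
    rw [hy, hbl.smul_left, bil_sub_left hbl, hs''def, hbl.smul_left, B_comm (Q0 hR) s' a,
      B_comm (Q0 hR) s a, has, has']
    ring
  have hfix : ((sg hQ0 d y : Matrix.GeneralLinearGroup ι F₀) : Matrix ι ι F₀) *ᵥ a = a := by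
    rw [sg_mulVec hQ0 _ _ hd hdw, hda, hya]
    simp
  have hg : sg hQ (up F₀ d) (up F₀ y) ∈ M := hC.rat d y
  have e1 : ((sg hQ (up F₀ d) (up F₀ y) : Matrix.GeneralLinearGroup ι F) : Matrix ι ι F)
      *ᵥ up F₀ a = up F₀ a := by
    rw [← Phi_sg hQ hR, Phi_mulVec, hfix]
  have e2 : ((sg hQ (up F₀ d) (up F₀ y) : Matrix.GeneralLinearGroup ι F) : Matrix ι ι F)
      *ᵥ up F₀ s = up F₀ s'' := by
    rw [← Phi_sg hQ hR, Phi_mulVec, hmv]
  refine ⟨β * β'⁻¹, mul_ne_zero hβ0 (inv_ne_zero hβ'0), fun c h => ?_⟩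
  have h3 := hC.conj hg h
  rw [e1, Matrix.mulVec_smul, e2, hs''def, up_smul, smul_smul] at h3
  exact h3

/-- The parameter sets of two rational root subgroups correspond up to a rational scalar. -/
theorem transfer (hC : CtxO hQ F₀ M) (hR : RatQ Q F₀) (hcard : 13 ≤ Fintype.card ι)
    (a s a' s' : ι → F₀) (ha : Q0 hR a = 0) (hs : Q0 hR s = 0)
    (has : QuadraticMap.polar (Q0 hR) a s = 0) (ha0 : a ≠ 0) (hsa : s ∉ Submodule.span F₀ {a})
    (ha' : Q0 hR a' = 0) (hs' : Q0 hR s' = 0)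
    (has' : QuadraticMap.polar (Q0 hR) a' s' = 0) (ha'0 : a' ≠ 0)
    (hsa' : s' ∉ Submodule.span F₀ {a'}) :
    ∃ lam : F₀, lam ≠ 0 ∧ ∀ c : F, sg hQ (up F₀ a) (c • up F₀ s) ∈ M →
      sg hQ (up F₀ a') ((c * (lam : F)) • up F₀ s') ∈ M := by
  classical
  haveI : Fintype F₀ := Fintype.ofFinite F₀
  have hQ0 := Q0_nd hQ hR
  have hbl := hQ0.polar_bilinear
  have cm := fun x y => B_comm (Q0 hR) x y
  have hs0 : s ≠ 0 := fun h => hsa (h ▸ Submodule.zero_mem _)
  obtain ⟨fs, -, hfs⟩ := exists_partner hQ0 s hs0 hs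
  obtain ⟨fa, -, hfa⟩ := exists_partner hQ0 a' ha'0 ha'
  obtain ⟨y, hy0, hy, hyp⟩ :=
    exists_sing_perp_fam hQ0 (![s, a', fs, fa] : Fin 4 → (ι → F₀)) (by omega)
  have hsy : QuadraticMap.polar (Q0 hR) s y = 0 := hyp 0
  have hay : QuadraticMap.polar (Q0 hR) a' y = 0 := hyp 1
  have hfsy : QuadraticMap.polar (Q0 hR) fs y = 0 := hyp 2
  have hfay : QuadraticMap.polar (Q0 hR) fa y = 0 := hyp 3
  have one0 : (1 : F₀) ≠ 0 := one_ne_zero
  have n1 : a ∉ Submodule.span F₀ {s} := nspan_symm ha0 hsa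
  have n2 : y ∉ Submodule.span F₀ {s} :=
    nspan_of_perp' hQ0 hy0 hfsy (by rw [cm, hfs]; exact one0)
  have n3 : s ∉ Submodule.span F₀ {y} :=
    nspan_of_perp hQ0 (by rw [cm, hfs]; exact one0) hfsy
  have n4 : a' ∉ Submodule.span F₀ {y} :=
    nspan_of_perp hQ0 (by rw [cm, hfa]; exact one0) hfay
  have n5 : y ∉ Submodule.span F₀ {a'} :=
    nspan_of_perp' hQ0 hy0 hfay (by rw [cm, hfa]; exact one0)
  obtain ⟨l1, hl1, t1⟩ := tr_step hC hR hcard s a y ha hy ((cm s a).trans has) hsy n1 n2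
  obtain ⟨l2, hl2, t2⟩ := tr_step hC hR hcard y s a' hs ha' ((cm y s).trans hsy)
    ((cm y a').trans hay) n3 n4
  obtain ⟨l3, hl3, t3⟩ := tr_step hC hR hcard a' y s' hy hs' hay has' n5 hsa'
  refine ⟨-(l1 * l2 * l3), neg_ne_zero.mpr (mul_ne_zero (mul_ne_zero hl1 hl2) hl3), fun c h => ?_⟩
  have h1 := tr_symm hR a s ha hs has c h
  have h2 := t1 _ h1
  have h3 := tr_symm hR s y hs hy hsy _ h2
  have h4 := t2 _ h3
  have h5 := tr_symm hR y a' hy ha' ((cm y a').trans hay) _ h4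
  have h6 := t3 _ h5
  have e : -(-(-c * (l1 : F)) * (l2 : F)) * (l3 : F) = c * ((-(l1 * l2 * l3) : F₀) : F) := by
    push_cast
    ring
  rw [e] at h6
  exact h6

/-- The rational root elements of `M` have rational parameters. -/
def LLq (hQ : Cfsg.Geo.IsNondegenerateQuadraticForm Q) (hR : RatQ Q F₀)
    (M : Subgroup (Matrix.GeneralLinearGroup ι F)) : Prop :=
  ∀ a s : ι → F₀, Q0 hR a = 0 → Q0 hR s = 0 → QuadraticMap.polar (Q0 hR) a s = 0 → a ≠ 0 →
    s ∉ Submodule.span F₀ {a} → ∀ c : F, sg hQ (up F₀ a) (c • up F₀ s) ∈ M → c ∈ F₀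

/-- `M` contains all root elements of rational totally singular pairs. -/
def AllQ (hQ : Cfsg.Geo.IsNondegenerateQuadraticForm Q) (hR : RatQ Q F₀)
    (M : Subgroup (Matrix.GeneralLinearGroup ι F)) : Prop :=
  ∀ a s : ι → F₀, Q0 hR a = 0 → Q0 hR s = 0 → QuadraticMap.polar (Q0 hR) a s = 0 →
    ∀ c : F, sg hQ (up F₀ a) (c • up F₀ s) ∈ M

theorem dichQ (hR : RatQ Q F₀)
    (hgen : ∀ μ : F, μ ∉ F₀ → ∀ A : AddSubgroup F, (∀ a ∈ F₀, ∀ z ∈ A, a * z ∈ A) →
      (∀ z ∈ A, μ * z ∈ A) → (1 : F) ∈ A → A = ⊤)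
    (hC : CtxO hQ F₀ M) (hcard : 13 ≤ Fintype.card ι) : LLq hQ hR M ∨ AllQ hQ hR M := by
  classical
  haveI : Fintype F₀ := Fintype.ofFinite F₀
  have hQ0 := Q0_nd hQ hR
  have hbl := hQ.polar_bilinear
  obtain ⟨e, f, he, hf, hee, hff, hpair, hone⟩ := exists_frame3 hQ0 hcard
  have he' : ∀ i, Q (up F₀ (e i)) = 0 := fun i => (Q0_eq_zero hR _).mp (he i)
  have hf' : ∀ i, Q (up F₀ (f i)) = 0 := fun i => (Q0_eq_zero hR _).mp (hf i)
  have hee' : ∀ i j, QuadraticMap.polar Q (up F₀ (e i)) (up F₀ (e j)) = 0 :=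
    fun i j => (polar_Q0_eq_zero hR _ _).mp (hee i j)
  have hff' : ∀ i j, QuadraticMap.polar Q (up F₀ (f i)) (up F₀ (f j)) = 0 :=
    fun i j => (polar_Q0_eq_zero hR _ _).mp (hff i j)
  have hpair' : ∀ i j, i ≠ j → QuadraticMap.polar Q (up F₀ (e i)) (up F₀ (f j)) = 0 :=
    fun i j h => (polar_Q0_eq_zero hR _ _).mp (hpair i j h)
  have hone' : ∀ i, QuadraticMap.polar Q (up F₀ (e i)) (up F₀ (f i)) = 1 :=
    fun i => (polar_Q0_eq_one hR _ _).mp (hone i)
  obtain ⟨E, hE⟩ : ∃ E : Fin 3 → Fin 3 → F → Matrix.GeneralLinearGroup ι F,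
      E = fun i j c => sg hQ (up F₀ (e j)) (c • up F₀ (f i)) := ⟨_, rfl⟩
  have hmul : ∀ i j, i ≠ j → ∀ c d, E i j c * E i j d = E i j (c + d) := by
    intro i j hij c d
    rw [hE]
    show sg hQ _ _ * sg hQ _ _ = sg hQ _ _
    rw [sg_mul hQ _ _ _ (he' j) (by rw [hbl.smul_right, hpair' j i hij.symm, mul_zero])
      (by rw [hbl.smul_right, hpair' j i hij.symm, mul_zero]), add_smul]
  have hcomm : ∀ i j k, i ≠ j → j ≠ k → i ≠ k → ∀ c d,
      E i j c * E j k d * (E i j c)⁻¹ * (E j k d)⁻¹ = E i k (c * d) := by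
    intro i j k hij hjk hik c d
    rw [hE]
    exact steinberg_sg hQ (fun i => up F₀ (e i)) (fun i => up F₀ (f i)) he' hf' hee' hff' hpair'
      hone' i j k hij hjk hik c d
  have hH : ∀ i j, i ≠ j → ∀ c ∈ F₀, E i j c ∈ M := by
    intro i j _ c hc
    rw [hE]
    have e1 : c • up F₀ (f i) = up F₀ ((⟨c, hc⟩ : F₀) • f i) := by rw [up_smul]
    show sg hQ _ _ ∈ M
    rw [e1]
    exact hC.rat _ _
  have e10 : e 1 ≠ 0 := by
    intro h0
    have := hone 1
    rw [h0, bil_zero_left hQ0.polar_bilinear] at this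
    exact zero_ne_one this
  have hn : f 0 ∉ Submodule.span F₀ {e 1} :=
    nspan_of_perp hQ0 (by rw [hone 0]; exact one_ne_zero) (hee 0 1)
  rcases lam_cases_abs E hmul hcomm F₀ hgen M hH (by simp) with hl | hr
  · left
    intro a s ha hs has ha0 hsa c hc
    obtain ⟨lam, hlam, t⟩ := transfer hC hR hcard a s (e 1) (f 0) ha hs has ha0 hsa (he 1) (hf 0)
      (hpair 1 0 (by decide)) e10 hn
    have h1 := t c hc
    have h2 : c * (lam : F) ∈ F₀ := by
      apply hl 0 1 (by decide)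
      rw [hE]
      exact h1
    have hlam' : (lam : F) ≠ 0 := fun h => hlam (Subtype.ext h)
    have e2 : c = c * (lam : F) / (lam : F) := by rw [mul_div_assoc, div_self hlam', mul_one]
    rw [e2]
    exact F₀.div_mem h2 lam.2
  · right
    intro a s ha hs has c
    by_cases ha0 : a = 0
    · rw [ha0, up_zero, sg_zero_left]
      exact M.one_mem
    by_cases hsa : s ∈ Submodule.span F₀ {a}
    · obtain ⟨μ, rfl⟩ := Submodule.mem_span_singleton.mp hsa
      rw [up_smul, smul_smul, sg_self]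
      exact M.one_mem
    obtain ⟨lam, hlam, t⟩ := transfer hC hR hcard (e 1) (f 0) a s (he 1) (hf 0)
      (hpair 1 0 (by decide)) e10 hn ha hs has ha0 hsa
    have hlam' : (lam : F) ≠ 0 := fun h => hlam (Subtype.ext h)
    have h1 : sg hQ (up F₀ (e 1)) ((c / (lam : F)) • up F₀ (f 0)) ∈ M := by
      have := hr 0 1 (by decide) (c / (lam : F))
      rw [hE] at this
      exact this
    have h2 := t _ h1
    rw [div_mul_cancel₀ c hlam'] at h2
    exact h2

/-- A rational singular vector is a Siegel centre for `M` if `M` contains all rational root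
elements. -/
lemma up_mem_sgSet (hR : RatQ Q F₀) (hcard : 13 ≤ Fintype.card ι)
    (hAll : AllQ hQ hR M) (a : ι → F₀) (ha0 : a ≠ 0) (ha : Q0 hR a = 0) :
    up F₀ a ∈ sgSet hQ M := by
  classical
  haveI : Fintype F₀ := Fintype.ofFinite F₀
  have hQ0 := Q0_nd hQ hR
  have hbl := hQ.polar_bilinear
  have hbl0 := hQ0.polar_bilinear
  have ha' : Q (up F₀ a) = 0 := (Q0_eq_zero hR a).mp ha
  refine ⟨ha', fun w => ?_⟩
  by_cases hw : QuadraticMap.polar Q (up F₀ a) w = 0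
  swap
  · rw [sg_not hQ _ _ (fun h => hw h.2)]
    exact M.one_mem
  obtain ⟨fa, hfa, hafa⟩ := exists_partner hQ0 a ha0 ha
  obtain ⟨v, hv⟩ : ∃ v : ι → (ι → F₀), v = fun i =>
      Pi.single i 1 - QuadraticMap.polar (Q0 hR) a (Pi.single i 1) • fa := ⟨_, rfl⟩
  have hsum : w = ∑ i, w i • up F₀ (v i) := by
    have h1 : w = ∑ i, w i • (Pi.single i 1 : ι → F) := pi_eq_sum_univ' w
    have h2 : QuadraticMap.polar Q (up F₀ a) w
        = ∑ i, w i * QuadraticMap.polar Q (up F₀ a) (Pi.single i 1) := by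
      have h3 : fLeft hbl (up F₀ a) w = fLeft hbl (up F₀ a) (∑ i, w i • (Pi.single i 1 : ι → F)) := by
        rw [← h1]
      rw [map_sum] at h3
      simp only [map_smul, fLeft_apply, smul_eq_mul] at h3
      exact h3
    have h4 : ∀ i, w i • up F₀ (v i) = w i • (Pi.single i 1 : ι → F)
        - (w i * QuadraticMap.polar Q (up F₀ a) (Pi.single i 1)) • up F₀ fa := by
      intro i
      rw [hv, up_sub, up_smul, polar_Q0, up_single]
      module
    simp only [h4]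
    rw [Finset.sum_sub_distrib, ← h1, ← Finset.sum_smul, ← h2, hw, zero_smul, sub_zero]
  rw [hsum]
  have key : QuadraticMap.polar Q (up F₀ a) (∑ i, w i • up F₀ (v i)) = 0 ∧
      sg hQ (up F₀ a) (∑ i, w i • up F₀ (v i)) ∈ M := by
    apply Finset.sum_induction (fun i => w i • up F₀ (v i))
      (fun x => QuadraticMap.polar Q (up F₀ a) x = 0 ∧ sg hQ (up F₀ a) x ∈ M)
    · rintro x y ⟨hx1, hx2⟩ ⟨hy1, hy2⟩
      refine ⟨by rw [hbl.add_right, hx1, hy1, add_zero], ?_⟩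
      rw [← sg_mul hQ _ _ _ ha' hx1 hy1]
      exact M.mul_mem hx2 hy2
    · refine ⟨bil_zero_right hbl _, ?_⟩
      rw [sg_zero_right]
      exact M.one_mem
    · intro i _
      have hav : QuadraticMap.polar (Q0 hR) a (v i) = 0 := by
        rw [hv]
        simp only [bil_sub_right hbl0, hbl0.smul_right, hafa]
        ring
      obtain ⟨v', hv'⟩ : ∃ v' : ι → F₀, v' = v i - QuadraticMap.polar (Q0 hR) (v i) fa • a :=
        ⟨_, rfl⟩
      have h1 : QuadraticMap.polar (Q0 hR) a v' = 0 := by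
        rw [hv', bil_sub_right hbl0, hbl0.smul_right, hav, polar_self_sing hQ0 a ha]
        ring
      have h2 : QuadraticMap.polar (Q0 hR) fa v' = 0 := by
        rw [hv', bil_sub_right hbl0, hbl0.smul_right, B_comm (Q0 hR) fa a, hafa,
          B_comm (Q0 hR) fa (v i)]
        ring
      obtain ⟨s₁, s₂, s₃, hs₁, hs₂, hs₃, p₁, p₂, p₃, hdec⟩ :=
        sum_sing3_fam hQ0 (![a, fa] : Fin 2 → (ι → F₀)) (by omega) v' (by
          intro j
          fin_cases j
          · exact h1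
          · exact h2)
      have q₁ : QuadraticMap.polar (Q0 hR) a s₁ = 0 := p₁ 0
      have q₂ : QuadraticMap.polar (Q0 hR) a s₂ = 0 := p₂ 0
      have q₃ : QuadraticMap.polar (Q0 hR) a s₃ = 0 := p₃ 0
      have e : w i • up F₀ (v i) = (w i * ((QuadraticMap.polar (Q0 hR) (v i) fa : F₀) : F)) • up F₀ a
          + w i • up F₀ s₁ + w i • up F₀ s₂ + w i • up F₀ s₃ := by
        have e' : v i = QuadraticMap.polar (Q0 hR) (v i) fa • a + s₁ + s₂ + s₃ := by
          rw [add_assoc, add_assoc, ← add_assoc s₁, ← hdec, hv']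
          abel
        conv_lhs => rw [e']
        rw [up_add, up_add, up_add, up_smul]
        module
      have z₁ : QuadraticMap.polar Q (up F₀ a) (w i • up F₀ s₁) = 0 := by
        rw [hbl.smul_right, (polar_Q0_eq_zero hR a s₁).mp q₁, mul_zero]
      have z₂ : QuadraticMap.polar Q (up F₀ a) (w i • up F₀ s₂) = 0 := by
        rw [hbl.smul_right, (polar_Q0_eq_zero hR a s₂).mp q₂, mul_zero]
      have z₃ : QuadraticMap.polar Q (up F₀ a) (w i • up F₀ s₃) = 0 := by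
        rw [hbl.smul_right, (polar_Q0_eq_zero hR a s₃).mp q₃, mul_zero]
      have z₀ : ∀ t : F, QuadraticMap.polar Q (up F₀ a) (t • up F₀ a) = 0 := by
        intro t
        rw [hbl.smul_right, polar_self_sing hQ _ ha', mul_zero]
      rw [e]
      refine ⟨by rw [hbl.add_right, hbl.add_right, hbl.add_right, z₀, z₁, z₂, z₃]; ring, ?_⟩
      rw [← sg_mul hQ _ _ _ ha' (by rw [hbl.add_right, hbl.add_right, z₀, z₁, z₂]; ring) z₃,
        ← sg_mul hQ _ _ _ ha' (by rw [hbl.add_right, z₀, z₁]; ring) z₂,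
        ← sg_mul hQ _ _ _ ha' (z₀ _) z₁, sg_self, one_mul]
      exact M.mul_mem (M.mul_mem (hAll a s₁ ha hs₁ q₁ _) (hAll a s₂ ha hs₂ q₂ _))
        (hAll a s₃ ha hs₃ q₃ _)
  exact key.2

/-- If `M` contains all rational root elements then it contains `Ω`. -/
theorem all_imp_omega (hC : CtxO hQ F₀ M) (hR : RatQ Q F₀) (hcard : 13 ≤ Fintype.card ι)
    (hAll : AllQ hQ hR M) : Cfsg.Geo.omegaGL Q ≤ M := by
  classical
  haveI : Fintype F₀ := Fintype.ofFinite F₀
  have hQ0 := Q0_nd hQ hR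
  obtain ⟨e₀, f₀, -, -, he₀, hf₀, hef₀⟩ :=
    exists_hyp_fam hQ0 (Fin.elim0 : Fin 0 → (ι → F₀)) (by omega)
  have e0 : e₀ ≠ 0 := by
    intro h0
    rw [h0, bil_zero_left hQ0.polar_bilinear] at hef₀
    exact zero_ne_one hef₀
  have f0 : f₀ ≠ 0 := by
    intro h0
    rw [h0, bil_zero_right hQ0.polar_bilinear] at hef₀
    exact zero_ne_one hef₀
  apply omega_le_of_pair hQ hcard M hC.iso (up_mem_sgSet hR hcard hAll e₀ e0 he₀)
    (up_mem_sgSet hR hcard hAll f₀ f0 hf₀)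
  rw [(polar_Q0_eq_one hR e₀ f₀).mp hef₀]
  exact one_ne_zero

end Main

end Cfsg.Agent.Lib.Helper94.SfOrth3
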