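import Mathlib
import Cfsg.Prelude.Def_GeometricClasses
import Cfsg.Agent.Lib.Helper94.SfOrth3

/-!
# Overgroups of the orthogonal subfield group: rationality, quadratic case (helper94)

* `pair_mem_of_sg` : a Siegel element of `M` with rational centre has a rational parameter
  vector (modulo the centre).
* `rat_two` : for a quadratic extension, the image under an element of `M` of a rational singular
  vector is a multiple of a rational vector.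
-/

set_option autoImplicit false
set_option linter.unusedSimpArgs false

namespace Cfsg.Agent.Lib.Helper94.SfOrth4

open scoped Matrix
open Module
open Cfsg.Agent.Lib.Helper94.Basic Cfsg.Agent.Lib.Helper94.GLAux Cfsg.Agent.Lib.Helper94.Tv
  Cfsg.Agent.Lib.Helper94.QuadAbs Cfsg.Agent.Lib.Helper94.OrthSiegel
  Cfsg.Agent.Lib.Helper94.SubfieldRat Cfsg.Agent.Lib.Helper94.SfOrth1
  Cfsg.Agent.Lib.Helper94.SfOrth2 Cfsg.Agent.Lib.Helper94.SfOrth3
open Cfsg.Agent.Lib.Helper94.SympAbs (bil_zero_left bil_zero_right bil_neg_left bil_neg_right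
  bil_sub_left bil_sub_right fR fR_apply fRL fLeft fLeft_apply)

section Aux

variable {ι : Type} [Fintype ι] [DecidableEq ι] {F : Type*} [Field F]
variable {Q : (ι → F) → F} {F₀ : Subfield F}

omit [Fintype ι] [DecidableEq ι] in
/-- Uniqueness of components along `1, θ`. -/
lemma comp_zeroQ (θ : F) (hθ : θ ∉ F₀) (s t : F₀) (h : (s : F) + θ * (t : F) = 0) :
    s = 0 ∧ t = 0 := by
  have ht : t = 0 := by
    by_contra ht
    have ht' : (t : F) ≠ 0 := fun h0 => ht (Subtype.ext h0)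
    apply hθ
    have e : θ = -(s : F) / (t : F) := by
      field_simp
      linear_combination h
    rw [e]
    exact F₀.div_mem (F₀.neg_mem s.2) t.2
  refine ⟨?_, ht⟩
  rw [ht] at h
  apply Subtype.ext
  simpa using h

omit [Fintype ι] [DecidableEq ι] in
lemma scalar_memQ (F₀ : Subfield F) (x z : ι → F₀) (l : F) (hx : x ≠ 0)
    (h : up F₀ x = l • up F₀ z) : l ∈ F₀ := by
  obtain ⟨i, hi⟩ : ∃ i, x i ≠ 0 := by
    by_contra hc
    push Not at hc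
    exact hx (funext hc)
  have hli : (x i : F) = l * (z i : F) := by
    have h1 := congrFun h i
    simpa using h1
  have hxi : (x i : F) ≠ 0 := fun h0 => hi (Subtype.ext h0)
  have hzi : (z i : F) ≠ 0 := by
    intro h0
    rw [h0, mul_zero] at hli
    exact hxi hli
  have e : l = (x i : F) / (z i : F) := by
    rw [hli]
    field_simp
  rw [e]
  exact F₀.div_mem (x i).2 (z i).2

omit [Fintype ι] [DecidableEq ι] in
lemma decomp_vecQ (θ : F) (hθ : ∀ x : F, ∃ a b : F₀, x = (a : F) + (b : F) * θ) (x : ι → F) :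
    ∃ x₁ x₂ : ι → F₀, x = up F₀ x₁ + θ • up F₀ x₂ := by
  choose x₁ x₂ hx using fun i => hθ (x i)
  refine ⟨x₁, x₂, ?_⟩
  ext i
  simp [hx i, mul_comm]

lemma polar_dec (hQ : Cfsg.Geo.IsNondegenerateQuadraticForm Q) (hR : RatQ Q F₀) (θ : F)
    (x₁ x₂ b : ι → F₀) :
    QuadraticMap.polar Q (up F₀ x₁ + θ • up F₀ x₂) (up F₀ b)
      = ((QuadraticMap.polar (Q0 hR) x₁ b : F₀) : F)
        + θ * ((QuadraticMap.polar (Q0 hR) x₂ b : F₀) : F) := by
  rw [hQ.polar_bilinear.add_left, hQ.polar_bilinear.smul_left, polar_Q0, polar_Q0]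

lemma polar_dec_zero (hQ : Cfsg.Geo.IsNondegenerateQuadraticForm Q) (hR : RatQ Q F₀) (θ : F)
    (x₁ x₂ b : ι → F₀) (h1 : QuadraticMap.polar (Q0 hR) x₁ b = 0)
    (h2 : QuadraticMap.polar (Q0 hR) x₂ b = 0) :
    QuadraticMap.polar Q (up F₀ x₁ + θ • up F₀ x₂) (up F₀ b) = 0 := by
  rw [polar_dec hQ hR, h1, h2]
  simp

end Aux

section Main

variable {ι : Type} [Fintype ι] [DecidableEq ι] {F : Type*} [Field F] [Fintype F]
variable {Q : (ι → F) → F} {F₀ : Subfield F}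
variable {hQ : Cfsg.Geo.IsNondegenerateQuadraticForm Q}
variable {M : Subgroup (Matrix.GeneralLinearGroup ι F)}

/-- A Siegel element of `M` with rational centre has rational parameter vector, in the sense
that its pairings with the rational singular vectors orthogonal to the centre are rational. -/
theorem pair_mem_of_sg (hC : CtxO hQ F₀ M) (hR : RatQ Q F₀) (hcard : 13 ≤ Fintype.card ι)
    (hLL : LLq hQ hR M) (v : ι → F₀) (hv0 : v ≠ 0) (hv : Q0 hR v = 0) (w : ι → F)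
    (hvw : QuadraticMap.polar Q (up F₀ v) w = 0) (hmem : sg hQ (up F₀ v) w ∈ M)
    (d : ι → F₀) (hd : Q0 hR d = 0) (hvd : QuadraticMap.polar (Q0 hR) v d = 0) :
    QuadraticMap.polar Q w (up F₀ d) ∈ F₀ := by
  classical
  haveI : Fintype F₀ := Fintype.ofFinite F₀
  have hQ0 := Q0_nd hQ hR
  have hbl := hQ.polar_bilinear
  have hbl0 := hQ0.polar_bilinear
  have cm := fun x y => B_comm (Q0 hR) x y
  have z0 := fun x y => (polar_Q0_eq_zero hR x y).mp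
  obtain ⟨y, d', h1, h2, hy, hd', hyd'⟩ :=
    exists_hyp_fam hQ0 (![v, d] : Fin 2 → (ι → F₀)) (by omega)
  have hvy : QuadraticMap.polar (Q0 hR) v y = 0 := h1 0
  have hdy : QuadraticMap.polar (Q0 hR) d y = 0 := h1 1
  have hvd' : QuadraticMap.polar (Q0 hR) v d' = 0 := h2 0
  have hdd' : QuadraticMap.polar (Q0 hR) d d' = 0 := h2 1
  obtain ⟨fv, -, hfv⟩ := exists_partner hQ0 v hv0 hv
  obtain ⟨y', hy'0, hy', hp⟩ :=
    exists_sing_perp_fam hQ0 (![v, d, y, d', fv] : Fin 5 → (ι → F₀)) (by omega)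
  have hvy' : QuadraticMap.polar (Q0 hR) v y' = 0 := hp 0
  have hdy' : QuadraticMap.polar (Q0 hR) d y' = 0 := hp 1
  have hyy' : QuadraticMap.polar (Q0 hR) y y' = 0 := hp 2
  have hd'y' : QuadraticMap.polar (Q0 hR) d' y' = 0 := hp 3
  have hfvy' : QuadraticMap.polar (Q0 hR) fv y' = 0 := hp 4
  have hn : y' ∉ Submodule.span F₀ {v} :=
    nspan_of_perp' hQ0 hy'0 hfvy' (by rw [cm, hfv]; exact one_ne_zero)
  have Qv : Q (up F₀ v) = 0 := (Q0_eq_zero hR v).mp hv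
  have Qd : Q (up F₀ d) = 0 := (Q0_eq_zero hR d).mp hd
  have Qy : Q (up F₀ y) = 0 := (Q0_eq_zero hR y).mp hy
  have Qd' : Q (up F₀ d') = 0 := (Q0_eq_zero hR d').mp hd'
  have Qy' : Q (up F₀ y') = 0 := (Q0_eq_zero hR y').mp hy'
  obtain ⟨α, hα⟩ : ∃ α : F, α = QuadraticMap.polar Q (up F₀ d) w := ⟨_, rfl⟩
  obtain ⟨β, hβ⟩ : ∃ β : F, β = QuadraticMap.polar Q (up F₀ y) w := ⟨_, rfl⟩
  -- first conjugation
  have hg₁ : sg hQ (up F₀ d) (up F₀ y) ∈ M := hC.rat d y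
  have e1 : ((sg hQ (up F₀ d) (up F₀ y) : Matrix.GeneralLinearGroup ι F) : Matrix ι ι F)
      *ᵥ up F₀ v = up F₀ v := by
    rw [sg_mulVec hQ _ _ Qd (z0 _ _ hdy), z0 _ _ ((cm d v).trans hvd),
      z0 _ _ ((cm y v).trans hvy)]
    simp
  have e2 : ((sg hQ (up F₀ d) (up F₀ y) : Matrix.GeneralLinearGroup ι F) : Matrix ι ι F)
      *ᵥ w = w + (α • up F₀ y - β • up F₀ d) := by
    rw [sg_mulVec hQ _ _ Qd (z0 _ _ hdy), Qy, ← hα, ← hβ]
    module
  have m1 := hC.conj hg₁ hmem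
  rw [e1, e2] at m1
  obtain ⟨x, hx⟩ : ∃ x : ι → F, x = α • up F₀ y - β • up F₀ d := ⟨_, rfl⟩
  rw [← hx] at m1
  have hvx : QuadraticMap.polar Q (up F₀ v) x = 0 := by
    rw [hx, bil_sub_right hbl, hbl.smul_right, hbl.smul_right, z0 _ _ hvy, z0 _ _ hvd]
    ring
  have hvnw : QuadraticMap.polar Q (up F₀ v) (-w) = 0 := by
    rw [bil_neg_right hbl, hvw, neg_zero]
  have m2 : sg hQ (up F₀ v) x ∈ M := by
    have e : x = (w + x) + (-w) := by abel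
    rw [e, ← sg_mul hQ _ _ _ Qv (by rw [hbl.add_right, hvw, hvx, add_zero]) hvnw, ← sg_inv]
    exact M.mul_mem m1 (M.inv_mem hmem)
  -- second conjugation
  have hg₂ : sg hQ (up F₀ d') (up F₀ y') ∈ M := hC.rat d' y'
  have e3 : ((sg hQ (up F₀ d') (up F₀ y') : Matrix.GeneralLinearGroup ι F) : Matrix ι ι F)
      *ᵥ up F₀ v = up F₀ v := by
    rw [sg_mulVec hQ _ _ Qd' (z0 _ _ hd'y'), z0 _ _ ((cm d' v).trans hvd'),
      z0 _ _ ((cm y' v).trans hvy')]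
    simp
  have e4 : ((sg hQ (up F₀ d') (up F₀ y') : Matrix.GeneralLinearGroup ι F) : Matrix ι ι F)
      *ᵥ x = x + α • up F₀ y' := by
    have p1 : QuadraticMap.polar Q (up F₀ d') x = α := by
      rw [hx, bil_sub_right hbl, hbl.smul_right, hbl.smul_right, z0 _ _ ((cm d' d).trans hdd'),
        (polar_Q0_eq_one hR d' y).mp ((cm d' y).trans hyd')]
      ring
    have p2 : QuadraticMap.polar Q (up F₀ y') x = 0 := by
      rw [hx, bil_sub_right hbl, hbl.smul_right, hbl.smul_right, z0 _ _ ((cm y' y).trans hyy'),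
        z0 _ _ ((cm y' d).trans hdy')]
      ring
    rw [sg_mulVec hQ _ _ Qd' (z0 _ _ hd'y'), p1, p2, Qy']
    module
  have m3 := hC.conj hg₂ m2
  rw [e3, e4] at m3
  have hvy'' : QuadraticMap.polar Q (up F₀ v) (α • up F₀ y') = 0 := by
    rw [hbl.smul_right, z0 _ _ hvy', mul_zero]
  have hvnx : QuadraticMap.polar Q (up F₀ v) (-x) = 0 := by
    rw [bil_neg_right hbl, hvx, neg_zero]
  have m4 : sg hQ (up F₀ v) (α • up F₀ y') ∈ M := by
    have e : α • up F₀ y' = (x + α • up F₀ y') + (-x) := by abel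
    rw [e, ← sg_mul hQ _ _ _ Qv (by rw [hbl.add_right, hvx, hvy'', add_zero]) hvnx, ← sg_inv]
    exact M.mul_mem m3 (M.inv_mem m2)
  have hαmem := hLL v y' hv hy' hvy' hv0 hn α m4
  rw [B_comm, ← hα]
  exact hαmem

/-- Rationality for quadratic extensions. -/
theorem rat_two (hC : CtxO hQ F₀ M) (hR : RatQ Q F₀) (hcard : 13 ≤ Fintype.card ι)
    (hLL : LLq hQ hR M) (θ : F) (hθ' : θ ∉ F₀)
    (hθ : ∀ x : F, ∃ a b : F₀, x = (a : F) + (b : F) * θ)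
    (g : Matrix.GeneralLinearGroup ι F) (hg : g ∈ M) (u : ι → F₀) (hu0 : u ≠ 0)
    (hu : Q0 hR u = 0) :
    ∃ (c : F) (z₀ : ι → F₀), (g : Matrix ι ι F) *ᵥ up F₀ u = c • up F₀ z₀ := by
  classical
  haveI : Fintype F₀ := Fintype.ofFinite F₀
  have hQ0 := Q0_nd hQ hR
  have hbl := hQ.polar_bilinear
  have hbl0 := hQ0.polar_bilinear
  have cm := fun x y => B_comm (Q0 hR) x y
  have z0 := fun x y => (polar_Q0_eq_zero hR x y).mp
  obtain ⟨z, hzdef⟩ : ∃ z : ι → F, z = (g : Matrix ι ι F) *ᵥ up F₀ u := ⟨_, rfl⟩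
  rw [← hzdef]
  obtain ⟨z₁, z₂, hzdec⟩ := decomp_vecQ θ hθ z
  by_cases h1 : z₁ = 0
  · exact ⟨θ, z₂, by rw [hzdec, h1, up_zero, zero_add]⟩
  by_cases hdep : z₂ ∈ Submodule.span F₀ {z₁}
  · obtain ⟨s, hs⟩ := Submodule.mem_span_singleton.mp hdep
    exact ⟨1 + θ * s, z₁, by rw [hzdec, ← hs, up_smul, add_smul, one_smul, smul_smul]⟩
  exfalso
  have hgiso := hC.iso g hg
  have Qu : Q (up F₀ u) = 0 := (Q0_eq_zero hR u).mp hu
  have Qz : Q z = 0 := by rw [hzdef, hgiso, Qu]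
  have hup0 : up F₀ u ≠ 0 := fun h => hu0 ((up_eq_zero F₀ u).mp h)
  -- a totally singular triple
  obtain ⟨s₁, s₂, y₁, y₂, hs₁, hs₂, hus₁, hus₂, hs₁₂, huy₁, huy₂, hs₁y₁, hs₂y₁, hs₁y₂, hs₂y₂⟩ :=
    exists_ts_triple hQ0 hcard u
  have o1 := fun x y => (polar_Q0_eq_one hR x y).mp
  have indep : ∀ a b c : F, a • up F₀ u + b • up F₀ s₁ + c • up F₀ s₂ = 0 →
      a = 0 ∧ b = 0 ∧ c = 0 := by
    intro a b c h
    have hb : b = 0 := by
      have h' := congrArg (fun x => QuadraticMap.polar Q x (up F₀ y₁)) h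
      simp only [hbl.add_left, hbl.smul_left, z0 _ _ huy₁, o1 _ _ hs₁y₁, z0 _ _ hs₂y₁,
        bil_zero_left hbl] at h'
      linear_combination h'
    have hc : c = 0 := by
      have h' := congrArg (fun x => QuadraticMap.polar Q x (up F₀ y₂)) h
      simp only [hbl.add_left, hbl.smul_left, z0 _ _ huy₂, z0 _ _ hs₁y₂, o1 _ _ hs₂y₂,
        bil_zero_left hbl] at h'
      linear_combination h'
    rw [hb, hc, zero_smul, zero_smul, add_zero, add_zero] at h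
    exact ⟨(smul_eq_zero.mp h).resolve_right hup0, hb, hc⟩
  have ginj : ∀ x : ι → F, (g : Matrix ι ι F) *ᵥ x = 0 → x = 0 := by
    intro x hx
    apply gl_mulVec_injective g
    show (g : Matrix ι ι F) *ᵥ x = (g : Matrix ι ι F) *ᵥ 0
    rw [hx, Matrix.mulVec_zero]
  obtain ⟨s, hs, hus, hys⟩ : ∃ s : ι → F₀, Q0 hR s = 0 ∧ QuadraticMap.polar (Q0 hR) u s = 0 ∧
      (g : Matrix ι ι F) *ᵥ up F₀ s ∉ Submodule.span F {up F₀ z₁, up F₀ z₂} := by
    by_contra hcon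
    push Not at hcon
    have m1 := hcon s₁ hs₁ hus₁
    have m2 := hcon s₂ hs₂ hus₂
    obtain ⟨a₁, b₁, e1⟩ := Submodule.mem_span_pair.mp m1
    obtain ⟨a₂, b₂, e2⟩ := Submodule.mem_span_pair.mp m2
    have rel : (g : Matrix ι ι F) *ᵥ ((a₁ * b₂ - a₂ * b₁) • up F₀ u
        + (-(b₂ - θ * a₂)) • up F₀ s₁ + (b₁ - θ * a₁) • up F₀ s₂) = 0 := by
      rw [Matrix.mulVec_add, Matrix.mulVec_add, Matrix.mulVec_smul, Matrix.mulVec_smul,
        Matrix.mulVec_smul, ← hzdef, ← e1, ← e2, hzdec]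
      module
    obtain ⟨-, hb, hc⟩ := indep _ _ _ (ginj _ rel)
    have hb₁ : b₁ = θ * a₁ := by linear_combination hc
    have rel2 : (g : Matrix ι ι F) *ᵥ (a₁ • up F₀ u + (-1 : F) • up F₀ s₁
        + (0 : F) • up F₀ s₂) = 0 := by
      rw [Matrix.mulVec_add, Matrix.mulVec_add, Matrix.mulVec_smul, Matrix.mulVec_smul,
        Matrix.mulVec_smul, ← hzdef, ← e1, hzdec, hb₁]
      module
    obtain ⟨-, hb', -⟩ := indep _ _ _ (ginj _ rel2)
    exact one_ne_zero (neg_eq_zero.mp hb')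
  obtain ⟨y, hydef⟩ : ∃ y : ι → F, y = (g : Matrix ι ι F) *ᵥ up F₀ s := ⟨_, rfl⟩
  rw [← hydef] at hys
  have Qs : Q (up F₀ s) = 0 := (Q0_eq_zero hR s).mp hs
  have Qy : Q y = 0 := by rw [hydef, hgiso, Qs]
  have hzy : QuadraticMap.polar Q z y = 0 := by
    rw [hzdef, hydef, polar_of_isom g hgiso, z0 _ _ hus]
  obtain ⟨yy₁, yy₂, hydec⟩ := decomp_vecQ θ hθ y
  -- the vector w
  obtain ⟨w, hwz₁, hwz₂, hyw⟩ : ∃ w : ι → F₀, QuadraticMap.polar (Q0 hR) z₁ w = 0 ∧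
      QuadraticMap.polar (Q0 hR) z₂ w = 0 ∧ QuadraticMap.polar Q y (up F₀ w) ≠ 0 := by
    obtain ⟨r, hr, hyr⟩ := exists_perp_ne hQ _ y hys
    obtain ⟨r₁, r₂, hrdec⟩ := decomp_vecQ θ hθ r
    have q1 := hr _ (Submodule.subset_span (by simp : up F₀ z₁ ∈ ({up F₀ z₁, up F₀ z₂} : Set _)))
    have q2 := hr _ (Submodule.subset_span (by simp : up F₀ z₂ ∈ ({up F₀ z₁, up F₀ z₂} : Set _)))
    rw [hrdec, hbl.add_right, hbl.smul_right, ← polar_Q0 hR, ← polar_Q0 hR] at q1 q2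
    obtain ⟨q11, q12⟩ := comp_zeroQ θ hθ' _ _ q1
    obtain ⟨q21, q22⟩ := comp_zeroQ θ hθ' _ _ q2
    rw [hrdec, hbl.add_right, hbl.smul_right] at hyr
    by_cases hy1 : QuadraticMap.polar Q y (up F₀ r₁) = 0
    · refine ⟨r₂, q12, q22, ?_⟩
      intro h0
      apply hyr
      rw [hy1, h0]
      ring
    · exact ⟨r₁, q11, q21, hy1⟩
  -- the vectors d₁, d₂
  have hz₁₂ : z₁ ∉ Submodule.span F₀ {z₂} := nspan_symm h1 hdep
  obtain ⟨r', hr', hr'1⟩ := exists_perp_ne hQ0 _ z₁ hz₁₂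
  have hr'2 := hr' z₂ (Submodule.mem_span_singleton_self z₂)
  obtain ⟨d₁, hd₁, hd₁'⟩ := sing_adjust_fam hQ0 (![z₁, z₂] : Fin 2 → (ι → F₀)) (by omega) r'
  have hd₁1 : QuadraticMap.polar (Q0 hR) z₁ d₁ = QuadraticMap.polar (Q0 hR) z₁ r' := hd₁' 0
  have hd₁2 : QuadraticMap.polar (Q0 hR) z₂ d₁ = 0 := (hd₁' 1).trans hr'2
  obtain ⟨r'', hr'', hr''2⟩ := exists_perp_ne hQ0 _ z₂ hdep
  have hr''1 := hr'' z₁ (Submodule.mem_span_singleton_self z₁)
  obtain ⟨d₂, hd₂, hd₂'⟩ := sing_adjust_fam hQ0 (![z₁, z₂] : Fin 2 → (ι → F₀)) (by omega) r''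
  have hd₂1 : QuadraticMap.polar (Q0 hR) z₁ d₂ = 0 := (hd₂' 0).trans hr''1
  have hd₂2 : QuadraticMap.polar (Q0 hR) z₂ d₂ = QuadraticMap.polar (Q0 hR) z₂ r'' := hd₂' 1
  obtain ⟨γ₁, hγ₁⟩ : ∃ γ₁ : F₀, γ₁ = QuadraticMap.polar (Q0 hR) z₁ r' := ⟨_, rfl⟩
  obtain ⟨γ₂, hγ₂⟩ : ∃ γ₂ : F₀, γ₂ = QuadraticMap.polar (Q0 hR) z₂ r'' := ⟨_, rfl⟩
  have hγ₁0 : (γ₁ : F) ≠ 0 := fun h => hr'1 (hγ₁ ▸ Subtype.ext h)
  have hγ₂0 : (γ₂ : F) ≠ 0 := fun h => hr''2 (hγ₂ ▸ Subtype.ext h)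
  have pz1 : QuadraticMap.polar Q z (up F₀ d₁) = (γ₁ : F) := by
    rw [hzdec, polar_dec hQ hR, hd₁1, hd₁2, ← hγ₁]
    simp
  have pz2 : QuadraticMap.polar Q z (up F₀ d₂) = θ * (γ₂ : F) := by
    rw [hzdec, polar_dec hQ hR, hd₂1, hd₂2, ← hγ₂]
    simp
  -- the vector v
  obtain ⟨v, hv0, hv, hp⟩ :=
    exists_sing_perp_fam hQ0 (![z₁, z₂, yy₁, yy₂, w, d₁, d₂] : Fin 7 → (ι → F₀)) (by omega)
  have hz₁v : QuadraticMap.polar (Q0 hR) z₁ v = 0 := hp 0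
  have hz₂v : QuadraticMap.polar (Q0 hR) z₂ v = 0 := hp 1
  have hy₁v : QuadraticMap.polar (Q0 hR) yy₁ v = 0 := hp 2
  have hy₂v : QuadraticMap.polar (Q0 hR) yy₂ v = 0 := hp 3
  have hwv : QuadraticMap.polar (Q0 hR) w v = 0 := hp 4
  have hd₁v : QuadraticMap.polar (Q0 hR) d₁ v = 0 := hp 5
  have hd₂v : QuadraticMap.polar (Q0 hR) d₂ v = 0 := hp 6
  have hzv : QuadraticMap.polar Q z (up F₀ v) = 0 := by
    rw [hzdec]
    exact polar_dec_zero hQ hR θ z₁ z₂ v hz₁v hz₂v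
  have hyv : QuadraticMap.polar Q y (up F₀ v) = 0 := by
    rw [hydec]
    exact polar_dec_zero hQ hR θ yy₁ yy₂ v hy₁v hy₂v
  have hzw : QuadraticMap.polar Q z (up F₀ w) = 0 := by
    rw [hzdec]
    exact polar_dec_zero hQ hR θ z₁ z₂ w hwz₁ hwz₂
  -- the element h
  have hh : sg hQ z y ∈ M := by
    have := hC.conj hg (hC.rat u s)
    rw [← hzdef, ← hydef] at this
    exact this
  obtain ⟨ε, hε⟩ : ∃ ε : F, ε = QuadraticMap.polar Q y (up F₀ w) := ⟨_, rfl⟩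
  have e1 : ((sg hQ z y : Matrix.GeneralLinearGroup ι F) : Matrix ι ι F) *ᵥ up F₀ v
      = up F₀ v := by
    rw [sg_mulVec hQ _ _ Qz hzy, hzv, hyv]
    simp
  have e2 : ((sg hQ z y : Matrix.GeneralLinearGroup ι F) : Matrix ι ι F) *ᵥ up F₀ w
      = up F₀ w - ε • z := by
    rw [sg_mulVec hQ _ _ Qz hzy, hzw, ← hε]
    module
  have m1 := hC.conj hh (hC.rat v w)
  rw [e1, e2] at m1
  have hvw' : QuadraticMap.polar Q (up F₀ v) (up F₀ w - ε • z) = 0 := by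
    rw [bil_sub_right hbl, hbl.smul_right, z0 _ _ ((cm v w).trans hwv), B_comm Q (up F₀ v) z, hzv]
    ring
  have k1 := pair_mem_of_sg hC hR hcard hLL v hv0 hv _ hvw' m1 d₁ hd₁ ((cm v d₁).trans hd₁v)
  have k2 := pair_mem_of_sg hC hR hcard hLL v hv0 hv _ hvw' m1 d₂ hd₂ ((cm v d₂).trans hd₂v)
  rw [bil_sub_left hbl, hbl.smul_left, pz1] at k1
  rw [bil_sub_left hbl, hbl.smul_left, pz2] at k2
  have k1' : ε * (γ₁ : F) ∈ F₀ := by
    have := F₀.sub_mem (polar_up_mem hR w d₁) k1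
    rwa [sub_sub_cancel] at this
  have k2' : ε * (θ * (γ₂ : F)) ∈ F₀ := by
    have := F₀.sub_mem (polar_up_mem hR w d₂) k2
    rwa [sub_sub_cancel] at this
  have hεmem : ε ∈ F₀ := by
    have e : ε = ε * (γ₁ : F) / (γ₁ : F) := by rw [mul_div_assoc, div_self hγ₁0, mul_one]
    rw [e]
    exact F₀.div_mem k1' γ₁.2
  have hε0 : ε ≠ 0 := by rw [hε]; exact hyw
  apply hθ'
  have e : θ = ε * (θ * (γ₂ : F)) / (ε * (γ₂ : F)) := by
    rw [eq_div_iff (mul_ne_zero hε0 hγ₂0)]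
    ring
  rw [e]
  exact F₀.div_mem k2' (F₀.mul_mem hεmem γ₂.2)

end Main

end Cfsg.Agent.Lib.Helper94.SfOrth4
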