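import Mathlib
import Cfsg.Prelude.Def_GeometricClasses
import Cfsg.Agent.Lib.Helper94.SfOrth4
import Cfsg.Agent.Lib.Helper98.SL2Sub

/-!
# Overgroups of the orthogonal subfield group: rationality via `SL₂` (helper94)

* `RelO` : the action of `SL₂` on the sum of two totally singular lines in duality.
* `det_mem` : the determinant of the pairing of a rational totally singular line and the image
  of another one under an element of `M` is rational.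
* `rat_odd` : in odd characteristic, the image under an element of `M` of a rational singular
  vector is a multiple of a rational vector.
-/

set_option autoImplicit false
set_option linter.unusedSimpArgs false

namespace Cfsg.Agent.Lib.Helper94.SfOrth5

open scoped Matrix MatrixGroups
open Module
open Cfsg.Agent.Lib.Helper94.Basic Cfsg.Agent.Lib.Helper94.GLAux Cfsg.Agent.Lib.Helper94.Tv
  Cfsg.Agent.Lib.Helper94.QuadAbs Cfsg.Agent.Lib.Helper94.OrthSiegel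
  Cfsg.Agent.Lib.Helper94.SubfieldRat Cfsg.Agent.Lib.Helper94.SfOrth1
  Cfsg.Agent.Lib.Helper94.SfOrth2 Cfsg.Agent.Lib.Helper94.SfOrth3
  Cfsg.Agent.Lib.Helper94.SfOrth4
open Cfsg.Agent.Lib.Helper94.SympAbs (bil_zero_left bil_zero_right bil_neg_left bil_neg_right
  bil_sub_left bil_sub_right fR fR_apply fRL fLeft fLeft_apply)
open Cfsg.Agent.Lib.Helper98.SL2Sub

section Plane

variable {ι : Type} [Fintype ι] [DecidableEq ι] {F : Type*} [Field F]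
variable {Q : (ι → F) → F}

/-- The Gram data of two totally singular pairs. -/
structure Gram (Q : (ι → F) → F) (b w z w' : ι → F) (p₁₁ p₁₂ p₂₁ p₂₂ : F) : Prop where
  bb : QuadraticMap.polar Q b b = 0
  bw : QuadraticMap.polar Q b w = 0
  wb : QuadraticMap.polar Q w b = 0
  ww : QuadraticMap.polar Q w w = 0
  zz : QuadraticMap.polar Q z z = 0
  zw' : QuadraticMap.polar Q z w' = 0
  w'z : QuadraticMap.polar Q w' z = 0
  w'w' : QuadraticMap.polar Q w' w' = 0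
  bz : QuadraticMap.polar Q b z = p₁₁
  zb : QuadraticMap.polar Q z b = p₁₁
  wz : QuadraticMap.polar Q w z = p₁₂
  zw : QuadraticMap.polar Q z w = p₁₂
  bw' : QuadraticMap.polar Q b w' = p₂₁
  w'b : QuadraticMap.polar Q w' b = p₂₁
  ww' : QuadraticMap.polar Q w w' = p₂₂
  w'w : QuadraticMap.polar Q w' w = p₂₂

/-- The relation between an element of `SL₂` and an element of `GL` acting on the sum of the
totally singular lines spanned by `z, w'` and by `b, w`. -/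
def RelO (Q : (ι → F) → F) (b w z w' : ι → F) (p₁₁ p₁₂ p₂₁ p₂₂ : F) (S : SL(2, F))
    (h : Matrix.GeneralLinearGroup ι F) : Prop :=
  ∃ α β γ δ : F,
    (∀ y : ι → F, (h : Matrix ι ι F) *ᵥ y = y
      + α • (QuadraticMap.polar Q b y • (p₁₂ • w' - p₂₂ • z)
          - QuadraticMap.polar Q w y • (p₁₁ • w' - p₂₁ • z))
      + β • (QuadraticMap.polar Q z y • w' - QuadraticMap.polar Q w' y • z)
      + γ • (QuadraticMap.polar Q b y • w - QuadraticMap.polar Q w y • b)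
      + δ • (QuadraticMap.polar Q z y • (p₂₁ • w - p₂₂ • b)
          - QuadraticMap.polar Q w' y • (p₁₁ • w - p₁₂ • b))) ∧
    S.1 0 0 = 1 - (p₁₁ * p₂₂ - p₁₂ * p₂₁) * α ∧ S.1 0 1 = β ∧
    S.1 1 0 = -((p₁₁ * p₂₂ - p₁₂ * p₂₁) * γ) ∧ S.1 1 1 = 1 - (p₁₁ * p₂₂ - p₁₂ * p₂₁) * δ

lemma RelO.one (b w z w' : ι → F) (p₁₁ p₁₂ p₂₁ p₂₂ : F) :
    RelO Q b w z w' p₁₁ p₁₂ p₂₁ p₂₂ 1 1 := by
  refine ⟨0, 0, 0, 0, ?_, ?_, ?_, ?_, ?_⟩
  · intro y
    simp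
  · simp
  · simp
  · simp
  · simp

lemma RelO.mul (hQ : Cfsg.Geo.IsNondegenerateQuadraticForm Q) {b w z w' : ι → F}
    {p₁₁ p₁₂ p₂₁ p₂₂ : F} (G : Gram Q b w z w' p₁₁ p₁₂ p₂₁ p₂₂)
    {S S' : SL(2, F)} {h h' : Matrix.GeneralLinearGroup ι F}
    (h1 : RelO Q b w z w' p₁₁ p₁₂ p₂₁ p₂₂ S h) (h2 : RelO Q b w z w' p₁₁ p₁₂ p₂₁ p₂₂ S' h') :
    RelO Q b w z w' p₁₁ p₁₂ p₂₁ p₂₂ (S * S') (h * h') := by
  have hbl := hQ.polar_bilinear
  obtain ⟨α, β, γ, δ, hact, h00, h01, h10, h11⟩ := h1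
  obtain ⟨α', β', γ', δ', hact', h00', h01', h10', h11'⟩ := h2
  refine ⟨α + α' - (p₁₁ * p₂₂ - p₁₂ * p₂₁) * α * α' + β * γ',
    β + β' - (p₁₁ * p₂₂ - p₁₂ * p₂₁) * α * β' - (p₁₁ * p₂₂ - p₁₂ * p₂₁) * β * δ',
    γ + γ' - (p₁₁ * p₂₂ - p₁₂ * p₂₁) * γ * α' - (p₁₁ * p₂₂ - p₁₂ * p₂₁) * δ * γ',
    δ + δ' + γ * β' - (p₁₁ * p₂₂ - p₁₂ * p₂₁) * δ * δ', ?_, ?_, ?_, ?_, ?_⟩
  · intro y
    rw [Units.val_mul, ← Matrix.mulVec_mulVec, hact' y, hact]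
    simp only [hbl.add_right, hbl.smul_right, bil_sub_right hbl, G.bb, G.bw, G.wb, G.ww, G.zz,
      G.zw', G.w'z, G.w'w', G.bz, G.zb, G.wz, G.zw, G.bw', G.w'b, G.ww', G.w'w, mul_zero,
      add_zero, zero_add, sub_zero, zero_sub]
    module
  · rw [mul00, h00, h01, h00', h10']
    ring
  · rw [mul01, h00, h01, h01', h11']
    ring
  · rw [mul10, h10, h11, h00', h10']
    ring
  · rw [mul11, h10, h11, h01', h11']
    ring

end Plane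

section Main

variable {ι : Type} [Fintype ι] [DecidableEq ι] {F : Type*} [Field F] [Fintype F]
variable {Q : (ι → F) → F} {F₀ : Subfield F}
variable {hQ : Cfsg.Geo.IsNondegenerateQuadraticForm Q}
variable {M : Subgroup (Matrix.GeneralLinearGroup ι F)}

/-- The determinant of the pairing between a rational totally singular pair and the image of
another one under an element of `M` is rational. -/
theorem det_mem (hC : CtxO hQ F₀ M) (hR : RatQ Q F₀) (hLL : LLq hQ hR M)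
    (hN : ∀ lam : F, lam ∉ F₀ → N F₀ lam = ⊤) (hnt : ∃ t : F, t ∉ F₀)
    (g : Matrix.GeneralLinearGroup ι F) (hg : g ∈ M) (uu s : ι → F₀) (hu : Q0 hR uu = 0)
    (hs : Q0 hR s = 0) (hus : QuadraticMap.polar (Q0 hR) uu s = 0) (hu0 : uu ≠ 0)
    (hsu : s ∉ Submodule.span F₀ {uu}) (b w : ι → F₀) (hb : Q0 hR b = 0) (hw : Q0 hR w = 0)
    (hbw : QuadraticMap.polar (Q0 hR) b w = 0) :
    QuadraticMap.polar Q ((g : Matrix ι ι F) *ᵥ up F₀ uu) (up F₀ b)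
        * QuadraticMap.polar Q ((g : Matrix ι ι F) *ᵥ up F₀ s) (up F₀ w)
      - QuadraticMap.polar Q ((g : Matrix ι ι F) *ᵥ up F₀ uu) (up F₀ w)
        * QuadraticMap.polar Q ((g : Matrix ι ι F) *ᵥ up F₀ s) (up F₀ b) ∈ F₀ := by
  have hbl := hQ.polar_bilinear
  have hgiso := hC.iso g hg
  have z0 := fun x y => (polar_Q0_eq_zero hR x y).mp
  obtain ⟨z, hzdef⟩ : ∃ z : ι → F, z = (g : Matrix ι ι F) *ᵥ up F₀ uu := ⟨_, rfl⟩
  obtain ⟨w', hw'def⟩ : ∃ w' : ι → F, w' = (g : Matrix ι ι F) *ᵥ up F₀ s := ⟨_, rfl⟩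
  rw [← hzdef, ← hw'def]
  obtain ⟨p₁₁, hp₁₁⟩ : ∃ p₁₁ : F, p₁₁ = QuadraticMap.polar Q z (up F₀ b) := ⟨_, rfl⟩
  obtain ⟨p₁₂, hp₁₂⟩ : ∃ p₁₂ : F, p₁₂ = QuadraticMap.polar Q z (up F₀ w) := ⟨_, rfl⟩
  obtain ⟨p₂₁, hp₂₁⟩ : ∃ p₂₁ : F, p₂₁ = QuadraticMap.polar Q w' (up F₀ b) := ⟨_, rfl⟩
  obtain ⟨p₂₂, hp₂₂⟩ : ∃ p₂₂ : F, p₂₂ = QuadraticMap.polar Q w' (up F₀ w) := ⟨_, rfl⟩
  rw [← hp₁₁, ← hp₁₂, ← hp₂₁, ← hp₂₂]
  by_contra hΔ
  obtain ⟨Δ, hΔdef⟩ : ∃ Δ : F, Δ = p₁₁ * p₂₂ - p₁₂ * p₂₁ := ⟨_, rfl⟩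
  have hΔ0 : p₁₁ * p₂₂ - p₁₂ * p₂₁ ≠ 0 := fun h => hΔ (h ▸ F₀.zero_mem)
  have Qb : Q (up F₀ b) = 0 := (Q0_eq_zero hR b).mp hb
  have Qw : Q (up F₀ w) = 0 := (Q0_eq_zero hR w).mp hw
  have Qz : Q z = 0 := by rw [hzdef, hgiso]; exact (Q0_eq_zero hR uu).mp hu
  have Qw' : Q w' = 0 := by rw [hw'def, hgiso]; exact (Q0_eq_zero hR s).mp hs
  have Bbw : QuadraticMap.polar Q (up F₀ b) (up F₀ w) = 0 := z0 _ _ hbw
  have Bzw' : QuadraticMap.polar Q z w' = 0 := by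
    rw [hzdef, hw'def, polar_of_isom g hgiso]
    exact z0 _ _ hus
  have G : Gram Q (up F₀ b) (up F₀ w) z w' p₁₁ p₁₂ p₂₁ p₂₂ :=
    { bb := polar_self_sing hQ _ Qb
      bw := Bbw
      wb := by rw [B_comm]; exact Bbw
      ww := polar_self_sing hQ _ Qw
      zz := polar_self_sing hQ _ Qz
      zw' := Bzw'
      w'z := by rw [B_comm]; exact Bzw'
      w'w' := polar_self_sing hQ _ Qw'
      bz := by rw [B_comm]; exact hp₁₁.symm
      zb := hp₁₁.symm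
      wz := by rw [B_comm]; exact hp₁₂.symm
      zw := hp₁₂.symm
      bw' := by rw [B_comm]; exact hp₂₁.symm
      w'b := hp₂₁.symm
      ww' := by rw [B_comm]; exact hp₂₂.symm
      w'w := hp₂₂.symm }
  have hlam : -(p₁₁ * p₂₂ - p₁₂ * p₂₁) ∉ F₀ := by
    intro h
    apply hΔ
    have := F₀.neg_mem h
    rwa [neg_neg] at this
  have htop := hN _ hlam
  have hgen : ∀ S ∈ ({g : SL(2, F) | ∃ a ∈ F₀, g = u a} ∪
      {g : SL(2, F) | ∃ a ∈ F₀, g = l (-(p₁₁ * p₂₂ - p₁₂ * p₂₁) * a)}),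
      ∃ h ∈ M, RelO Q (up F₀ b) (up F₀ w) z w' p₁₁ p₁₂ p₂₁ p₂₂ S h := by
    rintro S (⟨a, ha, rfl⟩ | ⟨a, ha, rfl⟩)
    · refine ⟨sg hQ z (a • w'), ?_, 0, a, 0, 0, ?_, ?_, ?_, ?_, ?_⟩
      · have e1 : a • up F₀ s = up F₀ ((⟨a, ha⟩ : F₀) • s) := by rw [up_smul]
        have := hC.conj hg (hC.rat uu ((⟨a, ha⟩ : F₀) • s))
        rw [← e1, Matrix.mulVec_smul, ← hzdef, ← hw'def] at this
        exact this
      · intro y
        rw [sg_sing_mulVec hQ _ _ Qz Qw' Bzw']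
        module
      · simp
      · simp
      · simp
      · simp
    · refine ⟨sg hQ (up F₀ b) (a • up F₀ w), ?_, 0, 0, a, 0, ?_, ?_, ?_, ?_, ?_⟩
      · have e1 : a • up F₀ w = up F₀ ((⟨a, ha⟩ : F₀) • w) := by rw [up_smul]
        rw [e1]
        exact hC.rat _ _
      · intro y
        rw [sg_sing_mulVec hQ _ _ Qb Qw Bbw]
        module
      · simp
      · simp
      · rw [l10]
        ring
      · simp
  have hgeninv : ∀ S ∈ ({g : SL(2, F) | ∃ a ∈ F₀, g = u a} ∪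
      {g : SL(2, F) | ∃ a ∈ F₀, g = l (-(p₁₁ * p₂₂ - p₁₂ * p₂₁) * a)}),
      S⁻¹ ∈ ({g : SL(2, F) | ∃ a ∈ F₀, g = u a} ∪
        {g : SL(2, F) | ∃ a ∈ F₀, g = l (-(p₁₁ * p₂₂ - p₁₂ * p₂₁) * a)}) := by
    rintro S (⟨a, ha, rfl⟩ | ⟨a, ha, rfl⟩)
    · left
      exact ⟨-a, F₀.neg_mem ha, u_inv a⟩
    · right
      refine ⟨-a, F₀.neg_mem ha, ?_⟩
      rw [l_inv]
      congr 1
      ring
  have hall : ∀ S : SL(2, F), ∃ h ∈ M, RelO Q (up F₀ b) (up F₀ w) z w' p₁₁ p₁₂ p₂₁ p₂₂ S h := by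
    intro S
    have hS : S ∈ N F₀ (-(p₁₁ * p₂₂ - p₁₂ * p₂₁)) := by
      rw [htop]
      trivial
    unfold N at hS
    induction hS using Subgroup.closure_induction'' with
    | mem x hx => exact hgen x hx
    | inv_mem x hx => exact hgen _ (hgeninv x hx)
    | one => exact ⟨1, M.one_mem, RelO.one _ _ _ _ _ _ _ _⟩
    | mul x y _ _ hx hy =>
      obtain ⟨h, hh, hr⟩ := hx
      obtain ⟨h', hh', hr'⟩ := hy
      exact ⟨h * h', M.mul_mem hh hh', RelO.mul hQ G hr hr'⟩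
  obtain ⟨t, ht⟩ := hnt
  obtain ⟨h, hh, α, β, γ, δ, hact, h00, h01, h10, h11⟩ := hall (u t)
  simp only [u00, u01, u10, u11] at h00 h01 h10 h11
  have hα : α = 0 := by
    have : (p₁₁ * p₂₂ - p₁₂ * p₂₁) * α = 0 := by linear_combination h00
    exact (mul_eq_zero.mp this).resolve_left hΔ0
  have hγ : γ = 0 := by
    have : (p₁₁ * p₂₂ - p₁₂ * p₂₁) * γ = 0 := by linear_combination h10
    exact (mul_eq_zero.mp this).resolve_left hΔ0
  have hδ : δ = 0 := by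
    have : (p₁₁ * p₂₂ - p₁₂ * p₂₁) * δ = 0 := by linear_combination h11
    exact (mul_eq_zero.mp this).resolve_left hΔ0
  have hheq : h = sg hQ z (t • w') := by
    apply gl_ext
    intro y
    rw [hact, sg_sing_mulVec hQ _ _ Qz Qw' Bzw', hα, hγ, hδ, ← h01]
    module
  rw [hheq] at hh
  have hfin := hC.conj (M.inv_mem hg) hh
  rw [Matrix.mulVec_smul, hzdef, hw'def, gl_inv_mulVec, gl_inv_mulVec] at hfin
  exact ht (hLL uu s hu hs hus hu0 hsu t hfin)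

/-- Pure algebra: a decomposable form with rational values. -/
lemma plane_alg (F₀ : Subfield F) (φ ψ : (ι → F₀) → F)
    (hω : ∀ x y, φ x * ψ y - φ y * ψ x ∈ F₀) (x₁ y₁ : ι → F₀) (hx₁ : φ x₁ ≠ 0)
    (hτ : φ y₁ / φ x₁ ∉ F₀) (h0 : φ x₁ * ψ y₁ - φ y₁ * ψ x₁ = 0) (x : ι → F₀) :
    ψ x = (ψ x₁ / φ x₁) * φ x := by
  have key : (φ x * ψ y₁ - φ y₁ * ψ x) * φ x₁ = (φ x * ψ x₁ - φ x₁ * ψ x) * φ y₁ := by
    linear_combination (φ x) * h0
  have h1 : φ x * ψ x₁ - φ x₁ * ψ x = 0 := by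
    by_contra hne
    apply hτ
    have e : φ y₁ / φ x₁ = (φ x * ψ y₁ - φ y₁ * ψ x) / (φ x * ψ x₁ - φ x₁ * ψ x) := by
      rw [div_eq_div_iff hx₁ hne]
      linear_combination -key
    rw [e]
    exact F₀.div_mem (hω x y₁) (hω x x₁)
  rw [div_mul_eq_mul_div, eq_div_iff hx₁]
  linear_combination -h1

/-- The alternating form attached to the images of a rational totally singular pair is
rational (odd characteristic). -/
theorem omega_rat (hC : CtxO hQ F₀ M) (hR : RatQ Q F₀) (hcard : 13 ≤ Fintype.card ι)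
    (hLL : LLq hQ hR M) (hN : ∀ lam : F, lam ∉ F₀ → N F₀ lam = ⊤) (hnt : ∃ t : F, t ∉ F₀)
    (h2 : (2 : F) ≠ 0) (g : Matrix.GeneralLinearGroup ι F) (hg : g ∈ M) (u s : ι → F₀)
    (hu : Q0 hR u = 0) (hs : Q0 hR s = 0) (hus : QuadraticMap.polar (Q0 hR) u s = 0)
    (hu0 : u ≠ 0) (hsu : s ∉ Submodule.span F₀ {u}) (x y : ι → F₀) :
    QuadraticMap.polar Q ((g : Matrix ι ι F) *ᵥ up F₀ u) (up F₀ x)
        * QuadraticMap.polar Q ((g : Matrix ι ι F) *ᵥ up F₀ s) (up F₀ y)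
      - QuadraticMap.polar Q ((g : Matrix ι ι F) *ᵥ up F₀ u) (up F₀ y)
        * QuadraticMap.polar Q ((g : Matrix ι ι F) *ᵥ up F₀ s) (up F₀ x) ∈ F₀ := by
  classical
  haveI : Fintype F₀ := Fintype.ofFinite F₀
  have hQ0 := Q0_nd hQ hR
  have hbl := hQ.polar_bilinear
  have hbl0 := hQ0.polar_bilinear
  have cm := fun x y => B_comm (Q0 hR) x y
  obtain ⟨φ, hφ⟩ : ∃ φ : (ι → F₀) → F, φ = fun x =>
      QuadraticMap.polar Q ((g : Matrix ι ι F) *ᵥ up F₀ u) (up F₀ x) := ⟨_, rfl⟩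
  obtain ⟨ψ, hψ⟩ : ∃ ψ : (ι → F₀) → F, ψ = fun x =>
      QuadraticMap.polar Q ((g : Matrix ι ι F) *ᵥ up F₀ s) (up F₀ x) := ⟨_, rfl⟩
  have φadd : ∀ a b, φ (a + b) = φ a + φ b := by
    intro a b
    rw [hφ]
    simp only [up_add, hbl.add_right]
  have ψadd : ∀ a b, ψ (a + b) = ψ a + ψ b := by
    intro a b
    rw [hψ]
    simp only [up_add, hbl.add_right]
  have φsmul : ∀ (c : F₀) a, φ (c • a) = (c : F) * φ a := by
    intro c a
    rw [hφ]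
    simp only [up_smul, hbl.smul_right]
  have ψsmul : ∀ (c : F₀) a, ψ (c • a) = (c : F) * ψ a := by
    intro c a
    rw [hψ]
    simp only [up_smul, hbl.smul_right]
  have φsub : ∀ a b, φ (a - b) = φ a - φ b := by
    intro a b
    rw [hφ]
    simp only [up_sub, bil_sub_right hbl]
  have ψsub : ∀ a b, ψ (a - b) = ψ a - ψ b := by
    intro a b
    rw [hψ]
    simp only [up_sub, bil_sub_right hbl]
  have goal : φ x * ψ y - φ y * ψ x ∈ F₀ := by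
    -- totally singular pairs
    have ts : ∀ b w : ι → F₀, Q0 hR b = 0 → Q0 hR w = 0 → QuadraticMap.polar (Q0 hR) b w = 0 →
        φ b * ψ w - φ w * ψ b ∈ F₀ := by
      intro b w hb hw hbw
      have := det_mem hC hR hLL hN hnt g hg u s hu hs hus hu0 hsu b w hb hw hbw
      rw [hφ, hψ]
      exact this
    -- hyperbolic pairs
    have two_mem : (2 : F) ∈ F₀ := by
      have := F₀.add_mem F₀.one_mem F₀.one_mem
      rwa [one_add_one_eq_two] at this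
    have hyp : ∀ b b' : ι → F₀, Q0 hR b = 0 → Q0 hR b' = 0 →
        QuadraticMap.polar (Q0 hR) b b' = 1 → φ b * ψ b' - φ b' * ψ b ∈ F₀ := by
      intro b b' hb hb' hbb'
      obtain ⟨e, f, p1, p2, he, hf, hef⟩ :=
        exists_hyp_fam hQ0 (![b, b'] : Fin 2 → (ι → F₀)) (by omega)
      have hbe : QuadraticMap.polar (Q0 hR) b e = 0 := p1 0
      have hb'e : QuadraticMap.polar (Q0 hR) b' e = 0 := p1 1
      have hbf : QuadraticMap.polar (Q0 hR) b f = 0 := p2 0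
      have hb'f : QuadraticMap.polar (Q0 hR) b' f = 0 := p2 1
      have T1 := ts (b + e) (b' - f) (by rw [Q_add (Q0 hR), hb, he, hbe]; ring)
        (by rw [Q_sub hQ0, hb', hf, hb'f]; ring)
        (by rw [hbl0.add_left, bil_sub_right hbl0, bil_sub_right hbl0, hbb', hbf,
          cm e b', hb'e, hef]; ring)
      have T2 := ts (b + f) (b' - e) (by rw [Q_add (Q0 hR), hb, hf, hbf]; ring)
        (by rw [Q_sub hQ0, hb', he, hb'e]; ring)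
        (by rw [hbl0.add_left, bil_sub_right hbl0, bil_sub_right hbl0, hbb', hbe,
          cm f b', hb'f, cm f e, hef]; ring)
      have T3 := ts b f hb hf hbf
      have T4 := ts e b' he hb' ((cm e b').trans hb'e)
      have T5 := ts b e hb he hbe
      have T6 := ts f b' hf hb' ((cm f b').trans hb'f)
      rw [φadd, ψsub, φsub, ψadd] at T1 T2
      have e2 : 2 * (φ b * ψ b' - φ b' * ψ b)
          = ((φ b + φ e) * (ψ b' - ψ f) - (φ b' - φ f) * (ψ b + ψ e))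
            + ((φ b + φ f) * (ψ b' - ψ e) - (φ b' - φ e) * (ψ b + ψ f))
            + (φ b * ψ f - φ f * ψ b) - (φ e * ψ b' - φ b' * ψ e)
            + (φ b * ψ e - φ e * ψ b) - (φ f * ψ b' - φ b' * ψ f) := by ring
      have h3 : 2 * (φ b * ψ b' - φ b' * ψ b) ∈ F₀ := by
        rw [e2]
        exact F₀.sub_mem (F₀.add_mem (F₀.sub_mem (F₀.add_mem (F₀.add_mem T1 T2) T3) T4) T5) T6
      have e3 : φ b * ψ b' - φ b' * ψ b = 2 * (φ b * ψ b' - φ b' * ψ b) / 2 := by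
        rw [mul_div_assoc, mul_div_cancel₀ _ h2]
      rw [e3]
      exact F₀.div_mem h3 two_mem
    -- all singular pairs
    have sing : ∀ a a' : ι → F₀, Q0 hR a = 0 → Q0 hR a' = 0 → φ a * ψ a' - φ a' * ψ a ∈ F₀ := by
      intro a a' ha ha'
      by_cases h0 : QuadraticMap.polar (Q0 hR) a a' = 0
      · exact ts a a' ha ha' h0
      · obtain ⟨β, hβ⟩ : ∃ β : F₀, β = QuadraticMap.polar (Q0 hR) a a' := ⟨_, rfl⟩
        have hβ0 : β ≠ 0 := by rw [hβ]; exact h0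
        have hβ0' : (β : F) ≠ 0 := fun h => hβ0 (Subtype.ext h)
        have h1 := hyp a (β⁻¹ • a') ha (by rw [hQ0.smul, ha', mul_zero])
          (by rw [hbl0.smul_right, ← hβ, inv_mul_cancel₀ hβ0])
        rw [φsmul, ψsmul] at h1
        have e : φ a * ψ a' - φ a' * ψ a
            = (β : F) * (φ a * (((β⁻¹ : F₀) : F) * ψ a') - ((β⁻¹ : F₀) : F) * φ a' * ψ a) := by
          have : ((β⁻¹ : F₀) : F) = (β : F)⁻¹ := by push_cast; rfl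
          rw [this]
          field_simp
        rw [e]
        exact F₀.mul_mem β.2 h1
    obtain ⟨s₁, s₂, s₃, hs₁, hs₂, hs₃, hx⟩ := sum_sing3 hQ0 (by omega) x
    obtain ⟨t₁, t₂, t₃, ht₁, ht₂, ht₃, hy⟩ := sum_sing3 hQ0 (by omega) y
    rw [hx, hy]
    simp only [φadd, ψadd]
    have e : (φ s₁ + φ s₂ + φ s₃) * (ψ t₁ + ψ t₂ + ψ t₃) - (φ t₁ + φ t₂ + φ t₃) * (ψ s₁ + ψ s₂ + ψ s₃)
        = (φ s₁ * ψ t₁ - φ t₁ * ψ s₁) + (φ s₁ * ψ t₂ - φ t₂ * ψ s₁) + (φ s₁ * ψ t₃ - φ t₃ * ψ s₁)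
        + (φ s₂ * ψ t₁ - φ t₁ * ψ s₂) + (φ s₂ * ψ t₂ - φ t₂ * ψ s₂) + (φ s₂ * ψ t₃ - φ t₃ * ψ s₂)
        + (φ s₃ * ψ t₁ - φ t₁ * ψ s₃) + (φ s₃ * ψ t₂ - φ t₂ * ψ s₃) + (φ s₃ * ψ t₃ - φ t₃ * ψ s₃) := by
      ring
    rw [e]
    exact F₀.add_mem (F₀.add_mem (F₀.add_mem (F₀.add_mem (F₀.add_mem (F₀.add_mem (F₀.add_mem
      (F₀.add_mem (sing _ _ hs₁ ht₁) (sing _ _ hs₁ ht₂)) (sing _ _ hs₁ ht₃)) (sing _ _ hs₂ ht₁))
      (sing _ _ hs₂ ht₂)) (sing _ _ hs₂ ht₃)) (sing _ _ hs₃ ht₁)) (sing _ _ hs₃ ht₂))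
      (sing _ _ hs₃ ht₃)
  rw [hφ, hψ] at goal
  exact goal

/-- Rationality via `SL₂`, in odd characteristic. -/
theorem rat_odd (hC : CtxO hQ F₀ M) (hR : RatQ Q F₀) (hcard : 13 ≤ Fintype.card ι)
    (hLL : LLq hQ hR M) (hN : ∀ lam : F, lam ∉ F₀ → N F₀ lam = ⊤) (hnt : ∃ t : F, t ∉ F₀)
    (h2 : (2 : F) ≠ 0) (g : Matrix.GeneralLinearGroup ι F) (hg : g ∈ M) (u : ι → F₀)
    (hu0 : u ≠ 0) (hu : Q0 hR u = 0) :
    ∃ (c : F) (z₀ : ι → F₀), (g : Matrix ι ι F) *ᵥ up F₀ u = c • up F₀ z₀ := by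
  classical
  haveI : Fintype F₀ := Fintype.ofFinite F₀
  have hQ0 := Q0_nd hQ hR
  have hbl := hQ.polar_bilinear
  have hbl0 := hQ0.polar_bilinear
  have cm := fun x y => B_comm (Q0 hR) x y
  have z0 := fun x y => (polar_Q0_eq_zero hR x y).mp
  have o1 := fun x y => (polar_Q0_eq_one hR x y).mp
  have hup0 : up F₀ u ≠ 0 := fun h => hu0 ((up_eq_zero F₀ u).mp h)
  obtain ⟨s₁, s₂, y₁, y₂, hs₁, hs₂, hus₁, hus₂, hs₁₂, huy₁, huy₂, hs₁y₁, hs₂y₁, hs₁y₂, hs₂y₂⟩ :=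
    exists_ts_triple hQ0 hcard u
  have indep : ∀ a b c : F, a • up F₀ u + b • up F₀ s₁ + c • up F₀ s₂ = 0 →
      a = 0 ∧ b = 0 ∧ c = 0 := by
    intro a b c h
    have hb : b = 0 := by
      have h' := congrArg (fun x => QuadraticMap.polar Q x (up F₀ y₁)) h
      simp only [hbl.add_left, hbl.smul_left, z0 _ _ huy₁, o1 _ _ hs₁y₁, z0 _ _ hs₂y₁,
        bil_zero_left hbl] at h'
      linear_combination h'
    have hc : c = 0 := by
      have h' := congrArg (fun x => QuadraticMap.polar Q x (up F₀ y₂)) h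
      simp only [hbl.add_left, hbl.smul_left, z0 _ _ huy₂, z0 _ _ hs₁y₂, o1 _ _ hs₂y₂,
        bil_zero_left hbl] at h'
      linear_combination h'
    rw [hb, hc, zero_smul, zero_smul, add_zero, add_zero] at h
    exact ⟨(smul_eq_zero.mp h).resolve_right hup0, hb, hc⟩
  have ginj : ∀ x : ι → F, (g : Matrix ι ι F) *ᵥ x = 0 → x = 0 := by
    intro x hx
    apply gl_mulVec_injective g
    show (g : Matrix ι ι F) *ᵥ x = (g : Matrix ι ι F) *ᵥ 0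
    rw [hx, Matrix.mulVec_zero]
  have n1 : s₁ ∉ Submodule.span F₀ {u} :=
    nspan_of_perp hQ0 (by rw [cm, hs₁y₁]; exact one_ne_zero) ((cm y₁ u).trans huy₁)
  have n2 : s₂ ∉ Submodule.span F₀ {u} :=
    nspan_of_perp hQ0 (by rw [cm, hs₂y₂]; exact one_ne_zero) ((cm y₂ u).trans huy₂)
  obtain ⟨φ, hφ⟩ : ∃ φ : (ι → F₀) → F, φ = fun x =>
      QuadraticMap.polar Q ((g : Matrix ι ι F) *ᵥ up F₀ u) (up F₀ x) := ⟨_, rfl⟩
  obtain ⟨ψ₁, hψ₁⟩ : ∃ ψ₁ : (ι → F₀) → F, ψ₁ = fun x =>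
      QuadraticMap.polar Q ((g : Matrix ι ι F) *ᵥ up F₀ s₁) (up F₀ x) := ⟨_, rfl⟩
  obtain ⟨ψ₂, hψ₂⟩ : ∃ ψ₂ : (ι → F₀) → F, ψ₂ = fun x =>
      QuadraticMap.polar Q ((g : Matrix ι ι F) *ᵥ up F₀ s₂) (up F₀ x) := ⟨_, rfl⟩
  have hω1 : ∀ x y, φ x * ψ₁ y - φ y * ψ₁ x ∈ F₀ := by
    intro x y
    rw [hφ, hψ₁]
    exact omega_rat hC hR hcard hLL hN hnt h2 g hg u s₁ hu hs₁ hus₁ hu0 n1 x y
  have hω2 : ∀ x y, φ x * ψ₂ y - φ y * ψ₂ x ∈ F₀ := by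
    intro x y
    rw [hφ, hψ₂]
    exact omega_rat hC hR hcard hLL hN hnt h2 g hg u s₂ hu hs₂ hus₂ hu0 n2 x y
  have claim : ∀ x₁ y₁ : ι → F₀, φ x₁ ≠ 0 → φ y₁ / φ x₁ ∈ F₀ := by
    intro x₁ y₁ hx₁
    by_contra hτ
    obtain ⟨c', hc'⟩ : ∃ c' : F, c' = φ x₁ * ψ₁ y₁ - φ y₁ * ψ₁ x₁ := ⟨_, rfl⟩
    obtain ⟨c'', hc''⟩ : ∃ c'' : F, c'' = φ x₁ * ψ₂ y₁ - φ y₁ * ψ₂ x₁ := ⟨_, rfl⟩
    have hc'm : c' ∈ F₀ := hc' ▸ hω1 x₁ y₁
    have hc''m : c'' ∈ F₀ := hc'' ▸ hω2 x₁ y₁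
    have hω3 : ∀ x y, φ x * (c'' * ψ₁ y - c' * ψ₂ y) - φ y * (c'' * ψ₁ x - c' * ψ₂ x) ∈ F₀ := by
      intro x y
      have e : φ x * (c'' * ψ₁ y - c' * ψ₂ y) - φ y * (c'' * ψ₁ x - c' * ψ₂ x)
          = c'' * (φ x * ψ₁ y - φ y * ψ₁ x) - c' * (φ x * ψ₂ y - φ y * ψ₂ x) := by ring
      rw [e]
      exact F₀.sub_mem (F₀.mul_mem hc''m (hω1 x y)) (F₀.mul_mem hc'm (hω2 x y))
    have h03 : φ x₁ * (c'' * ψ₁ y₁ - c' * ψ₂ y₁) - φ y₁ * (c'' * ψ₁ x₁ - c' * ψ₂ x₁) = 0 := by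
      rw [hc', hc'']
      ring
    have p3 := plane_alg F₀ φ (fun x => c'' * ψ₁ x - c' * ψ₂ x) hω3 x₁ y₁ hx₁ hτ h03
    obtain ⟨κ, hκ⟩ : ∃ κ : F, κ = (c'' * ψ₁ x₁ - c' * ψ₂ x₁) / φ x₁ := ⟨_, rfl⟩
    have hvec : (g : Matrix ι ι F) *ᵥ ((-κ) • up F₀ u + c'' • up F₀ s₁ + (-c') • up F₀ s₂) = 0 := by
      apply eq_zero_of_ratQ hQ F₀
      intro b
      have := p3 b
      simp only [← hκ] at this
      rw [hφ, hψ₁, hψ₂] at this
      simp only [Matrix.mulVec_add, Matrix.mulVec_smul, hbl.add_left, hbl.smul_left]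
      linear_combination this
    obtain ⟨-, hc''0, hc'0⟩ := indep _ _ _ (ginj _ hvec)
    have hc'0' : c' = 0 := neg_eq_zero.mp hc'0
    have h01 : φ x₁ * ψ₁ y₁ - φ y₁ * ψ₁ x₁ = 0 := by rw [← hc', hc'0']
    have p1 := plane_alg F₀ φ ψ₁ hω1 x₁ y₁ hx₁ hτ h01
    obtain ⟨κ₁, hκ₁⟩ : ∃ κ₁ : F, κ₁ = ψ₁ x₁ / φ x₁ := ⟨_, rfl⟩
    have hvec1 : (g : Matrix ι ι F) *ᵥ ((-κ₁) • up F₀ u + (1 : F) • up F₀ s₁
        + (0 : F) • up F₀ s₂) = 0 := by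
      apply eq_zero_of_ratQ hQ F₀
      intro b
      have := p1 b
      simp only [← hκ₁] at this
      rw [hφ, hψ₁] at this
      simp only [Matrix.mulVec_add, Matrix.mulVec_smul, hbl.add_left, hbl.smul_left]
      linear_combination this
    obtain ⟨-, h10, -⟩ := indep _ _ _ (ginj _ hvec1)
    exact one_ne_zero h10
  obtain ⟨x₁, hx₁⟩ : ∃ x₁ : ι → F₀, φ x₁ ≠ 0 := by
    by_contra hcon
    push Not at hcon
    apply hup0
    apply ginj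
    apply eq_zero_of_ratQ hQ F₀
    intro b
    have := hcon b
    rw [hφ] at this
    exact this
  obtain ⟨α, hα⟩ : ∃ α : F, α = φ x₁ := ⟨_, rfl⟩
  have hα0 : α ≠ 0 := by rw [hα]; exact hx₁
  obtain ⟨z₀, hz₀⟩ := rat_of_pairQ hQ hR (α⁻¹ • ((g : Matrix ι ι F) *ᵥ up F₀ u)) (by
    intro b
    rw [hbl.smul_left]
    have := claim x₁ b hx₁
    rw [hφ] at this hα
    simp only at this hα
    rw [← hα, div_eq_inv_mul] at this
    exact this)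
  refine ⟨α, z₀, ?_⟩
  rw [← hz₀, smul_smul, mul_inv_cancel₀ hα0, one_smul]

end Main

end Cfsg.Agent.Lib.Helper94.SfOrth5
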