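import Mathlib
import Cfsg.Prelude.Def_GeometricClasses
import Cfsg.Agent.Lib.Helper94.SfSp1
import Cfsg.Agent.Lib.Helper94.SympGen
import Cfsg.Agent.Lib.Helper94.SympPair
import Cfsg.Agent.Lib.Helper98.SL2Sub

/-!
# Overgroups of the symplectic subfield group: the dichotomy (helper94)

For a subgroup `M` of the isometry group of a symplectic form containing the rational
transvections (`Ctx`):

* `dich` : either the parameters of the rational short root elements in `M` are all rational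
  (`LS`), or `M` contains all rational short root elements with arbitrary parameters (`AllS`);
* `ll_of_ls` : in the first case the parameters of rational transvections are rational;
* `all_imp` : in the second case `M` contains every isometry.
-/

set_option autoImplicit false
set_option linter.unusedSimpArgs false

namespace Cfsg.Agent.Lib.Helper94.SfSp2

open scoped Matrix
open Cfsg.Agent.Lib.Helper94.Basic Cfsg.Agent.Lib.Helper94.GLAux Cfsg.Agent.Lib.Helper94.Tv
  Cfsg.Agent.Lib.Helper94.SubfieldRat Cfsg.Agent.Lib.Helper94.SympAbs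
  Cfsg.Agent.Lib.Helper94.SympBlock Cfsg.Agent.Lib.Helper94.SympRoot
  Cfsg.Agent.Lib.Helper94.SfLin1 Cfsg.Agent.Lib.Helper94.SfSp1
open Cfsg.Agent.Lib.Helper94.SympGen (exists_hyp_perp exists_hyp_perp_sub)
open Cfsg.Agent.Lib.Helper94.SympPair (exists_map_pair)

section Main

variable {ι : Type} [Fintype ι] [DecidableEq ι] {F : Type*} [Field F]
variable {f : (ι → F) → (ι → F) → F} {F₀ : Subfield F}

/-- The context: `M` consists of isometries and contains the rational transvections. -/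
structure Ctx (hf : Cfsg.Geo.IsSymplecticForm f) (F₀ : Subfield F)
    (M : Subgroup (Matrix.GeneralLinearGroup ι F)) : Prop where
  iso : ∀ g ∈ M, ∀ x y, f ((g : Matrix ι ι F) *ᵥ x) ((g : Matrix ι ι F) *ᵥ y) = f x y
  rat : ∀ (a : ι → F₀) (c : F), c ∈ F₀ → st hf (up F₀ a) c ∈ M

variable {hf : Cfsg.Geo.IsSymplecticForm f} {M : Subgroup (Matrix.GeneralLinearGroup ι F)}

lemma Ctx.ss_rat (hC : Ctx hf F₀ M) (a b : ι → F₀) (h : f (up F₀ a) (up F₀ b) = 0) (c : F)
    (hc : c ∈ F₀) : ss hf (up F₀ a) (up F₀ b) c ∈ M := by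
  rw [ss_eq_st hf _ _ h, ← up_add]
  exact M.mul_mem (M.mul_mem (hC.rat _ c hc) (hC.rat _ _ (F₀.neg_mem hc)))
    (hC.rat _ _ (F₀.neg_mem hc))

lemma Ctx.phi_mem (hC : Ctx hf F₀ M) (hR : RatS f F₀) (h : Matrix.GeneralLinearGroup ι F₀)
    (hh : ∀ M' : Subgroup (Matrix.GeneralLinearGroup ι F₀),
      (∀ a c, st (f0_symp hf hR) a c ∈ M') → h ∈ M') : Phi F₀ h ∈ M := by
  have := hh (M.comap (Phi F₀ (ι := ι))) (by
    intro a c
    rw [Subgroup.mem_comap, Phi_st hf hR]
    exact hC.rat a c c.2)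
  exact this

/-- the set of vectors whose transvections with rational parameters lie in `M` -/
def cSet (hf : Cfsg.Geo.IsSymplecticForm f) (F₀ : Subfield F)
    (M : Subgroup (Matrix.GeneralLinearGroup ι F)) : Set (ι → F) :=
  {a | ∀ c ∈ F₀, st hf a c ∈ M}

lemma Ctx.cSet_up (hC : Ctx hf F₀ M) (a : ι → F₀) : up F₀ a ∈ cSet hf F₀ M :=
  fun c hc => hC.rat a c hc

lemma Ctx.cSet_map (hC : Ctx hf F₀ M) {g : Matrix.GeneralLinearGroup ι F} (hg : g ∈ M)
    {a : ι → F} (ha : a ∈ cSet hf F₀ M) : (g : Matrix ι ι F) *ᵥ a ∈ cSet hf F₀ M := by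
  intro c hc
  rw [← st_conj hf g (hC.iso g hg)]
  exact M.mul_mem (M.mul_mem hg (ha c hc)) (M.inv_mem hg)

/-- A hyperbolic pair orthogonal to a finite set of vectors. -/
lemma exists_hyp_pair {K : Type*} [Field K] {f' : (ι → K) → (ι → K) → K}
    (hf' : Cfsg.Geo.IsSymplecticForm f') (S : Finset (ι → K))
    (hS : 2 * S.card < Fintype.card ι) :
    ∃ y1 y2, (∀ u ∈ S, f' u y1 = 0) ∧ (∀ u ∈ S, f' u y2 = 0) ∧ f' y1 y2 = 1 := by
  classical
  have hU : 2 * Module.finrank K (Submodule.span K ((S : Set (ι → K)))) < Fintype.card ι := by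
    have h1 : Module.finrank K (Submodule.span K ((S : Set (ι → K)))) ≤ S.card :=
      finrank_span_finset_le_card (R := K) _
    omega
  obtain ⟨y1, y2, h1, h2, h3⟩ := exists_hyp_perp_sub hf' _ hU
  refine ⟨y1, (f' y1 y2)⁻¹ • y2, fun u hu => h1 u (Submodule.subset_span hu), fun u hu => ?_, ?_⟩
  · rw [hf'.bilinear.smul_right, h2 u (Submodule.subset_span hu), mul_zero]
  · rw [hf'.bilinear.smul_right, inv_mul_cancel₀ h3]

/-- The rational short root elements of `M` have rational parameters. -/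
def LS (hf : Cfsg.Geo.IsSymplecticForm f) (hR : RatS f F₀)
    (M : Subgroup (Matrix.GeneralLinearGroup ι F)) : Prop :=
  ∀ a b : ι → F₀, f0 hR a b = 0 → a ≠ 0 → b ∉ Submodule.span F₀ {a} →
    ∀ c : F, ss hf (up F₀ a) (up F₀ b) c ∈ M → c ∈ F₀

/-- `M` contains the rational short root elements with arbitrary parameters. -/
def AllS (hf : Cfsg.Geo.IsSymplecticForm f) (hR : RatS f F₀)
    (M : Subgroup (Matrix.GeneralLinearGroup ι F)) : Prop :=
  ∀ a b : ι → F₀, f0 hR a b = 0 → a ≠ 0 → b ∉ Submodule.span F₀ {a} →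
    ∀ c : F, ss hf (up F₀ a) (up F₀ b) c ∈ M

theorem dich (hR : RatS f F₀)
    (hgen : ∀ μ : F, μ ∉ F₀ → ∀ A : AddSubgroup F, (∀ a ∈ F₀, ∀ z ∈ A, a * z ∈ A) →
      (∀ z ∈ A, μ * z ∈ A) → (1 : F) ∈ A → A = ⊤)
    (hC : Ctx hf F₀ M) (hcard : 9 ≤ Fintype.card ι) : LS hf hR M ∨ AllS hf hR M := by
  classical
  have hf0 := f0_symp hf hR
  have hsk : ∀ u v : ι → F₀, f0 hR u v = 0 → f0 hR v u = 0 := by
    intro u v h
    rw [hf0.skew, h, neg_zero]
  obtain ⟨p0, q0, -, -, h0⟩ := exists_hyp_pair hf0 ∅ (by rw [Finset.card_empty]; omega)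
  obtain ⟨p1, q1, hp1, hq1, h1⟩ := exists_hyp_pair hf0 {p0, q0}
    (lt_of_le_of_lt (Nat.mul_le_mul_left 2 Finset.card_le_two) (by omega))
  obtain ⟨p2, q2, hp2, hq2, h2⟩ := exists_hyp_pair hf0 {p0, q0, p1, q1}
    (lt_of_le_of_lt (Nat.mul_le_mul_left 2 Finset.card_le_four) (by omega))
  have a01 := hp1 p0 (by simp)
  have b01 := hp1 q0 (by simp)
  have c01 := hq1 p0 (by simp)
  have d01 := hq1 q0 (by simp)
  have a02 := hp2 p0 (by simp)
  have b02 := hp2 q0 (by simp)
  have c02 := hq2 p0 (by simp)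
  have d02 := hq2 q0 (by simp)
  have a12 := hp2 p1 (by simp)
  have b12 := hp2 q1 (by simp)
  have c12 := hq2 p1 (by simp)
  have d12 := hq2 q1 (by simp)
  obtain ⟨e, he⟩ : ∃ e : Fin 3 → (ι → F₀), e = ![p0, p1, p2] := ⟨_, rfl⟩
  obtain ⟨e', he'⟩ : ∃ e' : Fin 3 → (ι → F₀), e' = ![q0, q1, q2] := ⟨_, rfl⟩
  have hee : ∀ i j, f0 hR (e i) (e j) = 0 := by
    intro i j
    rw [he]
    fin_cases i <;> fin_cases j <;>
      simp [hf0.alternating, a01, a02, a12, hsk _ _ a01, hsk _ _ a02, hsk _ _ a12]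
  have hee' : ∀ i j, f0 hR (e' i) (e' j) = 0 := by
    intro i j
    rw [he']
    fin_cases i <;> fin_cases j <;>
      simp [hf0.alternating, d01, d02, d12, hsk _ _ d01, hsk _ _ d02, hsk _ _ d12]
  have hpair : ∀ i j, i ≠ j → f0 hR (e i) (e' j) = 0 := by
    intro i j hij
    rw [he, he']
    fin_cases i <;> fin_cases j <;>
      simp [c01, c02, c12, hsk _ _ b01, hsk _ _ b02, hsk _ _ b12] at hij ⊢
  have hone : ∀ i, f0 hR (e i) (e' i) = 1 := by
    intro i
    rw [he, he']
    fin_cases i <;> simp [h0, h1, h2]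
  -- the same over the big field
  have Hee : ∀ i j, f (up F₀ (e i)) (up F₀ (e j)) = 0 := fun i j =>
    (f0_eq_zero hR _ _).mp (hee i j)
  have Hee' : ∀ i j, f (up F₀ (e' i)) (up F₀ (e' j)) = 0 := fun i j =>
    (f0_eq_zero hR _ _).mp (hee' i j)
  have Hpair : ∀ i j, i ≠ j → f (up F₀ (e i)) (up F₀ (e' j)) = 0 := fun i j hij =>
    (f0_eq_zero hR _ _).mp (hpair i j hij)
  have Hone : ∀ i, f (up F₀ (e i)) (up F₀ (e' i)) = 1 := fun i =>
    (f0_eq_one hR _ _).mp (hone i)
  have hcases := lam_cases_abs (fun i j c => ss hf (up F₀ (e i)) (up F₀ (e' j)) c)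
    (fun i j hij c d => ss_mul hf _ _ (Hpair i j hij) c d)
    (fun i j k hij hjk hik c d =>
      steinberg hf (fun i => up F₀ (e i)) (fun i => up F₀ (e' i)) Hee Hee' Hpair Hone i j k
        hij hjk hik c d)
    F₀ hgen M (fun i j hij c hc => hC.ss_rat _ _ (Hpair i j hij) c hc)
    (by rw [Fintype.card_fin])
  -- transfer to arbitrary pairs
  have he0 : e 0 ≠ 0 := by
    intro h
    have := hone 0
    rw [h, SympAbs.bil_zero_left hf0.bilinear] at this
    exact zero_ne_one this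
  have he1 : e' 1 ∉ Submodule.span F₀ {e 0} := by
    intro hmem
    obtain ⟨s, hs⟩ := Submodule.mem_span_singleton.mp hmem
    have := hone 1
    rw [← hs, hf0.bilinear.smul_right, hee 1 0, mul_zero] at this
    exact zero_ne_one this
  have h01 : f0 hR (e 0) (e' 1) = 0 := hpair 0 1 (by decide)
  have key : ∀ a b : ι → F₀, f0 hR a b = 0 → a ≠ 0 → b ∉ Submodule.span F₀ {a} → ∀ c : F,
      (ss hf (up F₀ a) (up F₀ b) c ∈ M ↔ ss hf (up F₀ (e 0)) (up F₀ (e' 1)) c ∈ M) := by
    intro a b hab ha hb c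
    obtain ⟨h, hhM, -, hh1, hh2⟩ := exists_map_pair hf0 a b (e 0) (e' 1) hab h01 ha he0 hb he1
    have hPhi : Phi F₀ h ∈ M := hC.phi_mem hR h hhM
    have econj : Phi F₀ h * ss hf (up F₀ a) (up F₀ b) c * (Phi F₀ h)⁻¹
        = ss hf (up F₀ (e 0)) (up F₀ (e' 1)) c := by
      rw [ss_conj hf _ (hC.iso _ hPhi) _ _ ((f0_eq_zero hR _ _).mp hab), Phi_mulVec, Phi_mulVec,
        hh1, hh2]
    constructor
    · intro hmem
      rw [← econj]
      exact M.mul_mem (M.mul_mem hPhi hmem) (M.inv_mem hPhi)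
    · intro hmem
      have e2 : ss hf (up F₀ a) (up F₀ b) c
          = (Phi F₀ h)⁻¹ * ss hf (up F₀ (e 0)) (up F₀ (e' 1)) c * Phi F₀ h := by
        rw [← econj]
        group
      rw [e2]
      exact M.mul_mem (M.mul_mem (M.inv_mem hPhi) hmem) hPhi
  rcases hcases with hl | hr
  · left
    intro a b hab ha hb c hc
    exact hl 0 1 (by decide) c ((key a b hab ha hb c).mp hc)
  · right
    intro a b hab ha hb c
    exact (key a b hab ha hb c).mpr (hr 0 1 (by decide) c)

/-- The rational transvections of `M` have rational parameters. -/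
def LL (hf : Cfsg.Geo.IsSymplecticForm f) (F₀ : Subfield F)
    (M : Subgroup (Matrix.GeneralLinearGroup ι F)) : Prop :=
  ∀ a : ι → F₀, a ≠ 0 → ∀ t : F, st hf (up F₀ a) t ∈ M → t ∈ F₀

theorem ll_of_ls (hR : RatS f F₀) (hC : Ctx hf F₀ M) (hcard : 3 ≤ Fintype.card ι)
    (hLS : LS hf hR M) : LL hf F₀ M := by
  intro a ha t ht
  have hf0 := f0_symp hf hR
  obtain ⟨y1, y2, hy1, hy2, hy⟩ := exists_hyp_perp hf0 hcard a
  have hay1 : f0 hR a y1 = 0 := by rw [hf0.skew, hy1, neg_zero]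
  have hb : y1 ∉ Submodule.span F₀ {a} := by
    intro hmem
    obtain ⟨s, hs⟩ := Submodule.mem_span_singleton.mp hmem
    apply hy
    rw [← hs, hf0.bilinear.smul_left, hf0.skew, hy2]
    simp
  have hy10 : y1 ≠ 0 := by
    intro h
    apply hy
    rw [h, bil_zero_left hf0.bilinear]
  have hab0 : a + y1 ≠ 0 := by
    intro h
    apply hb
    rw [Submodule.mem_span_singleton]
    refine ⟨-1, ?_⟩
    rw [neg_one_smul]
    exact (eq_neg_of_add_eq_zero_right h).symm
  obtain ⟨h₁, h₁M, -, h₁a⟩ := exists_map hf0 a y1 ha hy10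
  obtain ⟨h₂, h₂M, -, h₂a⟩ := exists_map hf0 a (a + y1) ha hab0
  have hP1 := hC.phi_mem hR h₁ h₁M
  have hP2 := hC.phi_mem hR h₂ h₂M
  have s1 : st hf (up F₀ y1) t ∈ M := by
    have e := st_conj hf (Phi F₀ h₁) (hC.iso _ hP1) (up F₀ a) t
    rw [Phi_mulVec, h₁a] at e
    rw [← e]
    exact M.mul_mem (M.mul_mem hP1 ht) (M.inv_mem hP1)
  have s2 : st hf (up F₀ (a + y1)) t ∈ M := by
    have e := st_conj hf (Phi F₀ h₂) (hC.iso _ hP2) (up F₀ a) t
    rw [Phi_mulVec, h₂a] at e
    rw [← e]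
    exact M.mul_mem (M.mul_mem hP2 ht) (M.inv_mem hP2)
  apply hLS a y1 hay1 ha hb t
  rw [ss_eq_st hf _ _ ((f0_eq_zero hR _ _).mp hay1), ← up_add]
  refine M.mul_mem (M.mul_mem s2 ?_) ?_
  · rw [← st_inv]
    exact M.inv_mem ht
  · rw [← st_inv]
    exact M.inv_mem s1

/-- Rational vectors are transvection vectors if `M` contains all rational short root
elements. -/
lemma up_mem_tvSet [Finite F] (hR : RatS f F₀) (hC : Ctx hf F₀ M) (hcard : 3 ≤ Fintype.card ι)
    (hAll : AllS hf hR M) (a : ι → F₀) : up F₀ a ∈ tvSet hf M := by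
  have hf0 := f0_symp hf hR
  by_cases ha : a = 0
  · rw [ha, up_zero]
    exact tvSet_zero hf M
  obtain ⟨y1, y2, hy1, hy2, hy⟩ := exists_hyp_perp hf0 hcard a
  obtain ⟨b, hbdef⟩ : ∃ b : ι → F₀, b = (f0 hR y1 y2)⁻¹ • y2 := ⟨_, rfl⟩
  have hay1 : f0 hR a y1 = 0 := by rw [hf0.skew, hy1, neg_zero]
  have hay2 : f0 hR a y2 = 0 := by rw [hf0.skew, hy2, neg_zero]
  have hab : f0 hR a b = 0 := by
    rw [hbdef, hf0.bilinear.smul_right, hay2, mul_zero]
  have hb'b : f0 hR y1 b = 1 := by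
    rw [hbdef, hf0.bilinear.smul_right, inv_mul_cancel₀ hy]
  have hb1 : b ∉ Submodule.span F₀ {a} := by
    intro hmem
    obtain ⟨s, hs⟩ := Submodule.mem_span_singleton.mp hmem
    rw [← hs, hf0.bilinear.smul_right, hy1, mul_zero] at hb'b
    exact zero_ne_one hb'b
  have hb2 : y1 ∉ Submodule.span F₀ {a} := by
    intro hmem
    obtain ⟨s, hs⟩ := Submodule.mem_span_singleton.mp hmem
    rw [← hs, hf0.bilinear.smul_left, hab, mul_zero] at hb'b
    exact zero_ne_one hb'b
  have Hab : f (up F₀ a) (up F₀ b) = 0 := (f0_eq_zero hR _ _).mp hab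
  have Hay1 : f (up F₀ a) (up F₀ y1) = 0 := (f0_eq_zero hR _ _).mp hay1
  have Hy1a : f (up F₀ y1) (up F₀ a) = 0 := by rw [hf.skew, Hay1, neg_zero]
  have Hb'b : f (up F₀ y1) (up F₀ b) = 1 := (f0_eq_one hR _ _).mp hb'b
  -- squares
  have hsq : ∀ c : F, st hf (up F₀ a) (c ^ 2) ∈ M := by
    intro c
    have h1 : ss hf (up F₀ a) (up F₀ b) c ∈ M := hAll a b hab ha hb1 c
    have h2 : ss hf (up F₀ a) (up F₀ y1) c ∈ M := hAll a y1 hay1 ha hb2 c
    have h3 : st hf (up F₀ y1 + c • up F₀ a) 1 ∈ M := by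
      have e := st_conj hf _ (hC.iso _ h1) (up F₀ y1) 1
      rw [ss_mulVec hf _ _ Hab, Hb'b, Hy1a, mul_one, mul_zero, zero_smul, add_zero] at e
      rw [← e]
      exact M.mul_mem (M.mul_mem h1 (hC.rat y1 1 F₀.one_mem)) (M.inv_mem h1)
    have h4 : st hf (up F₀ y1) (-1) ∈ M := hC.rat y1 (-1) (F₀.neg_mem F₀.one_mem)
    have e : st hf (up F₀ a) (c ^ 2)
        = (ss hf (up F₀ a) (up F₀ y1) c)⁻¹ * (st hf (up F₀ y1 + c • up F₀ a) 1
          * st hf (up F₀ y1) (-1)) := by
      rw [ss_inv hf _ _ Hay1]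
      apply gl_ext
      intro x
      simp only [Units.val_mul, ← Matrix.mulVec_mulVec]
      simp only [st_mulVec, ss_mulVec hf _ _ Hay1, hf.bilinear.add_left, hf.bilinear.add_right,
        hf.bilinear.smul_left, hf.bilinear.smul_right, hf.alternating, Hay1, Hy1a, mul_zero,
        add_zero, zero_add, mul_one, one_mul]
      module
    rw [e]
    exact M.mul_mem (M.inv_mem h2) (M.mul_mem h3 h4)
  intro t
  obtain ⟨x, -, y, -, hxy⟩ := Cfsg.Agent.Lib.Helper98.SL2Sub.exists_sq_sub_sq (⊤ : Subfield F) t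
    (Subfield.mem_top t)
  have e : st hf (up F₀ a) t = st hf (up F₀ a) (x ^ 2) * (st hf (up F₀ a) (y ^ 2))⁻¹ := by
    rw [st_inv, st_mul, hxy, sub_eq_add_neg]
  rw [e]
  exact M.mul_mem (hsq x) (M.inv_mem (hsq y))

/-- Adding a multiple of a basis vector to a transvection vector. -/
lemma add_single_mem [Finite F] (hR : RatS f F₀) (hC : Ctx hf F₀ M)
    (hcard : 3 ≤ Fintype.card ι) (hAll : AllS hf hR M) (y : ι → F) (hy : y ∈ tvSet hf M)
    (q : ι) (t : F) : y + t • Pi.single q (1 : F) ∈ tvSet hf M := by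
  have hf0 := f0_symp hf hR
  have heq : (Pi.single q (1 : F) : ι → F) ∈ tvSet hf M := by
    rw [← up_single F₀ q]
    exact up_mem_tvSet hR hC hcard hAll _
  have hs0 : (Pi.single q (1 : F₀) : ι → F₀) ≠ 0 := by
    intro h0
    have := congrFun h0 q
    simp at this
  by_cases h1 : f y (Pi.single q 1) = 0
  · by_cases hex : ∃ b : ι → F₀, f0 hR (Pi.single q 1) b = 0 ∧ f y (up F₀ b) ≠ 0
    · obtain ⟨b, hb1, hb2⟩ := hex
      have hbs : b ∉ Submodule.span F₀ {(Pi.single q (1 : F₀) : ι → F₀)} := by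
        intro hmem
        obtain ⟨s, hs⟩ := Submodule.mem_span_singleton.mp hmem
        apply hb2
        rw [← hs, up_smul, hf.bilinear.smul_right, up_single, h1, mul_zero]
      have hmem := hAll (Pi.single q 1) b hb1 hs0 hbs (t / f y (up F₀ b))
      have Hb1 : f (up F₀ (Pi.single q (1 : F₀))) (up F₀ b) = 0 := (f0_eq_zero hR _ _).mp hb1
      have h3 := tvSet_map hf M hC.iso hmem hy
      rw [ss_mulVec hf _ _ Hb1, up_single, h1, mul_zero, zero_smul, add_zero,
        div_mul_cancel₀ _ hb2] at h3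
      exact h3
    · push Not at hex
      obtain ⟨d0, hd0⟩ := (hf0.nondegenerate _ hs0).2
      obtain ⟨d, hddef⟩ : ∃ d : ι → F₀, d = (f0 hR (Pi.single q 1) d0)⁻¹ • d0 := ⟨_, rfl⟩
      have hd : f0 hR (Pi.single q 1) d = 1 := by
        rw [hddef, hf0.bilinear.smul_right, inv_mul_cancel₀ hd0]
      have Hd : f (Pi.single q (1 : F)) (up F₀ d) = 1 := by
        rw [← up_single F₀ q]
        exact (f0_eq_one hR _ _).mp hd
      have hy' : y - f y (up F₀ d) • Pi.single q (1 : F) = 0 := by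
        apply eq_zero_of_rat hf F₀
        intro b
        have h3 := hex (b - f0 hR (Pi.single q 1) b • d) (by
          rw [bil_sub_right hf0.bilinear, hf0.bilinear.smul_right, hd, mul_one, sub_self])
        rw [up_sub, up_smul, bil_sub_right hf.bilinear, hf.bilinear.smul_right, f0_coe,
          up_single] at h3
        rw [bil_sub_left hf.bilinear, hf.bilinear.smul_left]
        linear_combination h3
      have hy'' : y + t • Pi.single q (1 : F) = (f y (up F₀ d) + t) • Pi.single q (1 : F) := by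
        rw [add_smul]
        congr 1
        exact sub_eq_zero.mp hy'
      rw [hy'']
      exact tvSet_smul hf M heq _
  · exact tvSet_hyp hf M hC.iso hy heq h1 t

/-- If `M` contains all rational short root elements then it contains every isometry. -/
theorem all_imp [Finite F] (hR : RatS f F₀) (hC : Ctx hf F₀ M) (hcard : 3 ≤ Fintype.card ι)
    (hAll : AllS hf hR M) (g : Matrix.GeneralLinearGroup ι F)
    (hg : ∀ x y, f ((g : Matrix ι ι F) *ᵥ x) ((g : Matrix ι ι F) *ᵥ y) = f x y) : g ∈ M := by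
  classical
  have key : ∀ S : Finset ι, ∀ x : ι → F, (∀ q, q ∉ S → x q = 0) → x ∈ tvSet hf M := by
    intro S
    induction S using Finset.induction_on with
    | empty =>
      intro x hx
      have : x = 0 := funext fun q => hx q (Finset.notMem_empty q)
      rw [this]
      exact tvSet_zero hf M
    | insert q S hq ih =>
      intro x hx
      have e : x = Function.update x q 0 + x q • Pi.single q (1 : F) := by
        ext p
        by_cases hp : p = q
        · subst hp
          simp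
        · simp [Function.update_of_ne hp, Pi.single_eq_of_ne hp]
      rw [e]
      apply add_single_mem hR hC hcard hAll
      apply ih
      intro p hp
      by_cases hpq : p = q
      · rw [hpq]
        simp
      · rw [Function.update_of_ne hpq]
        apply hx
        rw [Finset.mem_insert]
        push Not
        exact ⟨hpq, hp⟩
  exact mem_of_tvSet_univ hf M (fun a => key Finset.univ a (fun q hq => absurd (Finset.mem_univ q) hq))
    g hg

end Main

end Cfsg.Agent.Lib.Helper94.SfSp2
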