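import Mathlib
import Cfsg.Prelude.Def_GeometricClasses
import Cfsg.Agent.Lib.Helper94.SfSp2
import Cfsg.Agent.Lib.Helper98.SL2Sub
import Cfsg.Agent.Lib.Helper98.SL2Field

/-!
# Overgroups of the symplectic subfield group: rationality (helper94)

Assuming that the parameters of rational root elements in `M` are rational, the image of a
rational vector under an element of `M` is a multiple of a rational vector:

* `rat_char_two` : characteristic two (via products of commuting transvections);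
* `rat_of_gen` : via generation of `SL₂` by two root groups;
* `rat_quad` : quadratic extensions in odd characteristic.
-/

set_option autoImplicit false
set_option linter.unusedSimpArgs false

namespace Cfsg.Agent.Lib.Helper94.SfSp3

open scoped Matrix MatrixGroups
open Cfsg.Agent.Lib.Helper94.Basic Cfsg.Agent.Lib.Helper94.GLAux Cfsg.Agent.Lib.Helper94.Tv
  Cfsg.Agent.Lib.Helper94.SubfieldRat Cfsg.Agent.Lib.Helper94.SympAbs
  Cfsg.Agent.Lib.Helper94.SympBlock Cfsg.Agent.Lib.Helper94.SympRoot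
  Cfsg.Agent.Lib.Helper94.SfLin1 Cfsg.Agent.Lib.Helper94.SfSp1 Cfsg.Agent.Lib.Helper94.SfSp2
open Cfsg.Agent.Lib.Helper94.SympGen (exists_hyp_perp exists_hyp_perp_sub)
open Cfsg.Agent.Lib.Helper94.SympPair (exists_map_pair exists_perp_both)

section Calc

variable {ι : Type} [Fintype ι] [DecidableEq ι] {F : Type*} [Field F]
variable {f : (ι → F) → (ι → F) → F}

lemma ss_smul_left (hf : Cfsg.Geo.IsSymplecticForm f) (a b : ι → F) (h : f a b = 0) (l c : F) :
    ss hf (l • a) b c = ss hf a b (l * c) := by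
  have h' : f (l • a) b = 0 := by rw [hf.bilinear.smul_left, h, mul_zero]
  apply gl_ext
  intro x
  rw [ss_mulVec hf _ _ h', ss_mulVec hf _ _ h, hf.bilinear.smul_right]
  module

lemma ss_smul_right (hf : Cfsg.Geo.IsSymplecticForm f) (a b : ι → F) (h : f a b = 0) (l c : F) :
    ss hf a (l • b) c = ss hf a b (l * c) := by
  have h' : f a (l • b) = 0 := by rw [hf.bilinear.smul_right, h, mul_zero]
  apply gl_ext
  intro x
  rw [ss_mulVec hf _ _ h', ss_mulVec hf _ _ h, hf.bilinear.smul_right]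
  module

/-- In characteristic two, the product of four commuting transvections is a short root
element. -/
lemma four_st (hf : Cfsg.Geo.IsSymplecticForm f) (h2 : (2 : F) = 0) (z n n' : ι → F)
    (h1 : f z n = 0) (h1' : f z n' = 0) (h3 : f n n' = 0) :
    st hf z 1 * st hf (z + n) 1 * st hf (z + n') 1 * st hf (z + n + n') 1 = ss hf n n' 1 := by
  have e1 : f n z = 0 := by rw [hf.skew, h1, neg_zero]
  have e2 : f n' z = 0 := by rw [hf.skew, h1', neg_zero]
  have e3 : f n' n = 0 := by rw [hf.skew, h3, neg_zero]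
  apply gl_ext
  intro x
  simp only [Units.val_mul, ← Matrix.mulVec_mulVec]
  rw [ss_mulVec hf _ _ h3]
  simp only [st_mulVec, hf.bilinear.add_left, hf.bilinear.add_right, hf.bilinear.smul_left,
    hf.alternating, h1, h1', h3, e1, e2, e3, mul_zero, add_zero, zero_add, one_mul]
  linear_combination (norm := module) h2 • ((2 * f x z + f x n + f x n') • z
    + (f x z + f x n) • n + (f x z + f x n') • n')

/-- In characteristic two, a product of two short root elements. -/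
lemma ss_prod (hf : Cfsg.Geo.IsSymplecticForm f) (h2 : (2 : F) = 0) (n p n' : ι → F)
    (h1 : f n n' = 0) (h1' : f p n' = 0) (h3 : f n p = 0) :
    ss hf n n' 1 * ss hf (n + p) n' 1 = ss hf p n' 1 := by
  have e1 : f n' n = 0 := by rw [hf.skew, h1, neg_zero]
  have e2 : f n' p = 0 := by rw [hf.skew, h1', neg_zero]
  have e3 : f p n = 0 := by rw [hf.skew, h3, neg_zero]
  have h4 : f (n + p) n' = 0 := by rw [hf.bilinear.add_left, h1, h1', add_zero]
  apply gl_ext
  intro x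
  simp only [Units.val_mul, ← Matrix.mulVec_mulVec]
  rw [ss_mulVec hf _ _ h1', ss_mulVec hf _ _ h4, ss_mulVec hf _ _ h1]
  simp only [hf.bilinear.add_left, hf.bilinear.add_right, hf.bilinear.smul_left,
    hf.alternating, h1, h1', h3, e1, e2, e3, mul_zero, add_zero, zero_add, one_mul]
  linear_combination (norm := module) h2 • (f x n' • n + f x n • n')

lemma ss_add_self_two (hf : Cfsg.Geo.IsSymplecticForm f) (h2 : (2 : F) = 0) (a w : ι → F)
    (haw : f a w = 0) (l c : F) : ss hf a (l • a + w) c = ss hf a w c := by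
  rw [ss_add_self hf a w haw, h2, zero_mul, zero_mul, st_c0, one_mul]

/-- Four transvections with centres on a totally isotropic line. -/
lemma four_st_line (hf : Cfsg.Geo.IsSymplecticForm f) (z v : ι → F) (h : f z v = 0) (ν β : F) :
    st hf z 1 * st hf (z + ν • v) (-1) * st hf (z + (ν + β) • v) 1 * st hf (z + β • v) (-1)
      = st hf v (2 * β * ν) := by
  have e1 : f v z = 0 := by rw [hf.skew, h, neg_zero]
  apply gl_ext
  intro x
  simp only [Units.val_mul, ← Matrix.mulVec_mulVec]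
  simp only [st_mulVec, hf.bilinear.add_left, hf.bilinear.add_right, hf.bilinear.smul_left,
    hf.bilinear.smul_right, hf.alternating, h, e1, mul_zero, add_zero, zero_add, one_mul]
  module

end Calc

section Rat

variable {ι : Type} [Fintype ι] [DecidableEq ι] {F : Type*} [Field F]
variable {f : (ι → F) → (ι → F) → F} {F₀ : Subfield F}
variable {hf : Cfsg.Geo.IsSymplecticForm f} {M : Subgroup (Matrix.GeneralLinearGroup ι F)}

/-- A vector with rational pairings against all rational vectors is rational. -/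
lemma rat_of_pair (hf : Cfsg.Geo.IsSymplecticForm f) (hR : RatS f F₀) (z : ι → F)
    (h : ∀ b : ι → F₀, f z (up F₀ b) ∈ F₀) : ∃ z₀ : ι → F₀, z = up F₀ z₀ := by
  have hf0 := f0_symp hf hR
  choose d hd using fun q => exists_rep hf0 (LinearMap.proj q : (ι → F₀) →ₗ[F₀] F₀)
  have key : ∀ q (x : ι → F), x q = f x (up F₀ (d q)) := by
    intro q x
    have e : (LinearMap.proj q : (ι → F) →ₗ[F] F) = fR hf.bilinear (up F₀ (d q)) := by
      apply LinearMap.pi_ext'
      intro i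
      apply LinearMap.ext_ring
      have h1 := hd q (Pi.single i 1)
      have h2 := congrArg (fun t : F₀ => (t : F)) h1
      simp only [LinearMap.proj_apply, f0_coe, up_single] at h2
      simp only [LinearMap.coe_comp, LinearMap.coe_single, Function.comp_apply,
        LinearMap.proj_apply, fR_apply]
      rw [← h2]
      by_cases hq : q = i
      · subst hq
        simp
      · simp [Pi.single_eq_of_ne hq]
    have := congrArg (fun φ : Module.Dual F (ι → F) => φ x) e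
    simpa using this
  refine ⟨fun q => ⟨f z (up F₀ (d q)), h (d q)⟩, ?_⟩
  ext q
  rw [key q z]
  rfl

/-- Rationality in characteristic two. -/
theorem rat_char_two [Finite F] (hR : RatS f F₀) (hC : Ctx hf F₀ M)
    (hcard : 7 ≤ Fintype.card ι) (h2 : (2 : F) = 0) (hLS : LS hf hR M) (z : ι → F)
    (hz : z ∈ cSet hf F₀ M) : ∃ z₀ : ι → F₀, z = up F₀ z₀ := by
  classical
  have hf0 := f0_symp hf hR
  apply rat_of_pair hf hR
  intro b
  by_cases hb : b = 0
  · rw [hb, up_zero, bil_zero_right hf.bilinear]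
    exact F₀.zero_mem
  obtain ⟨a, c, hSa, hSc, hac⟩ := exists_hyp_pair hf0 {b} (by rw [Finset.card_singleton]; omega)
  obtain ⟨a', c', hSa', hSc', hac'⟩ := exists_hyp_pair hf0 {b, a, c}
    (lt_of_le_of_lt (Nat.mul_le_mul_left 2 Finset.card_le_three) (by omega))
  have hba := hSa b (by simp)
  have hbc := hSc b (by simp)
  have hba' := hSa' b (by simp)
  have haa' := hSa' a (by simp)
  have hca' := hSa' c (by simp)
  have hbc' := hSc' b (by simp)
  have ha'b : a' ∉ Submodule.span F₀ {b} := by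
    intro hmem
    obtain ⟨s, hs⟩ := Submodule.mem_span_singleton.mp hmem
    rw [← hs, hf0.bilinear.smul_left, hbc', mul_zero] at hac'
    exact zero_ne_one hac'
  have Z : ∀ u v : ι → F₀, f0 hR u v = 0 → f (up F₀ u) (up F₀ v) = 0 := fun u v h =>
    (f0_eq_zero hR u v).mp h
  have Zs : ∀ u v : ι → F₀, f0 hR u v = 0 → f (up F₀ v) (up F₀ u) = 0 := fun u v h => by
    rw [hf.skew, Z u v h, neg_zero]
  have fBA := Z _ _ hba
  have fAB := Zs _ _ hba
  have fBC := Z _ _ hbc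
  have fCB := Zs _ _ hbc
  have fAC : f (up F₀ a) (up F₀ c) = 1 := (f0_eq_one hR _ _).mp hac
  have fBA' := Z _ _ hba'
  have fA'B := Zs _ _ hba'
  have fAA' := Z _ _ haa'
  have fA'A := Zs _ _ haa'
  have fCA' := Z _ _ hca'
  have fA'C := Zs _ _ hca'
  obtain ⟨α, hα⟩ : ∃ α : F, α = f z (up F₀ a) := ⟨_, rfl⟩
  obtain ⟨β, hβ⟩ : ∃ β : F, β = f z (up F₀ b) := ⟨_, rfl⟩
  obtain ⟨α', hα'⟩ : ∃ α' : F, α' = f z (up F₀ a') := ⟨_, rfl⟩
  rw [← hβ]
  have hS1 : ss hf (up F₀ a) (up F₀ b) 1 ∈ M := hC.ss_rat a b fAB 1 F₀.one_mem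
  have hS2 : ss hf (up F₀ a') (up F₀ b) 1 ∈ M := hC.ss_rat a' b fA'B 1 F₀.one_mem
  have hK : ss hf (up F₀ c) (up F₀ b) 1 ∈ M := hC.ss_rat c b fCB 1 F₀.one_mem
  obtain ⟨n, hn⟩ : ∃ n : ι → F, n = β • up F₀ a + α • up F₀ b := ⟨_, rfl⟩
  obtain ⟨n', hn'⟩ : ∃ n' : ι → F, n' = β • up F₀ a' + α' • up F₀ b := ⟨_, rfl⟩
  have e1 : ((ss hf (up F₀ a) (up F₀ b) 1 : Matrix.GeneralLinearGroup ι F) : Matrix ι ι F) *ᵥ z
      = z + n := by
    rw [ss_mulVec hf _ _ fAB, one_mul, one_mul, ← hβ, ← hα, hn, add_assoc]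
  have e2 : ((ss hf (up F₀ a') (up F₀ b) 1 : Matrix.GeneralLinearGroup ι F) : Matrix ι ι F) *ᵥ z
      = z + n' := by
    rw [ss_mulVec hf _ _ fA'B, one_mul, one_mul, ← hβ, ← hα', hn', add_assoc]
  have e3 : ((ss hf (up F₀ a') (up F₀ b) 1 : Matrix.GeneralLinearGroup ι F) : Matrix ι ι F)
      *ᵥ (z + n) = z + n + n' := by
    rw [ss_mulVec hf _ _ fA'B, hn, hn']
    simp only [hf.bilinear.add_left, hf.bilinear.smul_left, fAB, fAA', hf.alternating, fBA',
      ← hβ, ← hα', mul_zero, add_zero, one_mul]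
    module
  have hz1 : z + n ∈ cSet hf F₀ M := by
    rw [← e1]
    exact hC.cSet_map hS1 hz
  have hz2 : z + n' ∈ cSet hf F₀ M := by
    rw [← e2]
    exact hC.cSet_map hS2 hz
  have hz3 : z + n + n' ∈ cSet hf F₀ M := by
    rw [← e3]
    exact hC.cSet_map hS2 hz1
  have fzn : f z n = 0 := by
    rw [hn, hf.bilinear.add_right, hf.bilinear.smul_right, hf.bilinear.smul_right, ← hα, ← hβ]
    linear_combination (α * β) * h2
  have fzn' : f z n' = 0 := by
    rw [hn', hf.bilinear.add_right, hf.bilinear.smul_right, hf.bilinear.smul_right, ← hα', ← hβ]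
    linear_combination (α' * β) * h2
  have fnn' : f n n' = 0 := by
    rw [hn, hn']
    simp only [hf.bilinear.add_left, hf.bilinear.add_right, hf.bilinear.smul_left,
      hf.bilinear.smul_right, fAB, fAA', fBA', hf.alternating, mul_zero, add_zero]
  have hW : ss hf n n' 1 ∈ M := by
    rw [← four_st hf h2 z n n' fzn fzn' fnn']
    exact M.mul_mem (M.mul_mem (M.mul_mem (hz 1 F₀.one_mem) (hz1 1 F₀.one_mem))
      (hz2 1 F₀.one_mem)) (hz3 1 F₀.one_mem)
  have eKn : ((ss hf (up F₀ c) (up F₀ b) 1 : Matrix.GeneralLinearGroup ι F) : Matrix ι ι F) *ᵥ n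
      = n + β • up F₀ b := by
    rw [ss_mulVec hf _ _ fCB, hn]
    simp only [hf.bilinear.add_left, hf.bilinear.smul_left, fAB, fAC, hf.alternating, fBC,
      mul_zero, add_zero, one_mul, mul_one, zero_smul]
  have eKn' : ((ss hf (up F₀ c) (up F₀ b) 1 : Matrix.GeneralLinearGroup ι F) : Matrix ι ι F)
      *ᵥ n' = n' := by
    rw [ss_mulVec hf _ _ fCB, hn']
    simp only [hf.bilinear.add_left, hf.bilinear.smul_left, fA'B, fA'C, hf.alternating, fBC,
      mul_zero, add_zero, one_mul, mul_one, zero_smul]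
  have hW2 : ss hf (n + β • up F₀ b) n' 1 ∈ M := by
    have e := ss_conj hf _ (hC.iso _ hK) n n' fnn' 1
    rw [eKn, eKn'] at e
    rw [← e]
    exact M.mul_mem (M.mul_mem hK hW) (M.inv_mem hK)
  have fBn' : f (up F₀ b) n' = 0 := by
    rw [hn']
    simp only [hf.bilinear.add_right, hf.bilinear.smul_right, fBA', hf.alternating, mul_zero,
      add_zero]
  have fnB : f n (up F₀ b) = 0 := by
    rw [hn]
    simp only [hf.bilinear.add_left, hf.bilinear.smul_left, fAB, hf.alternating, mul_zero,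
      add_zero]
  have hW3 : ss hf (β • up F₀ b) n' 1 ∈ M := by
    rw [← ss_prod hf h2 n (β • up F₀ b) n' fnn'
      (by rw [hf.bilinear.smul_left, fBn', mul_zero])
      (by rw [hf.bilinear.smul_right, fnB, mul_zero])]
    exact M.mul_mem hW hW2
  have e4 : ss hf (β • up F₀ b) n' 1 = ss hf (up F₀ b) (up F₀ a') (β ^ 2) := by
    rw [ss_smul_left hf _ _ fBn' β 1, hn', add_comm,
      ss_add_self_two hf h2 (up F₀ b) (β • up F₀ a')
        (by rw [hf.bilinear.smul_right, fBA', mul_zero]) α' (β * 1),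
      ss_smul_right hf _ _ fBA' β (β * 1)]
    congr 1
    ring
  rw [e4] at hW3
  have hβ2 := hLS b a' hba' hb ha'b (β ^ 2) hW3
  exact Cfsg.Agent.Lib.Helper98.SL2Field.hsq_of_two F₀ h2 β hβ2

end Rat

section Plane

open Cfsg.Agent.Lib.Helper98.SL2Sub

variable {ι : Type} [Fintype ι] [DecidableEq ι] {F : Type*} [Field F]
variable {f : (ι → F) → (ι → F) → F} {F₀ : Subfield F}
variable {hf : Cfsg.Geo.IsSymplecticForm f} {M : Subgroup (Matrix.GeneralLinearGroup ι F)}

/-- The relation between an element of `SL₂` and an element of `GL` acting on the hyperbolic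
plane spanned by `x` and `z`. -/
def RelP (f : (ι → F) → (ι → F) → F) (x z : ι → F) (δ : F) (S : SL(2, F))
    (h : Matrix.GeneralLinearGroup ι F) : Prop :=
  ∃ α₁ α₂ β₁ β₂ : F,
    (∀ y : ι → F, (h : Matrix ι ι F) *ᵥ y
      = y + (α₁ * f y x + α₂ * f y z) • x + (β₁ * f y x + β₂ * f y z) • z) ∧
    S.1 0 0 = 1 - α₂ * δ ∧ S.1 0 1 = α₁ ∧ S.1 1 0 = -(β₂ * δ ^ 2) ∧ S.1 1 1 = 1 + β₁ * δ

lemma RelP.one (x z : ι → F) (δ : F) : RelP f x z δ 1 1 := by
  refine ⟨0, 0, 0, 0, ?_, ?_, ?_, ?_, ?_⟩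
  · intro y
    simp
  · simp
  · simp
  · simp
  · simp

lemma RelP.mul (hf : Cfsg.Geo.IsSymplecticForm f) {x z : ι → F} {δ : F} (hzx : f z x = δ)
    {S S' : SL(2, F)} {h h' : Matrix.GeneralLinearGroup ι F}
    (h1 : RelP f x z δ S h) (h2 : RelP f x z δ S' h') : RelP f x z δ (S * S') (h * h') := by
  have hxz : f x z = -δ := by rw [hf.skew, hzx]
  obtain ⟨α₁, α₂, β₁, β₂, hact, h00, h01, h10, h11⟩ := h1
  obtain ⟨α₁', α₂', β₁', β₂', hact', h00', h01', h10', h11'⟩ := h2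
  refine ⟨α₁ + (1 - α₂ * δ) * α₁' + α₁ * δ * β₁', α₂ + (1 - α₂ * δ) * α₂' + α₁ * δ * β₂',
    β₁ + (1 + β₁ * δ) * β₁' - β₂ * δ * α₁', β₂ + (1 + β₁ * δ) * β₂' - β₂ * δ * α₂',
    ?_, ?_, ?_, ?_, ?_⟩
  · intro y
    rw [Units.val_mul, ← Matrix.mulVec_mulVec, hact' y, hact]
    simp only [hf.bilinear.add_left, hf.bilinear.smul_left, hf.alternating, hzx, hxz, mul_zero,
      add_zero]
    module
  · rw [mul00, h00, h01, h00', h10']
    ring
  · rw [mul01, h00, h01, h01', h11']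
    ring
  · rw [mul10, h10, h11, h00', h10']
    ring
  · rw [mul11, h10, h11, h01', h11']
    ring

/-- Rationality of the pairings from the generation of `SL₂` by two root groups. -/
theorem pair_mem_of_gen (hC : Ctx hf F₀ M) (hLL : LL hf F₀ M)
    (hN : ∀ lam : F, lam ∉ F₀ → N F₀ lam = ⊤) (hsq : ∀ x : F, x ^ 2 ∈ F₀ → x ∈ F₀)
    (hnt : ∃ t : F, t ∉ F₀) (z : ι → F) (hz : z ∈ cSet hf F₀ M) (b : ι → F₀) :
    f z (up F₀ b) ∈ F₀ := by
  by_contra hδ
  obtain ⟨δ, hδdef⟩ : ∃ δ : F, δ = f z (up F₀ b) := ⟨_, rfl⟩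
  rw [← hδdef] at hδ
  have hδ0 : δ ≠ 0 := fun h => hδ (h ▸ F₀.zero_mem)
  have hb0 : b ≠ 0 := by
    intro h
    apply hδ0
    rw [hδdef, h, up_zero, bil_zero_right hf.bilinear]
  have hlam : -(δ ^ 2) ∉ F₀ := by
    intro h
    apply hδ
    apply hsq
    have := F₀.neg_mem h
    rwa [neg_neg] at this
  have htop := hN _ hlam
  have hgen : ∀ S ∈ ({g : SL(2, F) | ∃ a ∈ F₀, g = u a} ∪
      {g : SL(2, F) | ∃ a ∈ F₀, g = l (-(δ ^ 2) * a)}),
      ∃ h ∈ M, RelP f (up F₀ b) z δ S h := by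
    rintro S (⟨a, ha, rfl⟩ | ⟨a, ha, rfl⟩)
    · refine ⟨st hf (up F₀ b) a, hC.rat b a ha, a, 0, 0, 0, ?_, ?_, ?_, ?_, ?_⟩
      · intro y
        rw [st_mulVec]
        simp
      · simp
      · simp
      · simp
      · simp
    · refine ⟨st hf z a, hz a ha, 0, 0, 0, a, ?_, ?_, ?_, ?_, ?_⟩
      · intro y
        rw [st_mulVec]
        simp
      · simp
      · simp
      · simp
        ring
      · simp
  have hgeninv : ∀ S ∈ ({g : SL(2, F) | ∃ a ∈ F₀, g = u a} ∪
      {g : SL(2, F) | ∃ a ∈ F₀, g = l (-(δ ^ 2) * a)}),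
      S⁻¹ ∈ ({g : SL(2, F) | ∃ a ∈ F₀, g = u a} ∪
        {g : SL(2, F) | ∃ a ∈ F₀, g = l (-(δ ^ 2) * a)}) := by
    rintro S (⟨a, ha, rfl⟩ | ⟨a, ha, rfl⟩)
    · left
      exact ⟨-a, F₀.neg_mem ha, u_inv a⟩
    · right
      refine ⟨-a, F₀.neg_mem ha, ?_⟩
      rw [l_inv]
      congr 1
      ring
  have hall : ∀ S : SL(2, F), ∃ h ∈ M, RelP f (up F₀ b) z δ S h := by
    intro S
    have hS : S ∈ N F₀ (-(δ ^ 2)) := by
      rw [htop]
      trivial
    unfold N at hS
    induction hS using Subgroup.closure_induction'' with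
    | mem x hx => exact hgen x hx
    | inv_mem x hx => exact hgen _ (hgeninv x hx)
    | one => exact ⟨1, M.one_mem, RelP.one _ _ _⟩
    | mul x y _ _ hx hy =>
      obtain ⟨h, hh, hr⟩ := hx
      obtain ⟨h', hh', hr'⟩ := hy
      exact ⟨h * h', M.mul_mem hh hh', RelP.mul hf hδdef.symm hr hr'⟩
  obtain ⟨t, ht⟩ := hnt
  obtain ⟨h, hh, α₁, α₂, β₁, β₂, hact, h00, h01, h10, h11⟩ := hall (u t)
  simp only [u00, u01, u10, u11] at h00 h01 h10 h11
  have hα₂ : α₂ = 0 := by
    have : α₂ * δ = 0 := by linear_combination h00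
    exact (mul_eq_zero.mp this).resolve_right hδ0
  have hβ₂ : β₂ = 0 := by
    have : β₂ * δ ^ 2 = 0 := by linear_combination h10
    exact (mul_eq_zero.mp this).resolve_right (pow_ne_zero 2 hδ0)
  have hβ₁ : β₁ = 0 := by
    have : β₁ * δ = 0 := by linear_combination -h11
    exact (mul_eq_zero.mp this).resolve_right hδ0
  have hheq : h = st hf (up F₀ b) t := by
    apply gl_ext
    intro y
    rw [hact, st_mulVec, hα₂, hβ₂, hβ₁, ← h01]
    simp
  rw [hheq] at hh
  exact ht (hLL b hb0 t hh)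

end Plane

section Quad

variable {ι : Type} [Fintype ι] [DecidableEq ι] {F : Type*} [Field F]
variable {f : (ι → F) → (ι → F) → F} {F₀ : Subfield F}
variable {hf : Cfsg.Geo.IsSymplecticForm f} {M : Subgroup (Matrix.GeneralLinearGroup ι F)}

/-- Products of pairings are rational up to the factor two. -/
lemma pair_sq (hR : RatS f F₀) (hC : Ctx hf F₀ M) (hLL : LL hf F₀ M) (z : ι → F)
    (hz : z ∈ cSet hf F₀ M) (v u' b : ι → F₀) (hv : v ≠ 0) (hzv : f z (up F₀ v) = 0)
    (huv : f0 hR u' v = 0) (hbv : f0 hR b v = 0) :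
    2 * f z (up F₀ b) * f z (up F₀ u') ∈ F₀ := by
  have Huv : f (up F₀ u') (up F₀ v) = 0 := (f0_eq_zero hR _ _).mp huv
  have Hbv : f (up F₀ b) (up F₀ v) = 0 := (f0_eq_zero hR _ _).mp hbv
  have Hvb : f (up F₀ v) (up F₀ b) = 0 := by rw [hf.skew, Hbv, neg_zero]
  have hR1 : ss hf (up F₀ u') (up F₀ v) 1 ∈ M := hC.ss_rat u' v Huv 1 F₀.one_mem
  have hS1 : ss hf (up F₀ b) (up F₀ v) 1 ∈ M := hC.ss_rat b v Hbv 1 F₀.one_mem
  obtain ⟨ν, hν⟩ : ∃ ν : F, ν = f z (up F₀ u') := ⟨_, rfl⟩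
  obtain ⟨β, hβ⟩ : ∃ β : F, β = f z (up F₀ b) := ⟨_, rfl⟩
  rw [← hν, ← hβ]
  have e1 : ((ss hf (up F₀ u') (up F₀ v) 1 : Matrix.GeneralLinearGroup ι F) : Matrix ι ι F) *ᵥ z
      = z + ν • up F₀ v := by
    rw [ss_mulVec hf _ _ Huv, hzv, ← hν, mul_zero, zero_smul, add_zero, one_mul]
  have e2 : ((ss hf (up F₀ b) (up F₀ v) 1 : Matrix.GeneralLinearGroup ι F) : Matrix ι ι F) *ᵥ z
      = z + β • up F₀ v := by
    rw [ss_mulVec hf _ _ Hbv, hzv, ← hβ, mul_zero, zero_smul, add_zero, one_mul]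
  have e3 : ((ss hf (up F₀ b) (up F₀ v) 1 : Matrix.GeneralLinearGroup ι F) : Matrix ι ι F)
      *ᵥ (z + ν • up F₀ v) = z + (ν + β) • up F₀ v := by
    rw [ss_mulVec hf _ _ Hbv]
    simp only [hf.bilinear.add_left, hf.bilinear.smul_left, hzv, hf.alternating, Hvb, ← hβ,
      mul_zero, add_zero, one_mul, zero_smul]
    module
  have hz1 : z + ν • up F₀ v ∈ cSet hf F₀ M := by
    rw [← e1]
    exact hC.cSet_map hR1 hz
  have hz2 : z + β • up F₀ v ∈ cSet hf F₀ M := by
    rw [← e2]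
    exact hC.cSet_map hS1 hz
  have hz3 : z + (ν + β) • up F₀ v ∈ cSet hf F₀ M := by
    rw [← e3]
    exact hC.cSet_map hS1 hz1
  have hT : st hf (up F₀ v) (2 * β * ν) ∈ M := by
    rw [← four_st_line hf z (up F₀ v) hzv ν β]
    exact M.mul_mem (M.mul_mem (M.mul_mem (hz 1 F₀.one_mem)
      (hz1 (-1) (F₀.neg_mem F₀.one_mem))) (hz3 1 F₀.one_mem))
      (hz2 (-1) (F₀.neg_mem F₀.one_mem))
  exact hLL v hv _ hT

/-- Rationality for quadratic extensions in odd characteristic. -/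
theorem rat_quad (hR : RatS f F₀) (hC : Ctx hf F₀ M) (hLL : LL hf F₀ M) (h2 : (2 : F) ≠ 0)
    (θ : F) (hθ' : θ ∉ F₀) (hθ : ∀ x : F, ∃ a b : F₀, x = (a : F) + (b : F) * θ)
    (hcard : 5 ≤ Fintype.card ι) (z : ι → F) (hz : z ∈ cSet hf F₀ M) :
    ∃ (c : F) (z₀ : ι → F₀), z = c • up F₀ z₀ := by
  classical
  have hf0 := f0_symp hf hR
  choose z₁ z₂ hzz using fun i => hθ (z i)
  have hzdec : z = up F₀ z₁ + θ • up F₀ z₂ := by
    ext i
    simp [hzz i, mul_comm]
  obtain ⟨p, q, hpq⟩ := hθ (θ * θ)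
  by_cases h1 : z₁ = 0
  · exact ⟨θ, z₂, by rw [hzdec, h1, up_zero, zero_add]⟩
  by_cases hdep : z₂ ∈ Submodule.span F₀ {z₁}
  · obtain ⟨s, hs⟩ := Submodule.mem_span_singleton.mp hdep
    exact ⟨1 + θ * s, z₁, by rw [hzdec, ← hs, up_smul, add_smul, one_smul, smul_smul]⟩
  exfalso
  have hpair : ∀ b : ι → F₀, f z (up F₀ b) = (f0 hR z₁ b : F) + θ * (f0 hR z₂ b : F) := by
    intro b
    rw [hzdec, hf.bilinear.add_left, hf.bilinear.smul_left, f0_coe, f0_coe]
  have h20 : (2 : F₀) ≠ 0 := by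
    intro h
    apply h2
    have h' := congrArg (fun t : F₀ => (t : F)) h
    simp only [Subfield.coe_zero] at h'
    rw [← h']
    norm_cast
  obtain ⟨w, hw⟩ : ∃ w : ι → F₀, w = (2 : F₀) • z₁ + q • z₂ := ⟨_, rfl⟩
  have hz₂0 : z₂ ≠ 0 := fun h => hdep (h ▸ Submodule.zero_mem _)
  have hw0 : w ≠ 0 := by
    intro h
    rw [hw] at h
    by_cases hq : q = 0
    · rw [hq, zero_smul, add_zero] at h
      rcases smul_eq_zero.mp h with h' | h'
      · exact h20 h'
      · exact h1 h'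
    · apply hdep
      rw [Submodule.mem_span_singleton]
      refine ⟨-(2 / q), ?_⟩
      have h3 : q • z₂ = -((2 : F₀) • z₁) := eq_neg_of_add_eq_zero_right h
      have h4 : z₂ = q⁻¹ • (q • z₂) := by rw [smul_smul, inv_mul_cancel₀ hq, one_smul]
      rw [h4, h3, smul_neg, smul_smul, neg_smul, div_eq_inv_mul]
  have claim : ∀ v : ι → F₀, v ≠ 0 → f0 hR z₁ v = 0 → f0 hR z₂ v = 0 →
      z₂ ∈ Submodule.span F₀ {v} ∨ w ∈ Submodule.span F₀ {v} := by
    intro v hv h1v h2v
    by_contra hcon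
    push Not at hcon
    obtain ⟨b, hvb, hb2, hbw⟩ := exists_perp_both hf0 v z₂ w hcon.1 hcon.2
    have hzv : f z (up F₀ v) = 0 := by
      rw [hpair, h1v, h2v]
      simp
    have hbv : f0 hR b v = 0 := by rw [hf0.skew, hvb, neg_zero]
    have hmem := pair_sq hR hC hLL z hz v b b hv hzv hbv hbv
    rw [hpair] at hmem
    obtain ⟨a₁, ha₁⟩ : ∃ a₁ : F₀, a₁ = f0 hR z₁ b := ⟨_, rfl⟩
    obtain ⟨a₂, ha₂⟩ : ∃ a₂ : F₀, a₂ = f0 hR z₂ b := ⟨_, rfl⟩
    rw [← ha₁, ← ha₂] at hmem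
    have e : 2 * ((a₁ : F) + θ * (a₂ : F)) * ((a₁ : F) + θ * (a₂ : F))
        = ((2 * (a₁ ^ 2 + p * a₂ ^ 2) : F₀) : F)
          + ((2 * a₂ * (2 * a₁ + q * a₂) : F₀) : F) * θ := by
      have c2 : ((2 : F₀) : F) = 2 := by norm_cast
      have c3 : ∀ x : F₀, ((x ^ 2 : F₀) : F) = (x : F) ^ 2 := fun x => by
        rw [pow_two, pow_two, Subfield.coe_mul]
      simp only [Subfield.coe_mul, Subfield.coe_add, c3, c2]
      linear_combination (2 * (a₂ : F) ^ 2) * hpq
    rw [e] at hmem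
    have hcoef : (2 * a₂ * (2 * a₁ + q * a₂) : F₀) = 0 := by
      by_contra hne
      apply hθ'
      have hne' : ((2 * a₂ * (2 * a₁ + q * a₂) : F₀) : F) ≠ 0 := fun h => hne (Subtype.ext h)
      have h3 : ((2 * a₂ * (2 * a₁ + q * a₂) : F₀) : F) * θ ∈ F₀ := by
        have := F₀.sub_mem hmem (SetLike.coe_mem (2 * (a₁ ^ 2 + p * a₂ ^ 2) : F₀))
        rwa [add_sub_cancel_left] at this
      have h4 : θ = (((2 * a₂ * (2 * a₁ + q * a₂) : F₀) : F) * θ)
          / ((2 * a₂ * (2 * a₁ + q * a₂) : F₀) : F) := by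
        rw [eq_div_iff hne', mul_comm]
      rw [h4]
      exact F₀.div_mem h3 (SetLike.coe_mem _)
    have hwb : f0 hR w b = 2 * a₁ + q * a₂ := by
      rw [hw, hf0.bilinear.add_left, hf0.bilinear.smul_left, hf0.bilinear.smul_left, ha₁, ha₂]
    rcases mul_eq_zero.mp hcoef with h | h
    · rcases mul_eq_zero.mp h with h | h
      · exact h20 h
      · exact hb2 (ha₂ ▸ h)
    · exact hbw (hwb ▸ h)
  obtain ⟨y1, y2, hy1, hy2, hy⟩ := exists_hyp_pair hf0 {z₁, z₂}
    (lt_of_le_of_lt (Nat.mul_le_mul_left 2 Finset.card_le_two) (by omega))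
  have h11 := hy1 z₁ (by simp)
  have h12 := hy1 z₂ (by simp)
  have h21 := hy2 z₁ (by simp)
  have h22 := hy2 z₂ (by simp)
  have f12 : f0 hR y1 y2 ≠ 0 := by
    rw [hy]
    exact one_ne_zero
  have f13 : f0 hR y1 (y1 + y2) ≠ 0 := by
    rw [hf0.bilinear.add_right, hf0.alternating, zero_add]
    exact f12
  have f23 : f0 hR y2 (y1 + y2) ≠ 0 := by
    rw [hf0.bilinear.add_right, hf0.alternating, add_zero, hf0.skew, hy]
    simp
  have y1ne : y1 ≠ 0 := by
    intro h
    apply f12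
    rw [h, bil_zero_left hf0.bilinear]
  have y2ne : y2 ≠ 0 := by
    intro h
    apply f12
    rw [h, bil_zero_right hf0.bilinear]
  have y12ne : y1 + y2 ≠ 0 := by
    intro h
    apply f13
    rw [h, bil_zero_right hf0.bilinear]
  have c1 := claim y1 y1ne h11 h12
  have c2 := claim y2 y2ne h21 h22
  have c3 := claim (y1 + y2) y12ne (by rw [hf0.bilinear.add_right, h11, h21, add_zero])
    (by rw [hf0.bilinear.add_right, h12, h22, add_zero])
  have helper : ∀ v v' x : ι → F₀, x ≠ 0 → x ∈ Submodule.span F₀ {v} →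
      x ∈ Submodule.span F₀ {v'} → f0 hR v v' = 0 := by
    intro v v' x hx hv hv'
    obtain ⟨s, hs⟩ := Submodule.mem_span_singleton.mp hv
    obtain ⟨s', hs'⟩ := Submodule.mem_span_singleton.mp hv'
    have hs0 : s ≠ 0 := by
      intro h
      apply hx
      rw [← hs, h, zero_smul]
    have hs'0 : s' ≠ 0 := by
      intro h
      apply hx
      rw [← hs', h, zero_smul]
    have h : f0 hR (s • v) (s' • v') = 0 := by
      rw [hs, hs']
      exact hf0.alternating x
    rw [hf0.bilinear.smul_left, hf0.bilinear.smul_right] at h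
    exact (mul_eq_zero.mp ((mul_eq_zero.mp h).resolve_left hs0)).resolve_left hs'0
  rcases c1 with a | a <;> rcases c2 with b | b <;> rcases c3 with c | c
  · exact f12 (helper _ _ _ hz₂0 a b)
  · exact f12 (helper _ _ _ hz₂0 a b)
  · exact f13 (helper _ _ _ hz₂0 a c)
  · exact f23 (helper _ _ _ hw0 b c)
  · exact f23 (helper _ _ _ hz₂0 b c)
  · exact f13 (helper _ _ _ hw0 a c)
  · exact f12 (helper _ _ _ hw0 a b)
  · exact f12 (helper _ _ _ hw0 a b)

end Quad

end Cfsg.Agent.Lib.Helper94.SfSp3
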