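import Mathlib
import Cfsg.Prelude.Def_GeometricClasses
import Cfsg.Agent.Lib.Helper94.SfSp3
import Cfsg.Agent.Lib.Helper94.SubfieldSp
import Cfsg.Agent.Lib.Helper98.SL2Sub
import Cfsg.Agent.Lib.Helper98.SL2Field

/-!
# Maximality of the symplectic subfield group (helper94)

`maximal` : for a symplectic form `f` on `F^ι` which is rational over a subfield `F₀` of prime
index, the group of isometries with rational matrices (up to scalars) is maximal among the
isometries, if the dimension is at least `14`.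
-/

set_option autoImplicit false
set_option linter.unusedSimpArgs false

namespace Cfsg.Agent.Lib.Helper94.SfSp4

open scoped Matrix MatrixGroups
open Cfsg.Agent.Lib.Helper94.Basic Cfsg.Agent.Lib.Helper94.GLAux Cfsg.Agent.Lib.Helper94.Tv
  Cfsg.Agent.Lib.Helper94.SubfieldRat Cfsg.Agent.Lib.Helper94.SympAbs
  Cfsg.Agent.Lib.Helper94.SympBlock Cfsg.Agent.Lib.Helper94.SympRoot
  Cfsg.Agent.Lib.Helper94.SfLin1 Cfsg.Agent.Lib.Helper94.SfSp1 Cfsg.Agent.Lib.Helper94.SfSp2
  Cfsg.Agent.Lib.Helper94.SfSp3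
open Cfsg.Agent.Lib.Helper98.SL2Sub Cfsg.Agent.Lib.Helper98.SL2Field

section Main

variable {ι : Type} [Fintype ι] [DecidableEq ι] {F : Type*} [Field F]
variable {f : (ι → F) → (ι → F) → F} {F₀ : Subfield F}

/-- A quadratic extension is spanned by `1` and any element outside the subfield. -/
lemma quad_decomp [Fintype F] (F₀ : Subfield F) (hcard : Nat.card F = Nat.card F₀ ^ 2) (θ : F)
    (hθ : θ ∉ F₀) : ∀ x : F, ∃ a b : F₀, x = (a : F) + (b : F) * θ := by
  classical
  have hinj : Function.Injective (fun p : F₀ × F₀ => (p.1 : F) + (p.2 : F) * θ) := by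
    rintro ⟨a, b⟩ ⟨a', b'⟩ h
    simp only at h
    have hb : b = b' := by
      by_contra hne
      apply hθ
      have hne' : ((b : F) - (b' : F)) ≠ 0 := by
        intro h0
        exact hne (Subtype.ext (sub_eq_zero.mp h0))
      have e : θ = ((a' : F) - (a : F)) / ((b : F) - (b' : F)) := by
        rw [eq_div_iff hne']
        linear_combination h
      rw [e]
      exact F₀.div_mem (F₀.sub_mem a'.2 a.2) (F₀.sub_mem b.2 b'.2)
    subst hb
    have ha : a = a' := by
      apply Subtype.ext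
      linear_combination h
    rw [ha]
  have hc : Nat.card (F₀ × F₀) = Nat.card F := by
    rw [Nat.card_prod, hcard, pow_two]
  have hbij := (Nat.bijective_iff_injective_and_card _).mpr ⟨hinj, hc⟩
  intro x
  obtain ⟨⟨a, b⟩, hab⟩ := hbij.2 x
  exact ⟨a, b, hab.symm⟩

/-- **Maximality of the subfield group in the symplectic group.** -/
theorem maximal [Fintype F] (hf : Cfsg.Geo.IsSymplecticForm f) (hR : RatS f F₀) (r : ℕ)
    (hr : r.Prime) (hcard : Fintype.card F = Nat.card F₀ ^ r) (hι : 14 ≤ Fintype.card ι)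
    (K : Subgroup (Matrix.GeneralLinearGroup ι F))
    (hK : ∀ g : Matrix.GeneralLinearGroup ι F, g ∈ K ↔
      ∀ x y, f ((g : Matrix ι ι F) *ᵥ x) ((g : Matrix ι ι F) *ᵥ y) = f x y) :
    Cfsg.Geo.IsMaximalIn K (((Phi F₀ (ι := ι)).range ⊔ Cfsg.Geo.scalars ι F) ⊓ K) := by
  classical
  have hcard' : Nat.card F = Nat.card F₀ ^ r := by
    rw [Nat.card_eq_fintype_card]
    exact hcard
  have hgen := hgen_of_prime F₀ r hr hcard'
  have hf0 := f0_symp hf hR
  obtain ⟨lam, hlam⟩ : ∃ lam : F, lam ∉ F₀ := by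
    by_contra hcon
    push Not at hcon
    have e : Nat.card F₀ = Nat.card F :=
      Nat.card_congr (Equiv.subtypeUnivEquiv hcon)
    rw [hcard'] at e
    have h2 : 2 ≤ Nat.card F₀ := by
      rw [Nat.card_eq_fintype_card]
      exact Fintype.one_lt_card
    have hlt : Nat.card F₀ ^ 1 < Nat.card F₀ ^ r :=
      Nat.pow_lt_pow_right (by omega) hr.one_lt
    rw [pow_one] at hlt
    omega
  obtain ⟨i0, -⟩ : ∃ i0 : ι, True := by
    have : 0 < Fintype.card ι := by omega
    obtain ⟨i0⟩ := Fintype.card_pos_iff.mp this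
    exact ⟨i0, trivial⟩
  refine ⟨lt_of_le_of_ne inf_le_right ?_, ?_⟩
  · intro heq
    obtain ⟨y1, y2, -, -, hy⟩ := exists_hyp_pair hf0 (∅ : Finset (ι → F₀))
      (by rw [Finset.card_empty]; omega)
    have hy' : f (up F₀ y1) (up F₀ y2) = 1 := (f0_eq_one hR _ _).mp hy
    have hmem : st hf (up F₀ y2) lam ∈ ((Phi F₀ (ι := ι)).range ⊔ Cfsg.Geo.scalars ι F) ⊓ K := by
      rw [heq, hK]
      exact st_isom hf _ _
    obtain ⟨c, hc⟩ := Cfsg.Agent.Lib.Helper94.SubfieldSp.rat_of_mem F₀ _ hmem.1
    obtain ⟨z2, hz2⟩ := hc y2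
    obtain ⟨z1, hz1⟩ := hc y1
    rw [st_mulVec, hf.alternating, mul_zero, zero_smul, add_zero] at hz2
    rw [st_mulVec, hy', mul_one] at hz1
    have e1 : (1 : F) = c * ((f0 hR y1 z2 : F₀) : F) := by
      rw [f0_coe, ← hf.bilinear.smul_right, ← hz2, hy']
    have hc0 : c ≠ 0 := by
      intro h0
      rw [h0, zero_mul] at e1
      exact one_ne_zero e1
    have hd0 : ((f0 hR y1 z2 : F₀) : F) ≠ 0 := by
      intro h0
      rw [h0, mul_zero] at e1
      exact one_ne_zero e1
    have hcF : c ∈ F₀ := by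
      have : c = 1 / ((f0 hR y1 z2 : F₀) : F) := by
        rw [eq_div_iff hd0]
        exact e1.symm
      rw [this]
      exact F₀.div_mem F₀.one_mem (SetLike.coe_mem _)
    have e2 : -lam = c * ((f0 hR z1 y1 : F₀) : F) := by
      rw [f0_coe, ← hf.bilinear.smul_left, ← hz1, hf.bilinear.add_left, hf.bilinear.smul_left,
        hf.alternating, hf.skew (up F₀ y2) (up F₀ y1), hy']
      ring
    apply hlam
    have e3 : lam = -(c * ((f0 hR z1 y1 : F₀) : F)) := by rw [← e2, neg_neg]
    rw [e3]
    exact F₀.neg_mem (F₀.mul_mem hcF (SetLike.coe_mem _))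
  · intro M hHM hMK
    have hC : Ctx hf F₀ M :=
      ⟨fun g hg => (hK g).mp (hMK hg), fun a c hc =>
        hHM ⟨Subgroup.mem_sup_left (st_up_mem_range hf hR a c hc),
          (hK _).mpr (st_isom hf _ _)⟩⟩
    rcases dich hR hgen hC (by omega) with hLS | hAll
    · left
      apply le_antisymm _ hHM
      have hLL := ll_of_ls hR hC (by omega) hLS
      have hcol : ∀ g ∈ M, ∀ u : ι → F₀, ∃ (c : F) (z : ι → F₀),
          (g : Matrix ι ι F) *ᵥ up F₀ u = c • up F₀ z := by
        intro g hg u
        have hz : (g : Matrix ι ι F) *ᵥ up F₀ u ∈ cSet hf F₀ M :=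
          hC.cSet_map hg (hC.cSet_up u)
        by_cases h2 : (2 : F) = 0
        · obtain ⟨z₀, hz₀⟩ := rat_char_two hR hC (by omega) h2 hLS _ hz
          exact ⟨1, z₀, by rw [one_smul]; exact hz₀⟩
        · by_cases hr2 : r = 2
          · subst hr2
            exact rat_quad hR hC hLL h2 lam hlam (quad_decomp F₀ hcard' lam hlam) (by omega) _ hz
          · have hsq := hsq_of_odd F₀ r hr hr2 hcard'
            have hN : ∀ lam : F, lam ∉ F₀ → N F₀ lam = ⊤ := fun lam hlam =>
              N_eq_top F₀ ⟨1, F₀.one_mem, one_ne_zero, by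
                intro h
                apply h2
                rw [← h]
                norm_num⟩ hsq hgen lam hlam
            obtain ⟨z₀, hz₀⟩ := rat_of_pair hf hR _
              (pair_mem_of_gen hC hLL hN hsq ⟨lam, hlam⟩ _ hz)
            exact ⟨1, z₀, by rw [one_smul]; exact hz₀⟩
      intro g hg
      refine ⟨?_, hMK hg⟩
      apply mem_of_cols F₀ i0 g
      · intro j
        rw [← up_single F₀ j]
        exact hcol g hg _
      · intro j hj
        rw [← up_single F₀ i0, ← up_single F₀ j, ← up_add]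
        exact hcol g hg _
    · right
      apply le_antisymm hMK
      intro g hg
      exact all_imp hR hC (by omega) hAll g ((hK g).mp hg)

end Main

end Cfsg.Agent.Lib.Helper94.SfSp4
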