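import Mathlib
import Cfsg.Prelude.Def_GeometricClasses
import Cfsg.Agent.Lib.Helper94.SfOrth5
import Cfsg.Agent.Lib.Helper94.SfLin1
import Cfsg.Agent.Lib.Helper94.SubfieldSp
import Cfsg.Agent.Lib.Helper98.SL2Field
import Cfsg.Agent.Lib.Helper94.SfSp4

/-!
# Maximality of the orthogonal subfield group (helper94)

* `mem_of_sing` : an isometry mapping every rational singular vector to a multiple of a rational
  vector is a scalar multiple of a rational matrix.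
* `maximal_of_rat` : maximality of the subfield group in `Ω`, given the rationality statement.
* `maximalQ_odd` : maximality in odd characteristic.
-/

set_option autoImplicit false
set_option linter.unusedSimpArgs false

namespace Cfsg.Agent.Lib.Helper94.SfOrth6

open scoped Matrix MatrixGroups
open Module
open Cfsg.Agent.Lib.Helper94.Basic Cfsg.Agent.Lib.Helper94.GLAux Cfsg.Agent.Lib.Helper94.Tv
  Cfsg.Agent.Lib.Helper94.QuadAbs Cfsg.Agent.Lib.Helper94.OrthSiegel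
  Cfsg.Agent.Lib.Helper94.SubfieldRat Cfsg.Agent.Lib.Helper94.SfOrth1
  Cfsg.Agent.Lib.Helper94.SfOrth2 Cfsg.Agent.Lib.Helper94.SfOrth3
  Cfsg.Agent.Lib.Helper94.SfOrth4 Cfsg.Agent.Lib.Helper94.SfOrth5
open Cfsg.Agent.Lib.Helper94.SympAbs (bil_zero_left bil_zero_right bil_neg_left bil_neg_right
  bil_sub_left bil_sub_right fR fR_apply fRL fLeft fLeft_apply)
open Cfsg.Agent.Lib.Helper94.SfLin1 (mem_of_cols)
open Cfsg.Agent.Lib.Helper98.SL2Sub Cfsg.Agent.Lib.Helper98.SL2Field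

section Main

variable {ι : Type} [Fintype ι] [DecidableEq ι] {F : Type*} [Field F] [Fintype F]
variable {Q : (ι → F) → F} {F₀ : Subfield F}

/-- Two orthogonal rational singular vectors whose images are multiples of rational vectors:
the multipliers agree up to a rational scalar. -/
lemma ratio_orth (hQ : Cfsg.Geo.IsNondegenerateQuadraticForm Q) (hR : RatQ Q F₀)
    (g : Matrix.GeneralLinearGroup ι F)
    (hs : ∀ u : ι → F₀, u ≠ 0 → Q0 hR u = 0 →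
      ∃ (c : F) (z₀ : ι → F₀), (g : Matrix ι ι F) *ᵥ up F₀ u = c • up F₀ z₀)
    (a b : ι → F₀) (ha0 : a ≠ 0) (ha : Q0 hR a = 0) (hb : Q0 hR b = 0)
    (hab : QuadraticMap.polar (Q0 hR) a b = 0) (ca : F) (za : ι → F₀)
    (hga : (g : Matrix ι ι F) *ᵥ up F₀ a = ca • up F₀ za) :
    ∃ z : ι → F₀, (g : Matrix ι ι F) *ᵥ up F₀ b = ca • up F₀ z := by
  classical
  have hQ0 := Q0_nd hQ hR
  have hbl := hQ.polar_bilinear
  have ginj : ∀ x : ι → F, (g : Matrix ι ι F) *ᵥ x = 0 → x = 0 := by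
    intro x hx
    apply gl_mulVec_injective g
    show (g : Matrix ι ι F) *ᵥ x = (g : Matrix ι ι F) *ᵥ 0
    rw [hx, Matrix.mulVec_zero]
  by_cases hba : b ∈ Submodule.span F₀ {a}
  · obtain ⟨μ, rfl⟩ := Submodule.mem_span_singleton.mp hba
    refine ⟨μ • za, ?_⟩
    rw [up_smul, Matrix.mulVec_smul, hga, up_smul]
    module
  have hb0 : b ≠ 0 := fun h => hba (h ▸ Submodule.zero_mem _)
  have hab0 : a + b ≠ 0 := by
    intro h
    apply hba
    rw [Submodule.mem_span_singleton]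
    exact ⟨-1, by rw [neg_one_smul]; exact (eq_neg_of_add_eq_zero_right h).symm⟩
  have hQab : Q0 hR (a + b) = 0 := by rw [Q_add (Q0 hR), ha, hb, hab]; ring
  obtain ⟨cb, zb, hgb⟩ := hs b hb0 hb
  obtain ⟨c', z', hgab⟩ := hs (a + b) hab0 hQab
  have hup : ∀ x : ι → F₀, x ≠ 0 → up F₀ x ≠ 0 := fun x hx h => hx ((up_eq_zero F₀ x).mp h)
  have hca0 : ca ≠ 0 := by
    intro h0
    rw [h0, zero_smul] at hga
    exact hup a ha0 (ginj _ hga)
  have hcb0 : cb ≠ 0 := by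
    intro h0
    rw [h0, zero_smul] at hgb
    exact hup b hb0 (ginj _ hgb)
  have hza0 : za ≠ 0 := by
    intro h0
    rw [h0, up_zero, smul_zero] at hga
    exact hup a ha0 (ginj _ hga)
  have hzb0 : zb ≠ 0 := by
    intro h0
    rw [h0, up_zero, smul_zero] at hgb
    exact hup b hb0 (ginj _ hgb)
  have n1 : zb ∉ Submodule.span F₀ {za} := by
    intro h
    obtain ⟨μ, hμ⟩ := Submodule.mem_span_singleton.mp h
    have e : (g : Matrix ι ι F) *ᵥ (up F₀ b - (cb * (μ : F) / ca) • up F₀ a) = 0 := by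
      rw [Matrix.mulVec_sub, Matrix.mulVec_smul, hga, hgb, ← hμ, up_smul, smul_smul, smul_smul,
        div_mul_cancel₀ _ hca0, sub_self]
    have e2 : up F₀ b = (cb * (μ : F) / ca) • up F₀ a := sub_eq_zero.mp (ginj _ e)
    have hl := scalar_memQ F₀ b a _ hb0 e2
    apply hba
    rw [Submodule.mem_span_singleton]
    refine ⟨⟨_, hl⟩, ?_⟩
    apply up_injective F₀
    rw [up_smul, e2]
  have n2 : za ∉ Submodule.span F₀ {zb} := nspan_symm hza0 n1
  obtain ⟨t₁, ht₁, ht₁'⟩ := exists_perp_ne hQ0 _ za n2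
  obtain ⟨t₂, ht₂, ht₂'⟩ := exists_perp_ne hQ0 _ zb n1
  have ht₁b := ht₁ zb (Submodule.mem_span_singleton_self zb)
  have ht₂a := ht₂ za (Submodule.mem_span_singleton_self za)
  have hsum : ca • up F₀ za + cb • up F₀ zb = c' • up F₀ z' := by
    rw [← hga, ← hgb, ← hgab, up_add, Matrix.mulVec_add]
  have k1 := congrArg (fun x => QuadraticMap.polar Q x (up F₀ t₁)) hsum
  have k2 := congrArg (fun x => QuadraticMap.polar Q x (up F₀ t₂)) hsum
  simp only [hbl.add_left, hbl.smul_left, ← polar_Q0 hR] at k1 k2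
  rw [ht₁b] at k1
  rw [ht₂a] at k2
  simp only [Subfield.coe_zero, mul_zero, add_zero, zero_add] at k1 k2
  obtain ⟨p, hp⟩ : ∃ p : F₀, p = QuadraticMap.polar (Q0 hR) za t₁ := ⟨_, rfl⟩
  obtain ⟨p', hp'⟩ : ∃ p' : F₀, p' = QuadraticMap.polar (Q0 hR) z' t₁ := ⟨_, rfl⟩
  obtain ⟨q, hq⟩ : ∃ q : F₀, q = QuadraticMap.polar (Q0 hR) zb t₂ := ⟨_, rfl⟩
  obtain ⟨q', hq'⟩ : ∃ q' : F₀, q' = QuadraticMap.polar (Q0 hR) z' t₂ := ⟨_, rfl⟩
  rw [← hp, ← hp'] at k1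
  rw [← hq, ← hq'] at k2
  have hp0 : (p : F) ≠ 0 := fun h => ht₁' (hp ▸ Subtype.ext h)
  have hq0 : (q : F) ≠ 0 := fun h => ht₂' (hq ▸ Subtype.ext h)
  have hp'0 : (p' : F) ≠ 0 := by
    intro h
    rw [h, mul_zero] at k1
    exact (mul_ne_zero hca0 hp0) k1
  -- `cb = ca * (p q' / (p' q))`
  obtain ⟨μ, hμ⟩ : ∃ μ : F₀, μ = p * q' / (p' * q) := ⟨_, rfl⟩
  have hcb : cb = ca * (μ : F) := by
    rw [hμ]
    push_cast
    rw [eq_comm, mul_div_assoc', div_eq_iff (mul_ne_zero hp'0 hq0)]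
    linear_combination (q' : F) * k1 - (p' : F) * k2
  refine ⟨μ • zb, ?_⟩
  rw [hgb, hcb, up_smul, smul_smul]

/-- An isometry mapping rational singular vectors to multiples of rational vectors is a
scalar multiple of a rational matrix. -/
theorem mem_of_sing (hQ : Cfsg.Geo.IsNondegenerateQuadraticForm Q) (hR : RatQ Q F₀)
    (hcard : 13 ≤ Fintype.card ι) (g : Matrix.GeneralLinearGroup ι F)
    (hs : ∀ u : ι → F₀, u ≠ 0 → Q0 hR u = 0 →
      ∃ (c : F) (z₀ : ι → F₀), (g : Matrix ι ι F) *ᵥ up F₀ u = c • up F₀ z₀) :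
    g ∈ (Phi F₀ (ι := ι)).range ⊔ Cfsg.Geo.scalars ι F := by
  classical
  haveI : Fintype F₀ := Fintype.ofFinite F₀
  have hQ0 := Q0_nd hQ hR
  obtain ⟨s₀, hs₀0, hs₀, -⟩ :=
    exists_sing_perp_fam hQ0 (Fin.elim0 : Fin 0 → (ι → F₀)) (by omega)
  obtain ⟨c₀, z₀, hg₀⟩ := hs s₀ hs₀0 hs₀
  have stepB : ∀ s : ι → F₀, Q0 hR s = 0 →
      ∃ z : ι → F₀, (g : Matrix ι ι F) *ᵥ up F₀ s = c₀ • up F₀ z := by
    intro s hsQ
    by_cases h0 : QuadraticMap.polar (Q0 hR) s₀ s = 0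
    · exact ratio_orth hQ hR g hs s₀ s hs₀0 hs₀ hsQ h0 c₀ z₀ hg₀
    · obtain ⟨s₁, hs₁0, hs₁, hp⟩ :=
        exists_sing_perp_fam hQ0 (![s₀, s] : Fin 2 → (ι → F₀)) (by omega)
      have h1 : QuadraticMap.polar (Q0 hR) s₀ s₁ = 0 := hp 0
      have h2 : QuadraticMap.polar (Q0 hR) s s₁ = 0 := hp 1
      obtain ⟨z₁, hz₁⟩ := ratio_orth hQ hR g hs s₀ s₁ hs₀0 hs₀ hs₁ h1 c₀ z₀ hg₀
      exact ratio_orth hQ hR g hs s₁ s hs₁0 hs₁ hsQ ((B_comm (Q0 hR) s₁ s).trans h2) c₀ z₁ hz₁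
  have stepC : ∀ x : ι → F₀, ∃ z : ι → F₀, (g : Matrix ι ι F) *ᵥ up F₀ x = c₀ • up F₀ z := by
    intro x
    obtain ⟨s₁, s₂, s₃, h1, h2, h3, hx⟩ := sum_sing3 hQ0 (by omega) x
    obtain ⟨z₁, hz₁⟩ := stepB s₁ h1
    obtain ⟨z₂, hz₂⟩ := stepB s₂ h2
    obtain ⟨z₃, hz₃⟩ := stepB s₃ h3
    refine ⟨z₁ + z₂ + z₃, ?_⟩
    rw [hx, up_add, up_add, Matrix.mulVec_add, Matrix.mulVec_add, hz₁, hz₂, hz₃, up_add, up_add]
    module
  obtain ⟨i0⟩ : Nonempty ι := Fintype.card_pos_iff.mp (by omega)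
  apply mem_of_cols F₀ i0 g
  · intro j
    rw [← up_single F₀ j]
    obtain ⟨z, hz⟩ := stepC (Pi.single j 1)
    exact ⟨c₀, z, hz⟩
  · intro j _
    rw [← up_single F₀ i0, ← up_single F₀ j, ← up_add]
    obtain ⟨z, hz⟩ := stepC (Pi.single i0 1 + Pi.single j 1)
    exact ⟨c₀, z, hz⟩

/-- Maximality of the subfield group in `Ω`, given the rationality statement. -/
theorem maximal_of_rat (hQ : Cfsg.Geo.IsNondegenerateQuadraticForm Q) (hR : RatQ Q F₀)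
    (hgen : ∀ μ : F, μ ∉ F₀ → ∀ A : AddSubgroup F, (∀ a ∈ F₀, ∀ z ∈ A, a * z ∈ A) →
      (∀ z ∈ A, μ * z ∈ A) → (1 : F) ∈ A → A = ⊤)
    (hnt : ∃ t : F, t ∉ F₀) (hcard : 13 ≤ Fintype.card ι)
    (hrat : ∀ M : Subgroup (Matrix.GeneralLinearGroup ι F), CtxO hQ F₀ M → LLq hQ hR M →
      ∀ g ∈ M, ∀ u : ι → F₀, u ≠ 0 → Q0 hR u = 0 →
        ∃ (c : F) (z₀ : ι → F₀), (g : Matrix ι ι F) *ᵥ up F₀ u = c • up F₀ z₀) :
    Cfsg.Geo.IsMaximalIn (Cfsg.Geo.omegaGL Q)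
      (((Phi F₀ (ι := ι)).range ⊔ Cfsg.Geo.scalars ι F) ⊓ Cfsg.Geo.omegaGL Q) := by
  classical
  haveI : Fintype F₀ := Fintype.ofFinite F₀
  have hQ0 := Q0_nd hQ hR
  have hbl := hQ.polar_bilinear
  refine ⟨lt_of_le_of_ne inf_le_right ?_, ?_⟩
  · intro heq
    obtain ⟨t, ht⟩ := hnt
    obtain ⟨e, f, he, hf, hee, hff, hpair, hone⟩ := exists_frame3 hQ0 hcard
    have z0 := fun x y => (polar_Q0_eq_zero hR x y).mp
    have Qa : Q (up F₀ (e 1)) = 0 := (Q0_eq_zero hR _).mp (he 1)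
    have Qs : Q (up F₀ (f 0)) = 0 := (Q0_eq_zero hR _).mp (hf 0)
    have Bas : QuadraticMap.polar Q (up F₀ (e 1)) (up F₀ (f 0)) = 0 :=
      z0 _ _ (hpair 1 0 (by decide))
    have hmem : sg hQ (up F₀ (e 1)) (t • up F₀ (f 0)) ∈
        ((Phi F₀ (ι := ι)).range ⊔ Cfsg.Geo.scalars ι F) ⊓ Cfsg.Geo.omegaGL Q := by
      rw [heq]
      exact sg_mem_omega hQ (by omega) _ _
    obtain ⟨c, hc⟩ := Cfsg.Agent.Lib.Helper94.SubfieldSp.rat_of_mem F₀ _ hmem.1
    have hf00 : f 0 ≠ 0 := by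
      intro h0
      have := hone 0
      rw [h0, bil_zero_right hQ0.polar_bilinear] at this
      exact zero_ne_one this
    obtain ⟨z1, hz1⟩ := hc (f 0)
    rw [sg_sing_mulVec hQ _ _ Qa Qs Bas, Bas, polar_self_sing hQ _ Qs] at hz1
    simp only [mul_zero, zero_smul, add_zero, sub_zero] at hz1
    have hcm : c ∈ F₀ := scalar_memQ F₀ (f 0) z1 c hf00 hz1
    obtain ⟨z2, hz2⟩ := hc (f 1)
    rw [sg_sing_mulVec hQ _ _ Qa Qs Bas, (polar_Q0_eq_one hR _ _).mp (hone 1),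
      z0 _ _ (hff 0 1)] at hz2
    simp only [mul_zero, zero_smul, sub_zero, mul_one] at hz2
    have e2 : up F₀ ((⟨c, hcm⟩ : F₀) • z2 - f 1) = t • up F₀ (f 0) := by
      rw [up_sub, up_smul, ← hz2]
      simp
    by_cases hx : (⟨c, hcm⟩ : F₀) • z2 - f 1 = 0
    · rw [hx, up_zero] at e2
      have hup : up F₀ (f 0) ≠ 0 := fun h => hf00 ((up_eq_zero F₀ _).mp h)
      have ht0 : t = 0 := (smul_eq_zero.mp e2.symm).resolve_right hup
      exact ht (ht0 ▸ F₀.zero_mem)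
    · exact ht (scalar_memQ F₀ _ (f 0) t hx e2)
  · intro M hHM hMK
    have hC : CtxO hQ F₀ M :=
      ⟨fun g hg => omegaGL_isom (hMK hg), fun a w =>
        hHM ⟨Subgroup.mem_sup_left (sg_up_mem_range hQ hR a w),
          sg_mem_omega hQ (by omega) _ _⟩⟩
    rcases dichQ hR hgen hC hcard with hLL | hAll
    · left
      apply le_antisymm _ hHM
      intro g hg
      exact ⟨mem_of_sing hQ hR hcard g (hrat M hC hLL g hg), hMK hg⟩
    · right
      exact le_antisymm hMK (all_imp_omega hC hR hcard hAll)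

/-- **Maximality of the subfield group in `Ω`, odd characteristic.** -/
theorem maximalQ_odd (hQ : Cfsg.Geo.IsNondegenerateQuadraticForm Q) (hR : RatQ Q F₀) (r : ℕ)
    (hr : r.Prime) (hcardF : Fintype.card F = Nat.card F₀ ^ r) (hcard : 13 ≤ Fintype.card ι)
    (h2 : (2 : F) ≠ 0) :
    Cfsg.Geo.IsMaximalIn (Cfsg.Geo.omegaGL Q)
      (((Phi F₀ (ι := ι)).range ⊔ Cfsg.Geo.scalars ι F) ⊓ Cfsg.Geo.omegaGL Q) := by
  classical
  have hcard' : Nat.card F = Nat.card F₀ ^ r := by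
    rw [Nat.card_eq_fintype_card]
    exact hcardF
  have hgen := hgen_of_prime F₀ r hr hcard'
  obtain ⟨lam, hlam⟩ : ∃ lam : F, lam ∉ F₀ := by
    by_contra hcon
    push Not at hcon
    have e : Nat.card F₀ = Nat.card F :=
      Nat.card_congr (Equiv.subtypeUnivEquiv hcon)
    rw [hcard'] at e
    have h2' : 2 ≤ Nat.card F₀ := by
      haveI : Fintype F₀ := Fintype.ofFinite F₀
      rw [Nat.card_eq_fintype_card]
      exact Fintype.one_lt_card
    have hlt : Nat.card F₀ ^ 1 < Nat.card F₀ ^ r :=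
      Nat.pow_lt_pow_right (by omega) hr.one_lt
    rw [pow_one] at hlt
    omega
  apply maximal_of_rat hQ hR hgen ⟨lam, hlam⟩ hcard
  intro M hC hLL g hg u hu0 hu
  by_cases hr2 : r = 2
  · subst hr2
    exact rat_two hC hR hcard hLL lam hlam
      (Cfsg.Agent.Lib.Helper94.SfSp4.quad_decomp F₀ hcard' lam hlam) g hg u hu0 hu
  · have hsq := hsq_of_odd F₀ r hr hr2 hcard'
    have hN : ∀ lam : F, lam ∉ F₀ → N F₀ lam = ⊤ := fun lam hlam =>
      N_eq_top F₀ ⟨1, F₀.one_mem, one_ne_zero, by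
        intro h
        apply h2
        rw [← h]
        norm_num⟩ hsq hgen lam hlam
    exact rat_odd hC hR hcard hLL hN ⟨lam, hlam⟩ h2 g hg u hu0 hu

end Main

end Cfsg.Agent.Lib.Helper94.SfOrth6
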