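import Mathlib
import Cfsg.Prelude.Def_GeometricClasses
import Cfsg.Agent.Lib.Helper94.SubfieldRat
import Cfsg.Agent.Lib.Helper94.UnitAbs

set_option autoImplicit false

namespace Cfsg.Agent.Lib.Helper94.SubfieldConj

open scoped Matrix
open Cfsg.Agent.Lib.Helper94.Basic Cfsg.Agent.Lib.Helper94.GLAux
  Cfsg.Agent.Lib.Helper94.SubfieldRat

section Conj

variable {ι : Type} [Fintype ι] [DecidableEq ι] {F : Type*} [Field F]

/-- Pulling back a unitary form along an invertible matrix. -/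
theorem pull_unitary {σ : F ≃+* F} {f : (ι → F) → (ι → F) → F}
    (hf : Cfsg.Geo.IsUnitaryForm σ f) (P : Matrix.GeneralLinearGroup ι F) :
    Cfsg.Geo.IsUnitaryForm σ
      (fun u v => f ((P : Matrix ι ι F) *ᵥ u) ((P : Matrix ι ι F) *ᵥ v)) where
  ne_refl := hf.ne_refl
  involutive := hf.involutive
  add_left x y v := by simp only [Matrix.mulVec_add, hf.add_left]
  smul_left c x v := by simp only [Matrix.mulVec_smul, hf.smul_left]
  herm v w := hf.herm _ _
  nondegenerate := by
    intro v hv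
    have hPv : (P : Matrix ι ι F) *ᵥ v ≠ 0 := by
      intro h0
      apply hv
      apply gl_mulVec_injective P
      show (P : Matrix ι ι F) *ᵥ v = (P : Matrix ι ι F) *ᵥ 0
      rw [h0, Matrix.mulVec_zero]
    obtain ⟨⟨x, hx⟩, ⟨y, hy⟩⟩ := hf.nondegenerate _ hPv
    refine ⟨⟨((P⁻¹ : Matrix.GeneralLinearGroup ι F) : Matrix ι ι F) *ᵥ x, ?_⟩,
      ⟨((P⁻¹ : Matrix.GeneralLinearGroup ι F) : Matrix ι ι F) *ᵥ y, ?_⟩⟩
    · show f _ _ ≠ 0
      rw [gl_mulVec_inv]; exact hx
    · show f _ _ ≠ 0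
      rw [gl_mulVec_inv]; exact hy

/-- Conjugates of isometries are isometries of the pulled-back form. -/
lemma conj_isom_iff (f : (ι → F) → (ι → F) → F) (P g : Matrix.GeneralLinearGroup ι F) :
    (∀ x y, f (((P * g * P⁻¹ : Matrix.GeneralLinearGroup ι F) : Matrix ι ι F) *ᵥ x)
        (((P * g * P⁻¹ : Matrix.GeneralLinearGroup ι F) : Matrix ι ι F) *ᵥ y) = f x y) ↔
    (∀ x y, f ((P : Matrix ι ι F) *ᵥ ((g : Matrix ι ι F) *ᵥ x))
        ((P : Matrix ι ι F) *ᵥ ((g : Matrix ι ι F) *ᵥ y))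
          = f ((P : Matrix ι ι F) *ᵥ x) ((P : Matrix ι ι F) *ᵥ y)) := by
  constructor
  · intro h x y
    have h1 := h ((P : Matrix ι ι F) *ᵥ x) ((P : Matrix ι ι F) *ᵥ y)
    rw [Units.val_mul, Units.val_mul, ← Matrix.mulVec_mulVec, ← Matrix.mulVec_mulVec,
      ← Matrix.mulVec_mulVec, ← Matrix.mulVec_mulVec, gl_inv_mulVec, gl_inv_mulVec] at h1
    exact h1
  · intro h x y
    have h1 := h (((P⁻¹ : Matrix.GeneralLinearGroup ι F) : Matrix ι ι F) *ᵥ x)
      (((P⁻¹ : Matrix.GeneralLinearGroup ι F) : Matrix ι ι F) *ᵥ y)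
    rw [gl_mulVec_inv, gl_mulVec_inv] at h1
    rw [Units.val_mul, Units.val_mul, ← Matrix.mulVec_mulVec, ← Matrix.mulVec_mulVec,
      ← Matrix.mulVec_mulVec, ← Matrix.mulVec_mulVec]
    exact h1

lemma conj_det (P g : Matrix.GeneralLinearGroup ι F) :
    ((P * g * P⁻¹ : Matrix.GeneralLinearGroup ι F) : Matrix ι ι F).det
      = (g : Matrix ι ι F).det := by
  rw [Units.val_mul, Units.val_mul]
  exact Matrix.det_units_conj P (g : Matrix ι ι F)

/-- Reduction of maximality of a subfield group to the case of the standard rational structure. -/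
theorem subfield_reduce (F₀ : Subfield F) (P : Matrix.GeneralLinearGroup ι F)
    (I K' : Subgroup (Matrix.GeneralLinearGroup ι F))
    (hK' : ∀ g, g ∈ K' ↔ P * g * P⁻¹ ∈ I)
    (h : Cfsg.Geo.IsMaximalIn K' (((Phi F₀ (ι := ι)).range ⊔ Cfsg.Geo.scalars ι F) ⊓ K')) :
    Cfsg.Geo.IsMaximalIn I (Cfsg.Geo.subfieldSubgroup F₀ P ⊓ I) := by
  apply isMaximalIn_of_map (MulAut.conj P).symm
  have e1 : I.map (MulAut.conj P).symm.toMonoidHom = K' := by
    ext x
    rw [Subgroup.mem_map_equiv, hK']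
    rfl
  have e2 : (Cfsg.Geo.subfieldSubgroup F₀ P ⊓ I).map (MulAut.conj P).symm.toMonoidHom
      = ((Phi F₀ (ι := ι)).range ⊔ Cfsg.Geo.scalars ι F) ⊓ K' := by
    ext x
    rw [Subgroup.mem_map_equiv, Subgroup.mem_inf, Subgroup.mem_inf, hK']
    have e3 : (MulAut.conj P).symm.symm x ∈ Cfsg.Geo.subfieldSubgroup F₀ P ↔
        x ∈ (Phi F₀ (ι := ι)).range ⊔ Cfsg.Geo.scalars ι F := by
      show (MulAut.conj P).toMonoidHom x ∈ Subgroup.map (MulAut.conj P).toMonoidHom _ ↔ _
      exact Subgroup.mem_map_iff_mem (MulAut.conj P).injective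
    rw [e3]
    rfl
  rw [e1, e2]
  exact h

end Conj

section Field

variable {F : Type*} [Field F] [Fintype F]

/-- The subfield with `q` elements consists of the fixed points of `x ↦ x ^ q`. -/
lemma mem_subfield_iff_pow (F₀ : Subfield F) (q : ℕ) (hq : Nat.card F₀ = q) (x : F) :
    x ∈ F₀ ↔ x ^ q = x := by
  classical
  have : Fintype F₀ := Fintype.ofFinite F₀
  have hq' : Fintype.card F₀ = q := by rw [← Nat.card_eq_fintype_card, hq]
  have h1 : ∀ y : F₀, (y : F) ^ q = y := by
    intro y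
    have := FiniteField.pow_card y
    rw [hq'] at this
    exact_mod_cast congrArg (fun z : F₀ => (z : F)) this
  constructor
  · intro hx
    exact h1 ⟨x, hx⟩
  · intro hx
    have hq1 : 1 < q := by
      rw [← hq']
      exact Fintype.one_lt_card
    have hp : (Polynomial.X ^ q - Polynomial.X : Polynomial F) ≠ 0 :=
      FiniteField.X_pow_card_sub_X_ne_zero F hq1
    have hdeg : (Polynomial.X ^ q - Polynomial.X : Polynomial F).natDegree = q :=
      FiniteField.X_pow_card_sub_X_natDegree_eq F hq1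
    set S : Finset F := (Polynomial.X ^ q - Polynomial.X : Polynomial F).roots.toFinset with hS
    set T : Finset F := Finset.image (fun y : F₀ => (y : F)) (Finset.univ : Finset F₀) with hT
    have hmemS : ∀ y : F, y ∈ S ↔ y ^ q = y := by
      intro y
      rw [hS, Multiset.mem_toFinset, Polynomial.mem_roots hp, Polynomial.IsRoot.def]
      simp [sub_eq_zero]
    have hsub : T ⊆ S := by
      intro y hy
      obtain ⟨y0, -, rfl⟩ := Finset.mem_image.mp hy
      exact (hmemS _).mpr (h1 y0)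
    have hcardT : T.card = q := by
      rw [hT, Finset.card_image_of_injective _ Subtype.val_injective, Finset.card_univ, hq']
    have hcardS : S.card ≤ q :=
      (Multiset.toFinset_card_le _).trans ((Polynomial.card_roots' _).trans hdeg.le)
    have hTS : T = S := Finset.eq_of_subset_of_card_le hsub (by omega)
    have hxS : x ∈ S := (hmemS x).mpr hx
    rw [← hTS] at hxS
    obtain ⟨y0, -, rfl⟩ := Finset.mem_image.mp hxS
    exact y0.2

end Field

end Cfsg.Agent.Lib.Helper94.SubfieldConj
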