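import Mathlib
import Cfsg.Prelude.Def_GeometricClasses
import Cfsg.Agent.Lib.Helper94.SfOrth1
import Cfsg.Agent.Lib.Helper94.SubfieldConj

/-!
# Pulling back a quadratic form along a rational structure (helper94)

* `pullQ_nd` : `v ↦ ζ * Q (P v)` is a non-degenerate quadratic form.
* `pullQ_rat` : it is rational when `P` is a rational structure for `ζ • Q`.
* `mem_omega_pull` : `Ω` of the pulled-back form is the conjugate of `Ω(Q)`.
* `maximal_pull` : reduction of maximality of the subfield group to the standard rational structure.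
-/

set_option autoImplicit false

namespace Cfsg.Agent.Lib.Helper94.SfOrth7

open scoped Matrix
open Cfsg.Agent.Lib.Helper94.Basic Cfsg.Agent.Lib.Helper94.GLAux
  Cfsg.Agent.Lib.Helper94.SubfieldRat Cfsg.Agent.Lib.Helper94.SfOrth1
  Cfsg.Agent.Lib.Helper94.SubfieldConj

section Pull

variable {ι : Type} [Fintype ι] [DecidableEq ι] {F : Type*} [Field F]

/-- The pulled-back and rescaled form. -/
def pullQ (Q : (ι → F) → F) (P : Matrix.GeneralLinearGroup ι F) (ζ : F) : (ι → F) → F :=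
  fun v => ζ * Q ((P : Matrix ι ι F) *ᵥ v)

lemma polar_pullQ (Q : (ι → F) → F) (P : Matrix.GeneralLinearGroup ι F) (ζ : F) (x y : ι → F) :
    QuadraticMap.polar (pullQ Q P ζ) x y
      = ζ * QuadraticMap.polar Q ((P : Matrix ι ι F) *ᵥ x) ((P : Matrix ι ι F) *ᵥ y) := by
  unfold QuadraticMap.polar pullQ
  rw [Matrix.mulVec_add]
  ring

theorem pullQ_nd {Q : (ι → F) → F} (hQ : Cfsg.Geo.IsNondegenerateQuadraticForm Q)
    (P : Matrix.GeneralLinearGroup ι F) {ζ : F} (hζ : ζ ≠ 0) :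
    Cfsg.Geo.IsNondegenerateQuadraticForm (pullQ Q P ζ) where
  smul c v := by
    show ζ * Q ((P : Matrix ι ι F) *ᵥ (c • v)) = c ^ 2 * (ζ * Q ((P : Matrix ι ι F) *ᵥ v))
    rw [Matrix.mulVec_smul, hQ.smul]
    ring
  polar_bilinear := by
    have hb := hQ.polar_bilinear
    refine ⟨?_, ?_, ?_, ?_⟩
    · intro x y v
      rw [polar_pullQ, polar_pullQ, polar_pullQ, Matrix.mulVec_add, hb.add_left]
      ring
    · intro c x v
      rw [polar_pullQ, polar_pullQ, Matrix.mulVec_smul, hb.smul_left]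
      ring
    · intro v x y
      rw [polar_pullQ, polar_pullQ, polar_pullQ, Matrix.mulVec_add, hb.add_right]
      ring
    · intro c v x
      rw [polar_pullQ, polar_pullQ, Matrix.mulVec_smul, hb.smul_right]
      ring
  nondegenerate := by
    intro v hv
    have hPv : (P : Matrix ι ι F) *ᵥ v ≠ 0 := by
      intro h0
      apply hv
      apply gl_mulVec_injective P
      show (P : Matrix ι ι F) *ᵥ v = (P : Matrix ι ι F) *ᵥ 0
      rw [h0, Matrix.mulVec_zero]
    obtain ⟨⟨x, hx⟩, ⟨y, hy⟩⟩ := hQ.nondegenerate _ hPv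
    refine ⟨⟨((P⁻¹ : Matrix.GeneralLinearGroup ι F) : Matrix ι ι F) *ᵥ x, ?_⟩,
      ⟨((P⁻¹ : Matrix.GeneralLinearGroup ι F) : Matrix ι ι F) *ᵥ y, ?_⟩⟩
    · rw [polar_pullQ, gl_mulVec_inv]
      exact mul_ne_zero hζ hx
    · rw [polar_pullQ, gl_mulVec_inv]
      exact mul_ne_zero hζ hy

theorem pullQ_rat {Q : (ι → F) → F} {F₀ : Subfield F} {P : Matrix.GeneralLinearGroup ι F}
    {ζ : F} (hP : Cfsg.Geo.IsQuadFormRationalStructure (fun v => ζ * Q v) F₀ P) :
    RatQ (pullQ Q P ζ) F₀ := by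
  intro u
  exact hP (up F₀ u) (fun i => (u i).2)

/-- Isometries of the pulled-back form are the conjugates of the isometries. -/
lemma mem_isom_pull (Q : (ι → F) → F) (P : Matrix.GeneralLinearGroup ι F) {ζ : F} (hζ : ζ ≠ 0)
    (g : Matrix.GeneralLinearGroup ι F) :
    g ∈ Cfsg.isometryGroup F (pullQ Q P ζ) ↔ P * g * P⁻¹ ∈ Cfsg.isometryGroup F Q := by
  rw [mem_isometryGroup_iff, mem_isometryGroup_iff]
  constructor
  · intro h v
    have h1 := h (((P⁻¹ : Matrix.GeneralLinearGroup ι F) : Matrix ι ι F) *ᵥ v)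
    unfold pullQ at h1
    rw [gl_mulVec_inv] at h1
    rw [Units.val_mul, Units.val_mul, ← Matrix.mulVec_mulVec, ← Matrix.mulVec_mulVec]
    exact mul_left_cancel₀ hζ h1
  · intro h v
    have h1 := h ((P : Matrix ι ι F) *ᵥ v)
    rw [Units.val_mul, Units.val_mul, ← Matrix.mulVec_mulVec, ← Matrix.mulVec_mulVec,
      gl_inv_mulVec] at h1
    unfold pullQ
    rw [h1]

lemma omegaGL_eq_comm (Q : (ι → F) → F) :
    Cfsg.Geo.omegaGL Q = ⁅Cfsg.isometryGroup F Q, Cfsg.isometryGroup F Q⁆ := by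
  unfold Cfsg.Geo.omegaGL Cfsg.Omega
  exact Subgroup.map_subtype_commutator _

/-- `Ω` of the pulled-back form is the conjugate of `Ω(Q)`. -/
theorem mem_omega_pull (Q : (ι → F) → F) (P : Matrix.GeneralLinearGroup ι F) {ζ : F}
    (hζ : ζ ≠ 0) (g : Matrix.GeneralLinearGroup ι F) :
    g ∈ Cfsg.Geo.omegaGL (pullQ Q P ζ) ↔ P * g * P⁻¹ ∈ Cfsg.Geo.omegaGL Q := by
  have e1 : (Cfsg.isometryGroup F (pullQ Q P ζ)).map (MulAut.conj P).toMonoidHom
      = Cfsg.isometryGroup F Q := by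
    ext x
    rw [Subgroup.mem_map_equiv, mem_isom_pull Q P hζ]
    have : P * ((MulAut.conj P).symm x) * P⁻¹ = x := by
      show P * (P⁻¹ * x * P) * P⁻¹ = x
      group
    rw [this]
  have e2 : (Cfsg.Geo.omegaGL (pullQ Q P ζ)).map (MulAut.conj P).toMonoidHom
      = Cfsg.Geo.omegaGL Q := by
    rw [omegaGL_eq_comm, omegaGL_eq_comm, Subgroup.map_commutator, e1]
  rw [← e2]
  show _ ↔ (MulAut.conj P).toMonoidHom g ∈ _
  exact (Subgroup.mem_map_iff_mem (MulAut.conj P).injective).symm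

/-- Reduction of the maximality of the subfield group in `Ω` to the standard rational
structure. -/
theorem maximal_pull {Q : (ι → F) → F} {F₀ : Subfield F} (P : Matrix.GeneralLinearGroup ι F)
    {ζ : F} (hζ : ζ ≠ 0)
    (h : Cfsg.Geo.IsMaximalIn (Cfsg.Geo.omegaGL (pullQ Q P ζ))
      (((Phi F₀ (ι := ι)).range ⊔ Cfsg.Geo.scalars ι F) ⊓ Cfsg.Geo.omegaGL (pullQ Q P ζ))) :
    Cfsg.Geo.IsMaximalIn (Cfsg.Geo.omegaGL Q)
      (Cfsg.Geo.subfieldSubgroup F₀ P ⊓ Cfsg.Geo.omegaGL Q) :=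
  subfield_reduce F₀ P _ _ (mem_omega_pull Q P hζ) h

end Pull

end Cfsg.Agent.Lib.Helper94.SfOrth7
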