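import Mathlib
import Cfsg.Prelude.Def_GeometricClasses
import Cfsg.Agent.Lib.Helper94.SfOrth4
import Cfsg.Agent.Lib.Helper98.SL2Sub

/-!
# Overgroups of the orthogonal subfield group: rationality for odd degree (helper94)

A uniform argument for field extensions of odd prime degree, in any characteristic and for any
subfield (including the field with two elements).

* `sll` : a Siegel element of `M` with rational centre has a rational parameter vector modulo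
  the centre.
* `torus_sq` : an element of `M` scaling a rational singular vector by `t` has `t ^ 2` rational.
* `perp_rat` : the image under an element of `M` of a rational singular vector, when orthogonal
  to a rational singular vector `b`, is a multiple of a rational vector modulo `b`.
* `rat_gen` : the image under an element of `M` of a rational singular vector is a multiple of a
  rational vector.
-/

set_option autoImplicit false
set_option linter.unusedSimpArgs false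

namespace Cfsg.Agent.Lib.Helper94.SfOrth8

open scoped Matrix MatrixGroups
open Module
open Cfsg.Agent.Lib.Helper94.Basic Cfsg.Agent.Lib.Helper94.GLAux Cfsg.Agent.Lib.Helper94.Tv
  Cfsg.Agent.Lib.Helper94.QuadAbs Cfsg.Agent.Lib.Helper94.OrthSiegel
  Cfsg.Agent.Lib.Helper94.SubfieldRat Cfsg.Agent.Lib.Helper94.SfOrth1
  Cfsg.Agent.Lib.Helper94.SfOrth2 Cfsg.Agent.Lib.Helper94.SfOrth3
  Cfsg.Agent.Lib.Helper94.SfOrth4
open Cfsg.Agent.Lib.Helper94.SympAbs (bil_zero_left bil_zero_right bil_neg_left bil_neg_right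
  bil_sub_left bil_sub_right fR fR_apply fRL fLeft fLeft_apply)
open Cfsg.Agent.Lib.Helper98.SL2Sub

section Rat

variable {ι : Type} [Fintype ι] [DecidableEq ι] {F : Type*} [Field F]
variable {Q : (ι → F) → F} {F₀ : Subfield F}

/-- A rational vector pairing to one with a given non-zero rational vector. -/
lemma exists_pair_one (hQ : Cfsg.Geo.IsNondegenerateQuadraticForm Q) (hR : RatQ Q F₀)
    (b₀ : ι → F₀) (hb0 : b₀ ≠ 0) : ∃ v : ι → F₀, QuadraticMap.polar (Q0 hR) b₀ v = 1 := by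
  have hQ0 := Q0_nd hQ hR
  obtain ⟨x, hx⟩ := (hQ0.nondegenerate b₀ hb0).2
  refine ⟨(QuadraticMap.polar (Q0 hR) b₀ x)⁻¹ • x, ?_⟩
  rw [hQ0.polar_bilinear.smul_right, inv_mul_cancel₀ hx]

/-- A vector orthogonal to all rational vectors orthogonal to `b₀` is a multiple of `b₀`. -/
lemma rat_mod0 (hQ : Cfsg.Geo.IsNondegenerateQuadraticForm Q) (hR : RatQ Q F₀) (b₀ : ι → F₀)
    (hb0 : b₀ ≠ 0) (z : ι → F)
    (h : ∀ x : ι → F₀, QuadraticMap.polar (Q0 hR) b₀ x = 0 →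
      QuadraticMap.polar Q z (up F₀ x) = 0) :
    ∃ lam : F, z = lam • up F₀ b₀ := by
  have hQ0 := Q0_nd hQ hR
  have hbl := hQ.polar_bilinear
  have hbl0 := hQ0.polar_bilinear
  obtain ⟨v, hv⟩ := exists_pair_one hQ hR b₀ hb0
  refine ⟨QuadraticMap.polar Q z (up F₀ v), ?_⟩
  have h0 : z - QuadraticMap.polar Q z (up F₀ v) • up F₀ b₀ = 0 := by
    apply eq_zero_of_ratQ hQ F₀
    intro y
    obtain ⟨β, hβ⟩ : ∃ β : F₀, β = QuadraticMap.polar (Q0 hR) b₀ y := ⟨_, rfl⟩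
    have hy' : QuadraticMap.polar (Q0 hR) b₀ (y - β • v) = 0 := by
      rw [bil_sub_right hbl0, hbl0.smul_right, hv, ← hβ]
      ring
    have h1 := h _ hy'
    rw [up_sub, up_smul, bil_sub_right hbl, hbl.smul_right] at h1
    have h2 : QuadraticMap.polar Q (up F₀ b₀) (up F₀ y) = (β : F) := by
      rw [← polar_Q0 hR, ← hβ]
    rw [bil_sub_left hbl, hbl.smul_left, h2]
    linear_combination h1
  exact sub_eq_zero.mp h0

/-- A vector with rational pairings against all rational vectors orthogonal to `b₀` is rational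
modulo `b₀`. -/
lemma rat_mod (hQ : Cfsg.Geo.IsNondegenerateQuadraticForm Q) (hR : RatQ Q F₀) (b₀ : ι → F₀)
    (hb0 : b₀ ≠ 0) (z : ι → F)
    (h : ∀ x : ι → F₀, QuadraticMap.polar (Q0 hR) b₀ x = 0 →
      QuadraticMap.polar Q z (up F₀ x) ∈ F₀) :
    ∃ (z₀ : ι → F₀) (lam : F), z = up F₀ z₀ + lam • up F₀ b₀ := by
  have hQ0 := Q0_nd hQ hR
  have hbl := hQ.polar_bilinear
  have hbl0 := hQ0.polar_bilinear
  obtain ⟨v, hv⟩ := exists_pair_one hQ hR b₀ hb0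
  obtain ⟨z₀, hz₀⟩ := rat_of_pairQ hQ hR (z - QuadraticMap.polar Q z (up F₀ v) • up F₀ b₀) (by
    intro y
    obtain ⟨β, hβ⟩ : ∃ β : F₀, β = QuadraticMap.polar (Q0 hR) b₀ y := ⟨_, rfl⟩
    have hy' : QuadraticMap.polar (Q0 hR) b₀ (y - β • v) = 0 := by
      rw [bil_sub_right hbl0, hbl0.smul_right, hv, ← hβ]
      ring
    have h1 := h _ hy'
    rw [up_sub, up_smul, bil_sub_right hbl, hbl.smul_right] at h1
    have h2 : QuadraticMap.polar Q (up F₀ b₀) (up F₀ y) = (β : F) := by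
      rw [← polar_Q0 hR, ← hβ]
    rw [bil_sub_left hbl, hbl.smul_left, h2]
    have e : QuadraticMap.polar Q z (up F₀ y) - QuadraticMap.polar Q z (up F₀ v) * (β : F)
        = QuadraticMap.polar Q z (up F₀ y) - (β : F) * QuadraticMap.polar Q z (up F₀ v) := by
      ring
    rw [e]
    exact h1)
  refine ⟨z₀, QuadraticMap.polar Q z (up F₀ v), ?_⟩
  rw [← hz₀]
  abel

/-- The action of an element of `GL` on the span of two vectors, given by an element of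
`SL₂`. -/
def RelL (b z : ι → F) (S : SL(2, F)) (h : Matrix.GeneralLinearGroup ι F) : Prop :=
  (h : Matrix ι ι F) *ᵥ b = S.1 0 0 • b + S.1 1 0 • z ∧
  (h : Matrix ι ι F) *ᵥ z = S.1 0 1 • b + S.1 1 1 • z

lemma RelL.one (b z : ι → F) : RelL b z 1 1 := by
  constructor
  · rw [one00, one10]
    simp
  · rw [one01, one11]
    simp

lemma RelL.mul {b z : ι → F} {S S' : SL(2, F)} {h h' : Matrix.GeneralLinearGroup ι F}
    (h1 : RelL b z S h) (h2 : RelL b z S' h') : RelL b z (S * S') (h * h') := by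
  obtain ⟨a1, a2⟩ := h1
  obtain ⟨b1, b2⟩ := h2
  constructor
  · rw [Units.val_mul, ← Matrix.mulVec_mulVec, b1, Matrix.mulVec_add, Matrix.mulVec_smul,
      Matrix.mulVec_smul, a1, a2, mul00, mul10]
    module
  · rw [Units.val_mul, ← Matrix.mulVec_mulVec, b2, Matrix.mulVec_add, Matrix.mulVec_smul,
      Matrix.mulVec_smul, a1, a2, mul01, mul11]
    module

end Rat

section Main

variable {ι : Type} [Fintype ι] [DecidableEq ι] {F : Type*} [Field F] [Fintype F]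
variable {Q : (ι → F) → F} {F₀ : Subfield F}
variable {hQ : Cfsg.Geo.IsNondegenerateQuadraticForm Q}
variable {M : Subgroup (Matrix.GeneralLinearGroup ι F)}

/-- A Siegel element of `M` with rational centre has a rational parameter vector modulo the
centre. -/
theorem sll (hC : CtxO hQ F₀ M) (hR : RatQ Q F₀) (hcard : 13 ≤ Fintype.card ι)
    (hLL : LLq hQ hR M) (b₀ : ι → F₀) (hb0 : b₀ ≠ 0) (hb : Q0 hR b₀ = 0) (x : ι → F)
    (hbx : QuadraticMap.polar Q (up F₀ b₀) x = 0) (hx : sg hQ (up F₀ b₀) x ∈ M) :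
    ∃ (x₀ : ι → F₀) (lam : F), x = up F₀ x₀ + lam • up F₀ b₀ := by
  classical
  haveI : Fintype F₀ := Fintype.ofFinite F₀
  have hQ0 := Q0_nd hQ hR
  have hbl := hQ.polar_bilinear
  apply rat_mod hQ hR b₀ hb0
  intro c hbc
  obtain ⟨s₁, s₂, s₃, hs₁, hs₂, hs₃, q1, q2, q3, hsum⟩ :=
    sum_sing3_fam hQ0 (![b₀] : Fin 1 → (ι → F₀)) (by omega) c (fun i => by
      fin_cases i
      exact hbc)
  rw [hsum, up_add, up_add, hbl.add_right, hbl.add_right]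
  exact F₀.add_mem (F₀.add_mem
    (pair_mem_of_sg hC hR hcard hLL b₀ hb0 hb x hbx hx s₁ hs₁ (q1 0))
    (pair_mem_of_sg hC hR hcard hLL b₀ hb0 hb x hbx hx s₂ hs₂ (q2 0)))
    (pair_mem_of_sg hC hR hcard hLL b₀ hb0 hb x hbx hx s₃ hs₃ (q3 0))

/-- An element of `M` scaling a rational singular vector by `t` has `t ^ 2` rational. -/
theorem torus_sq (hC : CtxO hQ F₀ M) (hR : RatQ Q F₀) (hcard : 13 ≤ Fintype.card ι)
    (hLL : LLq hQ hR M) (b₀ : ι → F₀) (hb0 : b₀ ≠ 0) (hb : Q0 hR b₀ = 0)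
    (h : Matrix.GeneralLinearGroup ι F) (hh : h ∈ M) (t : F)
    (ht : (h : Matrix ι ι F) *ᵥ up F₀ b₀ = t • up F₀ b₀) : t ^ 2 ∈ F₀ := by
  classical
  haveI : Fintype F₀ := Fintype.ofFinite F₀
  have hQ0 := Q0_nd hQ hR
  have hbl := hQ.polar_bilinear
  have hbl0 := hQ0.polar_bilinear
  have Qb : Q (up F₀ b₀) = 0 := (Q0_eq_zero hR b₀).mp hb
  have hiso := hC.iso h hh
  obtain ⟨e, f, p1, p2, he, hf, hef⟩ :=
    exists_hyp_fam hQ0 (![b₀] : Fin 1 → (ι → F₀)) (by omega)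
  have hbe : QuadraticMap.polar (Q0 hR) b₀ e = 0 := p1 0
  have hbf : QuadraticMap.polar (Q0 hR) b₀ f = 0 := p2 0
  have hbx : QuadraticMap.polar Q (up F₀ b₀) (up F₀ (e + f)) = 0 := by
    apply (polar_Q0_eq_zero hR _ _).mp
    rw [hbl0.add_right, hbe, hbf, add_zero]
  have Qx : Q (up F₀ (e + f)) = 1 := by
    have h0 : Q0 hR (e + f) = 1 := by
      rw [Q_add (Q0 hR), he, hf, hef]
      ring
    have h1 := congrArg (fun x : F₀ => (x : F)) h0
    simpa [Q0_coe] using h1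
  have s1 := hC.conj hh (hC.rat b₀ (e + f))
  rw [ht, sg_smul_left] at s1
  have hp : QuadraticMap.polar Q (up F₀ b₀)
      (t • ((h : Matrix ι ι F) *ᵥ up F₀ (e + f))) = 0 := by
    rw [hbl.smul_right, ← hbl.smul_left, ← ht, polar_of_isom h hiso]
    exact hbx
  obtain ⟨x₁, lam, hx₁⟩ := sll hC hR hcard hLL b₀ hb0 hb _ hp s1
  have hq1 : Q (t • ((h : Matrix ι ι F) *ᵥ up F₀ (e + f))) = t ^ 2 := by
    rw [hQ.smul, hiso, Qx, mul_one]
  have hp2 : QuadraticMap.polar Q (up F₀ x₁) (up F₀ b₀) = 0 := by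
    have e1 : up F₀ x₁ = t • ((h : Matrix ι ι F) *ᵥ up F₀ (e + f)) - lam • up F₀ b₀ := by
      rw [hx₁]
      abel
    rw [e1, bil_sub_left hbl, hbl.smul_left (c := lam), polar_self_sing hQ _ Qb, mul_zero,
      sub_zero, B_comm]
    exact hp
  have hq2 : Q (up F₀ x₁ + lam • up F₀ b₀) = Q (up F₀ x₁) := by
    rw [Q_add Q, hQ.smul, Qb, hbl.smul_right, hp2]
    ring
  rw [← hq1, hx₁, hq2]
  exact hR x₁

/-- The image under an element of `M` of a rational singular vector, when orthogonal to a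
rational singular vector `b`, is a multiple of a rational vector modulo `b`. -/
theorem perp_rat (hC : CtxO hQ F₀ M) (hR : RatQ Q F₀) (hcard : 13 ≤ Fintype.card ι)
    (hLL : LLq hQ hR M)
    (hgen3 : ∀ β γ : F, β ∉ F₀ → γ ≠ 0 → Subgroup.closure
      ({S : SL(2, F) | ∃ s ∈ F₀, ∃ s' ∈ F₀, S = u (s + s' * β)} ∪
        {S : SL(2, F) | ∃ s ∈ F₀, S = l (γ * s)}) = ⊤)
    (hsq : ∀ x : F, x ^ 2 ∈ F₀ → x ∈ F₀) (hnt : ∃ t : F, t ∉ F₀)
    (b₀ : ι → F₀) (hb0 : b₀ ≠ 0) (hb : Q0 hR b₀ = 0)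
    (g : Matrix.GeneralLinearGroup ι F) (hg : g ∈ M) (u₀ : ι → F₀) (hu0 : u₀ ≠ 0)
    (hu : Q0 hR u₀ = 0)
    (hperp : QuadraticMap.polar Q (up F₀ b₀) ((g : Matrix ι ι F) *ᵥ up F₀ u₀) = 0) :
    ∃ (c : F) (v₀ : ι → F₀) (lam : F),
      (g : Matrix ι ι F) *ᵥ up F₀ u₀ = c • up F₀ v₀ + lam • up F₀ b₀ := by
  classical
  haveI : Fintype F₀ := Fintype.ofFinite F₀
  have hQ0 := Q0_nd hQ hR
  have hbl := hQ.polar_bilinear
  have hbl0 := hQ0.polar_bilinear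
  have cm := fun x y => B_comm (Q0 hR) x y
  have z0 := fun x y => (polar_Q0_eq_zero hR x y).mp
  have Qb : Q (up F₀ b₀) = 0 := (Q0_eq_zero hR b₀).mp hb
  have Qu : Q (up F₀ u₀) = 0 := (Q0_eq_zero hR u₀).mp hu
  have Bbb := polar_self_sing hQ _ Qb
  have hgiso := hC.iso g hg
  obtain ⟨z, hzdef⟩ : ∃ z : ι → F, z = (g : Matrix ι ι F) *ᵥ up F₀ u₀ := ⟨_, rfl⟩
  rw [← hzdef] at hperp ⊢
  have Qz : Q z = 0 := by rw [hzdef, hgiso]; exact Qu
  have Bzz := polar_self_sing hQ _ Qz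
  have hperp' : QuadraticMap.polar Q z (up F₀ b₀) = 0 := by rw [B_comm]; exact hperp
  by_cases hA : ∃ x₁ : ι → F₀, QuadraticMap.polar (Q0 hR) b₀ x₁ = 0 ∧
      QuadraticMap.polar Q z (up F₀ x₁) ≠ 0 ∧
      ∃ x₂ : ι → F₀, QuadraticMap.polar (Q0 hR) b₀ x₂ = 0 ∧
        QuadraticMap.polar Q z (up F₀ x₂) / QuadraticMap.polar Q z (up F₀ x₁) ∉ F₀
  swap
  · push Not at hA
    by_cases hB : ∃ x₁ : ι → F₀, QuadraticMap.polar (Q0 hR) b₀ x₁ = 0 ∧
        QuadraticMap.polar Q z (up F₀ x₁) ≠ 0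
    · obtain ⟨x₁, hx₁, hμ⟩ := hB
      obtain ⟨z₀, lam, hz₀⟩ := rat_mod hQ hR b₀ hb0
        ((QuadraticMap.polar Q z (up F₀ x₁))⁻¹ • z) (by
          intro x hx
          rw [hbl.smul_left, ← div_eq_inv_mul]
          exact hA x₁ hx₁ hμ x hx)
      refine ⟨QuadraticMap.polar Q z (up F₀ x₁), z₀, QuadraticMap.polar Q z (up F₀ x₁) * lam, ?_⟩
      have e1 : z = QuadraticMap.polar Q z (up F₀ x₁) •
          ((QuadraticMap.polar Q z (up F₀ x₁))⁻¹ • z) := by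
        rw [smul_smul, mul_inv_cancel₀ hμ, one_smul]
      rw [hz₀, smul_add, smul_smul] at e1
      exact e1
    · push Not at hB
      obtain ⟨lam, hlam⟩ := rat_mod0 hQ hR b₀ hb0 z hB
      refine ⟨0, 0, lam, ?_⟩
      rw [hlam]
      simp
  · exfalso
    obtain ⟨x₁, hx₁, hμ₁, x₂, hx₂, hβ⟩ := hA
    obtain ⟨μ₁, hμ₁def⟩ : ∃ μ₁ : F, μ₁ = QuadraticMap.polar Q z (up F₀ x₁) := ⟨_, rfl⟩
    obtain ⟨μ₂, hμ₂def⟩ : ∃ μ₂ : F, μ₂ = QuadraticMap.polar Q z (up F₀ x₂) := ⟨_, rfl⟩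
    rw [← hμ₁def] at hμ₁
    rw [← hμ₁def, ← hμ₂def] at hβ
    have ginv : ∀ y : ι → F, (g : Matrix ι ι F) *ᵥ
        (((g⁻¹ : Matrix.GeneralLinearGroup ι F) : Matrix ι ι F) *ᵥ y) = y :=
      fun y => gl_mulVec_inv g y
    obtain ⟨s₁, hs₁, hγ⟩ : ∃ s₁ : ι → F₀, QuadraticMap.polar (Q0 hR) u₀ s₁ = 0 ∧
        QuadraticMap.polar Q ((g : Matrix ι ι F) *ᵥ up F₀ s₁) (up F₀ b₀) ≠ 0 := by
      by_contra hcon
      push Not at hcon
      obtain ⟨lam, hlam⟩ := rat_mod0 hQ hR u₀ hu0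
        (((g⁻¹ : Matrix.GeneralLinearGroup ι F) : Matrix ι ι F) *ᵥ up F₀ b₀) (by
          intro s hs
          have h1 := polar_of_isom g hgiso
            (((g⁻¹ : Matrix.GeneralLinearGroup ι F) : Matrix ι ι F) *ᵥ up F₀ b₀) (up F₀ s)
          rw [ginv] at h1
          rw [← h1, B_comm]
          exact hcon s hs)
      have e1 : up F₀ b₀ = lam • z := by
        have h1 := congrArg (fun y => (g : Matrix ι ι F) *ᵥ y) hlam
        simp only [ginv, Matrix.mulVec_smul] at h1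
        rw [hzdef]
        exact h1
      have hlam0 : lam ≠ 0 := by
        intro h0
        rw [h0, zero_smul] at e1
        exact hb0 ((up_eq_zero F₀ b₀).mp e1)
      have h0 : QuadraticMap.polar Q (up F₀ b₀) (up F₀ x₁) = 0 := z0 _ _ hx₁
      rw [e1, hbl.smul_left] at h0
      apply hμ₁
      rw [hμ₁def]
      exact (mul_eq_zero.mp h0).resolve_left hlam0
    obtain ⟨γ, hγdef⟩ : ∃ γ : F,
        γ = QuadraticMap.polar Q ((g : Matrix ι ι F) *ᵥ up F₀ s₁) (up F₀ b₀) := ⟨_, rfl⟩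
    obtain ⟨y, hydef⟩ : ∃ y : ι → F, y = (g : Matrix ι ι F) *ᵥ up F₀ s₁ := ⟨_, rfl⟩
    rw [← hydef] at hγdef hγ
    rw [← hγdef] at hγ
    have Bzy : QuadraticMap.polar Q z y = 0 := by
      rw [hzdef, hydef, polar_of_isom g hgiso]
      exact z0 _ _ hs₁
    obtain ⟨z', hz'def⟩ : ∃ z' : ι → F, z' = (-μ₁⁻¹) • z := ⟨_, rfl⟩
    have hgenS : ∀ S ∈ ({S : SL(2, F) | ∃ s ∈ F₀, ∃ s' ∈ F₀, S = u (s + s' * (μ₂ / μ₁))} ∪
        {S : SL(2, F) | ∃ s ∈ F₀, S = l (γ * μ₁ * s)}),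
        ∃ h ∈ M, RelL (up F₀ b₀) z' S h := by
      rintro S (⟨s, hs, s', hs', rfl⟩ | ⟨s, hs, rfl⟩)
      · have hbw : QuadraticMap.polar Q (up F₀ b₀)
            (up F₀ ((⟨s, hs⟩ : F₀) • x₁ + (⟨s', hs'⟩ : F₀) • x₂)) = 0 := by
          apply z0
          rw [hbl0.add_right, hbl0.smul_right, hbl0.smul_right, hx₁, hx₂]
          ring
        have hwb : QuadraticMap.polar Q
            (up F₀ ((⟨s, hs⟩ : F₀) • x₁ + (⟨s', hs'⟩ : F₀) • x₂)) (up F₀ b₀) = 0 := by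
          rw [B_comm]
          exact hbw
        have hwz : QuadraticMap.polar Q
            (up F₀ ((⟨s, hs⟩ : F₀) • x₁ + (⟨s', hs'⟩ : F₀) • x₂)) z = s * μ₁ + s' * μ₂ := by
          rw [up_add, up_smul, up_smul, hbl.add_left, hbl.smul_left, hbl.smul_left,
            B_comm Q (up F₀ x₁) z, B_comm Q (up F₀ x₂) z, ← hμ₁def, ← hμ₂def]
        refine ⟨sg hQ (up F₀ b₀) (up F₀ ((⟨s, hs⟩ : F₀) • x₁ + (⟨s', hs'⟩ : F₀) • x₂)),
          hC.rat _ _, ?_, ?_⟩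
        · rw [sg_mulVec hQ _ _ Qb hbw, Bbb, hwb, u00, u10]
          simp
        · rw [sg_mulVec hQ _ _ Qb hbw, hz'def, hbl.smul_right, hbl.smul_right, hperp, hwz,
            u01, u11]
          have e : -μ₁⁻¹ * (s * μ₁ + s' * μ₂) = -(s + s' * (μ₂ / μ₁)) := by
            field_simp
          rw [e]
          simp only [mul_zero, zero_smul, add_zero, sub_zero, one_smul, neg_smul, sub_neg_eq_add]
          abel
      · have hzy : QuadraticMap.polar Q z (s • y) = 0 := by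
          rw [hbl.smul_right, Bzy, mul_zero]
        have hyz : QuadraticMap.polar Q (s • y) z = 0 := by
          rw [B_comm]
          exact hzy
        refine ⟨sg hQ z (s • y), ?_, ?_, ?_⟩
        · have h1 := hC.conj hg (hC.rat u₀ ((⟨s, hs⟩ : F₀) • s₁))
          rw [up_smul, Matrix.mulVec_smul, ← hzdef, ← hydef] at h1
          exact h1
        · rw [sg_mulVec hQ _ _ Qz hzy, hperp', hbl.smul_left, ← hγdef, l00, l10, hz'def]
          simp only [mul_zero, zero_smul, add_zero, sub_zero, one_smul, smul_smul]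
          have e : γ * μ₁ * s * -μ₁⁻¹ = -(s * γ) := by
            field_simp
          rw [e, neg_smul, sub_eq_add_neg]
          simp
        · rw [sg_mulVec hQ _ _ Qz hzy, hz'def, hbl.smul_right, hbl.smul_right, Bzz, hyz,
            l01, l11]
          simp
    have hgeninv : ∀ S ∈ ({S : SL(2, F) | ∃ s ∈ F₀, ∃ s' ∈ F₀, S = u (s + s' * (μ₂ / μ₁))} ∪
        {S : SL(2, F) | ∃ s ∈ F₀, S = l (γ * μ₁ * s)}),
        S⁻¹ ∈ ({S : SL(2, F) | ∃ s ∈ F₀, ∃ s' ∈ F₀, S = u (s + s' * (μ₂ / μ₁))} ∪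
          {S : SL(2, F) | ∃ s ∈ F₀, S = l (γ * μ₁ * s)}) := by
      rintro S (⟨s, hs, s', hs', rfl⟩ | ⟨s, hs, rfl⟩)
      · left
        refine ⟨-s, F₀.neg_mem hs, -s', F₀.neg_mem hs', ?_⟩
        rw [u_inv]
        congr 1
        ring
      · right
        refine ⟨-s, F₀.neg_mem hs, ?_⟩
        rw [l_inv]
        congr 1
        ring
    have hall : ∀ S : SL(2, F), ∃ h ∈ M, RelL (up F₀ b₀) z' S h := by
      intro S
      have hS : S ∈ Subgroup.closure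
          ({S : SL(2, F) | ∃ s ∈ F₀, ∃ s' ∈ F₀, S = u (s + s' * (μ₂ / μ₁))} ∪
            {S : SL(2, F) | ∃ s ∈ F₀, S = l (γ * μ₁ * s)}) := by
        rw [hgen3 _ _ hβ (mul_ne_zero hγ hμ₁)]
        trivial
      induction hS using Subgroup.closure_induction'' with
      | mem x hx => exact hgenS x hx
      | inv_mem x hx => exact hgenS _ (hgeninv x hx)
      | one => exact ⟨1, M.one_mem, RelL.one _ _⟩
      | mul x y _ _ hx hy =>
        obtain ⟨h, hh, hr⟩ := hx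
        obtain ⟨h', hh', hr'⟩ := hy
        exact ⟨h * h', M.mul_mem hh hh', RelL.mul hr hr'⟩
    obtain ⟨t, ht⟩ := hnt
    have ht0 : t ≠ 0 := fun h => ht (h ▸ F₀.zero_mem)
    obtain ⟨h, hh, hr1, -⟩ := hall (d t ht0)
    rw [d00, d10, zero_smul, add_zero] at hr1
    exact ht (hsq t (torus_sq hC hR hcard hLL b₀ hb0 hb h hh t hr1))

/-- The image under an element of `M` of a rational singular vector, when orthogonal to a
non-zero rational singular vector, is a multiple of a rational vector. -/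
theorem perp_rat' (hC : CtxO hQ F₀ M) (hR : RatQ Q F₀) (hcard : 13 ≤ Fintype.card ι)
    (hLL : LLq hQ hR M)
    (hgen3 : ∀ β γ : F, β ∉ F₀ → γ ≠ 0 → Subgroup.closure
      ({S : SL(2, F) | ∃ s ∈ F₀, ∃ s' ∈ F₀, S = u (s + s' * β)} ∪
        {S : SL(2, F) | ∃ s ∈ F₀, S = l (γ * s)}) = ⊤)
    (hsq : ∀ x : F, x ^ 2 ∈ F₀ → x ∈ F₀) (hnt : ∃ t : F, t ∉ F₀)
    (b₀ : ι → F₀) (hb0 : b₀ ≠ 0) (hb : Q0 hR b₀ = 0)
    (g : Matrix.GeneralLinearGroup ι F) (hg : g ∈ M) (u₀ : ι → F₀) (hu0 : u₀ ≠ 0)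
    (hu : Q0 hR u₀ = 0)
    (hperp : QuadraticMap.polar Q (up F₀ b₀) ((g : Matrix ι ι F) *ᵥ up F₀ u₀) = 0) :
    ∃ (c : F) (z₀ : ι → F₀), (g : Matrix ι ι F) *ᵥ up F₀ u₀ = c • up F₀ z₀ := by
  classical
  haveI : Fintype F₀ := Fintype.ofFinite F₀
  have hQ0 := Q0_nd hQ hR
  have hbl := hQ.polar_bilinear
  have hbl0 := hQ0.polar_bilinear
  have cm := fun x y => B_comm (Q0 hR) x y
  have z0 := fun x y => (polar_Q0_eq_zero hR x y).mp
  have o1 := fun x y => (polar_Q0_eq_one hR x y).mp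
  obtain ⟨c, v₀, lam, hz⟩ :=
    perp_rat hC hR hcard hLL hgen3 hsq hnt b₀ hb0 hb g hg u₀ hu0 hu hperp
  obtain ⟨e, f, p1, p2, he, hf, hef⟩ :=
    exists_hyp_fam hQ0 (![b₀, v₀] : Fin 2 → (ι → F₀)) (by omega)
  have hbe : QuadraticMap.polar (Q0 hR) b₀ e = 0 := p1 0
  have hve : QuadraticMap.polar (Q0 hR) v₀ e = 0 := p1 1
  have hbf : QuadraticMap.polar (Q0 hR) b₀ f = 0 := p2 0
  have hvf : QuadraticMap.polar (Q0 hR) v₀ f = 0 := p2 1
  have e0 : e ≠ 0 := by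
    intro h0
    rw [h0, bil_zero_left hbl0] at hef
    exact zero_ne_one hef
  have hperp2 : QuadraticMap.polar Q (up F₀ e) ((g : Matrix ι ι F) *ᵥ up F₀ u₀) = 0 := by
    rw [hz, hbl.add_right, hbl.smul_right, hbl.smul_right, z0 _ _ ((cm e v₀).trans hve),
      z0 _ _ ((cm e b₀).trans hbe)]
    ring
  obtain ⟨c', v₁, lam', hz'⟩ :=
    perp_rat hC hR hcard hLL hgen3 hsq hnt e e0 he g hg u₀ hu0 hu hperp2
  have h1 : QuadraticMap.polar Q ((g : Matrix ι ι F) *ᵥ up F₀ u₀) (up F₀ f) = 0 := by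
    rw [hz, hbl.add_left, hbl.smul_left, hbl.smul_left, z0 _ _ hvf, z0 _ _ hbf]
    ring
  rw [hz', hbl.add_left, hbl.smul_left, hbl.smul_left, o1 _ _ hef] at h1
  obtain ⟨β, hβ⟩ : ∃ β : F₀, β = QuadraticMap.polar (Q0 hR) v₁ f := ⟨_, rfl⟩
  have hβ' : QuadraticMap.polar Q (up F₀ v₁) (up F₀ f) = (β : F) := by
    rw [← polar_Q0 hR, ← hβ]
  rw [hβ'] at h1
  refine ⟨c', v₁ - β • e, ?_⟩
  have hl : lam' = -(c' * (β : F)) := by linear_combination h1
  rw [hz', up_sub, up_smul, hl]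
  module

/-- **Rationality for odd degree**: the image under an element of `M` of a rational singular
vector is a multiple of a rational vector. -/
theorem rat_gen (hC : CtxO hQ F₀ M) (hR : RatQ Q F₀) (hcard : 13 ≤ Fintype.card ι)
    (hLL : LLq hQ hR M)
    (hgen3 : ∀ β γ : F, β ∉ F₀ → γ ≠ 0 → Subgroup.closure
      ({S : SL(2, F) | ∃ s ∈ F₀, ∃ s' ∈ F₀, S = u (s + s' * β)} ∪
        {S : SL(2, F) | ∃ s ∈ F₀, S = l (γ * s)}) = ⊤)
    (hsq : ∀ x : F, x ^ 2 ∈ F₀ → x ∈ F₀) (hnt : ∃ t : F, t ∉ F₀)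
    (g : Matrix.GeneralLinearGroup ι F) (hg : g ∈ M) (u₀ : ι → F₀) (hu0 : u₀ ≠ 0)
    (hu : Q0 hR u₀ = 0) :
    ∃ (c : F) (z₀ : ι → F₀), (g : Matrix ι ι F) *ᵥ up F₀ u₀ = c • up F₀ z₀ := by
  classical
  haveI : Fintype F₀ := Fintype.ofFinite F₀
  have hQ0 := Q0_nd hQ hR
  have hbl := hQ.polar_bilinear
  have hbl0 := hQ0.polar_bilinear
  have cm := fun x y => B_comm (Q0 hR) x y
  have z0 := fun x y => (polar_Q0_eq_zero hR x y).mp
  have o1 := fun x y => (polar_Q0_eq_one hR x y).mp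
  by_cases hex : ∃ b₀ : ι → F₀, b₀ ≠ 0 ∧ Q0 hR b₀ = 0 ∧
      QuadraticMap.polar Q (up F₀ b₀) ((g : Matrix ι ι F) *ᵥ up F₀ u₀) = 0
  · obtain ⟨b₀, hb0, hb, hperp⟩ := hex
    exact perp_rat' hC hR hcard hLL hgen3 hsq hnt b₀ hb0 hb g hg u₀ hu0 hu hperp
  exfalso
  push Not at hex
  obtain ⟨z, hzdef⟩ : ∃ z : ι → F, z = (g : Matrix ι ι F) *ᵥ up F₀ u₀ := ⟨_, rfl⟩
  rw [← hzdef] at hex
  have hgiso := hC.iso g hg
  have Qu : Q (up F₀ u₀) = 0 := (Q0_eq_zero hR u₀).mp hu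
  have Qz : Q z = 0 := by rw [hzdef, hgiso]; exact Qu
  have ginj : ∀ x : ι → F, (g : Matrix ι ι F) *ᵥ x = 0 → x = 0 := by
    intro x hx
    apply gl_mulVec_injective g
    show (g : Matrix ι ι F) *ᵥ x = (g : Matrix ι ι F) *ᵥ 0
    rw [hx, Matrix.mulVec_zero]
  obtain ⟨e, f, p1, p2, he, hf, hef⟩ :=
    exists_hyp_fam hQ0 (![u₀] : Fin 1 → (ι → F₀)) (by omega)
  have hue : QuadraticMap.polar (Q0 hR) u₀ e = 0 := p1 0
  have huf : QuadraticMap.polar (Q0 hR) u₀ f = 0 := p2 0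
  obtain ⟨y, hydef⟩ : ∃ y : ι → F, y = (g : Matrix ι ι F) *ᵥ up F₀ e := ⟨_, rfl⟩
  have Qy : Q y = 0 := by rw [hydef, hgiso]; exact (Q0_eq_zero hR e).mp he
  have Bzy : QuadraticMap.polar Q z y = 0 := by
    rw [hzdef, hydef, polar_of_isom g hgiso]
    exact z0 _ _ hue
  have hT : sg hQ z y ∈ M := by
    have h1 := hC.conj hg (hC.rat u₀ e)
    rw [← hzdef, ← hydef] at h1
    exact h1
  have star : ∀ b : ι → F₀, b ≠ 0 → Q0 hR b = 0 → ∃ (c : F) (w₀ : ι → F₀),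
      up F₀ b + QuadraticMap.polar Q z (up F₀ b) • y - QuadraticMap.polar Q y (up F₀ b) • z
        = c • up F₀ w₀ := by
    intro b hb0 hb
    have Qb : Q (up F₀ b) = 0 := (Q0_eq_zero hR b).mp hb
    have e1 : ((sg hQ z y : Matrix.GeneralLinearGroup ι F) : Matrix ι ι F) *ᵥ up F₀ b
        = up F₀ b + QuadraticMap.polar Q z (up F₀ b) • y
          - QuadraticMap.polar Q y (up F₀ b) • z := by
      rw [sg_mulVec hQ _ _ Qz Bzy, Qy]
      simp
    have hp : QuadraticMap.polar Q (up F₀ b)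
        (((sg hQ z y : Matrix.GeneralLinearGroup ι F) : Matrix ι ι F) *ᵥ up F₀ b) = 0 := by
      rw [e1, bil_sub_right hbl, hbl.add_right, hbl.smul_right, hbl.smul_right,
        polar_self_sing hQ _ Qb, B_comm Q (up F₀ b) y, B_comm Q (up F₀ b) z]
      ring
    obtain ⟨c, w₀, h⟩ := perp_rat' hC hR hcard hLL hgen3 hsq hnt b hb0 hb _ hT b hb0 hb hp
    exact ⟨c, w₀, by rw [← e1]; exact h⟩
  obtain ⟨α₁, hα₁⟩ : ∃ α₁ : F, α₁ = QuadraticMap.polar Q z (up F₀ u₀) := ⟨_, rfl⟩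
  obtain ⟨β₁, hβ₁⟩ : ∃ β₁ : F, β₁ = QuadraticMap.polar Q y (up F₀ u₀) := ⟨_, rfl⟩
  have hα₁0 : α₁ ≠ 0 := by
    rw [hα₁, B_comm]
    exact hex u₀ hu0 hu
  obtain ⟨b₂, hb₂0, hb₂, hD⟩ : ∃ b₂ : ι → F₀, b₂ ≠ 0 ∧ Q0 hR b₂ = 0 ∧
      QuadraticMap.polar Q (α₁ • y - β₁ • z) (up F₀ b₂) ≠ 0 := by
    by_contra hcon
    push Not at hcon
    have hs : ∀ s : ι → F₀, Q0 hR s = 0 →
        QuadraticMap.polar Q (α₁ • y - β₁ • z) (up F₀ s) = 0 := by
      intro s hs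
      by_cases hs0 : s = 0
      · rw [hs0, up_zero, bil_zero_right hbl]
      · exact hcon s hs0 hs
    have h0 : α₁ • y - β₁ • z = 0 := by
      apply eq_zero_of_ratQ hQ F₀
      intro b
      obtain ⟨s₁, s₂, s₃, hs₁, hs₂, hs₃, hsum⟩ := sum_sing3 hQ0 (by omega) b
      rw [hsum, up_add, up_add, hbl.add_right, hbl.add_right, hs _ hs₁, hs _ hs₂, hs _ hs₃]
      ring
    have h1 : (g : Matrix ι ι F) *ᵥ (α₁ • up F₀ e - β₁ • up F₀ u₀) = 0 := by
      rw [Matrix.mulVec_sub, Matrix.mulVec_smul, Matrix.mulVec_smul, ← hydef, ← hzdef]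
      exact h0
    have h2 : α₁ • up F₀ e - β₁ • up F₀ u₀ = 0 := ginj _ h1
    have h3 := congrArg (fun x => QuadraticMap.polar Q x (up F₀ f)) h2
    simp only [bil_sub_left hbl, hbl.smul_left, o1 _ _ hef, z0 _ _ huf, bil_zero_left hbl] at h3
    apply hα₁0
    linear_combination h3
  obtain ⟨α₂, hα₂⟩ : ∃ α₂ : F, α₂ = QuadraticMap.polar Q z (up F₀ b₂) := ⟨_, rfl⟩
  obtain ⟨β₂, hβ₂⟩ : ∃ β₂ : F, β₂ = QuadraticMap.polar Q y (up F₀ b₂) := ⟨_, rfl⟩
  obtain ⟨c₁, w₁, hw₁⟩ := star u₀ hu0 hu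
  obtain ⟨c₂, w₂, hw₂⟩ := star b₂ hb₂0 hb₂
  rw [← hα₁, ← hβ₁] at hw₁
  rw [← hα₂, ← hβ₂] at hw₂
  have hDz : (α₁ * β₂ - β₁ * α₂) • z
      = α₂ • (c₁ • up F₀ w₁) - α₁ • (c₂ • up F₀ w₂) - α₂ • up F₀ u₀ + α₁ • up F₀ b₂ := by
    rw [← hw₁, ← hw₂]
    module
  have hD' : α₁ * β₂ - β₁ * α₂ ≠ 0 := by
    intro h
    apply hD
    rw [bil_sub_left hbl, hbl.smul_left, hbl.smul_left, ← hα₂, ← hβ₂]
    linear_combination h
  obtain ⟨b₃, hb₃0, hb₃, p3⟩ :=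
    exists_sing_perp_fam hQ0 (![w₁, w₂, u₀, b₂] : Fin 4 → (ι → F₀)) (by omega)
  have q1 : QuadraticMap.polar (Q0 hR) w₁ b₃ = 0 := p3 0
  have q2 : QuadraticMap.polar (Q0 hR) w₂ b₃ = 0 := p3 1
  have q3 : QuadraticMap.polar (Q0 hR) u₀ b₃ = 0 := p3 2
  have q4 : QuadraticMap.polar (Q0 hR) b₂ b₃ = 0 := p3 3
  apply hex b₃ hb₃0 hb₃
  have h5 := congrArg (fun x => QuadraticMap.polar Q x (up F₀ b₃)) hDz
  simp only [hbl.smul_left, bil_sub_left hbl, hbl.add_left, z0 _ _ q1, z0 _ _ q2, z0 _ _ q3,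
    z0 _ _ q4, mul_zero, sub_zero, add_zero] at h5
  rw [B_comm]
  exact (mul_eq_zero.mp h5).resolve_left hD'

end Main

end Cfsg.Agent.Lib.Helper94.SfOrth8
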