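import Mathlib
import Cfsg.Prelude.Def_GeometricClasses
import Cfsg.Agent.Lib.Helper94.SfOrth6
import Cfsg.Agent.Lib.Helper94.SfOrth8
import Cfsg.Agent.Lib.Helper94.SfLin3

/-!
# Maximality of the orthogonal subfield group, all characteristics (helper94)

* `maximalQ` : for a rational non-degenerate quadratic form in at least 13 variables over a
  finite field `F` and a subfield `F₀` of prime index, the subfield group is maximal in `Ω`.
-/

set_option autoImplicit false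
set_option linter.unusedSimpArgs false

namespace Cfsg.Agent.Lib.Helper94.SfOrth9

open scoped Matrix MatrixGroups
open Module
open Cfsg.Agent.Lib.Helper94.Basic Cfsg.Agent.Lib.Helper94.GLAux
  Cfsg.Agent.Lib.Helper94.SubfieldRat Cfsg.Agent.Lib.Helper94.SfOrth1
  Cfsg.Agent.Lib.Helper94.SfOrth3 Cfsg.Agent.Lib.Helper94.SfOrth4
  Cfsg.Agent.Lib.Helper94.SfOrth6 Cfsg.Agent.Lib.Helper94.SfOrth8
open Cfsg.Agent.Lib.Helper98.SL2Sub Cfsg.Agent.Lib.Helper98.SL2Field

section Main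

variable {ι : Type} [Fintype ι] [DecidableEq ι] {F : Type*} [Field F] [Fintype F]
variable {Q : (ι → F) → F} {F₀ : Subfield F}

/-- **Maximality of the subfield group in `Ω`.** -/
theorem maximalQ (hQ : Cfsg.Geo.IsNondegenerateQuadraticForm Q) (hR : RatQ Q F₀) (r : ℕ)
    (hr : r.Prime) (hcardF : Fintype.card F = Nat.card F₀ ^ r) (hcard : 13 ≤ Fintype.card ι) :
    Cfsg.Geo.IsMaximalIn (Cfsg.Geo.omegaGL Q)
      (((Phi F₀ (ι := ι)).range ⊔ Cfsg.Geo.scalars ι F) ⊓ Cfsg.Geo.omegaGL Q) := by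
  classical
  have hcard' : Nat.card F = Nat.card F₀ ^ r := by
    rw [Nat.card_eq_fintype_card]
    exact hcardF
  have hgen := hgen_of_prime F₀ r hr hcard'
  have h2' := card_subfield_two_le F₀
  obtain ⟨lam, hlam⟩ : ∃ lam : F, lam ∉ F₀ := by
    by_contra hcon
    push Not at hcon
    have e : Nat.card F₀ = Nat.card F :=
      Nat.card_congr (Equiv.subtypeUnivEquiv hcon)
    rw [hcard'] at e
    have hlt : Nat.card F₀ ^ 1 < Nat.card F₀ ^ r :=
      Nat.pow_lt_pow_right (by omega) hr.one_lt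
    rw [pow_one] at hlt
    omega
  apply maximal_of_rat hQ hR hgen ⟨lam, hlam⟩ hcard
  intro M hC hLL g hg x hx0 hx
  by_cases hr2 : r = 2
  · subst hr2
    exact rat_two hC hR hcard hLL lam hlam
      (Cfsg.Agent.Lib.Helper94.SfSp4.quad_decomp F₀ hcard' lam hlam) g hg x hx0 hx
  · have hsq := hsq_of_odd F₀ r hr hr2 hcard'
    have hgen3 : ∀ β γ : F, β ∉ F₀ → γ ≠ 0 → Subgroup.closure
        ({S : SL(2, F) | ∃ s ∈ F₀, ∃ s' ∈ F₀, S = u (s + s' * β)} ∪
          {S : SL(2, F) | ∃ s ∈ F₀, S = l (γ * s)}) = ⊤ := by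
      intro β γ hβ hγ
      by_cases hq : Nat.card F₀ = 2
      · exact Cfsg.Agent.Lib.Helper94.SfLin3.gen3_two F₀ hgen hq β γ hβ hγ
      · exact Cfsg.Agent.Lib.Helper94.SfLin3.gen3_big F₀ r hr hr2 hcard' (by omega) β γ hβ hγ
    exact rat_gen hC hR hcard hLL hgen3 hsq ⟨lam, hlam⟩ g hg x hx0 hx

end Main

end Cfsg.Agent.Lib.Helper94.SfOrth9
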