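import Mathlib
import Cfsg.Prelude.Def_GeometricClasses
import Cfsg.Agent.Lib.Helper94.UnitRoot
import Cfsg.Agent.Lib.Helper94.SubfieldRat

/-!
# Unitary rational structures (helper94)

A subfield `F₀` of `F`, stable under the involution `σ` and not fixed by it, such that the
unitary form `f` takes values in `F₀` on rational vectors.

* `RatU`, `sig0`, `f0`, `f0_unit` : the induced unitary form over the subfield.
* `rat_of_pairU`, `rat_modU`, `rat_mod0U` : rationality criteria.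
* `su_add`, `su_inv`, `steinberg_su` : calculus of the short root elements.
* `ut_up_mem_range`, `su_up_mem_range` : rational root elements are rational matrices.
* `hyp_fam`, `iso_sum_fam`, `iso_perp_fam`, `frame3` : geometry.
-/

set_option autoImplicit false
set_option linter.unusedSimpArgs false

namespace Cfsg.Agent.Lib.Helper94.SfU1

open scoped Matrix
open Module
open Cfsg.Agent.Lib.Helper94.Basic Cfsg.Agent.Lib.Helper94.GLAux Cfsg.Agent.Lib.Helper94.Tv
  Cfsg.Agent.Lib.Helper94.UnitAbs Cfsg.Agent.Lib.Helper94.UnitGen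
  Cfsg.Agent.Lib.Helper94.UnitRoot Cfsg.Agent.Lib.Helper94.SubfieldRat

section Calc

variable {ι : Type} [Fintype ι] [DecidableEq ι] {F : Type*} [Field F]
variable {σ : F ≃+* F} {f : (ι → F) → (ι → F) → F}

lemma su_add (hf : Cfsg.Geo.IsUnitaryForm σ f) (a b : ι → F) (ha : f a a = 0) (hb : f b b = 0)
    (hab : f a b = 0) (c d : F) : su hf a b c * su hf a b d = su hf a b (c + d) := by
  have hba : f b a = 0 := (eq_zero_comm hf _ _).mp hab
  apply gl_ext
  intro x
  rw [Units.val_mul, ← Matrix.mulVec_mulVec, su_mulVec hf a b ha hb hab, su_mulVec hf a b ha hb hab,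
    su_mulVec hf a b ha hb hab]
  simp only [hf.add_left, sub_left hf, hf.smul_left, ha, hb, hab, hba, mul_zero, add_zero,
    sub_zero, map_add]
  module

lemma su_zero (hf : Cfsg.Geo.IsUnitaryForm σ f) (a b : ι → F) : su hf a b 0 = 1 := by
  by_cases h : f a a = 0 ∧ f b b = 0 ∧ f a b = 0
  · apply gl_ext
    intro x
    rw [su_mulVec hf a b h.1 h.2.1 h.2.2, map_zero]
    simp
  · exact su_not hf _ _ _ h

lemma su_inv (hf : Cfsg.Geo.IsUnitaryForm σ f) (a b : ι → F) (c : F) :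
    (su hf a b c)⁻¹ = su hf a b (-c) := by
  by_cases h : f a a = 0 ∧ f b b = 0 ∧ f a b = 0
  · apply inv_eq_of_mul_eq_one_left
    rw [su_add hf a b h.1 h.2.1 h.2.2, neg_add_cancel, su_zero]
  · rw [su_not hf _ _ _ h, su_not hf _ _ _ h, inv_one]

lemma su_smul_right (hf : Cfsg.Geo.IsUnitaryForm σ f) (a b : ι → F) (ha : f a a = 0)
    (hb : f b b = 0) (hab : f a b = 0) (t c : F) :
    su hf a (t • b) c = su hf a b (c * σ t) := by
  have h1 : f (t • b) (t • b) = 0 := by rw [hf.smul_left, smul_right hf, hb, mul_zero, mul_zero]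
  have h2 : f a (t • b) = 0 := by rw [smul_right hf, hab, mul_zero]
  apply gl_ext
  intro x
  rw [su_mulVec hf _ _ ha h1 h2, su_mulVec hf _ _ ha hb hab, smul_right hf, map_mul,
    hf.involutive]
  module

lemma su_zero_right (hf : Cfsg.Geo.IsUnitaryForm σ f) (a : ι → F) (c : F) : su hf a 0 c = 1 := by
  by_cases h : f a a = 0 ∧ f (0 : ι → F) 0 = 0 ∧ f a 0 = 0
  · apply gl_ext
    intro x
    rw [su_mulVec hf a 0 h.1 h.2.1 h.2.2, zero_right hf]
    simp
  · exact su_not hf _ _ _ h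

lemma su_zero_left (hf : Cfsg.Geo.IsUnitaryForm σ f) (b : ι → F) (c : F) : su hf 0 b c = 1 := by
  by_cases h : f (0 : ι → F) 0 = 0 ∧ f b b = 0 ∧ f 0 b = 0
  · apply gl_ext
    intro x
    rw [su_mulVec hf 0 b h.1 h.2.1 h.2.2, zero_right hf]
    simp
  · exact su_not hf _ _ _ h

/-- The commutator relation for the short root elements attached to a hyperbolic family. -/
lemma steinberg_su (hf : Cfsg.Geo.IsUnitaryForm σ f) {ι' : Type}
    (e e' : ι' → (ι → F)) (hee : ∀ i j, f (e i) (e j) = 0) (hff : ∀ i j, f (e' i) (e' j) = 0)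
    (hpair : ∀ i j, i ≠ j → f (e i) (e' j) = 0) (hone : ∀ i, f (e i) (e' i) = 1)
    (i j k : ι') (hij : i ≠ j) (hjk : j ≠ k) (hik : i ≠ k) (c d : F) :
    su hf (e i) (e' j) c * su hf (e j) (e' k) d * (su hf (e i) (e' j) c)⁻¹
        * (su hf (e j) (e' k) d)⁻¹ = su hf (e i) (e' k) (c * d) := by
  have hpair' : ∀ i j, i ≠ j → f (e' j) (e i) = 0 := fun i j h =>
    (eq_zero_comm hf _ _).mp (hpair i j h)
  have hone' : ∀ i, f (e' i) (e i) = 1 := by
    intro i
    rw [hf.herm, hone i, map_one]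
  rw [su_inv, su_inv]
  apply gl_ext
  intro x
  simp only [Units.val_mul, ← Matrix.mulVec_mulVec]
  simp only [su_mulVec hf _ _ (hee i i) (hff j j) (hpair i j hij),
    su_mulVec hf _ _ (hee j j) (hff k k) (hpair j k hjk),
    su_mulVec hf _ _ (hee i i) (hff k k) (hpair i k hik),
    hf.add_left, sub_left hf, hf.smul_left, hee, hff,
    hpair i j hij, hpair j k hjk, hpair i k hik, hpair' i j hij, hpair' j k hjk, hpair' i k hik,
    hpair j i hij.symm, hpair k j hjk.symm, hpair k i hik.symm, hpair' j i hij.symm,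
    hpair' k j hjk.symm, hpair' k i hik.symm, hone, hone', mul_zero, add_zero, zero_add, mul_one,
    sub_zero, map_neg, map_mul]
  module

omit [Fintype ι] [DecidableEq ι] in
lemma nspan_u (hf : Cfsg.Geo.IsUnitaryForm σ f) {x y t : ι → F} (hx : f x t ≠ 0)
    (hy : f y t = 0) : x ∉ Submodule.span F {y} := by
  intro h
  obtain ⟨μ, rfl⟩ := Submodule.mem_span_singleton.mp h
  apply hx
  rw [hf.smul_left, hy, mul_zero]

omit [Fintype ι] [DecidableEq ι] in
lemma nspan_u' (hf : Cfsg.Geo.IsUnitaryForm σ f) {x y t : ι → F} (hx0 : x ≠ 0) (hx : f x t = 0)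
    (hy : f y t ≠ 0) : x ∉ Submodule.span F {y} := by
  intro h
  obtain ⟨μ, rfl⟩ := Submodule.mem_span_singleton.mp h
  rw [hf.smul_left] at hx
  rcases mul_eq_zero.mp hx with h0 | h0
  · apply hx0
    rw [h0, zero_smul]
  · exact hy h0

omit [Fintype ι] [DecidableEq ι] in
/-- A vector pairing to one with a given non-zero vector. -/
lemma exists_pair_one (hf : Cfsg.Geo.IsUnitaryForm σ f) (b : ι → F) (hb0 : b ≠ 0) :
    ∃ v : ι → F, f v b = 1 := by
  obtain ⟨x, hx⟩ := (hf.nondegenerate b hb0).1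
  refine ⟨(f x b)⁻¹ • x, ?_⟩
  rw [hf.smul_left, inv_mul_cancel₀ hx]

end Calc

section Geo

variable {ι : Type} [Fintype ι] [DecidableEq ι] {F : Type*} [Field F] [Fintype F]
variable {σ : F ≃+* F} {f : (ι → F) → (ι → F) → F}

omit [Fintype F] in
lemma finrank_span_range_le {k : ℕ} (v : Fin k → (ι → F)) :
    finrank F (Submodule.span F (Set.range v)) ≤ k := by
  have := finrank_range_le_card (R := F) v
  rwa [Fintype.card_fin] at this

/-- A hyperbolic pair orthogonal to a family of vectors. -/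
lemma hyp_fam (hf : Cfsg.Geo.IsUnitaryForm σ f) {k : ℕ} (v : Fin k → (ι → F))
    (hk : 2 * k + 4 < Fintype.card ι) :
    ∃ y1 y2, (∀ i, f y1 (v i) = 0) ∧ (∀ i, f y2 (v i) = 0) ∧ f y1 y1 = 0 ∧ f y2 y2 = 0 ∧
      f y1 y2 = 1 := by
  have h1 := finrank_span_range_le v
  obtain ⟨y1, y2, h1', h2', h11, h22, h12⟩ :=
    exists_hyp_perp hf (Submodule.span F (Set.range v)) (by omega)
  exact ⟨y1, y2, fun i => h1' _ (Submodule.subset_span ⟨i, rfl⟩),
    fun i => h2' _ (Submodule.subset_span ⟨i, rfl⟩), h11, h22, h12⟩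

/-- A non-zero isotropic vector orthogonal to a family of vectors. -/
lemma iso_perp_fam (hf : Cfsg.Geo.IsUnitaryForm σ f) {k : ℕ} (v : Fin k → (ι → F))
    (hk : 2 * k + 4 < Fintype.card ι) :
    ∃ y, y ≠ 0 ∧ f y y = 0 ∧ ∀ i, f y (v i) = 0 := by
  obtain ⟨y1, y2, h1, -, h11, -, h12⟩ := hyp_fam hf v hk
  refine ⟨y1, ?_, h11, h1⟩
  intro h0
  rw [h0, zero_left hf] at h12
  exact zero_ne_one h12

/-- Every vector orthogonal to a family is a sum of two isotropic such vectors. -/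
lemma iso_sum_fam (hf : Cfsg.Geo.IsUnitaryForm σ f) {k : ℕ} (v : Fin k → (ι → F))
    (hk : 2 * k + 6 < Fintype.card ι) (x : ι → F) (hx : ∀ i, f x (v i) = 0) :
    ∃ y1 y2, (∀ i, f y1 (v i) = 0) ∧ (∀ i, f y2 (v i) = 0) ∧ f y1 y1 = 0 ∧ f y2 y2 = 0 ∧
      x = y1 + y2 := by
  have h1 := finrank_span_range_le v
  have hx' : ∀ u ∈ Submodule.span F (Set.range v), f x u = 0 := by
    intro u hu
    induction hu using Submodule.span_induction with
    | mem u hu =>
      obtain ⟨i, rfl⟩ := hu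
      exact hx i
    | zero => exact zero_right hf x
    | add a b _ _ ha hb => rw [add_right hf, ha, hb, add_zero]
    | smul c a _ ha => rw [smul_right hf, ha, mul_zero]
  obtain ⟨y1, y2, h1', h2', h11, h22, h12⟩ :=
    iso_sum hf (Submodule.span F (Set.range v)) (by omega) x hx'
  exact ⟨y1, y2, fun i => h1' _ (Submodule.subset_span ⟨i, rfl⟩),
    fun i => h2' _ (Submodule.subset_span ⟨i, rfl⟩), h11, h22, h12⟩

/-- An isotropic vector orthogonal to `a` and not orthogonal to `b`, `b'`. -/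
lemma connect_u (hf : Cfsg.Geo.IsUnitaryForm σ f) (hcard : 13 ≤ Fintype.card ι)
    (a b b' : ι → F) (hb : b ∉ Submodule.span F {a}) (hb' : b' ∉ Submodule.span F {a}) :
    ∃ d, f d d = 0 ∧ f d a = 0 ∧ f b d ≠ 0 ∧ f b' d ≠ 0 := by
  obtain ⟨y, hay, hby, hb'y⟩ : ∃ y, f a y = 0 ∧ f b y ≠ 0 ∧ f b' y ≠ 0 := by
    obtain ⟨y1, hy1a, hy1⟩ := exists_perp_ne hf _ b hb
    obtain ⟨y2, hy2a, hy2⟩ := exists_perp_ne hf _ b' hb'
    have ha1 : f a y1 = 0 := hy1a a (Submodule.mem_span_singleton_self a)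
    have ha2 : f a y2 = 0 := hy2a a (Submodule.mem_span_singleton_self a)
    by_cases h1 : f b' y1 = 0
    · by_cases h2 : f b y2 = 0
      · refine ⟨y1 + y2, ?_, ?_, ?_⟩
        · rw [add_right hf, ha1, ha2, add_zero]
        · rw [add_right hf, h2, add_zero]
          exact hy1
        · rw [add_right hf, h1, zero_add]
          exact hy2
      · exact ⟨y2, ha2, h2, hy2⟩
    · exact ⟨y1, ha1, hy1, h1⟩
  have hfix : σ (-(f y y)) = -(f y y) := by rw [map_neg, self_fixed hf]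
  obtain ⟨x, hx, hxx⟩ := exists_norm_perp hf
    (Submodule.span F (Set.range (![a, b, b', y] : Fin 4 → (ι → F))))
    (by have := finrank_span_range_le (![a, b, b', y] : Fin 4 → (ι → F)); omega) (-(f y y)) hfix
  have hxa : f x a = 0 := hx _ (Submodule.subset_span ⟨0, rfl⟩)
  have hxb : f x b = 0 := hx _ (Submodule.subset_span ⟨1, rfl⟩)
  have hxb' : f x b' = 0 := hx _ (Submodule.subset_span ⟨2, rfl⟩)
  have hxy : f x y = 0 := hx _ (Submodule.subset_span ⟨3, rfl⟩)
  have hyx : f y x = 0 := (eq_zero_comm hf _ _).mp hxy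
  refine ⟨y + x, ?_, ?_, ?_, ?_⟩
  · rw [hf.add_left, add_right hf, add_right hf, hxx, hxy, hyx]
    ring
  · rw [hf.add_left, (eq_zero_comm hf _ _).mp hay, hxa, add_zero]
  · rw [add_right hf, (eq_zero_comm hf _ _).mp hxb, add_zero]
    exact hby
  · rw [add_right hf, (eq_zero_comm hf _ _).mp hxb', add_zero]
    exact hb'y

/-- Three mutually orthogonal hyperbolic pairs. -/
lemma frame3 (hf : Cfsg.Geo.IsUnitaryForm σ f) (hcard : 13 ≤ Fintype.card ι) :
    ∃ e e' : Fin 3 → (ι → F), (∀ i j, f (e i) (e j) = 0) ∧ (∀ i j, f (e' i) (e' j) = 0) ∧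
      (∀ i j, i ≠ j → f (e i) (e' j) = 0) ∧ (∀ i, f (e i) (e' i) = 1) := by
  obtain ⟨e₀, f₀, -, -, he₀, hf₀, hef₀⟩ := hyp_fam hf (Fin.elim0 : Fin 0 → (ι → F)) (by omega)
  obtain ⟨e₁, f₁, h1, h2, he₁, hf₁, hef₁⟩ :=
    hyp_fam hf (![e₀, f₀] : Fin 2 → (ι → F)) (by omega)
  obtain ⟨e₂, f₂, h3, h4, he₂, hf₂, hef₂⟩ :=
    hyp_fam hf (![e₀, f₀, e₁, f₁] : Fin 4 → (ι → F)) (by omega)
  have a1 : f e₁ e₀ = 0 := h1 0
  have a2 : f e₁ f₀ = 0 := h1 1
  have a3 : f f₁ e₀ = 0 := h2 0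
  have a4 : f f₁ f₀ = 0 := h2 1
  have b1 : f e₂ e₀ = 0 := h3 0
  have b2 : f e₂ f₀ = 0 := h3 1
  have b3 : f e₂ e₁ = 0 := h3 2
  have b4 : f e₂ f₁ = 0 := h3 3
  have c1 : f f₂ e₀ = 0 := h4 0
  have c2 : f f₂ f₀ = 0 := h4 1
  have c3 : f f₂ e₁ = 0 := h4 2
  have c4 : f f₂ f₁ = 0 := h4 3
  have sw := fun x y => (eq_zero_comm hf x y).mp
  refine ⟨![e₀, e₁, e₂], ![f₀, f₁, f₂], ?_, ?_, ?_, ?_⟩
  · intro i j
    fin_cases i <;> fin_cases j <;>
      simp [he₀, he₁, he₂, a1, b1, b3, sw _ _ a1, sw _ _ b1, sw _ _ b3]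
  · intro i j
    fin_cases i <;> fin_cases j <;>
      simp [hf₀, hf₁, hf₂, a4, c2, c4, sw _ _ a4, sw _ _ c2, sw _ _ c4]
  · intro i j hij
    fin_cases i <;> fin_cases j <;>
      first
        | exact absurd rfl hij
        | simp [a2, b2, b4, sw _ _ a3, sw _ _ c1, sw _ _ c3]
  · intro i
    fin_cases i <;> simp [hef₀, hef₁, hef₂]

end Geo

section Setup

variable {ι : Type} [Fintype ι] [DecidableEq ι] {F : Type*} [Field F]
variable {σ : F ≃+* F} {f : (ι → F) → (ι → F) → F} {F₀ : Subfield F}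

/-- A rational structure on which the unitary form `f` takes values in a subfield stable under,
but not fixed by, the involution. -/
structure RatU (σ : F ≃+* F) (f : (ι → F) → (ι → F) → F) (F₀ : Subfield F) : Prop where
  rat : ∀ u v : ι → F₀, f (up F₀ u) (up F₀ v) ∈ F₀
  stab : ∀ c : F, c ∈ F₀ → σ c ∈ F₀
  ne : ∃ c : F, c ∈ F₀ ∧ σ c ≠ c

/-- The induced involution of the subfield. -/
def sig0 (hf : Cfsg.Geo.IsUnitaryForm σ f) (hR : RatU σ f F₀) : F₀ ≃+* F₀ where
  toFun c := ⟨σ c, hR.stab c c.2⟩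
  invFun c := ⟨σ c, hR.stab c c.2⟩
  left_inv c := Subtype.ext (hf.involutive c)
  right_inv c := Subtype.ext (hf.involutive c)
  map_mul' a b := Subtype.ext (map_mul σ (a : F) (b : F))
  map_add' a b := Subtype.ext (map_add σ (a : F) (b : F))

lemma sig0_coe (hf : Cfsg.Geo.IsUnitaryForm σ f) (hR : RatU σ f F₀) (c : F₀) :
    ((sig0 hf hR c : F₀) : F) = σ (c : F) := rfl

/-- The induced unitary form over the subfield. -/
def f0 (hR : RatU σ f F₀) (u v : ι → F₀) : F₀ := ⟨f (up F₀ u) (up F₀ v), hR.rat u v⟩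

lemma f0_coe (hR : RatU σ f F₀) (u v : ι → F₀) :
    ((f0 hR u v : F₀) : F) = f (up F₀ u) (up F₀ v) := rfl

lemma f0_eq_zero (hR : RatU σ f F₀) (u v : ι → F₀) :
    f0 hR u v = 0 ↔ f (up F₀ u) (up F₀ v) = 0 := by
  constructor
  · intro h
    have h1 := congrArg (fun x : F₀ => (x : F)) h
    simpa [f0_coe] using h1
  · intro h
    apply Subtype.ext
    rw [f0_coe, h]
    rfl

lemma f0_eq_one (hR : RatU σ f F₀) (u v : ι → F₀) :
    f0 hR u v = 1 ↔ f (up F₀ u) (up F₀ v) = 1 := by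
  constructor
  · intro h
    have h1 := congrArg (fun x : F₀ => (x : F)) h
    simpa [f0_coe] using h1
  · intro h
    apply Subtype.ext
    rw [f0_coe, h]
    rfl

/-- A vector pairing trivially with all rational vectors is zero. -/
lemma eq_zero_of_ratL (hf : Cfsg.Geo.IsUnitaryForm σ f) (F₀ : Subfield F)
    (y : ι → F) (h : ∀ b : ι → F₀, f (up F₀ b) y = 0) : y = 0 := by
  by_contra hy
  obtain ⟨x, hx⟩ := (hf.nondegenerate y hy).1
  apply hx
  have hz : fR hf y = 0 := by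
    apply LinearMap.pi_ext'
    intro i
    apply LinearMap.ext_ring
    have h2 := h (Pi.single i 1)
    rw [up_single] at h2
    simp [h2]
  have := congrArg (fun φ : Module.Dual F (ι → F) => φ x) hz
  simpa using this

lemma eq_zero_of_ratR (hf : Cfsg.Geo.IsUnitaryForm σ f) (F₀ : Subfield F)
    (y : ι → F) (h : ∀ b : ι → F₀, f y (up F₀ b) = 0) : y = 0 :=
  eq_zero_of_ratL hf F₀ y (fun b => (eq_zero_comm hf _ _).mp (h b))

theorem f0_unit (hf : Cfsg.Geo.IsUnitaryForm σ f) (hR : RatU σ f F₀) :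
    Cfsg.Geo.IsUnitaryForm (sig0 hf hR) (f0 hR) where
  ne_refl := by
    intro h
    obtain ⟨c, hc, hne⟩ := hR.ne
    apply hne
    have h1 := congrArg (fun τ : F₀ ≃+* F₀ => ((τ ⟨c, hc⟩ : F₀) : F)) h
    simpa [sig0_coe] using h1
  involutive := fun a => Subtype.ext (hf.involutive a)
  add_left := fun x y v => Subtype.ext (by
    rw [f0_coe, up_add, hf.add_left]
    rfl)
  smul_left := fun c x v => Subtype.ext (by
    rw [f0_coe, up_smul, hf.smul_left]
    rfl)
  herm := fun v w => Subtype.ext (by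
    rw [f0_coe, sig0_coe, f0_coe]
    exact hf.herm _ _)
  nondegenerate := by
    intro v hv
    have hv' : up F₀ v ≠ 0 := fun h => hv ((up_eq_zero F₀ v).mp h)
    constructor
    · by_contra hcon
      push Not at hcon
      apply hv'
      apply eq_zero_of_ratL hf F₀
      intro b
      exact (f0_eq_zero hR b v).mp (hcon b)
    · by_contra hcon
      push Not at hcon
      apply hv'
      apply eq_zero_of_ratR hf F₀
      intro b
      exact (f0_eq_zero hR v b).mp (hcon b)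

/-- A vector with rational pairings against all rational vectors is rational. -/
lemma rat_of_pairU (hf : Cfsg.Geo.IsUnitaryForm σ f) (hR : RatU σ f F₀) (z : ι → F)
    (h : ∀ b : ι → F₀, f z (up F₀ b) ∈ F₀) : ∃ z₀ : ι → F₀, z = up F₀ z₀ := by
  have hf0 := f0_unit hf hR
  choose d hd using fun q => exists_rep hf0 (LinearMap.proj q : (ι → F₀) →ₗ[F₀] F₀)
  have key : ∀ q (x : ι → F), x q = f x (up F₀ (d q)) := by
    intro q x
    have e : (LinearMap.proj q : (ι → F) →ₗ[F] F) = fR hf (up F₀ (d q)) := by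
      apply LinearMap.pi_ext'
      intro i
      apply LinearMap.ext_ring
      have h1 := hd q (Pi.single i 1)
      have h2 := congrArg (fun t : F₀ => (t : F)) h1
      simp only [LinearMap.proj_apply, f0_coe, up_single] at h2
      simp only [LinearMap.coe_comp, LinearMap.coe_single, Function.comp_apply,
        LinearMap.proj_apply, fR_apply]
      rw [← h2]
      by_cases hq : q = i
      · subst hq
        simp
      · simp [Pi.single_eq_of_ne hq]
    have := congrArg (fun φ : Module.Dual F (ι → F) => φ x) e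
    simpa using this
  refine ⟨fun q => ⟨f z (up F₀ (d q)), h (d q)⟩, ?_⟩
  ext q
  rw [key q z]
  rfl

/-- A rational vector pairing to one with a given non-zero rational vector. -/
lemma exists_pair_one0 (hf : Cfsg.Geo.IsUnitaryForm σ f) (hR : RatU σ f F₀) (b₀ : ι → F₀)
    (hb0 : b₀ ≠ 0) : ∃ v : ι → F₀, f0 hR v b₀ = 1 :=
  exists_pair_one (f0_unit hf hR) b₀ hb0

/-- A vector orthogonal to all rational vectors orthogonal to `b₀` is a multiple of `b₀`. -/
lemma rat_mod0U (hf : Cfsg.Geo.IsUnitaryForm σ f) (hR : RatU σ f F₀) (b₀ : ι → F₀)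
    (hb0 : b₀ ≠ 0) (z : ι → F)
    (h : ∀ x : ι → F₀, f0 hR x b₀ = 0 → f z (up F₀ x) = 0) :
    ∃ lam : F, z = lam • up F₀ b₀ := by
  have hf0 := f0_unit hf hR
  obtain ⟨v, hv⟩ := exists_pair_one0 hf hR b₀ hb0
  refine ⟨f z (up F₀ v), ?_⟩
  have h0 : z - f z (up F₀ v) • up F₀ b₀ = 0 := by
    apply eq_zero_of_ratR hf F₀
    intro y
    obtain ⟨β, hβ⟩ : ∃ β : F₀, β = f0 hR y b₀ := ⟨_, rfl⟩
    have hy' : f0 hR (y - β • v) b₀ = 0 := by
      rw [sub_left hf0, hf0.smul_left, hv, ← hβ]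
      ring
    have h1 := h _ hy'
    rw [up_sub, up_smul, sub_right hf, smul_right hf] at h1
    have h2 : f (up F₀ b₀) (up F₀ y) = σ (β : F) := by
      rw [hf.herm, ← f0_coe hR, ← hβ]
    rw [sub_left hf, hf.smul_left, h2]
    linear_combination h1
  exact sub_eq_zero.mp h0

/-- A vector with rational pairings against all rational vectors orthogonal to `b₀` is rational
modulo `b₀`. -/
lemma rat_modU (hf : Cfsg.Geo.IsUnitaryForm σ f) (hR : RatU σ f F₀) (b₀ : ι → F₀)
    (hb0 : b₀ ≠ 0) (z : ι → F)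
    (h : ∀ x : ι → F₀, f0 hR x b₀ = 0 → f z (up F₀ x) ∈ F₀) :
    ∃ (z₀ : ι → F₀) (lam : F), z = up F₀ z₀ + lam • up F₀ b₀ := by
  have hf0 := f0_unit hf hR
  obtain ⟨v, hv⟩ := exists_pair_one0 hf hR b₀ hb0
  obtain ⟨z₀, hz₀⟩ := rat_of_pairU hf hR (z - f z (up F₀ v) • up F₀ b₀) (by
    intro y
    obtain ⟨β, hβ⟩ : ∃ β : F₀, β = f0 hR y b₀ := ⟨_, rfl⟩
    have hy' : f0 hR (y - β • v) b₀ = 0 := by
      rw [sub_left hf0, hf0.smul_left, hv, ← hβ]
      ring
    have h1 := h _ hy'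
    rw [up_sub, up_smul, sub_right hf, smul_right hf] at h1
    have h2 : f (up F₀ b₀) (up F₀ y) = σ (β : F) := by
      rw [hf.herm, ← f0_coe hR, ← hβ]
    rw [sub_left hf, hf.smul_left, h2]
    have e : f z (up F₀ y) - f z (up F₀ v) * σ (β : F)
        = f z (up F₀ y) - σ (β : F) * f z (up F₀ v) := by ring
    rw [e]
    exact h1)
  refine ⟨z₀, f z (up F₀ v), ?_⟩
  rw [← hz₀]
  abel

/-- Rational transvections act rationally. -/
lemma ut_up_mulVec (hf : Cfsg.Geo.IsUnitaryForm σ f) (hR : RatU σ f F₀) (a : ι → F₀)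
    (ha : f (up F₀ a) (up F₀ a) = 0) (κ : F₀) (hκ : σ (κ : F) = -(κ : F)) (z : ι → F₀) :
    ((ut hf (up F₀ a) (κ : F) : Matrix.GeneralLinearGroup ι F) : Matrix ι ι F) *ᵥ up F₀ z
      = up F₀ (z + (κ * f0 hR z a) • a) := by
  rw [ut_mulVec hf _ _ ha hκ, up_add, up_smul, Subfield.coe_mul, f0_coe]

lemma ut_up_mem_range (hf : Cfsg.Geo.IsUnitaryForm σ f) (hR : RatU σ f F₀) (a : ι → F₀)
    (κ : F₀) : ut hf (up F₀ a) (κ : F) ∈ (Phi F₀ (ι := ι)).range := by
  by_cases h : f (up F₀ a) (up F₀ a) = 0 ∧ σ (κ : F) = -(κ : F)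
  · apply mem_range_of_entries
    intro i j
    have e := ut_up_mulVec hf hR a h.1 κ h.2 (Pi.single j 1)
    rw [up_single] at e
    have e' := congrFun e i
    rw [Matrix.mulVec_single_one] at e'
    simp only [Matrix.col_apply] at e'
    rw [e', up_apply]
    exact SetLike.coe_mem _
  · rw [ut_not hf _ _ h]
    exact Subgroup.one_mem _

/-- Rational short root elements act rationally. -/
lemma su_up_mulVec (hf : Cfsg.Geo.IsUnitaryForm σ f) (hR : RatU σ f F₀) (y x : ι → F₀)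
    (hy : f (up F₀ y) (up F₀ y) = 0) (hx : f (up F₀ x) (up F₀ x) = 0)
    (hyx : f (up F₀ y) (up F₀ x) = 0) (c : F₀) (z : ι → F₀) :
    ((su hf (up F₀ y) (up F₀ x) (c : F) : Matrix.GeneralLinearGroup ι F) : Matrix ι ι F)
        *ᵥ up F₀ z
      = up F₀ (z + (c * f0 hR z x) • y - (sig0 hf hR c * f0 hR z y) • x) := by
  rw [su_mulVec hf _ _ hy hx hyx, up_sub, up_add, up_smul, up_smul, Subfield.coe_mul,
    Subfield.coe_mul, f0_coe, f0_coe, sig0_coe]

lemma su_up_mem_range (hf : Cfsg.Geo.IsUnitaryForm σ f) (hR : RatU σ f F₀) (y x : ι → F₀)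
    (c : F₀) : su hf (up F₀ y) (up F₀ x) (c : F) ∈ (Phi F₀ (ι := ι)).range := by
  by_cases h : f (up F₀ y) (up F₀ y) = 0 ∧ f (up F₀ x) (up F₀ x) = 0 ∧
      f (up F₀ y) (up F₀ x) = 0
  · apply mem_range_of_entries
    intro i j
    have e := su_up_mulVec hf hR y x h.1 h.2.1 h.2.2 c (Pi.single j 1)
    rw [up_single] at e
    have e' := congrFun e i
    rw [Matrix.mulVec_single_one] at e'
    simp only [Matrix.col_apply] at e'
    rw [e', up_apply]
    exact SetLike.coe_mem _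
  · rw [su_not hf _ _ _ h]
    exact Subgroup.one_mem _

end Setup

end Cfsg.Agent.Lib.Helper94.SfU1
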