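import Mathlib
import Cfsg.Prelude.Def_GeometricClasses
import Cfsg.Agent.Lib.Helper94.SfU1
import Cfsg.Agent.Lib.Helper94.SfSp1

/-!
# Overgroups of the unitary subfield group: the dichotomy (helper94)

For a group `M` of isometries of the unitary form `f` containing the rational root elements:

* `transferU` : the parameter sets of the short root subgroups of any two rational totally
  isotropic pairs correspond up to a rational scalar and the involution.
* `dichU` : either all rational short root elements of `M` have rational parameters (`LLs`), or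
  `M` contains all short root elements of rational totally isotropic pairs (`Alls`).
-/

set_option autoImplicit false
set_option linter.unusedSimpArgs false

namespace Cfsg.Agent.Lib.Helper94.SfU2

open scoped Matrix
open Module
open Cfsg.Agent.Lib.Helper94.Basic Cfsg.Agent.Lib.Helper94.GLAux Cfsg.Agent.Lib.Helper94.Tv
  Cfsg.Agent.Lib.Helper94.UnitAbs Cfsg.Agent.Lib.Helper94.UnitGen
  Cfsg.Agent.Lib.Helper94.UnitRoot Cfsg.Agent.Lib.Helper94.SubfieldRat
  Cfsg.Agent.Lib.Helper94.SfU1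
open Cfsg.Agent.Lib.Helper94.SfSp1 (lam_cases_abs)

section Aux

variable {ι : Type} [Fintype ι] [DecidableEq ι] {F : Type*} [Field F]
variable {σ : F ≃+* F} {f : (ι → F) → (ι → F) → F}

omit [Fintype ι] [DecidableEq ι] in
lemma nspan_swap {x y : ι → F} (hx : x ≠ 0) (h : y ∉ Submodule.span F {x}) :
    x ∉ Submodule.span F {y} := by
  intro h'
  obtain ⟨μ, rfl⟩ := Submodule.mem_span_singleton.mp h'
  apply h
  have hμ : μ ≠ 0 := by
    intro h0
    apply hx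
    rw [h0, zero_smul]
  rw [Submodule.mem_span_singleton]
  exact ⟨μ⁻¹, by rw [smul_smul, inv_mul_cancel₀ hμ, one_smul]⟩

/-- An isotropic partner of a non-zero isotropic vector. -/
lemma exists_partner (hf : Cfsg.Geo.IsUnitaryForm σ f) (a : ι → F) (ha0 : a ≠ 0)
    (ha : f a a = 0) : ∃ b, f b b = 0 ∧ f a b = 1 := by
  obtain ⟨v, hv⟩ := exists_pair_one hf a ha0
  have hav : f a v = 1 := by rw [hf.herm, hv, map_one]
  obtain ⟨d, hd⟩ := adjust_iso hf a v ha (by rw [hav]; exact one_ne_zero)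
  refine ⟨v + d • a, hd, ?_⟩
  rw [add_right hf, smul_right hf, ha, hav]
  ring

lemma ne_zero_of_pair {x y : ι → F} (hf : Cfsg.Geo.IsUnitaryForm σ f) (h : f x y ≠ 0) :
    x ≠ 0 := by
  intro h0
  apply h
  rw [h0, zero_left hf]

lemma ut_add (hf : Cfsg.Geo.IsUnitaryForm σ f) (a : ι → F) (ha : f a a = 0) (κ κ' : F)
    (hκ : σ κ = -κ) (hκ' : σ κ' = -κ') : ut hf a κ * ut hf a κ' = ut hf a (κ + κ') := by
  have h2 : σ (κ + κ') = -(κ + κ') := by rw [map_add, hκ, hκ']; ring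
  apply gl_ext
  intro x
  rw [Units.val_mul, ← Matrix.mulVec_mulVec, ut_mulVec hf _ _ ha hκ', ut_mulVec hf _ _ ha hκ,
    ut_mulVec hf _ _ ha h2]
  simp only [hf.add_left, hf.smul_left, ha, mul_zero, add_zero]
  module

lemma ut_inv (hf : Cfsg.Geo.IsUnitaryForm σ f) (a : ι → F) (κ : F) :
    (ut hf a κ)⁻¹ = ut hf a (-κ) := by
  by_cases h : f a a = 0 ∧ σ κ = -κ
  · have h2 : σ (-κ) = -(-κ) := by rw [map_neg, h.2]
    apply inv_eq_of_mul_eq_one_left
    rw [ut_add hf a h.1 _ _ h2 h.2, neg_add_cancel]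
    apply gl_ext
    intro x
    rw [ut_mulVec hf _ _ h.1 (by rw [map_zero, neg_zero])]
    simp
  · have h' : ¬ (f a a = 0 ∧ σ (-κ) = -(-κ)) := by
      rintro ⟨h1, h2⟩
      apply h
      refine ⟨h1, ?_⟩
      rw [map_neg, neg_neg] at h2
      exact neg_eq_iff_eq_neg.mp h2
    rw [ut_not hf _ _ h, ut_not hf _ _ h', inv_one]

end Aux

section Main

variable {ι : Type} [Fintype ι] [DecidableEq ι] {F : Type*} [Field F] [Fintype F]
variable {σ : F ≃+* F} {f : (ι → F) → (ι → F) → F} {F₀ : Subfield F}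

/-- The context: `M` consists of isometries and contains the rational root elements. -/
structure CtxU (hf : Cfsg.Geo.IsUnitaryForm σ f) (F₀ : Subfield F)
    (M : Subgroup (Matrix.GeneralLinearGroup ι F)) : Prop where
  iso : ∀ g ∈ M, ∀ x y, f ((g : Matrix ι ι F) *ᵥ x) ((g : Matrix ι ι F) *ᵥ y) = f x y
  rsu : ∀ (a b : ι → F₀) (c : F₀), su hf (up F₀ a) (up F₀ b) (c : F) ∈ M
  rut : ∀ (a : ι → F₀) (κ : F₀), ut hf (up F₀ a) (κ : F) ∈ M

variable {hf : Cfsg.Geo.IsUnitaryForm σ f}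
variable {M : Subgroup (Matrix.GeneralLinearGroup ι F)}

omit [Fintype F] in
lemma CtxU.conj_su (hC : CtxU hf F₀ M) {g : Matrix.GeneralLinearGroup ι F} (hg : g ∈ M)
    {a b : ι → F} {c : F} (h : su hf a b c ∈ M) :
    su hf ((g : Matrix ι ι F) *ᵥ a) ((g : Matrix ι ι F) *ᵥ b) c ∈ M := by
  rw [← su_conj hf g (hC.iso g hg)]
  exact M.mul_mem (M.mul_mem hg h) (M.inv_mem hg)

omit [Fintype F] in
lemma CtxU.conj_ut (hC : CtxU hf F₀ M) {g : Matrix.GeneralLinearGroup ι F} (hg : g ∈ M)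
    {a : ι → F} {κ : F} (h : ut hf a κ ∈ M) :
    ut hf ((g : Matrix ι ι F) *ᵥ a) κ ∈ M := by
  rw [← ut_conj hf g (hC.iso g hg)]
  exact M.mul_mem (M.mul_mem hg h) (M.inv_mem hg)

omit [Fintype F] in
lemma tr_symmU (a b : ι → F) (c : F) (h : su hf a b c ∈ M) : su hf b a (-σ c) ∈ M := by
  rw [← su_symm hf b a c]
  exact h

/-- Moving the second vector of a rational pair to an orthogonal one. -/
lemma tr_step0 (hC : CtxU hf F₀ M) (hR : RatU σ f F₀) (hcard : 13 ≤ Fintype.card ι)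
    (a b b' : ι → F₀) (ha : f0 hR a a = 0) (hb : f0 hR b b = 0) (hb' : f0 hR b' b' = 0)
    (hab : f0 hR a b = 0) (hab' : f0 hR a b' = 0) (hbb' : f0 hR b b' = 0)
    (hba : b ∉ Submodule.span F₀ {a}) (hb'a : b' ∉ Submodule.span F₀ {a}) :
    ∃ lam : F₀, lam ≠ 0 ∧ ∀ c : F, su hf (up F₀ a) (up F₀ b) c ∈ M →
      su hf (up F₀ a) (up F₀ b') (c * (lam : F)) ∈ M := by
  classical
  haveI : Fintype F₀ := Fintype.ofFinite F₀
  have hf0 := f0_unit hf hR
  have sw := fun x y => (eq_zero_comm hf0 x y).mp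
  obtain ⟨d, hd, hda, hbd, hb'd⟩ := connect_u hf0 hcard a b b' hba hb'a
  obtain ⟨β, hβ⟩ : ∃ β : F₀, β = f0 hR b d := ⟨_, rfl⟩
  obtain ⟨β', hβ'⟩ : ∃ β' : F₀, β' = f0 hR b' d := ⟨_, rfl⟩
  rw [← hβ] at hbd
  rw [← hβ'] at hb'd
  obtain ⟨lam, hlam⟩ : ∃ lam : F₀, lam = β / β' := ⟨_, rfl⟩
  have hlam0 : lam ≠ 0 := by rw [hlam]; exact div_ne_zero hbd hb'd
  obtain ⟨y, hy⟩ : ∃ y : ι → F₀, y = b - lam • b' := ⟨_, rfl⟩
  have hb'b : f0 hR b' b = 0 := sw _ _ hbb'
  have hyy : f0 hR y y = 0 := by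
    rw [hy]
    simp only [sub_left hf0, sub_right hf0, hf0.smul_left, smul_right hf0, hb, hb', hbb', hb'b,
      mul_zero, sub_zero]
  have hyd : f0 hR y d = 0 := by
    rw [hy, sub_left hf0, hf0.smul_left, ← hβ, ← hβ', hlam, div_mul_cancel₀ _ hb'd, sub_self]
  have hdy : f0 hR d y = 0 := sw _ _ hyd
  have hay : f0 hR a y = 0 := by
    rw [hy, sub_right hf0, smul_right hf0, hab, hab']
    ring
  have had : f0 hR a d = 0 := sw _ _ hda
  have hby : f0 hR b y = 0 := by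
    rw [hy, sub_right hf0, smul_right hf0, hb, hbb']
    ring
  obtain ⟨c₀, hc₀⟩ : ∃ c₀ : F₀, c₀ = sig0 hf hR β⁻¹ := ⟨_, rfl⟩
  have hc₀' : sig0 hf hR c₀ * β = 1 := by
    rw [hc₀, hf0.involutive, inv_mul_cancel₀ hbd]
  have z0 := fun x y => (f0_eq_zero hR x y).mp
  have hg : su hf (up F₀ d) (up F₀ y) (c₀ : F) ∈ M := hC.rsu d y c₀
  have e1 : ((su hf (up F₀ d) (up F₀ y) (c₀ : F) : Matrix.GeneralLinearGroup ι F) : Matrix ι ι F)
      *ᵥ up F₀ a = up F₀ a := by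
    rw [su_up_mulVec hf hR d y (z0 _ _ hd) (z0 _ _ hyy) (z0 _ _ hdy), hay, had]
    simp
  have e2 : ((su hf (up F₀ d) (up F₀ y) (c₀ : F) : Matrix.GeneralLinearGroup ι F) : Matrix ι ι F)
      *ᵥ up F₀ b = (lam : F) • up F₀ b' := by
    rw [su_up_mulVec hf hR d y (z0 _ _ hd) (z0 _ _ hyy) (z0 _ _ hdy), hby, ← hβ, hc₀', hy,
      ← up_smul]
    congr 1
    simp
  refine ⟨sig0 hf hR lam, ?_, fun c h => ?_⟩
  · intro h0
    apply hlam0
    have := congrArg (sig0 hf hR) h0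
    rwa [hf0.involutive, map_zero] at this
  · have h3 := hC.conj_su hg h
    rw [e1, e2, su_smul_right hf _ _ (z0 _ _ ha) (z0 _ _ hb') (z0 _ _ hab')] at h3
    exact h3

/-- Moving the second vector of a rational pair. -/
lemma tr_step (hC : CtxU hf F₀ M) (hR : RatU σ f F₀) (hcard : 13 ≤ Fintype.card ι)
    (a b b' : ι → F₀) (ha : f0 hR a a = 0) (hb : f0 hR b b = 0) (hb' : f0 hR b' b' = 0)
    (hab : f0 hR a b = 0) (hab' : f0 hR a b' = 0)
    (hba : b ∉ Submodule.span F₀ {a}) (hb'a : b' ∉ Submodule.span F₀ {a}) :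
    ∃ lam : F₀, lam ≠ 0 ∧ ∀ c : F, su hf (up F₀ a) (up F₀ b) c ∈ M →
      su hf (up F₀ a) (up F₀ b') (c * (lam : F)) ∈ M := by
  classical
  haveI : Fintype F₀ := Fintype.ofFinite F₀
  have hf0 := f0_unit hf hR
  have sw := fun x y => (eq_zero_comm hf0 x y).mp
  obtain ⟨y1, y2, p1, p2, h11, -, h12⟩ :=
    hyp_fam hf0 (![a, b, b'] : Fin 3 → (ι → F₀)) (by omega)
  have hy1a : f0 hR y1 a = 0 := p1 0
  have hy1b : f0 hR y1 b = 0 := p1 1
  have hy1b' : f0 hR y1 b' = 0 := p1 2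
  have hy2a : f0 hR y2 a = 0 := p2 0
  have hn : y1 ∉ Submodule.span F₀ {a} :=
    nspan_u hf0 (by rw [h12]; exact one_ne_zero) (sw _ _ hy2a)
  obtain ⟨l1, hl1, t1⟩ := tr_step0 hC hR hcard a b y1 ha hb h11 hab (sw _ _ hy1a)
    (sw _ _ hy1b) hba hn
  obtain ⟨l2, hl2, t2⟩ := tr_step0 hC hR hcard a y1 b' ha h11 hb' (sw _ _ hy1a) hab'
    hy1b' hn hb'a
  refine ⟨l1 * l2, mul_ne_zero hl1 hl2, fun c h => ?_⟩
  have h2 := t2 _ (t1 c h)
  rw [mul_assoc] at h2
  rw [Subfield.coe_mul]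
  exact h2

/-- The parameter sets of two rational short root subgroups correspond up to a rational scalar
and the involution. -/
theorem transferU (hC : CtxU hf F₀ M) (hR : RatU σ f F₀) (hcard : 13 ≤ Fintype.card ι)
    (a b a' b' : ι → F₀) (ha : f0 hR a a = 0) (hb : f0 hR b b = 0) (hab : f0 hR a b = 0)
    (ha0 : a ≠ 0) (hba : b ∉ Submodule.span F₀ {a})
    (ha' : f0 hR a' a' = 0) (hb' : f0 hR b' b' = 0) (hab' : f0 hR a' b' = 0)
    (ha'0 : a' ≠ 0) (hba' : b' ∉ Submodule.span F₀ {a'}) :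
    ∃ lam : F₀, lam ≠ 0 ∧ ∀ c : F, su hf (up F₀ a) (up F₀ b) c ∈ M →
      su hf (up F₀ a') (up F₀ b') (σ c * (lam : F)) ∈ M := by
  classical
  haveI : Fintype F₀ := Fintype.ofFinite F₀
  have hf0 := f0_unit hf hR
  have sw := fun x y => (eq_zero_comm hf0 x y).mp
  have hb0 : b ≠ 0 := fun h => hba (h ▸ Submodule.zero_mem _)
  obtain ⟨pb, hpb⟩ := exists_pair_one0 hf hR b hb0
  obtain ⟨pa, hpa⟩ := exists_pair_one0 hf hR a' ha'0
  have hbpb : f0 hR b pb ≠ 0 := by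
    intro h
    have := sw _ _ h
    rw [hpb] at this
    exact one_ne_zero this
  have hapa : f0 hR a' pa ≠ 0 := by
    intro h
    have := sw _ _ h
    rw [hpa] at this
    exact one_ne_zero this
  obtain ⟨y, hy0, hy, hyp⟩ :=
    iso_perp_fam hf0 (![b, a', pb, pa] : Fin 4 → (ι → F₀)) (by omega)
  have hyb : f0 hR y b = 0 := hyp 0
  have hya : f0 hR y a' = 0 := hyp 1
  have hypb : f0 hR y pb = 0 := hyp 2
  have hypa : f0 hR y pa = 0 := hyp 3
  have n1 : a ∉ Submodule.span F₀ {b} := nspan_swap ha0 hba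
  have n2 : y ∉ Submodule.span F₀ {b} := nspan_u' hf0 hy0 hypb hbpb
  have n3 : b ∉ Submodule.span F₀ {y} := nspan_u hf0 hbpb hypb
  have n4 : a' ∉ Submodule.span F₀ {y} := nspan_u hf0 hapa hypa
  have n5 : y ∉ Submodule.span F₀ {a'} := nspan_u' hf0 hy0 hypa hapa
  obtain ⟨l1, hl1, t1⟩ := tr_step hC hR hcard b a y hb ha hy (sw _ _ hab) (sw _ _ hyb) n1 n2
  obtain ⟨l2, hl2, t2⟩ := tr_step hC hR hcard y b a' hy hb ha' hyb hya n3 n4
  obtain ⟨l3, hl3, t3⟩ := tr_step hC hR hcard a' y b' ha' hy hb' (sw _ _ hya) hab' n5 hba'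
  have hs2 : sig0 hf hR l2 ≠ 0 := by
    intro h0
    apply hl2
    have := congrArg (sig0 hf hR) h0
    rwa [hf0.involutive, map_zero] at this
  refine ⟨-(l1 * sig0 hf hR l2 * l3),
    neg_ne_zero.mpr (mul_ne_zero (mul_ne_zero hl1 hs2) hl3), fun c h => ?_⟩
  have h1 := tr_symmU _ _ c h
  have h2 := t1 _ h1
  have h3 := tr_symmU _ _ _ h2
  have h4 := t2 _ h3
  have h5 := tr_symmU _ _ _ h4
  have h6 := t3 _ h5
  have e : -σ (-σ (-σ c * (l1 : F)) * (l2 : F)) * (l3 : F)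
      = σ c * ((-(l1 * sig0 hf hR l2 * l3) : F₀) : F) := by
    simp only [map_neg, map_mul, hf.involutive, Subfield.coe_neg, Subfield.coe_mul, sig0_coe]
    ring
  rw [e] at h6
  exact h6

/-- The rational short root elements of `M` have rational parameters. -/
def LLs (hf : Cfsg.Geo.IsUnitaryForm σ f) (hR : RatU σ f F₀)
    (M : Subgroup (Matrix.GeneralLinearGroup ι F)) : Prop :=
  ∀ a b : ι → F₀, f0 hR a a = 0 → f0 hR b b = 0 → f0 hR a b = 0 → a ≠ 0 →
    b ∉ Submodule.span F₀ {a} → ∀ c : F, su hf (up F₀ a) (up F₀ b) c ∈ M → c ∈ F₀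

/-- `M` contains all short root elements of rational totally isotropic pairs. -/
def Alls (hf : Cfsg.Geo.IsUnitaryForm σ f) (hR : RatU σ f F₀)
    (M : Subgroup (Matrix.GeneralLinearGroup ι F)) : Prop :=
  ∀ a b : ι → F₀, f0 hR a a = 0 → f0 hR b b = 0 → f0 hR a b = 0 → a ≠ 0 →
    b ∉ Submodule.span F₀ {a} → ∀ c : F, su hf (up F₀ a) (up F₀ b) c ∈ M

theorem dichU (hR : RatU σ f F₀)
    (hgen : ∀ μ : F, μ ∉ F₀ → ∀ A : AddSubgroup F, (∀ a ∈ F₀, ∀ z ∈ A, a * z ∈ A) →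
      (∀ z ∈ A, μ * z ∈ A) → (1 : F) ∈ A → A = ⊤)
    (hC : CtxU hf F₀ M) (hcard : 13 ≤ Fintype.card ι) : LLs hf hR M ∨ Alls hf hR M := by
  classical
  haveI : Fintype F₀ := Fintype.ofFinite F₀
  have hf0 := f0_unit hf hR
  have sw := fun x y => (eq_zero_comm hf0 x y).mp
  have z0 := fun x y => (f0_eq_zero hR x y).mp
  obtain ⟨e, e', hee, hff, hpair, hone⟩ := frame3 hf0 hcard
  have hee' : ∀ i j, f (up F₀ (e i)) (up F₀ (e j)) = 0 := fun i j => z0 _ _ (hee i j)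
  have hff' : ∀ i j, f (up F₀ (e' i)) (up F₀ (e' j)) = 0 := fun i j => z0 _ _ (hff i j)
  have hpair' : ∀ i j, i ≠ j → f (up F₀ (e i)) (up F₀ (e' j)) = 0 :=
    fun i j h => z0 _ _ (hpair i j h)
  have hone' : ∀ i, f (up F₀ (e i)) (up F₀ (e' i)) = 1 :=
    fun i => (f0_eq_one hR _ _).mp (hone i)
  obtain ⟨E, hE⟩ : ∃ E : Fin 3 → Fin 3 → F → Matrix.GeneralLinearGroup ι F,
      E = fun i j c => su hf (up F₀ (e i)) (up F₀ (e' j)) c := ⟨_, rfl⟩
  have hmul : ∀ i j, i ≠ j → ∀ c d, E i j c * E i j d = E i j (c + d) := by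
    intro i j hij c d
    rw [hE]
    exact su_add hf _ _ (hee' i i) (hff' j j) (hpair' i j hij) c d
  have hcomm : ∀ i j k, i ≠ j → j ≠ k → i ≠ k → ∀ c d,
      E i j c * E j k d * (E i j c)⁻¹ * (E j k d)⁻¹ = E i k (c * d) := by
    intro i j k hij hjk hik c d
    rw [hE]
    exact steinberg_su hf (fun i => up F₀ (e i)) (fun i => up F₀ (e' i)) hee' hff' hpair'
      hone' i j k hij hjk hik c d
  have hH : ∀ i j, i ≠ j → ∀ c ∈ F₀, E i j c ∈ M := by
    intro i j _ c hc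
    rw [hE]
    exact hC.rsu (e i) (e' j) ⟨c, hc⟩
  have e00 : e 0 ≠ 0 := ne_zero_of_pair hf0 (by rw [hone 0]; exact one_ne_zero)
  have hn : e' 1 ∉ Submodule.span F₀ {e 0} := by
    apply nspan_u hf0 (t := e 1) _ (hee 0 1)
    intro h
    have := sw _ _ h
    rw [hone 1] at this
    exact one_ne_zero this
  have h01 : (0 : Fin 3) ≠ 1 := by decide
  rcases lam_cases_abs E hmul hcomm F₀ hgen M hH (by simp) with hl | hr
  · left
    intro a b ha hb hab ha0 hba c hc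
    obtain ⟨lam, hlam, t⟩ := transferU hC hR hcard a b (e 0) (e' 1) ha hb hab ha0 hba (hee 0 0)
      (hff 1 1) (hpair 0 1 h01) e00 hn
    have h1 := t c hc
    have h2 : σ c * (lam : F) ∈ F₀ := by
      apply hl 0 1 h01
      rw [hE]
      exact h1
    have hlam' : (lam : F) ≠ 0 := fun h => hlam (Subtype.ext h)
    have e2 : σ c = σ c * (lam : F) / (lam : F) := by
      rw [mul_div_assoc, div_self hlam', mul_one]
    have h3 : σ c ∈ F₀ := by
      rw [e2]
      exact F₀.div_mem h2 lam.2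
    have h4 := hR.stab _ h3
    rwa [hf.involutive] at h4
  · right
    intro a b ha hb hab ha0 hba c
    obtain ⟨lam, hlam, t⟩ := transferU hC hR hcard (e 0) (e' 1) a b (hee 0 0)
      (hff 1 1) (hpair 0 1 h01) e00 hn ha hb hab ha0 hba
    have hlam' : (lam : F) ≠ 0 := fun h => hlam (Subtype.ext h)
    have h1 : su hf (up F₀ (e 0)) (up F₀ (e' 1)) (σ (c / (lam : F))) ∈ M := by
      have := hr 0 1 h01 (σ (c / (lam : F)))
      rw [hE] at this
      exact this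
    have h2 := t _ h1
    rw [hf.involutive, div_mul_cancel₀ c hlam'] at h2
    exact h2

end Main

end Cfsg.Agent.Lib.Helper94.SfU2
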