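import Mathlib
import Cfsg.Prelude.Def_GeometricClasses
import Cfsg.Agent.Lib.Helper94.SfU2

/-!
# Overgroups of the unitary subfield group: the large case (helper94)

* `up_mem_utSet` : if `M` contains all short root elements of rational totally isotropic pairs
  then every rational isotropic vector is a transvection vector for `M`.
* `all_imp_SU` : in that case `M` contains every isometry of determinant one.
-/

set_option autoImplicit false
set_option linter.unusedSimpArgs false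

namespace Cfsg.Agent.Lib.Helper94.SfU3

open scoped Matrix
open Module
open Cfsg.Agent.Lib.Helper94.Basic Cfsg.Agent.Lib.Helper94.GLAux Cfsg.Agent.Lib.Helper94.Tv
  Cfsg.Agent.Lib.Helper94.UnitAbs Cfsg.Agent.Lib.Helper94.UnitGen
  Cfsg.Agent.Lib.Helper94.UnitRoot Cfsg.Agent.Lib.Helper94.SubfieldRat
  Cfsg.Agent.Lib.Helper94.SfU1 Cfsg.Agent.Lib.Helper94.SfU2

section Main

variable {ι : Type} [Fintype ι] [DecidableEq ι] {F : Type*} [Field F] [Fintype F]
variable {σ : F ≃+* F} {f : (ι → F) → (ι → F) → F} {F₀ : Subfield F}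
variable {hf : Cfsg.Geo.IsUnitaryForm σ f}
variable {M : Subgroup (Matrix.GeneralLinearGroup ι F)}

/-- A rational isotropic vector is a transvection vector for `M` if `M` contains all rational
short root elements. -/
theorem up_mem_utSet (hR : RatU σ f F₀) (hcard : 13 ≤ Fintype.card ι)
    (hAll : Alls hf hR M) (a : ι → F₀) (ha : f0 hR a a = 0) : up F₀ a ∈ utSet hf M := by
  classical
  haveI : Fintype F₀ := Fintype.ofFinite F₀
  have hf0 := f0_unit hf hR
  have sw := fun x y => (eq_zero_comm hf0 x y).mp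
  have z0 := fun x y => (f0_eq_zero hR x y).mp
  have o1 := fun x y => (f0_eq_one hR x y).mp
  by_cases ha0 : a = 0
  · rw [ha0, up_zero]
    exact utSet_zero hf M
  obtain ⟨b, b', p1, p2, hb, hb', hbb'⟩ := hyp_fam hf0 (![a] : Fin 1 → (ι → F₀)) (by omega)
  have hba : f0 hR b a = 0 := p1 0
  have hb'a : f0 hR b' a = 0 := p2 0
  have hab : f0 hR a b = 0 := sw _ _ hba
  have hab' : f0 hR a b' = 0 := sw _ _ hb'a
  have hb'b : f0 hR b' b ≠ 0 := by
    intro h
    have := sw _ _ h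
    rw [hbb'] at this
    exact one_ne_zero this
  have n1 : b ∉ Submodule.span F₀ {a} := nspan_u hf0 (by rw [hbb']; exact one_ne_zero) hab'
  have n2 : b' ∉ Submodule.span F₀ {a} := nspan_u hf0 hb'b hab
  refine ⟨z0 _ _ ha, fun κ => ?_⟩
  by_cases hκ : σ κ = -κ
  swap
  · rw [ut_not hf _ _ (fun h => hκ h.2)]
    exact M.one_mem
  obtain ⟨z, hz⟩ := skew_surj hf (-κ) (by rw [map_neg, hκ])
  have hB1 : f (up F₀ b) (up F₀ b') = 1 := o1 _ _ hbb'
  have hB2 : f (up F₀ b') (up F₀ b) = 1 := by rw [hf.herm, hB1, map_one]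
  have key := su_mul_su hf (up F₀ a) (up F₀ b) (up F₀ b') (z0 _ _ ha) (z0 _ _ hb) (z0 _ _ hb')
    (z0 _ _ hab) (z0 _ _ hab') z 1
  have e : (1 : F) * σ z * f (up F₀ b) (up F₀ b') - z * σ 1 * f (up F₀ b') (up F₀ b) = κ := by
    rw [hB1, hB2, map_one]
    linear_combination -hz
  rw [e] at key
  have m1 : su hf (up F₀ a) (up F₀ b) z ∈ M := hAll a b ha hb hab ha0 n1 z
  have m2 : su hf (up F₀ a) (up F₀ b') 1 ∈ M := hAll a b' ha hb' hab' ha0 n2 1
  have e2 : ut hf (up F₀ a) κ = su hf (up F₀ a) (up F₀ b) z * su hf (up F₀ a) (up F₀ b') 1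
      * (su hf (up F₀ a) (up F₀ b') 1 * su hf (up F₀ a) (up F₀ b) z)⁻¹ := by
    rw [key, mul_inv_cancel_right]
  rw [e2]
  exact M.mul_mem (M.mul_mem m1 m2) (M.inv_mem (M.mul_mem m2 m1))

/-- If `M` contains all rational short root elements, every isotropic vector is a transvection
vector for `M`. -/
theorem all_mem_utSet (hC : CtxU hf F₀ M) (hR : RatU σ f F₀) (hcard : 13 ≤ Fintype.card ι)
    (hAll : Alls hf hR M) (z : ι → F) (hz : f z z = 0) : z ∈ utSet hf M := by
  classical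
  haveI : Fintype F₀ := Fintype.ofFinite F₀
  have hf0 := f0_unit hf hR
  have sw := fun x y => (eq_zero_comm hf0 x y).mp
  have z0 := fun x y => (f0_eq_zero hR x y).mp
  have o1 := fun x y => (f0_eq_one hR x y).mp
  by_cases hz0 : z = 0
  · rw [hz0]
    exact utSet_zero hf M
  obtain ⟨a, ha, hza⟩ : ∃ a : ι → F₀, f0 hR a a = 0 ∧ f z (up F₀ a) ≠ 0 := by
    by_contra hcon
    push Not at hcon
    apply hz0
    apply eq_zero_of_ratR hf F₀
    intro x
    obtain ⟨y1, y2, -, -, h1, h2, hx⟩ :=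
      iso_sum_fam hf0 (Fin.elim0 : Fin 0 → (ι → F₀)) (by omega) x (fun i => i.elim0)
    rw [hx, up_add, add_right hf, hcon y1 h1, hcon y2 h2, add_zero]
  have ha0 : a ≠ 0 := by
    intro h0
    apply hza
    rw [h0, up_zero, zero_right hf]
  obtain ⟨b, hb, hab⟩ := exists_partner hf0 a ha0 ha
  have hba : f0 hR b a = 1 := by rw [hf0.herm, hab, map_one]
  have hAA : f (up F₀ a) (up F₀ a) = 0 := z0 _ _ ha
  have hBB : f (up F₀ b) (up F₀ b) = 0 := z0 _ _ hb
  have hAB : f (up F₀ a) (up F₀ b) = 1 := o1 _ _ hab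
  have hBA : f (up F₀ b) (up F₀ a) = 1 := o1 _ _ hba
  obtain ⟨η, hη⟩ : ∃ η : F, η = f z (up F₀ a) := ⟨_, rfl⟩
  rw [← hη] at hza
  obtain ⟨z', hz'⟩ : ∃ z' : ι → F, z' = η⁻¹ • z := ⟨_, rfl⟩
  have hz'A : f z' (up F₀ a) = 1 := by rw [hz', hf.smul_left, ← hη, inv_mul_cancel₀ hza]
  have hz'z' : f z' z' = 0 := by rw [hz', hf.smul_left, smul_right hf, hz, mul_zero, mul_zero]
  obtain ⟨ξ, hξ⟩ : ∃ ξ : F, ξ = f z' (up F₀ b) := ⟨_, rfl⟩
  obtain ⟨w, hw⟩ : ∃ w : ι → F, w = z' - ξ • up F₀ a - up F₀ b := ⟨_, rfl⟩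
  have hwA : f w (up F₀ a) = 0 := by
    rw [hw, sub_left hf, sub_left hf, hf.smul_left, hz'A, hAA, hBA]
    ring
  have hwB : f w (up F₀ b) = 0 := by
    rw [hw, sub_left hf, sub_left hf, hf.smul_left, ← hξ, hAB, hBB]
    ring
  -- the set of reachable vectors
  obtain ⟨W, hW⟩ : ∃ W : Set (ι → F), W = {w | f w (up F₀ a) = 0 ∧
      ∃ h ∈ M, ∃ ξ' : F, (h : Matrix ι ι F) *ᵥ up F₀ b = up F₀ b + w + ξ' • up F₀ a} :=
    ⟨_, rfl⟩
  have hstep : ∀ y : ι → F₀, f0 hR y y = 0 → f0 hR y a = 0 → f0 hR y b = 0 → ∀ c : F,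
      ∀ w ∈ W, w + c • up F₀ y ∈ W := by
    intro y hy hya hyb c w hw
    by_cases hy0 : y = 0
    · rw [hy0, up_zero, smul_zero, add_zero]
      exact hw
    rw [hW] at hw ⊢
    obtain ⟨hwA, h, hh, ξ', e⟩ := hw
    have hny : y ∉ Submodule.span F₀ {a} :=
      nspan_u' hf0 hy0 hyb (by rw [hab]; exact one_ne_zero)
    have hay : f0 hR a y = 0 := sw _ _ hya
    have hby : f0 hR b y = 0 := sw _ _ hyb
    have m := hAll a y ha hy hay ha0 hny (-σ c)
    refine ⟨?_, su hf (up F₀ a) (up F₀ y) (-σ c) * h, M.mul_mem m hh,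
      ξ' + (-σ c) * f w (up F₀ y), ?_⟩
    · rw [hf.add_left, hf.smul_left, hwA, z0 _ _ hya]
      ring
    · rw [Units.val_mul, ← Matrix.mulVec_mulVec, e,
        su_mulVec hf _ _ hAA (z0 _ _ hy) (z0 _ _ hay)]
      simp only [hf.add_left, hf.smul_left, hwA, hAA, hBA, z0 _ _ hby, z0 _ _ hay, map_neg,
        hf.involutive, mul_zero, add_zero, zero_add, mul_one]
      module
  -- decomposition of `w`
  obtain ⟨v, hv⟩ : ∃ v : ι → (ι → F₀), v = fun i =>
      Pi.single i 1 - f0 hR (Pi.single i 1) b • a - f0 hR (Pi.single i 1) a • b := ⟨_, rfl⟩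
  have hsum : w = ∑ i, w i • up F₀ (v i) := by
    have h1 : w = ∑ i, w i • (Pi.single i 1 : ι → F) := pi_eq_sum_univ' w
    have h2 : ∀ t : ι → F, f w t = ∑ i, w i * f (Pi.single i 1) t := by
      intro t
      have h3 : fR hf t w = fR hf t (∑ i, w i • (Pi.single i 1 : ι → F)) := by
        rw [← h1]
      rw [map_sum] at h3
      simp only [map_smul, fR_apply, smul_eq_mul] at h3
      exact h3
    have h4 : ∀ i, w i • up F₀ (v i) = w i • (Pi.single i 1 : ι → F)
        - (w i * f (Pi.single i 1) (up F₀ b)) • up F₀ a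
        - (w i * f (Pi.single i 1) (up F₀ a)) • up F₀ b := by
      intro i
      rw [hv]
      simp only [up_sub, up_smul, f0_coe, up_single]
      module
    simp only [h4]
    rw [Finset.sum_sub_distrib, Finset.sum_sub_distrib, ← h1, ← Finset.sum_smul,
      ← Finset.sum_smul, ← h2, ← h2, hwA, hwB, zero_smul, zero_smul, sub_zero, sub_zero]
  have hP : ∀ w' ∈ W, w' + ∑ i, w i • up F₀ (v i) ∈ W := by
    apply Finset.sum_induction (fun i => w i • up F₀ (v i)) (fun x => ∀ w' ∈ W, w' + x ∈ W)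
    · intro x y hx hy w' hw'
      rw [← add_assoc]
      exact hy _ (hx _ hw')
    · intro w' hw'
      rw [add_zero]
      exact hw'
    · intro i _ w' hw'
      have hva : f0 hR (v i) a = 0 := by
        rw [hv]
        simp only [sub_left hf0, hf0.smul_left, ha, hba]
        ring
      have hvb : f0 hR (v i) b = 0 := by
        rw [hv]
        simp only [sub_left hf0, hf0.smul_left, hb, hab]
        ring
      obtain ⟨y1, y2, q1, q2, h1, h2, hx⟩ :=
        iso_sum_fam hf0 (![a, b] : Fin 2 → (ι → F₀)) (by omega) (v i) (by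
          intro j
          fin_cases j
          · exact hva
          · exact hvb)
      have e : w' + w i • up F₀ (v i) = w' + w i • up F₀ y1 + w i • up F₀ y2 := by
        rw [hx, up_add]
        module
      rw [e]
      exact hstep y2 h2 (q2 0) (q2 1) _ _ (hstep y1 h1 (q1 0) (q1 1) _ _ hw')
  have h0W : (0 : ι → F) ∈ W := by
    rw [hW]
    refine ⟨zero_left hf _, 1, M.one_mem, 0, ?_⟩
    simp
  have hwW : w ∈ W := by
    have := hP 0 h0W
    rwa [← hsum, zero_add] at this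
  rw [hW] at hwW
  obtain ⟨-, h, hh, ξ', e⟩ := hwW
  have hA := up_mem_utSet hR hcard hAll a ha
  have hB := up_mem_utSet hR hcard hAll b hb
  have hB' := utSet_map hf M hC.iso hh hB
  have e1 : f ((h : Matrix ι ι F) *ᵥ up F₀ b) (up F₀ a) ≠ 0 := by
    rw [e, hf.add_left, hf.add_left, hf.smul_left, hBA, hwA, hAA]
    simp
  have e2 : (h : Matrix ι ι F) *ᵥ up F₀ b + (ξ - ξ') • up F₀ a = z' := by
    rw [e, hw]
    module
  have h3 := utSet_hyp hf M hC.iso hB' hA e1 (ξ - ξ') (by rw [e2]; exact hz'z')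
  rw [e2] at h3
  have h4 := utSet_smul hf M h3 η
  rwa [hz', smul_smul, mul_inv_cancel₀ hza, one_smul] at h4

/-- If `M` contains all rational short root elements then it contains every isometry of
determinant one. -/
theorem all_imp_SU (hC : CtxU hf F₀ M) (hR : RatU σ f F₀) (hcard : 13 ≤ Fintype.card ι)
    (hAll : Alls hf hR M) (g : Matrix.GeneralLinearGroup ι F)
    (hg : ∀ x y, f ((g : Matrix ι ι F) *ᵥ x) ((g : Matrix ι ι F) *ᵥ y) = f x y)
    (hdet : (g : Matrix ι ι F).det = 1) : g ∈ M :=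
  mem_of_utSet_univ hf (by omega) M (fun a ha => all_mem_utSet hC hR hcard hAll a ha) g hg hdet

end Main

end Cfsg.Agent.Lib.Helper94.SfU3
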