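import Mathlib
import Cfsg.Prelude.Def_GeometricClasses
import Cfsg.Agent.Lib.Helper94.SfU2
import Cfsg.Agent.Lib.Helper98.SL2Sub

/-!
# Overgroups of the unitary subfield group: rationality, first part (helper94)

For a group `M` of isometries containing the rational root elements, all of whose rational short
root elements have rational parameters:

* `llt` : a transvection of `M` with rational centre has a rational parameter.
* `torus_norm` : an element of `M` scaling a rational isotropic vector by `t` has `t σ(t)`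
  rational.
* `perp_ratU` : the image under an element of `M` of a rational isotropic vector, when
  orthogonal to a rational isotropic vector `b`, is a multiple of a rational vector modulo `b`.
* `perp_ratU'` : in fact it is a multiple of a rational vector.
-/

set_option autoImplicit false
set_option linter.unusedSimpArgs false

namespace Cfsg.Agent.Lib.Helper94.SfU4

open scoped Matrix MatrixGroups
open Module
open Cfsg.Agent.Lib.Helper94.Basic Cfsg.Agent.Lib.Helper94.GLAux Cfsg.Agent.Lib.Helper94.Tv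
  Cfsg.Agent.Lib.Helper94.UnitAbs Cfsg.Agent.Lib.Helper94.UnitGen
  Cfsg.Agent.Lib.Helper94.UnitRoot Cfsg.Agent.Lib.Helper94.SubfieldRat
  Cfsg.Agent.Lib.Helper94.SfU1 Cfsg.Agent.Lib.Helper94.SfU2
open Cfsg.Agent.Lib.Helper98.SL2Sub

section Aux

variable {ι : Type} [Fintype ι] [DecidableEq ι] {F : Type*} [Field F]
variable {σ : F ≃+* F} {f : (ι → F) → (ι → F) → F}

lemma ut_smul (hf : Cfsg.Geo.IsUnitaryForm σ f) (a : ι → F) (ha : f a a = 0) (c κ : F)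
    (hκ : σ κ = -κ) : ut hf (c • a) κ = ut hf a (κ * (c * σ c)) := by
  have h1 : f (c • a) (c • a) = 0 := by rw [hf.smul_left, smul_right hf, ha]; ring
  have h2 : σ (κ * (c * σ c)) = -(κ * (c * σ c)) := by
    rw [map_mul, map_mul, hf.involutive, hκ]; ring
  apply gl_ext
  intro x
  rw [ut_mulVec hf _ _ h1 hκ, ut_mulVec hf _ _ ha h2, smul_right hf, smul_smul]
  congr 2
  ring

/-- A short root element as a product of three transvections. -/
lemma su_eq_ut (hf : Cfsg.Geo.IsUnitaryForm σ f) (a b : ι → F) (ha : f a a = 0)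
    (hb : f b b = 0) (hab : f a b = 0) (κ : F) (hκ : σ κ = -κ) :
    su hf a b κ = ut hf (a + b) κ * ut hf a (-κ) * ut hf b (-κ) := by
  apply gl_ext
  intro x
  have h := sv_mulVec hf a b ha hb hab κ hκ 1 x
  rw [one_smul] at h
  rw [h, su_mulVec hf a b ha hb hab, hκ, map_one]
  module

/-- The action of an element of `GL` on the span of two vectors, given by an element of
`SL₂`. -/
def RelL (b z : ι → F) (S : SL(2, F)) (h : Matrix.GeneralLinearGroup ι F) : Prop :=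
  (h : Matrix ι ι F) *ᵥ b = S.1 0 0 • b + S.1 1 0 • z ∧
  (h : Matrix ι ι F) *ᵥ z = S.1 0 1 • b + S.1 1 1 • z

lemma RelL.one (b z : ι → F) : RelL b z 1 1 := by
  constructor
  · rw [one00, one10]
    simp
  · rw [one01, one11]
    simp

lemma RelL.mul {b z : ι → F} {S S' : SL(2, F)} {h h' : Matrix.GeneralLinearGroup ι F}
    (h1 : RelL b z S h) (h2 : RelL b z S' h') : RelL b z (S * S') (h * h') := by
  obtain ⟨a1, a2⟩ := h1
  obtain ⟨b1, b2⟩ := h2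
  constructor
  · rw [Units.val_mul, ← Matrix.mulVec_mulVec, b1, Matrix.mulVec_add, Matrix.mulVec_smul,
      Matrix.mulVec_smul, a1, a2, mul00, mul10]
    module
  · rw [Units.val_mul, ← Matrix.mulVec_mulVec, b2, Matrix.mulVec_add, Matrix.mulVec_smul,
      Matrix.mulVec_smul, a1, a2, mul01, mul11]
    module

end Aux

section Main

variable {ι : Type} [Fintype ι] [DecidableEq ι] {F : Type*} [Field F] [Fintype F]
variable {σ : F ≃+* F} {f : (ι → F) → (ι → F) → F} {F₀ : Subfield F}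
variable {hf : Cfsg.Geo.IsUnitaryForm σ f}
variable {M : Subgroup (Matrix.GeneralLinearGroup ι F)}

/-- A transvection of `M` with rational centre has a rational parameter. -/
theorem llt (hC : CtxU hf F₀ M) (hR : RatU σ f F₀) (hcard : 13 ≤ Fintype.card ι)
    (hLL : LLs hf hR M) (a : ι → F₀) (ha0 : a ≠ 0) (ha : f0 hR a a = 0) (κ : F)
    (hκ : σ κ = -κ) (h : ut hf (up F₀ a) κ ∈ M) : κ ∈ F₀ := by
  classical
  haveI : Fintype F₀ := Fintype.ofFinite F₀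
  have hf0 := f0_unit hf hR
  have sw := fun x y => (eq_zero_comm hf0 x y).mp
  have z0 := fun x y => (f0_eq_zero hR x y).mp
  obtain ⟨b', hb', hab'⟩ := exists_partner hf0 a ha0 ha
  obtain ⟨y, b'', p1, p2, hy, hb'', hyb''⟩ :=
    hyp_fam hf0 (![a, b'] : Fin 2 → (ι → F₀)) (by omega)
  have hya : f0 hR y a = 0 := p1 0
  have hyb' : f0 hR y b' = 0 := p1 1
  have hb''a : f0 hR b'' a = 0 := p2 0
  have hay : f0 hR a y = 0 := sw _ _ hya
  have hab'' : f0 hR a b'' = 0 := sw _ _ hb''a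
  have hny : y ∉ Submodule.span F₀ {a} :=
    nspan_u hf0 (by rw [hyb'']; exact one_ne_zero) hab''
  have g1 : su hf (up F₀ y) (up F₀ b') ((1 : F₀) : F) ∈ M := hC.rsu y b' 1
  have g2 : su hf (up F₀ a) (up F₀ b'') ((-1 : F₀) : F) ∈ M := hC.rsu a b'' (-1)
  have e1 : ((su hf (up F₀ y) (up F₀ b') ((1 : F₀) : F) : Matrix.GeneralLinearGroup ι F) :
      Matrix ι ι F) *ᵥ up F₀ a = up F₀ (a + y) := by
    rw [su_up_mulVec hf hR y b' (z0 _ _ hy) (z0 _ _ hb') (z0 _ _ hyb'), hab', hay]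
    congr 1
    simp
  have e2 : ((su hf (up F₀ a) (up F₀ b'') ((-1 : F₀) : F) : Matrix.GeneralLinearGroup ι F) :
      Matrix ι ι F) *ᵥ up F₀ (a + y) = up F₀ y := by
    rw [su_up_mulVec hf hR a b'' (z0 _ _ ha) (z0 _ _ hb'') (z0 _ _ hab''), hf0.add_left,
      hf0.add_left, hab'', hyb'', ha, hya]
    congr 1
    simp
  have m1 := hC.conj_ut g1 h
  rw [e1] at m1
  have m2 := hC.conj_ut g2 m1
  rw [e2] at m2
  have m3 : su hf (up F₀ a) (up F₀ y) κ ∈ M := by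
    rw [su_eq_ut hf _ _ (z0 _ _ ha) (z0 _ _ hy) (z0 _ _ hay) κ hκ, ← up_add, ← ut_inv, ← ut_inv]
    exact M.mul_mem (M.mul_mem m1 (M.inv_mem h)) (M.inv_mem m2)
  exact hLL a y ha hy hay ha0 hny κ m3

/-- An element of `M` scaling a rational isotropic vector by `t` has `t σ(t)` rational. -/
theorem torus_norm (hC : CtxU hf F₀ M) (hR : RatU σ f F₀) (hcard : 13 ≤ Fintype.card ι)
    (hLL : LLs hf hR M) (b₀ : ι → F₀) (hb0 : b₀ ≠ 0) (hb : f0 hR b₀ b₀ = 0)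
    (h : Matrix.GeneralLinearGroup ι F) (hh : h ∈ M) (t : F)
    (ht : (h : Matrix ι ι F) *ᵥ up F₀ b₀ = t • up F₀ b₀) : t * σ t ∈ F₀ := by
  have hf0 := f0_unit hf hR
  have z0 := fun x y => (f0_eq_zero hR x y).mp
  obtain ⟨κ₀, hκ₀0, hκ₀⟩ := exists_skew_ne hf0
  have hκ : σ (κ₀ : F) = -(κ₀ : F) := by
    have := congrArg (fun x : F₀ => (x : F)) hκ₀
    simpa [sig0_coe] using this
  have m := hC.conj_ut hh (hC.rut b₀ κ₀)
  rw [ht, ut_smul hf _ (z0 _ _ hb) t _ hκ] at m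
  have hsk : σ ((κ₀ : F) * (t * σ t)) = -((κ₀ : F) * (t * σ t)) := by
    rw [map_mul, map_mul, hf.involutive, hκ]
    ring
  have h1 := llt hC hR hcard hLL b₀ hb0 hb _ hsk m
  have hκ' : (κ₀ : F) ≠ 0 := fun h => hκ₀0 (Subtype.ext h)
  have e : t * σ t = (κ₀ : F) * (t * σ t) / (κ₀ : F) := by
    field_simp
  rw [e]
  exact F₀.div_mem h1 κ₀.2

/-- The image under an element of `M` of a rational isotropic vector, when orthogonal to a
rational isotropic vector `b`, is a multiple of a rational vector modulo `b`. -/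
theorem perp_ratU (hC : CtxU hf F₀ M) (hR : RatU σ f F₀) (hcard : 13 ≤ Fintype.card ι)
    (hLL : LLs hf hR M)
    (hgen3 : ∀ β γ : F, β ∉ F₀ → γ ≠ 0 → Subgroup.closure
      ({S : SL(2, F) | ∃ s ∈ F₀, ∃ s' ∈ F₀, S = u (s + s' * β)} ∪
        {S : SL(2, F) | ∃ s ∈ F₀, S = l (γ * s)}) = ⊤)
    (hnt : ∃ t : F, t * σ t ∉ F₀)
    (b₀ : ι → F₀) (hb0 : b₀ ≠ 0) (hb : f0 hR b₀ b₀ = 0)
    (g : Matrix.GeneralLinearGroup ι F) (hg : g ∈ M) (u₀ : ι → F₀) (hu0 : u₀ ≠ 0)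
    (hu : f0 hR u₀ u₀ = 0)
    (hperp : f ((g : Matrix ι ι F) *ᵥ up F₀ u₀) (up F₀ b₀) = 0) :
    ∃ (c : F) (v₀ : ι → F₀) (lam : F),
      (g : Matrix ι ι F) *ᵥ up F₀ u₀ = c • up F₀ v₀ + lam • up F₀ b₀ := by
  classical
  haveI : Fintype F₀ := Fintype.ofFinite F₀
  have hf0 := f0_unit hf hR
  have sw := fun x y => (eq_zero_comm hf0 x y).mp
  have z0 := fun x y => (f0_eq_zero hR x y).mp
  have hBB : f (up F₀ b₀) (up F₀ b₀) = 0 := z0 _ _ hb
  have hgiso := hC.iso g hg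
  obtain ⟨z, hzdef⟩ : ∃ z : ι → F, z = (g : Matrix ι ι F) *ᵥ up F₀ u₀ := ⟨_, rfl⟩
  rw [← hzdef] at hperp ⊢
  have hzz : f z z = 0 := by rw [hzdef, hgiso]; exact z0 _ _ hu
  have hperp' : f (up F₀ b₀) z = 0 := (eq_zero_comm hf _ _).mp hperp
  -- every rational vector orthogonal to `b₀` is a sum of two isotropic ones
  have hdec : ∀ (c₀ : ι → F₀) (x : ι → F₀), f0 hR x c₀ = 0 → ∃ y1 y2 : ι → F₀,
      f0 hR y1 c₀ = 0 ∧ f0 hR y2 c₀ = 0 ∧ f0 hR y1 y1 = 0 ∧ f0 hR y2 y2 = 0 ∧ x = y1 + y2 := by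
    intro c₀ x hx
    obtain ⟨y1, y2, q1, q2, h1, h2, hxy⟩ :=
      iso_sum_fam hf0 (![c₀] : Fin 1 → (ι → F₀)) (by omega) x (fun i => by
        fin_cases i
        exact hx)
    exact ⟨y1, y2, q1 0, q2 0, h1, h2, hxy⟩
  by_cases hA : ∃ w₁ : ι → F₀, f0 hR w₁ w₁ = 0 ∧ f0 hR w₁ b₀ = 0 ∧ f z (up F₀ w₁) ≠ 0 ∧
      ∃ w₂ : ι → F₀, f0 hR w₂ w₂ = 0 ∧ f0 hR w₂ b₀ = 0 ∧
        f z (up F₀ w₂) / f z (up F₀ w₁) ∉ F₀
  swap
  · push Not at hA
    by_cases hB : ∃ w₁ : ι → F₀, f0 hR w₁ w₁ = 0 ∧ f0 hR w₁ b₀ = 0 ∧ f z (up F₀ w₁) ≠ 0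
    · obtain ⟨w₁, hw₁, hw₁b, hν⟩ := hB
      obtain ⟨z₀, lam, hz₀⟩ := rat_modU hf hR b₀ hb0 ((f z (up F₀ w₁))⁻¹ • z) (by
        intro x hx
        obtain ⟨y1, y2, q1, q2, h1, h2, hxy⟩ := hdec b₀ x hx
        rw [hxy, up_add, add_right hf, hf.smul_left, hf.smul_left, ← div_eq_inv_mul,
          ← div_eq_inv_mul]
        exact F₀.add_mem (hA w₁ hw₁ hw₁b hν y1 h1 q1) (hA w₁ hw₁ hw₁b hν y2 h2 q2))
      refine ⟨f z (up F₀ w₁), z₀, f z (up F₀ w₁) * lam, ?_⟩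
      have e1 : z = f z (up F₀ w₁) • ((f z (up F₀ w₁))⁻¹ • z) := by
        rw [smul_smul, mul_inv_cancel₀ hν, one_smul]
      rw [hz₀, smul_add, smul_smul] at e1
      exact e1
    · push Not at hB
      obtain ⟨lam, hlam⟩ := rat_mod0U hf hR b₀ hb0 z (by
        intro x hx
        obtain ⟨y1, y2, q1, q2, h1, h2, hxy⟩ := hdec b₀ x hx
        rw [hxy, up_add, add_right hf, hB y1 h1 q1, hB y2 h2 q2, add_zero])
      refine ⟨0, 0, lam, ?_⟩
      rw [hlam]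
      simp
  · exfalso
    obtain ⟨w₁, hw₁, hw₁b, hν₁, w₂, hw₂, hw₂b, hβ⟩ := hA
    obtain ⟨ν₁, hν₁def⟩ : ∃ ν₁ : F, ν₁ = f z (up F₀ w₁) := ⟨_, rfl⟩
    obtain ⟨ν₂, hν₂def⟩ : ∃ ν₂ : F, ν₂ = f z (up F₀ w₂) := ⟨_, rfl⟩
    rw [← hν₁def] at hν₁
    rw [← hν₁def, ← hν₂def] at hβ
    have ginv : ∀ y : ι → F, (g : Matrix ι ι F) *ᵥ
        (((g⁻¹ : Matrix.GeneralLinearGroup ι F) : Matrix ι ι F) *ᵥ y) = y :=
      fun y => gl_mulVec_inv g y
    obtain ⟨s₁, hs₁, hs₁u, hγ⟩ : ∃ s₁ : ι → F₀, f0 hR s₁ s₁ = 0 ∧ f0 hR s₁ u₀ = 0 ∧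
        f (up F₀ b₀) ((g : Matrix ι ι F) *ᵥ up F₀ s₁) ≠ 0 := by
      by_contra hcon
      push Not at hcon
      obtain ⟨lam, hlam⟩ := rat_mod0U hf hR u₀ hu0
        (((g⁻¹ : Matrix.GeneralLinearGroup ι F) : Matrix ι ι F) *ᵥ up F₀ b₀) (by
          intro x hx
          obtain ⟨y1, y2, q1, q2, h1, h2, hxy⟩ := hdec u₀ x hx
          have key : ∀ y : ι → F₀, f0 hR y y = 0 → f0 hR y u₀ = 0 →
              f (((g⁻¹ : Matrix.GeneralLinearGroup ι F) : Matrix ι ι F) *ᵥ up F₀ b₀)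
                (up F₀ y) = 0 := by
            intro y hy hyu
            have h1 := hgiso
              (((g⁻¹ : Matrix.GeneralLinearGroup ι F) : Matrix ι ι F) *ᵥ up F₀ b₀) (up F₀ y)
            rw [ginv] at h1
            rw [← h1]
            exact hcon y hy hyu
          rw [hxy, up_add, add_right hf, key y1 h1 q1, key y2 h2 q2, add_zero])
      have e1 : up F₀ b₀ = lam • z := by
        have h1 := congrArg (fun y => (g : Matrix ι ι F) *ᵥ y) hlam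
        simp only [ginv, Matrix.mulVec_smul] at h1
        rw [hzdef]
        exact h1
      have hlam0 : lam ≠ 0 := by
        intro h0
        rw [h0, zero_smul] at e1
        exact hb0 ((up_eq_zero F₀ b₀).mp e1)
      have h0 : f (up F₀ b₀) (up F₀ w₁) = 0 := z0 _ _ (sw _ _ hw₁b)
      rw [e1, hf.smul_left] at h0
      apply hν₁
      rw [hν₁def]
      exact (mul_eq_zero.mp h0).resolve_left hlam0
    obtain ⟨y, hydef⟩ : ∃ y : ι → F, y = (g : Matrix ι ι F) *ᵥ up F₀ s₁ := ⟨_, rfl⟩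
    obtain ⟨γ, hγdef⟩ : ∃ γ : F, γ = f (up F₀ b₀) y := ⟨_, rfl⟩
    rw [← hydef] at hγ
    rw [← hγdef] at hγ
    have hzy : f z y = 0 := by
      rw [hzdef, hydef, hgiso]
      exact z0 _ _ (sw _ _ hs₁u)
    have hyy : f y y = 0 := by
      rw [hydef, hgiso]
      exact z0 _ _ hs₁
    obtain ⟨z', hz'def⟩ : ∃ z' : ι → F, z' = ν₁⁻¹ • z := ⟨_, rfl⟩
    have hW₁ : f (up F₀ w₁) (up F₀ w₁) = 0 := z0 _ _ hw₁
    have hW₂ : f (up F₀ w₂) (up F₀ w₂) = 0 := z0 _ _ hw₂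
    have hBW₁ : f (up F₀ b₀) (up F₀ w₁) = 0 := z0 _ _ (sw _ _ hw₁b)
    have hBW₂ : f (up F₀ b₀) (up F₀ w₂) = 0 := z0 _ _ (sw _ _ hw₂b)
    have hgenS : ∀ S ∈ ({S : SL(2, F) | ∃ s ∈ F₀, ∃ s' ∈ F₀, S = u (s + s' * (ν₂ / ν₁))} ∪
        {S : SL(2, F) | ∃ s ∈ F₀, S = l (γ * ν₁ * s)}),
        ∃ h ∈ M, RelL (up F₀ b₀) z' S h := by
      rintro S (⟨s, hs, s', hs', rfl⟩ | ⟨s, hs, rfl⟩)
      · refine ⟨su hf (up F₀ b₀) (up F₀ w₁) s * su hf (up F₀ b₀) (up F₀ w₂) s',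
          M.mul_mem (hC.rsu b₀ w₁ ⟨s, hs⟩) (hC.rsu b₀ w₂ ⟨s', hs'⟩), ?_, ?_⟩
        · rw [Units.val_mul, ← Matrix.mulVec_mulVec, su_mulVec hf _ _ hBB hW₂ hBW₂,
            hBW₂, hBB]
          simp only [mul_zero, zero_smul, add_zero, sub_zero]
          rw [su_mulVec hf _ _ hBB hW₁ hBW₁, hBW₁, hBB, u00, u10]
          simp
        · rw [Units.val_mul, ← Matrix.mulVec_mulVec, su_mulVec hf _ _ hBB hW₂ hBW₂,
            Matrix.mulVec_sub, Matrix.mulVec_add, Matrix.mulVec_smul, Matrix.mulVec_smul,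
            su_mulVec hf _ _ hBB hW₁ hBW₁, su_mulVec hf _ _ hBB hW₁ hBW₁,
            su_mulVec hf _ _ hBB hW₁ hBW₁, hz'def]
          simp only [hf.smul_left, hperp, hBW₁, hBB, hBW₂, ← hν₁def, ← hν₂def, mul_zero,
            zero_smul, add_zero, sub_zero, u01, u11]
          have e : s' * (ν₁⁻¹ * ν₂) = s' * (ν₂ / ν₁) := by
            rw [div_eq_inv_mul]
          rw [e, inv_mul_cancel₀ hν₁]
          module
      · have m : su hf z y s ∈ M := by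
          have h1 := hC.conj_su hg (hC.rsu u₀ s₁ ⟨s, hs⟩)
          rw [← hzdef, ← hydef] at h1
          exact h1
        refine ⟨su hf z y s, m, ?_, ?_⟩
        · rw [su_mulVec hf _ _ hzz hyy hzy, hperp', ← hγdef, l00, l10, hz'def]
          simp only [mul_zero, zero_smul, add_zero, sub_zero, one_smul, smul_smul]
          have e : γ * ν₁ * s * ν₁⁻¹ = s * γ := by
            field_simp
          rw [e]
        · rw [su_mulVec hf _ _ hzz hyy hzy, hz'def, hf.smul_left, hf.smul_left, hzz, hzy,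
            l01, l11]
          simp
    have hgeninv : ∀ S ∈ ({S : SL(2, F) | ∃ s ∈ F₀, ∃ s' ∈ F₀, S = u (s + s' * (ν₂ / ν₁))} ∪
        {S : SL(2, F) | ∃ s ∈ F₀, S = l (γ * ν₁ * s)}),
        S⁻¹ ∈ ({S : SL(2, F) | ∃ s ∈ F₀, ∃ s' ∈ F₀, S = u (s + s' * (ν₂ / ν₁))} ∪
          {S : SL(2, F) | ∃ s ∈ F₀, S = l (γ * ν₁ * s)}) := by
      rintro S (⟨s, hs, s', hs', rfl⟩ | ⟨s, hs, rfl⟩)
      · left
        refine ⟨-s, F₀.neg_mem hs, -s', F₀.neg_mem hs', ?_⟩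
        rw [u_inv]
        congr 1
        ring
      · right
        refine ⟨-s, F₀.neg_mem hs, ?_⟩
        rw [l_inv]
        congr 1
        ring
    have hall : ∀ S : SL(2, F), ∃ h ∈ M, RelL (up F₀ b₀) z' S h := by
      intro S
      have hS : S ∈ Subgroup.closure
          ({S : SL(2, F) | ∃ s ∈ F₀, ∃ s' ∈ F₀, S = u (s + s' * (ν₂ / ν₁))} ∪
            {S : SL(2, F) | ∃ s ∈ F₀, S = l (γ * ν₁ * s)}) := by
        rw [hgen3 _ _ hβ (mul_ne_zero hγ hν₁)]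
        trivial
      induction hS using Subgroup.closure_induction'' with
      | mem x hx => exact hgenS x hx
      | inv_mem x hx => exact hgenS _ (hgeninv x hx)
      | one => exact ⟨1, M.one_mem, RelL.one _ _⟩
      | mul x y _ _ hx hy =>
        obtain ⟨h, hh, hr⟩ := hx
        obtain ⟨h', hh', hr'⟩ := hy
        exact ⟨h * h', M.mul_mem hh hh', RelL.mul hr hr'⟩
    obtain ⟨t, ht⟩ := hnt
    have ht0 : t ≠ 0 := by
      intro h
      apply ht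
      rw [h, zero_mul]
      exact F₀.zero_mem
    obtain ⟨h, hh, hr1, -⟩ := hall (d t ht0)
    rw [d00, d10, zero_smul, add_zero] at hr1
    exact ht (torus_norm hC hR hcard hLL b₀ hb0 hb h hh t hr1)

/-- The image under an element of `M` of a rational isotropic vector, when orthogonal to a
non-zero rational isotropic vector, is a multiple of a rational vector. -/
theorem perp_ratU' (hC : CtxU hf F₀ M) (hR : RatU σ f F₀) (hcard : 13 ≤ Fintype.card ι)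
    (hLL : LLs hf hR M)
    (hgen3 : ∀ β γ : F, β ∉ F₀ → γ ≠ 0 → Subgroup.closure
      ({S : SL(2, F) | ∃ s ∈ F₀, ∃ s' ∈ F₀, S = u (s + s' * β)} ∪
        {S : SL(2, F) | ∃ s ∈ F₀, S = l (γ * s)}) = ⊤)
    (hnt : ∃ t : F, t * σ t ∉ F₀)
    (b₀ : ι → F₀) (hb0 : b₀ ≠ 0) (hb : f0 hR b₀ b₀ = 0)
    (g : Matrix.GeneralLinearGroup ι F) (hg : g ∈ M) (u₀ : ι → F₀) (hu0 : u₀ ≠ 0)
    (hu : f0 hR u₀ u₀ = 0)
    (hperp : f ((g : Matrix ι ι F) *ᵥ up F₀ u₀) (up F₀ b₀) = 0) :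
    ∃ (c : F) (z₀ : ι → F₀), (g : Matrix ι ι F) *ᵥ up F₀ u₀ = c • up F₀ z₀ := by
  classical
  haveI : Fintype F₀ := Fintype.ofFinite F₀
  have hf0 := f0_unit hf hR
  have sw := fun x y => (eq_zero_comm hf0 x y).mp
  have z0 := fun x y => (f0_eq_zero hR x y).mp
  have o1 := fun x y => (f0_eq_one hR x y).mp
  obtain ⟨c, v₀, lam, hz⟩ :=
    perp_ratU hC hR hcard hLL hgen3 hnt b₀ hb0 hb g hg u₀ hu0 hu hperp
  obtain ⟨e, e', p1, p2, he, he', hee'⟩ :=
    hyp_fam hf0 (![b₀, v₀] : Fin 2 → (ι → F₀)) (by omega)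
  have heb : f0 hR e b₀ = 0 := p1 0
  have hev : f0 hR e v₀ = 0 := p1 1
  have he'b : f0 hR e' b₀ = 0 := p2 0
  have he'v : f0 hR e' v₀ = 0 := p2 1
  have e0 : e ≠ 0 := ne_zero_of_pair hf0 (by rw [hee']; exact one_ne_zero)
  have hperp2 : f ((g : Matrix ι ι F) *ᵥ up F₀ u₀) (up F₀ e) = 0 := by
    rw [hz, hf.add_left, hf.smul_left, hf.smul_left, z0 _ _ (sw _ _ hev), z0 _ _ (sw _ _ heb)]
    ring
  obtain ⟨c', v₁, lam', hz'⟩ :=
    perp_ratU hC hR hcard hLL hgen3 hnt e e0 he g hg u₀ hu0 hu hperp2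
  have h1 : f ((g : Matrix ι ι F) *ᵥ up F₀ u₀) (up F₀ e') = 0 := by
    rw [hz, hf.add_left, hf.smul_left, hf.smul_left, z0 _ _ (sw _ _ he'v),
      z0 _ _ (sw _ _ he'b)]
    ring
  rw [hz', hf.add_left, hf.smul_left, hf.smul_left, o1 _ _ hee'] at h1
  obtain ⟨β, hβ⟩ : ∃ β : F₀, β = f0 hR v₁ e' := ⟨_, rfl⟩
  have hβ' : f (up F₀ v₁) (up F₀ e') = (β : F) := by
    rw [← f0_coe hR, ← hβ]
  rw [hβ'] at h1
  refine ⟨c', v₁ - β • e, ?_⟩
  have hl : lam' = -(c' * (β : F)) := by linear_combination h1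
  rw [hz', up_sub, up_smul, hl]
  module

end Main

end Cfsg.Agent.Lib.Helper94.SfU4
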