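import Mathlib
import Cfsg.Prelude.Def_GeometricClasses
import Cfsg.Agent.Lib.Helper94.SfU4

/-!
# Overgroups of the unitary subfield group: rationality, general position (helper94)

* `fixK`, `fixK0` : the fixed field of the involution and its rational part.
* `mem_of_norms` : an element `ρ` all of whose norms `N(1 + c ρ)`, `c` rational, are rational is
  itself rational.
* `star_rat` : for a rational isotropic vector `b` and the image `L` under an element of `M` of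
  a rational totally isotropic line, the point of `L` orthogonal to `b` is spanned by rational
  vectors.
* `rat_genU` : the image under an element of `M` of a rational isotropic vector is a multiple of
  a rational vector.
-/

set_option autoImplicit false
set_option linter.unusedSimpArgs false

namespace Cfsg.Agent.Lib.Helper94.SfU5

open scoped Matrix MatrixGroups
open Module
open Cfsg.Agent.Lib.Helper94.Basic Cfsg.Agent.Lib.Helper94.GLAux Cfsg.Agent.Lib.Helper94.Tv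
  Cfsg.Agent.Lib.Helper94.UnitAbs Cfsg.Agent.Lib.Helper94.UnitGen
  Cfsg.Agent.Lib.Helper94.UnitRoot Cfsg.Agent.Lib.Helper94.SubfieldRat
  Cfsg.Agent.Lib.Helper94.SfU1 Cfsg.Agent.Lib.Helper94.SfU2 Cfsg.Agent.Lib.Helper94.SfU4
open Cfsg.Agent.Lib.Helper98.SL2Sub

section Fix

variable {F : Type*} [Field F]

/-- The fixed field of a ring automorphism. -/
def fixK (σ : F ≃+* F) : Subfield F where
  carrier := {x | σ x = x}
  mul_mem' := by
    intro a b ha hb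
    have ha' : σ a = a := ha
    have hb' : σ b = b := hb
    show σ (a * b) = a * b
    rw [map_mul, ha', hb']
  one_mem' := map_one σ
  add_mem' := by
    intro a b ha hb
    have ha' : σ a = a := ha
    have hb' : σ b = b := hb
    show σ (a + b) = a + b
    rw [map_add, ha', hb']
  zero_mem' := map_zero σ
  neg_mem' := by
    intro a ha
    have ha' : σ a = a := ha
    show σ (-a) = -a
    rw [map_neg, ha']
  inv_mem' := by
    intro a ha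
    have ha' : σ a = a := ha
    show σ a⁻¹ = a⁻¹
    rw [map_inv₀, ha']

lemma mem_fixK (σ : F ≃+* F) (x : F) : x ∈ fixK σ ↔ σ x = x := Iff.rfl

/-- The rational part of the fixed field, as a subfield of the fixed field. -/
def fixK0 (σ : F ≃+* F) (F₀ : Subfield F) : Subfield ↥(fixK σ) :=
  F₀.comap (fixK σ).subtype

lemma mem_fixK0 (σ : F ≃+* F) (F₀ : Subfield F) (s : ↥(fixK σ)) :
    s ∈ fixK0 σ F₀ ↔ (s : F) ∈ F₀ := Iff.rfl

end Fix

section Aux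

variable {ι : Type} [Fintype ι] [DecidableEq ι] {F : Type*} [Field F]
variable {σ : F ≃+* F} {f : (ι → F) → (ι → F) → F} {F₀ : Subfield F}

/-- An element all of whose norms `N(1 + c ρ)`, `c` rational, are rational is rational. -/
lemma mem_of_norms (hf : Cfsg.Geo.IsUnitaryForm σ f) (hR : RatU σ f F₀) (ρ : F)
    (h : ∀ c ∈ F₀, (1 + c * ρ) * σ (1 + c * ρ) ∈ F₀) : ρ ∈ F₀ := by
  have hf0 := f0_unit hf hR
  obtain ⟨θ, hθ⟩ := exists_tr_ne hf0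
  have hθ' : (θ : F) + σ (θ : F) ≠ 0 := by
    intro h0
    apply hθ
    apply Subtype.ext
    rw [Subfield.coe_add, sig0_coe, h0]
    rfl
  have h1 := h 1 F₀.one_mem
  have h2 := h θ θ.2
  have h3 := h (θ + 1) (F₀.add_mem θ.2 F₀.one_mem)
  have hN : ((θ : F) + σ θ) * (ρ * σ ρ) ∈ F₀ := by
    have e : ((θ : F) + σ θ) * (ρ * σ ρ) = (1 + ((θ : F) + 1) * ρ) * σ (1 + ((θ : F) + 1) * ρ)
        - (1 + (θ : F) * ρ) * σ (1 + (θ : F) * ρ) - (1 + 1 * ρ) * σ (1 + 1 * ρ) + 1 := by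
      simp only [map_add, map_mul, map_one]
      ring
    rw [e]
    exact F₀.add_mem (F₀.sub_mem (F₀.sub_mem h3 h2) h1) F₀.one_mem
  have hθm : (θ : F) + σ θ ∈ F₀ := F₀.add_mem θ.2 (hR.stab _ θ.2)
  have hNρ : ρ * σ ρ ∈ F₀ := by
    have e : ρ * σ ρ = ((θ : F) + σ θ) * (ρ * σ ρ) / ((θ : F) + σ θ) := by
      field_simp
    rw [e]
    exact F₀.div_mem hN hθm
  have hT : ∀ c ∈ F₀, c * ρ + σ c * σ ρ ∈ F₀ := by
    intro c hc
    have e : c * ρ + σ c * σ ρ = (1 + c * ρ) * σ (1 + c * ρ) - 1 - c * σ c * (ρ * σ ρ) := by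
      simp only [map_add, map_mul, map_one]
      ring
    rw [e]
    exact F₀.sub_mem (F₀.sub_mem (h c hc) F₀.one_mem)
      (F₀.mul_mem (F₀.mul_mem hc (hR.stab c hc)) hNρ)
  obtain ⟨θ₂, hθ₂, hne⟩ := hR.ne
  have t1 := hT 1 F₀.one_mem
  have t2 := hT θ₂ hθ₂
  have hd : σ θ₂ - θ₂ ≠ 0 := sub_ne_zero.mpr hne
  have h5 : (σ θ₂ - θ₂) * ρ ∈ F₀ := by
    have e : (σ θ₂ - θ₂) * ρ = σ θ₂ * (1 * ρ + σ 1 * σ ρ) - (θ₂ * ρ + σ θ₂ * σ ρ) := by
      rw [map_one]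
      ring
    rw [e]
    exact F₀.sub_mem (F₀.mul_mem (hR.stab _ hθ₂) t1) t2
  have e : ρ = (σ θ₂ - θ₂) * ρ / (σ θ₂ - θ₂) := by
    field_simp
  rw [e]
  exact F₀.div_mem h5 (F₀.sub_mem (hR.stab _ hθ₂) hθ₂)

/-- The action of an element of `GL` on the span of three vectors modulo the third, given by an
element of `SL₂` over a subfield. -/
def RelK (K : Subfield F) (z b bs : ι → F) (S : SL(2, ↥K))
    (h : Matrix.GeneralLinearGroup ι F) : Prop :=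
  (∃ ν : F, (h : Matrix ι ι F) *ᵥ z
      = ((S.1 0 0 : ↥K) : F) • z + ((S.1 1 0 : ↥K) : F) • b + ν • bs) ∧
  (∃ ν : F, (h : Matrix ι ι F) *ᵥ b
      = ((S.1 0 1 : ↥K) : F) • z + ((S.1 1 1 : ↥K) : F) • b + ν • bs) ∧
  (h : Matrix ι ι F) *ᵥ bs = bs

lemma RelK.one (K : Subfield F) (z b bs : ι → F) : RelK K z b bs 1 1 := by
  refine ⟨⟨0, ?_⟩, ⟨0, ?_⟩, ?_⟩
  · rw [one00, one10]
    simp
  · rw [one01, one11]
    simp
  · simp

lemma RelK.mul {K : Subfield F} {z b bs : ι → F} {S S' : SL(2, ↥K)}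
    {h h' : Matrix.GeneralLinearGroup ι F}
    (h1 : RelK K z b bs S h) (h2 : RelK K z b bs S' h') : RelK K z b bs (S * S') (h * h') := by
  obtain ⟨⟨ν1, a1⟩, ⟨ν2, a2⟩, a3⟩ := h1
  obtain ⟨⟨μ1, b1⟩, ⟨μ2, b2⟩, b3⟩ := h2
  refine ⟨⟨((S'.1 0 0 : ↥K) : F) * ν1 + ((S'.1 1 0 : ↥K) : F) * ν2 + μ1, ?_⟩,
    ⟨((S'.1 0 1 : ↥K) : F) * ν1 + ((S'.1 1 1 : ↥K) : F) * ν2 + μ2, ?_⟩, ?_⟩
  · rw [Units.val_mul, ← Matrix.mulVec_mulVec, b1, Matrix.mulVec_add, Matrix.mulVec_add,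
      Matrix.mulVec_smul, Matrix.mulVec_smul, Matrix.mulVec_smul, a1, a2, a3, mul00, mul10]
    push_cast
    module
  · rw [Units.val_mul, ← Matrix.mulVec_mulVec, b2, Matrix.mulVec_add, Matrix.mulVec_add,
      Matrix.mulVec_smul, Matrix.mulVec_smul, Matrix.mulVec_smul, a1, a2, a3, mul01, mul11]
    push_cast
    module
  · rw [Units.val_mul, ← Matrix.mulVec_mulVec, b3, a3]

end Aux

section Main

variable {ι : Type} [Fintype ι] [DecidableEq ι] {F : Type*} [Field F] [Fintype F]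
variable {σ : F ≃+* F} {f : (ι → F) → (ι → F) → F} {F₀ : Subfield F}
variable {hf : Cfsg.Geo.IsUnitaryForm σ f}
variable {M : Subgroup (Matrix.GeneralLinearGroup ι F)}

/-- For a rational isotropic vector `b` and the image under `g ∈ M` of a rational totally
isotropic pair, the point of the image line orthogonal to `b` is spanned by rational vectors. -/
theorem star_rat (hC : CtxU hf F₀ M) (hR : RatU σ f F₀) (hcard : 13 ≤ Fintype.card ι)
    (hLL : LLs hf hR M)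
    (hgen3 : ∀ β γ : F, β ∉ F₀ → γ ≠ 0 → Subgroup.closure
      ({S : SL(2, F) | ∃ s ∈ F₀, ∃ s' ∈ F₀, S = u (s + s' * β)} ∪
        {S : SL(2, F) | ∃ s ∈ F₀, S = l (γ * s)}) = ⊤)
    (hnt : ∃ t : F, t * σ t ∉ F₀)
    (hgen3K : ∀ β γ : ↥(fixK σ), β ∉ fixK0 σ F₀ → γ ≠ 0 → Subgroup.closure
      ({S : SL(2, ↥(fixK σ)) | ∃ s ∈ fixK0 σ F₀, ∃ s' ∈ fixK0 σ F₀, S = u (s + s' * β)} ∪
        {S : SL(2, ↥(fixK σ)) | ∃ s ∈ fixK0 σ F₀, S = l (γ * s)}) = ⊤)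
    (hsq : ∀ x : F, x ^ 2 ∈ F₀ → x ∈ F₀) (hKnt : ∃ t : F, σ t = t ∧ t ∉ F₀)
    (b : ι → F₀) (hb0 : b ≠ 0) (hb : f0 hR b b = 0)
    (g : Matrix.GeneralLinearGroup ι F) (hg : g ∈ M) (u₁ s₁ : ι → F₀)
    (hu : f0 hR u₁ u₁ = 0) (hs : f0 hR s₁ s₁ = 0) (hus : f0 hR u₁ s₁ = 0)
    (hα : f (up F₀ b) ((g : Matrix ι ι F) *ᵥ up F₀ u₁) ≠ 0) :
    ∃ (c₁ : F) (v₁ : ι → F₀) (c₂ : F),
      (g : Matrix ι ι F) *ᵥ up F₀ s₁
        - σ (f (up F₀ b) ((g : Matrix ι ι F) *ᵥ up F₀ s₁)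
            / f (up F₀ b) ((g : Matrix ι ι F) *ᵥ up F₀ u₁)) • ((g : Matrix ι ι F) *ᵥ up F₀ u₁)
        = c₁ • up F₀ v₁ + c₂ • up F₀ b := by
  classical
  haveI : Fintype F₀ := Fintype.ofFinite F₀
  have hf0 := f0_unit hf hR
  have sw := fun x y => (eq_zero_comm hf0 x y).mp
  have z0 := fun x y => (f0_eq_zero hR x y).mp
  have hgiso := hC.iso g hg
  have hBB : f (up F₀ b) (up F₀ b) = 0 := z0 _ _ hb
  obtain ⟨z, hzdef⟩ : ∃ z : ι → F, z = (g : Matrix ι ι F) *ᵥ up F₀ u₁ := ⟨_, rfl⟩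
  obtain ⟨y, hydef⟩ : ∃ y : ι → F, y = (g : Matrix ι ι F) *ᵥ up F₀ s₁ := ⟨_, rfl⟩
  rw [← hzdef] at hα
  rw [← hzdef, ← hydef]
  obtain ⟨α, hαdef⟩ : ∃ α : F, α = f (up F₀ b) z := ⟨_, rfl⟩
  rw [← hαdef] at hα
  rw [← hαdef]
  obtain ⟨ρ, hρdef⟩ : ∃ ρ : F, ρ = f (up F₀ b) y / α := ⟨_, rfl⟩
  rw [← hρdef]
  have hBy : f (up F₀ b) y = ρ * α := by rw [hρdef, div_mul_cancel₀ _ hα]
  have hzz : f z z = 0 := by rw [hzdef, hgiso]; exact z0 _ _ hu
  have hyy : f y y = 0 := by rw [hydef, hgiso]; exact z0 _ _ hs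
  have hzy : f z y = 0 := by rw [hzdef, hydef, hgiso]; exact z0 _ _ hus
  have hyz : f y z = 0 := (eq_zero_comm hf _ _).mp hzy
  have hzB : f z (up F₀ b) = σ α := by rw [hαdef, herm' hf]
  obtain ⟨bs, hbsdef⟩ : ∃ bs : ι → F, bs = y - σ ρ • z := ⟨_, rfl⟩
  rw [← hbsdef]
  have hBbs : f (up F₀ b) bs = 0 := by
    rw [hbsdef, sub_right hf, smul_right hf, hf.involutive, ← hαdef, hBy, sub_self]
  have hbsB : f bs (up F₀ b) = 0 := (eq_zero_comm hf _ _).mp hBbs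
  have hbsz : f bs z = 0 := by
    rw [hbsdef, sub_left hf, hf.smul_left, hyz, hzz]
    ring
  have hbsy : f bs y = 0 := by
    rw [hbsdef, sub_left hf, hf.smul_left, hyy, hzy]
    ring
  by_cases hρ : ρ ∈ F₀
  · -- the rational case
    obtain ⟨x₀, hx₀⟩ : ∃ x₀ : ι → F₀, x₀ = s₁ - sig0 hf hR ⟨ρ, hρ⟩ • u₁ := ⟨_, rfl⟩
    have hgx : (g : Matrix ι ι F) *ᵥ up F₀ x₀ = bs := by
      rw [hx₀, up_sub, up_smul, Matrix.mulVec_sub, Matrix.mulVec_smul, ← hzdef, ← hydef, hbsdef]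
      rfl
    by_cases hx0 : x₀ = 0
    · refine ⟨0, 0, 0, ?_⟩
      rw [← hgx, hx0, up_zero, Matrix.mulVec_zero]
      simp
    · have hxx : f0 hR x₀ x₀ = 0 := by
        rw [hx₀]
        simp only [sub_left hf0, sub_right hf0, hf0.smul_left, smul_right hf0, hu, hs, hus,
          sw _ _ hus, mul_zero, sub_zero]
      obtain ⟨c, z₀, hz₀⟩ := perp_ratU' hC hR hcard hLL hgen3 hnt b hb0 hb g hg x₀ hx0 hxx
        (by rw [hgx]; exact hbsB)
      refine ⟨c, z₀, 0, ?_⟩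
      rw [← hgx, hz₀]
      simp
  · -- the irrational case
    obtain ⟨c, hc, hβ⟩ : ∃ c ∈ F₀, (1 + c * ρ) * σ (1 + c * ρ) ∉ F₀ := by
      by_contra hcon
      push Not at hcon
      exact hρ (mem_of_norms hf hR ρ hcon)
    obtain ⟨κ₁, hκ₁0, hκ₁⟩ := exists_skew_ne hf0
    have hκ : σ (κ₁ : F) = -(κ₁ : F) := by
      have := congrArg (fun x : F₀ => (x : F)) hκ₁
      simpa [sig0_coe] using this
    have hκ' : (κ₁ : F) ≠ 0 := fun h => hκ₁0 (Subtype.ext h)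
    obtain ⟨z'', hz''⟩ : ∃ z'' : ι → F, z'' = ((κ₁ : F) * α) • z := ⟨_, rfl⟩
    obtain ⟨βK, hβK⟩ : ∃ βK : ↥(fixK σ), (βK : F) = (1 + c * ρ) * σ (1 + c * ρ) :=
      ⟨⟨(1 + c * ρ) * σ (1 + c * ρ), by
        rw [mem_fixK, map_mul, hf.involutive]
        ring⟩, rfl⟩
    obtain ⟨γK, hγK⟩ : ∃ γK : ↥(fixK σ), (γK : F) = (κ₁ : F) ^ 2 * (α * σ α) :=
      ⟨⟨(κ₁ : F) ^ 2 * (α * σ α), by
        rw [mem_fixK, map_mul, map_mul, map_pow, hf.involutive, hκ]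
        ring⟩, rfl⟩
    have hγK0 : γK ≠ 0 := by
      intro h0
      have h1 := congrArg (fun x : ↥(fixK σ) => (x : F)) h0
      simp only [hγK] at h1
      have hσα : σ α ≠ 0 := by
        intro h
        apply hα
        have := congrArg σ h
        rwa [hf.involutive, map_zero] at this
      exact (mul_ne_zero (pow_ne_zero 2 hκ') (mul_ne_zero hα hσα)) h1
    have hβK' : βK ∉ fixK0 σ F₀ := by
      rw [mem_fixK0, hβK]
      exact hβ
    -- the upper generators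
    have hU : ∀ c' ∈ F₀, ∀ s : ↥(fixK σ), (s : F) ∈ F₀ → ∀ βc : ↥(fixK σ),
        (βc : F) = (1 + c' * ρ) * σ (1 + c' * ρ) →
        ∃ h ∈ M, RelK (fixK σ) z'' (up F₀ b) bs (u (s * βc)) h := by
      intro c' hc' s hs βc hβc
      obtain ⟨zc, hzc⟩ : ∃ zc : ι → F, zc = z + σ c' • y := ⟨_, rfl⟩
      have hsfix : σ (s : F) = (s : F) := s.2
      have hm : ut hf zc ((s : F) * (κ₁ : F)) ∈ M := by
        have h1 := hC.conj_ut hg (hC.rut (u₁ + sig0 hf hR ⟨c', hc'⟩ • s₁)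
          ⟨(s : F) * (κ₁ : F), F₀.mul_mem hs κ₁.2⟩)
        rw [up_add, up_smul, Matrix.mulVec_add, Matrix.mulVec_smul, ← hzdef, ← hydef] at h1
        rw [hzc]
        exact h1
      have hzczc : f zc zc = 0 := by
        rw [hzc]
        simp only [hf.add_left, add_right hf, hf.smul_left, smul_right hf, hzz, hyy, hzy, hyz,
          mul_zero, add_zero]
      have hsk : σ ((s : F) * (κ₁ : F)) = -((s : F) * (κ₁ : F)) := by
        rw [map_mul, hκ, hsfix]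
        ring
      have e_zc : zc = σ (1 + c' * ρ) • z + σ c' • bs := by
        rw [hzc, hbsdef, map_add, map_mul, map_one]
        module
      have h1 : f z'' zc = 0 := by
        rw [hz'', hzc, hf.smul_left, add_right hf, smul_right hf, hzz, hzy]
        ring
      have h2 : f (up F₀ b) zc = α * (1 + c' * ρ) := by
        rw [hzc, add_right hf, smul_right hf, hf.involutive, ← hαdef, hBy]
        ring
      have h3 : f bs zc = 0 := by
        rw [hzc, add_right hf, smul_right hf, hbsz, hbsy]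
        ring
      refine ⟨ut hf zc ((s : F) * (κ₁ : F)), hm, ⟨0, ?_⟩,
        ⟨(s : F) * (κ₁ : F) * (α * (1 + c' * ρ)) * σ c', ?_⟩, ?_⟩
      · rw [ut_mulVec hf _ _ hzczc hsk, h1, u00, u10]
        simp
      · rw [ut_mulVec hf _ _ hzczc hsk, h2, u01, u11, e_zc, hz'']
        push_cast
        rw [hβc]
        module
      · rw [ut_mulVec hf _ _ hzczc hsk, h3]
        simp
    have hgenS : ∀ S ∈ ({S : SL(2, ↥(fixK σ)) | ∃ s ∈ fixK0 σ F₀, ∃ s' ∈ fixK0 σ F₀,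
          S = u (s + s' * βK)} ∪
        {S : SL(2, ↥(fixK σ)) | ∃ s ∈ fixK0 σ F₀, S = l (γK * s)}),
        ∃ h ∈ M, RelK (fixK σ) z'' (up F₀ b) bs S h := by
      rintro S (⟨s, hs, s', hs', rfl⟩ | ⟨s, hs, rfl⟩)
      · obtain ⟨h₁, hh₁, r₁⟩ := hU 0 F₀.zero_mem s hs 1 (by simp)
        obtain ⟨h₂, hh₂, r₂⟩ := hU c hc s' hs' βK hβK
        have r := RelK.mul r₁ r₂
        rw [u_mul, mul_one] at r
        exact ⟨h₁ * h₂, M.mul_mem hh₁ hh₂, r⟩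
      · have hsfix : σ (s : F) = (s : F) := s.2
        have hs' : (s : F) ∈ F₀ := hs
        have hsk : σ ((s : F) * (κ₁ : F)) = -((s : F) * (κ₁ : F)) := by
          rw [map_mul, hκ, hsfix]
          ring
        have hm : ut hf (up F₀ b) ((s : F) * (κ₁ : F)) ∈ M :=
          hC.rut b ⟨(s : F) * (κ₁ : F), F₀.mul_mem hs' κ₁.2⟩
        have h1 : f z'' (up F₀ b) = (κ₁ : F) * α * σ α := by
          rw [hz'', hf.smul_left, hzB]
        refine ⟨ut hf (up F₀ b) ((s : F) * (κ₁ : F)), hm, ⟨0, ?_⟩, ⟨0, ?_⟩, ?_⟩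
        · rw [ut_mulVec hf _ _ hBB hsk, h1, l00, l10]
          push_cast
          rw [hγK]
          module
        · rw [ut_mulVec hf _ _ hBB hsk, hBB, l01, l11]
          simp
        · rw [ut_mulVec hf _ _ hBB hsk, hbsB]
          simp
    have hgeninv : ∀ S ∈ ({S : SL(2, ↥(fixK σ)) | ∃ s ∈ fixK0 σ F₀, ∃ s' ∈ fixK0 σ F₀,
          S = u (s + s' * βK)} ∪
        {S : SL(2, ↥(fixK σ)) | ∃ s ∈ fixK0 σ F₀, S = l (γK * s)}),
        S⁻¹ ∈ ({S : SL(2, ↥(fixK σ)) | ∃ s ∈ fixK0 σ F₀, ∃ s' ∈ fixK0 σ F₀,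
          S = u (s + s' * βK)} ∪
        {S : SL(2, ↥(fixK σ)) | ∃ s ∈ fixK0 σ F₀, S = l (γK * s)}) := by
      rintro S (⟨s, hs, s', hs', rfl⟩ | ⟨s, hs, rfl⟩)
      · left
        refine ⟨-s, (fixK0 σ F₀).neg_mem hs, -s', (fixK0 σ F₀).neg_mem hs', ?_⟩
        rw [u_inv]
        congr 1
        ring
      · right
        refine ⟨-s, (fixK0 σ F₀).neg_mem hs, ?_⟩
        rw [l_inv]
        congr 1
        ring
    have hall : ∀ S : SL(2, ↥(fixK σ)), ∃ h ∈ M, RelK (fixK σ) z'' (up F₀ b) bs S h := by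
      intro S
      have hS : S ∈ Subgroup.closure
          ({S : SL(2, ↥(fixK σ)) | ∃ s ∈ fixK0 σ F₀, ∃ s' ∈ fixK0 σ F₀,
            S = u (s + s' * βK)} ∪
          {S : SL(2, ↥(fixK σ)) | ∃ s ∈ fixK0 σ F₀, S = l (γK * s)}) := by
        rw [hgen3K βK γK hβK' hγK0]
        trivial
      induction hS using Subgroup.closure_induction'' with
      | mem x hx => exact hgenS x hx
      | inv_mem x hx => exact hgenS _ (hgeninv x hx)
      | one => exact ⟨1, M.one_mem, RelK.one _ _ _ _⟩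
      | mul x y _ _ hx hy =>
        obtain ⟨h, hh, hr⟩ := hx
        obtain ⟨h', hh', hr'⟩ := hy
        exact ⟨h * h', M.mul_mem hh hh', RelK.mul hr hr'⟩
    obtain ⟨t, htfix, ht⟩ := hKnt
    have ht0 : t ≠ 0 := fun h => ht (h ▸ F₀.zero_mem)
    have htK0 : (⟨t, htfix⟩ : ↥(fixK σ)) ≠ 0 := fun h => ht0 (congrArg Subtype.val h)
    obtain ⟨h, hh, -, ⟨ν, hr2⟩, -⟩ := hall (d (⟨t, htfix⟩ : ↥(fixK σ)) htK0)
    rw [d01, d11] at hr2
    push_cast at hr2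
    rw [zero_smul, zero_add] at hr2
    have ht' : t⁻¹ ∉ F₀ := by
      intro h
      apply ht
      have := F₀.inv_mem h
      rwa [inv_inv] at this
    by_cases hνbs : ν • bs = 0
    · exfalso
      rw [hνbs, add_zero] at hr2
      have h1 := torus_norm hC hR hcard hLL b hb0 hb h hh t⁻¹ hr2
      rw [map_inv₀, htfix] at h1
      apply ht'
      apply hsq
      rw [pow_two]
      exact h1
    · have hν : ν ≠ 0 := by
        intro h0
        apply hνbs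
        rw [h0, zero_smul]
      have hperp : f ((h : Matrix ι ι F) *ᵥ up F₀ b) (up F₀ b) = 0 := by
        rw [hr2, hf.add_left, hf.smul_left, hf.smul_left, hBB, hbsB]
        ring
      obtain ⟨c₀, v₀, lam, hres⟩ :=
        perp_ratU hC hR hcard hLL hgen3 hnt b hb0 hb h hh b hb0 hb hperp
      refine ⟨c₀ / ν, v₀, (lam - t⁻¹) / ν, ?_⟩
      have e : ν • bs = c₀ • up F₀ v₀ + (lam - t⁻¹) • up F₀ b := by
        have h1 := hr2.symm.trans hres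
        have h2 : ν • bs = (t⁻¹ • up F₀ b + ν • bs) - t⁻¹ • up F₀ b := by abel
        rw [h2, h1]
        module
      have e2 : bs = ν⁻¹ • (ν • bs) := by rw [smul_smul, inv_mul_cancel₀ hν, one_smul]
      rw [e2, e, smul_add, smul_smul, smul_smul, div_eq_inv_mul, div_eq_inv_mul]

/-- **Rationality**: the image under an element of `M` of a rational isotropic vector is a
multiple of a rational vector. -/
theorem rat_genU (hC : CtxU hf F₀ M) (hR : RatU σ f F₀) (hcard : 13 ≤ Fintype.card ι)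
    (hLL : LLs hf hR M)
    (hgen3 : ∀ β γ : F, β ∉ F₀ → γ ≠ 0 → Subgroup.closure
      ({S : SL(2, F) | ∃ s ∈ F₀, ∃ s' ∈ F₀, S = u (s + s' * β)} ∪
        {S : SL(2, F) | ∃ s ∈ F₀, S = l (γ * s)}) = ⊤)
    (hgen3K : ∀ β γ : ↥(fixK σ), β ∉ fixK0 σ F₀ → γ ≠ 0 → Subgroup.closure
      ({S : SL(2, ↥(fixK σ)) | ∃ s ∈ fixK0 σ F₀, ∃ s' ∈ fixK0 σ F₀, S = u (s + s' * β)} ∪
        {S : SL(2, ↥(fixK σ)) | ∃ s ∈ fixK0 σ F₀, S = l (γ * s)}) = ⊤)
    (hsq : ∀ x : F, x ^ 2 ∈ F₀ → x ∈ F₀) (hKnt : ∃ t : F, σ t = t ∧ t ∉ F₀)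
    (g : Matrix.GeneralLinearGroup ι F) (hg : g ∈ M) (u₀ : ι → F₀) (hu0 : u₀ ≠ 0)
    (hu : f0 hR u₀ u₀ = 0) :
    ∃ (c : F) (z₀ : ι → F₀), (g : Matrix ι ι F) *ᵥ up F₀ u₀ = c • up F₀ z₀ := by
  classical
  haveI : Fintype F₀ := Fintype.ofFinite F₀
  have hf0 := f0_unit hf hR
  have sw := fun x y => (eq_zero_comm hf0 x y).mp
  have z0 := fun x y => (f0_eq_zero hR x y).mp
  have o1 := fun x y => (f0_eq_one hR x y).mp
  have hnt : ∃ t : F, t * σ t ∉ F₀ := by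
    obtain ⟨t, htfix, ht⟩ := hKnt
    obtain ⟨c, hc⟩ := norm_surj hf t htfix
    exact ⟨c, by rw [hc]; exact ht⟩
  by_cases hex : ∃ b₀ : ι → F₀, b₀ ≠ 0 ∧ f0 hR b₀ b₀ = 0 ∧
      f ((g : Matrix ι ι F) *ᵥ up F₀ u₀) (up F₀ b₀) = 0
  · obtain ⟨b₀, hb0, hb, hperp⟩ := hex
    exact perp_ratU' hC hR hcard hLL hgen3 hnt b₀ hb0 hb g hg u₀ hu0 hu hperp
  exfalso
  push Not at hex
  obtain ⟨z, hzdef⟩ : ∃ z : ι → F, z = (g : Matrix ι ι F) *ᵥ up F₀ u₀ := ⟨_, rfl⟩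
  rw [← hzdef] at hex
  have hgiso := hC.iso g hg
  have ginj : ∀ x : ι → F, (g : Matrix ι ι F) *ᵥ x = 0 → x = 0 := by
    intro x hx
    apply gl_mulVec_injective g
    show (g : Matrix ι ι F) *ᵥ x = (g : Matrix ι ι F) *ᵥ 0
    rw [hx, Matrix.mulVec_zero]
  obtain ⟨e, e', p1, p2, he, he', hee'⟩ :=
    hyp_fam hf0 (![u₀] : Fin 1 → (ι → F₀)) (by omega)
  have heu : f0 hR e u₀ = 0 := p1 0
  have he'u : f0 hR e' u₀ = 0 := p2 0
  obtain ⟨y, hydef⟩ : ∃ y : ι → F, y = (g : Matrix ι ι F) *ᵥ up F₀ e := ⟨_, rfl⟩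
  have hBz : ∀ b : ι → F₀, b ≠ 0 → f0 hR b b = 0 → f (up F₀ b) z ≠ 0 := by
    intro b hb0 hb h
    exact hex b hb0 hb ((eq_zero_comm hf _ _).mp h)
  have star : ∀ b : ι → F₀, b ≠ 0 → f0 hR b b = 0 → ∃ (c₁ : F) (v₁ : ι → F₀) (c₂ : F),
      y - σ (f (up F₀ b) y / f (up F₀ b) z) • z = c₁ • up F₀ v₁ + c₂ • up F₀ b := by
    intro b hb0 hb
    have h := star_rat hC hR hcard hLL hgen3 hnt hgen3K hsq hKnt b hb0 hb g hg u₀ e hu he
      (sw _ _ heu) (by rw [← hzdef]; exact hBz b hb0 hb)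
    rw [← hzdef, ← hydef] at h
    exact h
  obtain ⟨ρ₁, hρ₁⟩ : ∃ ρ₁ : F, ρ₁ = f (up F₀ u₀) y / f (up F₀ u₀) z := ⟨_, rfl⟩
  obtain ⟨b₂, hb₂0, hb₂, hD⟩ : ∃ b₂ : ι → F₀, b₂ ≠ 0 ∧ f0 hR b₂ b₂ = 0 ∧
      f (up F₀ b₂) (y - σ ρ₁ • z) ≠ 0 := by
    by_contra hcon
    push Not at hcon
    have hs : ∀ s : ι → F₀, f0 hR s s = 0 → f (up F₀ s) (y - σ ρ₁ • z) = 0 := by
      intro s hs
      by_cases hs0 : s = 0
      · rw [hs0, up_zero, zero_left hf]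
      · exact hcon s hs0 hs
    have h0 : y - σ ρ₁ • z = 0 := by
      apply eq_zero_of_ratL hf F₀
      intro x
      obtain ⟨y1, y2, -, -, h1, h2, hx⟩ :=
        iso_sum_fam hf0 (Fin.elim0 : Fin 0 → (ι → F₀)) (by omega) x (fun i => i.elim0)
      rw [hx, up_add, hf.add_left, hs y1 h1, hs y2 h2, add_zero]
    have h1 : (g : Matrix ι ι F) *ᵥ (up F₀ e - σ ρ₁ • up F₀ u₀) = 0 := by
      rw [Matrix.mulVec_sub, Matrix.mulVec_smul, ← hydef, ← hzdef]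
      exact h0
    have h2 : up F₀ e - σ ρ₁ • up F₀ u₀ = 0 := ginj _ h1
    have h3 := congrArg (fun x => f x (up F₀ e')) h2
    simp only [sub_left hf, hf.smul_left, o1 _ _ hee', z0 _ _ (sw _ _ he'u), zero_left hf,
      mul_zero, sub_zero] at h3
    exact one_ne_zero h3
  obtain ⟨α₂, hα₂⟩ : ∃ α₂ : F, α₂ = f (up F₀ b₂) z := ⟨_, rfl⟩
  obtain ⟨ρ₂, hρ₂⟩ : ∃ ρ₂ : F, ρ₂ = f (up F₀ b₂) y / α₂ := ⟨_, rfl⟩
  have hα₂0 : α₂ ≠ 0 := by rw [hα₂]; exact hBz b₂ hb₂0 hb₂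
  obtain ⟨c₁, v₁, c₂, h₁⟩ := star u₀ hu0 hu
  obtain ⟨c₃, v₃, c₄, h₂⟩ := star b₂ hb₂0 hb₂
  rw [← hρ₁] at h₁
  rw [← hα₂, ← hρ₂] at h₂
  have hne : ρ₂ ≠ ρ₁ := by
    intro h
    apply hD
    rw [sub_right hf, smul_right hf, hf.involutive, ← hα₂, ← h, hρ₂, div_mul_cancel₀ _ hα₂0,
      sub_self]
  have hD' : σ ρ₂ - σ ρ₁ ≠ 0 := by
    intro h
    apply hne
    exact σ.injective (sub_eq_zero.mp h)
  have hDz : (σ ρ₂ - σ ρ₁) • z
      = c₁ • up F₀ v₁ + c₂ • up F₀ u₀ - c₃ • up F₀ v₃ - c₄ • up F₀ b₂ := by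
    have e1 : (σ ρ₂ - σ ρ₁) • z = (y - σ ρ₁ • z) - (y - σ ρ₂ • z) := by module
    rw [e1, h₁, h₂]
    module
  obtain ⟨b₃, hb₃0, hb₃, p3⟩ :=
    iso_perp_fam hf0 (![v₁, u₀, v₃, b₂] : Fin 4 → (ι → F₀)) (by omega)
  have q1 : f0 hR b₃ v₁ = 0 := p3 0
  have q2 : f0 hR b₃ u₀ = 0 := p3 1
  have q3 : f0 hR b₃ v₃ = 0 := p3 2
  have q4 : f0 hR b₃ b₂ = 0 := p3 3
  apply hex b₃ hb₃0 hb₃
  have h5 := congrArg (fun x => f x (up F₀ b₃)) hDz
  simp only [hf.smul_left, sub_left hf, hf.add_left, z0 _ _ (sw _ _ q1), z0 _ _ (sw _ _ q2),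
    z0 _ _ (sw _ _ q3), z0 _ _ (sw _ _ q4), mul_zero, sub_zero, add_zero] at h5
  exact (mul_eq_zero.mp h5).resolve_left hD'

end Main

end Cfsg.Agent.Lib.Helper94.SfU5
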