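import Mathlib
import Cfsg.Prelude.Def_GeometricClasses
import Cfsg.Agent.Lib.Helper94.SfU3
import Cfsg.Agent.Lib.Helper94.SfU5
import Cfsg.Agent.Lib.Helper94.SfLin1
import Cfsg.Agent.Lib.Helper94.SfLin3
import Cfsg.Agent.Lib.Helper94.SubfieldSp
import Cfsg.Agent.Lib.Helper98.SL2Field

/-!
# Maximality of the unitary subfield group, odd degree (helper94)

* `card_fix_sq` : a field with a non-trivial involution has the square of the number of elements
  of the fixed field.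
* `mem_of_iso` : a matrix mapping every rational isotropic vector to a multiple of a rational
  vector is a scalar multiple of a rational matrix.
* `maximalU` : for a rational unitary form in at least 13 variables over a finite field `F` and
  a subfield `F₀` of odd prime index stable under the involution, the subfield group is maximal
  in the special unitary group.
-/

set_option autoImplicit false
set_option linter.unusedSimpArgs false

namespace Cfsg.Agent.Lib.Helper94.SfU6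

open scoped Matrix MatrixGroups
open Module
open Cfsg.Agent.Lib.Helper94.Basic Cfsg.Agent.Lib.Helper94.GLAux Cfsg.Agent.Lib.Helper94.Tv
  Cfsg.Agent.Lib.Helper94.UnitAbs Cfsg.Agent.Lib.Helper94.UnitGen
  Cfsg.Agent.Lib.Helper94.UnitRoot Cfsg.Agent.Lib.Helper94.SubfieldRat
  Cfsg.Agent.Lib.Helper94.SfU1 Cfsg.Agent.Lib.Helper94.SfU2 Cfsg.Agent.Lib.Helper94.SfU3
  Cfsg.Agent.Lib.Helper94.SfU4 Cfsg.Agent.Lib.Helper94.SfU5
open Cfsg.Agent.Lib.Helper94.SfLin1 (mem_of_cols)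
open Cfsg.Agent.Lib.Helper98.SL2Sub Cfsg.Agent.Lib.Helper98.SL2Field

section Card

variable {F : Type*} [Field F]

/-- A subfield stable under a non-trivial involution has the square of the number of elements of
its fixed subfield. -/
lemma card_fix_sq (σ : F ≃+* F) (hinv : ∀ x, σ (σ x) = x) (E : Subfield F)
    (hstab : ∀ c ∈ E, σ c ∈ E) (hne : ∃ c ∈ E, σ c ≠ c) :
    Nat.card E = Nat.card (E ⊓ fixK σ : Subfield F) ^ 2 := by
  obtain ⟨lam, hlamE, hlam⟩ := hne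
  have hd : lam - σ lam ≠ 0 := fun h => hlam (sub_eq_zero.mp h).symm
  obtain ⟨φ, hφ⟩ : ∃ φ : ↥(E ⊓ fixK σ) × ↥(E ⊓ fixK σ) → ↥E,
      ∀ p, ((φ p : ↥E) : F) = (p.1 : F) + (p.2 : F) * lam :=
    ⟨fun p => ⟨(p.1 : F) + (p.2 : F) * lam,
      E.add_mem (Subfield.mem_inf.mp p.1.2).1 (E.mul_mem (Subfield.mem_inf.mp p.2.2).1 hlamE)⟩,
      fun p => rfl⟩
  have hfix : ∀ x : ↥(E ⊓ fixK σ), σ (x : F) = (x : F) := fun x => (Subfield.mem_inf.mp x.2).2
  have hbij : Function.Bijective φ := by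
    constructor
    · intro p q hpq
      have h1 := congrArg (fun x : ↥E => (x : F)) hpq
      simp only [hφ] at h1
      have h2 := congrArg σ h1
      simp only [map_add, map_mul, hfix] at h2
      have h3 : ((p.2 : F) - (q.2 : F)) * (lam - σ lam) = 0 := by
        linear_combination h1 - h2
      have h4 : (p.2 : F) = (q.2 : F) :=
        sub_eq_zero.mp ((mul_eq_zero.mp h3).resolve_right hd)
      have h5 : (p.1 : F) = (q.1 : F) := by
        rw [h4] at h1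
        exact add_right_cancel h1
      exact Prod.ext (Subtype.ext h5) (Subtype.ext h4)
    · intro x
      have hx := x.2
      obtain ⟨bb, hbb⟩ : ∃ bb : F, bb = ((x : F) - σ x) / (lam - σ lam) := ⟨_, rfl⟩
      have hbbE : bb ∈ E := by
        rw [hbb]
        exact E.div_mem (E.sub_mem hx (hstab _ hx)) (E.sub_mem hlamE (hstab _ hlamE))
      have hbbfix : σ bb = bb := by
        rw [hbb, map_div₀, map_sub, map_sub, hinv, hinv, ← neg_sub (x : F), ← neg_sub lam,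
          neg_div_neg_eq]
      have e1 : bb * (lam - σ lam) = (x : F) - σ x := by
        rw [hbb, div_mul_cancel₀ _ hd]
      have haE : (x : F) - bb * lam ∈ E := E.sub_mem hx (E.mul_mem hbbE hlamE)
      have hafix : σ ((x : F) - bb * lam) = (x : F) - bb * lam := by
        rw [map_sub, map_mul, hbbfix]
        linear_combination e1
      refine ⟨(⟨_, Subfield.mem_inf.mpr ⟨haE, hafix⟩⟩, ⟨bb, Subfield.mem_inf.mpr ⟨hbbE, hbbfix⟩⟩),
        ?_⟩
      apply Subtype.ext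
      rw [hφ]
      simp
  have h := Nat.card_congr (Equiv.ofBijective φ hbij)
  rw [Nat.card_prod] at h
  rw [← h, pow_two]

end Card

section Main

variable {ι : Type} [Fintype ι] [DecidableEq ι] {F : Type*} [Field F] [Fintype F]
variable {σ : F ≃+* F} {f : (ι → F) → (ι → F) → F} {F₀ : Subfield F}

omit [Fintype ι] [DecidableEq ι] [Fintype F] in
lemma scalar_memU (F₀ : Subfield F) (x z : ι → F₀) (c : F) (hx : x ≠ 0)
    (h : up F₀ x = c • up F₀ z) : c ∈ F₀ := by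
  obtain ⟨i, hi⟩ : ∃ i, x i ≠ 0 := by
    by_contra hc
    push Not at hc
    exact hx (funext hc)
  have hli : (x i : F) = c * (z i : F) := by
    have h1 := congrFun h i
    simpa using h1
  have hxi : (x i : F) ≠ 0 := fun h0 => hi (Subtype.ext h0)
  have hzi : (z i : F) ≠ 0 := by
    intro h0
    rw [h0, mul_zero] at hli
    exact hxi hli
  have e : c = (x i : F) / (z i : F) := by
    rw [hli]
    field_simp
  rw [e]
  exact F₀.div_mem (x i).2 (z i).2

/-- Two orthogonal rational isotropic vectors whose images are multiples of rational vectors: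
the multipliers agree up to a rational scalar. -/
lemma ratio_orthU (hf : Cfsg.Geo.IsUnitaryForm σ f) (hR : RatU σ f F₀)
    (g : Matrix.GeneralLinearGroup ι F)
    (hs : ∀ x : ι → F₀, x ≠ 0 → f0 hR x x = 0 →
      ∃ (c : F) (z₀ : ι → F₀), (g : Matrix ι ι F) *ᵥ up F₀ x = c • up F₀ z₀)
    (a b : ι → F₀) (ha0 : a ≠ 0) (ha : f0 hR a a = 0) (hb : f0 hR b b = 0)
    (hab : f0 hR a b = 0) (ca : F) (za : ι → F₀)
    (hga : (g : Matrix ι ι F) *ᵥ up F₀ a = ca • up F₀ za) :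
    ∃ z : ι → F₀, (g : Matrix ι ι F) *ᵥ up F₀ b = ca • up F₀ z := by
  classical
  have hf0 := f0_unit hf hR
  have ginj : ∀ x : ι → F, (g : Matrix ι ι F) *ᵥ x = 0 → x = 0 := by
    intro x hx
    apply gl_mulVec_injective g
    show (g : Matrix ι ι F) *ᵥ x = (g : Matrix ι ι F) *ᵥ 0
    rw [hx, Matrix.mulVec_zero]
  by_cases hba : b ∈ Submodule.span F₀ {a}
  · obtain ⟨μ, rfl⟩ := Submodule.mem_span_singleton.mp hba
    refine ⟨μ • za, ?_⟩
    rw [up_smul, Matrix.mulVec_smul, hga, up_smul]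
    module
  have hb0 : b ≠ 0 := fun h => hba (h ▸ Submodule.zero_mem _)
  have hab0 : a + b ≠ 0 := by
    intro h
    apply hba
    rw [Submodule.mem_span_singleton]
    exact ⟨-1, by rw [neg_one_smul]; exact (eq_neg_of_add_eq_zero_right h).symm⟩
  have hQab : f0 hR (a + b) (a + b) = 0 := by
    rw [hf0.add_left, add_right hf0, add_right hf0, ha, hb, hab, (eq_zero_comm hf0 _ _).mp hab]
    ring
  obtain ⟨cb, zb, hgb⟩ := hs b hb0 hb
  obtain ⟨c', z', hgab⟩ := hs (a + b) hab0 hQab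
  have hup : ∀ x : ι → F₀, x ≠ 0 → up F₀ x ≠ 0 := fun x hx h => hx ((up_eq_zero F₀ x).mp h)
  have hca0 : ca ≠ 0 := by
    intro h0
    rw [h0, zero_smul] at hga
    exact hup a ha0 (ginj _ hga)
  have hcb0 : cb ≠ 0 := by
    intro h0
    rw [h0, zero_smul] at hgb
    exact hup b hb0 (ginj _ hgb)
  have hza0 : za ≠ 0 := by
    intro h0
    rw [h0, up_zero, smul_zero] at hga
    exact hup a ha0 (ginj _ hga)
  have hzb0 : zb ≠ 0 := by
    intro h0
    rw [h0, up_zero, smul_zero] at hgb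
    exact hup b hb0 (ginj _ hgb)
  have n1 : zb ∉ Submodule.span F₀ {za} := by
    intro h
    obtain ⟨μ, hμ⟩ := Submodule.mem_span_singleton.mp h
    have e : (g : Matrix ι ι F) *ᵥ (up F₀ b - (cb * (μ : F) / ca) • up F₀ a) = 0 := by
      rw [Matrix.mulVec_sub, Matrix.mulVec_smul, hga, hgb, ← hμ, up_smul, smul_smul, smul_smul,
        div_mul_cancel₀ _ hca0, sub_self]
    have e2 : up F₀ b = (cb * (μ : F) / ca) • up F₀ a := sub_eq_zero.mp (ginj _ e)
    have hl := scalar_memU F₀ b a _ hb0 e2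
    apply hba
    rw [Submodule.mem_span_singleton]
    refine ⟨⟨_, hl⟩, ?_⟩
    apply up_injective F₀
    rw [up_smul, e2]
  have n2 : za ∉ Submodule.span F₀ {zb} := nspan_swap hza0 n1
  obtain ⟨t₁, ht₁, ht₁'⟩ := exists_perp_ne hf0 _ za n2
  obtain ⟨t₂, ht₂, ht₂'⟩ := exists_perp_ne hf0 _ zb n1
  have ht₁b := ht₁ zb (Submodule.mem_span_singleton_self zb)
  have ht₂a := ht₂ za (Submodule.mem_span_singleton_self za)
  have hsum : ca • up F₀ za + cb • up F₀ zb = c' • up F₀ z' := by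
    rw [← hga, ← hgb, ← hgab, up_add, Matrix.mulVec_add]
  have k1 := congrArg (fun x => f x (up F₀ t₁)) hsum
  have k2 := congrArg (fun x => f x (up F₀ t₂)) hsum
  simp only [hf.add_left, hf.smul_left, ← f0_coe hR] at k1 k2
  rw [ht₁b] at k1
  rw [ht₂a] at k2
  simp only [Subfield.coe_zero, mul_zero, add_zero, zero_add] at k1 k2
  obtain ⟨p, hp⟩ : ∃ p : F₀, p = f0 hR za t₁ := ⟨_, rfl⟩
  obtain ⟨p', hp'⟩ : ∃ p' : F₀, p' = f0 hR z' t₁ := ⟨_, rfl⟩
  obtain ⟨q, hq⟩ : ∃ q : F₀, q = f0 hR zb t₂ := ⟨_, rfl⟩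
  obtain ⟨q', hq'⟩ : ∃ q' : F₀, q' = f0 hR z' t₂ := ⟨_, rfl⟩
  rw [← hp, ← hp'] at k1
  rw [← hq, ← hq'] at k2
  have hp0 : (p : F) ≠ 0 := fun h => ht₁' (hp ▸ Subtype.ext h)
  have hq0 : (q : F) ≠ 0 := fun h => ht₂' (hq ▸ Subtype.ext h)
  have hp'0 : (p' : F) ≠ 0 := by
    intro h
    rw [h, mul_zero] at k1
    exact (mul_ne_zero hca0 hp0) k1
  obtain ⟨μ, hμ⟩ : ∃ μ : F₀, μ = p * q' / (p' * q) := ⟨_, rfl⟩
  have hcb : cb = ca * (μ : F) := by
    rw [hμ]
    push_cast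
    rw [eq_comm, mul_div_assoc', div_eq_iff (mul_ne_zero hp'0 hq0)]
    linear_combination (q' : F) * k1 - (p' : F) * k2
  refine ⟨μ • zb, ?_⟩
  rw [hgb, hcb, up_smul, smul_smul]

/-- A matrix mapping rational isotropic vectors to multiples of rational vectors is a scalar
multiple of a rational matrix. -/
theorem mem_of_iso (hf : Cfsg.Geo.IsUnitaryForm σ f) (hR : RatU σ f F₀)
    (hcard : 13 ≤ Fintype.card ι) (g : Matrix.GeneralLinearGroup ι F)
    (hs : ∀ x : ι → F₀, x ≠ 0 → f0 hR x x = 0 →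
      ∃ (c : F) (z₀ : ι → F₀), (g : Matrix ι ι F) *ᵥ up F₀ x = c • up F₀ z₀) :
    g ∈ (Phi F₀ (ι := ι)).range ⊔ Cfsg.Geo.scalars ι F := by
  classical
  haveI : Fintype F₀ := Fintype.ofFinite F₀
  have hf0 := f0_unit hf hR
  have sw := fun x y => (eq_zero_comm hf0 x y).mp
  obtain ⟨s₀, hs₀0, hs₀, -⟩ :=
    iso_perp_fam hf0 (Fin.elim0 : Fin 0 → (ι → F₀)) (by omega)
  obtain ⟨c₀, z₀, hg₀⟩ := hs s₀ hs₀0 hs₀
  have stepB : ∀ s : ι → F₀, f0 hR s s = 0 →
      ∃ z : ι → F₀, (g : Matrix ι ι F) *ᵥ up F₀ s = c₀ • up F₀ z := by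
    intro s hsQ
    by_cases h0 : f0 hR s₀ s = 0
    · exact ratio_orthU hf hR g hs s₀ s hs₀0 hs₀ hsQ h0 c₀ z₀ hg₀
    · obtain ⟨s₁, hs₁0, hs₁, hp⟩ :=
        iso_perp_fam hf0 (![s₀, s] : Fin 2 → (ι → F₀)) (by omega)
      have h1 : f0 hR s₁ s₀ = 0 := hp 0
      have h2 : f0 hR s₁ s = 0 := hp 1
      obtain ⟨z₁, hz₁⟩ := ratio_orthU hf hR g hs s₀ s₁ hs₀0 hs₀ hs₁ (sw _ _ h1) c₀ z₀ hg₀
      exact ratio_orthU hf hR g hs s₁ s hs₁0 hs₁ hsQ h2 c₀ z₁ hz₁
  have stepC : ∀ x : ι → F₀, ∃ z : ι → F₀, (g : Matrix ι ι F) *ᵥ up F₀ x = c₀ • up F₀ z := by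
    intro x
    obtain ⟨y1, y2, -, -, h1, h2, hx⟩ :=
      iso_sum_fam hf0 (Fin.elim0 : Fin 0 → (ι → F₀)) (by omega) x (fun i => i.elim0)
    obtain ⟨z₁, hz₁⟩ := stepB y1 h1
    obtain ⟨z₂, hz₂⟩ := stepB y2 h2
    refine ⟨z₁ + z₂, ?_⟩
    rw [hx, up_add, Matrix.mulVec_add, hz₁, hz₂, up_add]
    module
  obtain ⟨i0⟩ : Nonempty ι := Fintype.card_pos_iff.mp (by omega)
  apply mem_of_cols F₀ i0 g
  · intro j
    rw [← up_single F₀ j]
    obtain ⟨z, hz⟩ := stepC (Pi.single j 1)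
    exact ⟨c₀, z, hz⟩
  · intro j _
    rw [← up_single F₀ i0, ← up_single F₀ j, ← up_add]
    obtain ⟨z, hz⟩ := stepC (Pi.single i0 1 + Pi.single j 1)
    exact ⟨c₀, z, hz⟩

/-- **Maximality of the unitary subfield group, odd prime degree.** -/
theorem maximalU (hf : Cfsg.Geo.IsUnitaryForm σ f) (hR : RatU σ f F₀) (r : ℕ)
    (hr : r.Prime) (hr2 : r ≠ 2) (hcardF : Fintype.card F = Nat.card F₀ ^ r)
    (hcard : 13 ≤ Fintype.card ι) (K : Subgroup (Matrix.GeneralLinearGroup ι F))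
    (hK : ∀ g : Matrix.GeneralLinearGroup ι F, g ∈ K ↔
      (∀ x y, f ((g : Matrix ι ι F) *ᵥ x) ((g : Matrix ι ι F) *ᵥ y) = f x y) ∧
        (g : Matrix ι ι F).det = 1) :
    Cfsg.Geo.IsMaximalIn K (((Phi F₀ (ι := ι)).range ⊔ Cfsg.Geo.scalars ι F) ⊓ K) := by
  classical
  haveI : Fintype F₀ := Fintype.ofFinite F₀
  have hf0 := f0_unit hf hR
  have sw := fun x y => (eq_zero_comm hf0 x y).mp
  have z0 := fun x y => (f0_eq_zero hR x y).mp
  have o1 := fun x y => (f0_eq_one hR x y).mp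
  have hcard' : Nat.card F = Nat.card F₀ ^ r := by
    rw [Nat.card_eq_fintype_card]
    exact hcardF
  have hgen := hgen_of_prime F₀ r hr hcard'
  have h2' := card_subfield_two_le F₀
  have hsq := hsq_of_odd F₀ r hr hr2 hcard'
  obtain ⟨lam, hlam⟩ : ∃ lam : F, lam ∉ F₀ := by
    by_contra hcon
    push Not at hcon
    have e : Nat.card F₀ = Nat.card F :=
      Nat.card_congr (Equiv.subtypeUnivEquiv hcon)
    rw [hcard'] at e
    have hlt : Nat.card F₀ ^ 1 < Nat.card F₀ ^ r :=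
      Nat.pow_lt_pow_right (by omega) hr.one_lt
    rw [pow_one] at hlt
    omega
  have hgen3 : ∀ β γ : F, β ∉ F₀ → γ ≠ 0 → Subgroup.closure
      ({S : SL(2, F) | ∃ s ∈ F₀, ∃ s' ∈ F₀, S = u (s + s' * β)} ∪
        {S : SL(2, F) | ∃ s ∈ F₀, S = l (γ * s)}) = ⊤ := by
    intro β γ hβ hγ
    by_cases hq : Nat.card F₀ = 2
    · exact Cfsg.Agent.Lib.Helper94.SfLin3.gen3_two F₀ hgen hq β γ hβ hγ
    · exact Cfsg.Agent.Lib.Helper94.SfLin3.gen3_big F₀ r hr hr2 hcard' (by omega) β γ hβ hγ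
  -- cardinalities of the fixed fields
  have c1 : Nat.card F = Nat.card ↥(fixK σ) ^ 2 := by
    have h := card_fix_sq σ hf.involutive ⊤ (fun c _ => Subfield.mem_top _)
      (by
        obtain ⟨c, hc⟩ := exists_not_fixed hf
        exact ⟨c, Subfield.mem_top _, hc⟩)
    rw [top_inf_eq] at h
    rw [← h]
    exact (Nat.card_congr Subfield.topEquiv.toEquiv).symm
  have c2 : Nat.card F₀ = Nat.card ↥(F₀ ⊓ fixK σ : Subfield F) ^ 2 :=
    card_fix_sq σ hf.involutive F₀ hR.stab hR.ne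
  have c3 : Nat.card ↥(fixK0 σ F₀) = Nat.card ↥(F₀ ⊓ fixK σ : Subfield F) := by
    apply Nat.card_congr
    exact
      { toFun := fun s => ⟨((s : ↥(fixK σ)) : F), Subfield.mem_inf.mpr ⟨s.2, s.1.2⟩⟩
        invFun := fun x => ⟨⟨(x : F), (Subfield.mem_inf.mp x.2).2⟩, (Subfield.mem_inf.mp x.2).1⟩
        left_inv := fun s => rfl
        right_inv := fun x => rfl }
  have c4 : Nat.card ↥(fixK σ) = Nat.card ↥(fixK0 σ F₀) ^ r := by
    rw [c3]
    have h := c1.symm.trans hcard'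
    rw [c2, ← pow_mul, mul_comm, pow_mul] at h
    exact Nat.pow_left_injective (by norm_num : 2 ≠ 0) h
  have hKnt : ∃ t : F, σ t = t ∧ t ∉ F₀ := by
    by_contra hcon
    push Not at hcon
    have e : (F₀ ⊓ fixK σ : Subfield F) = fixK σ := inf_eq_right.mpr (fun t ht => hcon t ht)
    rw [c3, e] at c4
    have h2K := card_subfield_two_le (fixK σ)
    have hlt : Nat.card ↥(fixK σ) ^ 1 < Nat.card ↥(fixK σ) ^ r :=
      Nat.pow_lt_pow_right (by omega) hr.one_lt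
    rw [pow_one] at hlt
    omega
  have hgen3K : ∀ β γ : ↥(fixK σ), β ∉ fixK0 σ F₀ → γ ≠ 0 → Subgroup.closure
      ({S : SL(2, ↥(fixK σ)) | ∃ s ∈ fixK0 σ F₀, ∃ s' ∈ fixK0 σ F₀, S = u (s + s' * β)} ∪
        {S : SL(2, ↥(fixK σ)) | ∃ s ∈ fixK0 σ F₀, S = l (γ * s)}) = ⊤ := by
    intro β γ hβ hγ
    haveI : Fintype ↥(fixK σ) := Fintype.ofFinite _
    have h2K := card_subfield_two_le (fixK0 σ F₀)
    by_cases hq : Nat.card ↥(fixK0 σ F₀) = 2
    · exact Cfsg.Agent.Lib.Helper94.SfLin3.gen3_two (fixK0 σ F₀)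
        (hgen_of_prime (fixK0 σ F₀) r hr c4) hq β γ hβ hγ
    · exact Cfsg.Agent.Lib.Helper94.SfLin3.gen3_big (fixK0 σ F₀) r hr hr2 c4 (by omega) β γ hβ hγ
  have hsuK : ∀ a b c, su hf a b c ∈ K := fun a b c =>
    (hK _).mpr ⟨su_isom hf a b c, (mem_specialLinear_iff _).mp (su_mem_SL hf a b c)⟩
  have hutK : ∀ a κ, ut hf a κ ∈ K := fun a κ =>
    (hK _).mpr ⟨ut_isom hf a κ, (mem_specialLinear_iff _).mp (ut_mem_SL hf a κ)⟩
  refine ⟨lt_of_le_of_ne inf_le_right ?_, ?_⟩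
  · intro heq
    obtain ⟨e, e', hee, hff, hpair, hone⟩ := frame3 hf0 hcard
    have hA : f (up F₀ (e 0)) (up F₀ (e 0)) = 0 := z0 _ _ (hee 0 0)
    have hB : f (up F₀ (e' 1)) (up F₀ (e' 1)) = 0 := z0 _ _ (hff 1 1)
    have hAB : f (up F₀ (e 0)) (up F₀ (e' 1)) = 0 := z0 _ _ (hpair 0 1 (by decide))
    have hmem : su hf (up F₀ (e 0)) (up F₀ (e' 1)) lam ∈
        ((Phi F₀ (ι := ι)).range ⊔ Cfsg.Geo.scalars ι F) ⊓ K := by
      rw [heq]
      exact hsuK _ _ _
    obtain ⟨c, hc⟩ := Cfsg.Agent.Lib.Helper94.SubfieldSp.rat_of_mem F₀ _ hmem.1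
    have he00 : e 0 ≠ 0 := ne_zero_of_pair hf0 (by rw [hone 0]; exact one_ne_zero)
    obtain ⟨z1, hz1⟩ := hc (e 0)
    rw [su_mulVec hf _ _ hA hB hAB, hAB, hA] at hz1
    simp only [mul_zero, zero_smul, add_zero, sub_zero] at hz1
    have hcm : c ∈ F₀ := scalar_memU F₀ (e 0) z1 c he00 hz1
    obtain ⟨z2, hz2⟩ := hc (e 1)
    rw [su_mulVec hf _ _ hA hB hAB, o1 _ _ (hone 1), z0 _ _ (hee 1 0)] at hz2
    simp only [mul_zero, zero_smul, sub_zero, mul_one] at hz2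
    have e2 : up F₀ ((⟨c, hcm⟩ : F₀) • z2 - e 1) = lam • up F₀ (e 0) := by
      rw [up_sub, up_smul, ← hz2]
      simp
    by_cases hx : (⟨c, hcm⟩ : F₀) • z2 - e 1 = 0
    · rw [hx, up_zero] at e2
      have hup : up F₀ (e 0) ≠ 0 := fun h => he00 ((up_eq_zero F₀ _).mp h)
      have ht0 : lam = 0 := (smul_eq_zero.mp e2.symm).resolve_right hup
      exact hlam (ht0 ▸ F₀.zero_mem)
    · exact hlam (scalar_memU F₀ _ (e 0) lam hx e2)
  · intro M hHM hMK
    have hC : CtxU hf F₀ M :=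
      { iso := fun g hg => ((hK g).mp (hMK hg)).1
        rsu := fun a b c => hHM ⟨Subgroup.mem_sup_left (su_up_mem_range hf hR a b c), hsuK _ _ _⟩
        rut := fun a κ => hHM ⟨Subgroup.mem_sup_left (ut_up_mem_range hf hR a κ), hutK _ _⟩ }
    rcases dichU hR hgen hC hcard with hLL | hAll
    · left
      apply le_antisymm _ hHM
      intro g hg
      exact ⟨mem_of_iso hf hR hcard g (fun x hx0 hx =>
        rat_genU hC hR hcard hLL hgen3 hgen3K hsq hKnt g hg x hx0 hx), hMK hg⟩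
    · right
      apply le_antisymm hMK
      intro g hg
      obtain ⟨h1, h2⟩ := (hK g).mp hg
      exact all_imp_SU hC hR hcard hAll g h1 h2

end Main

end Cfsg.Agent.Lib.Helper94.SfU6
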