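import Mathlib
import Cfsg.Prelude.Def_GeometricClasses
import Cfsg.Agent.Lib.Helper94.SfU6

/-!
# Maximality of the unitary subfield group, odd degree: final form (helper94)

* `ratU_ne` : a subfield of odd prime index is not fixed pointwise by the involution.
* `maximalU_odd` : maximality of the subfield group in the special unitary group, for a subfield
  of odd prime index stable under the involution on which the form is rational.
-/

set_option autoImplicit false
set_option linter.unusedSimpArgs false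

namespace Cfsg.Agent.Lib.Helper94.SfU7

open scoped Matrix MatrixGroups
open Module
open Cfsg.Agent.Lib.Helper94.Basic Cfsg.Agent.Lib.Helper94.GLAux
  Cfsg.Agent.Lib.Helper94.UnitAbs Cfsg.Agent.Lib.Helper94.UnitGen
  Cfsg.Agent.Lib.Helper94.SubfieldRat
  Cfsg.Agent.Lib.Helper94.SfU1 Cfsg.Agent.Lib.Helper94.SfU5 Cfsg.Agent.Lib.Helper94.SfU6
open Cfsg.Agent.Lib.Helper98.SL2Field

section Main

variable {ι : Type} [Fintype ι] [DecidableEq ι] {F : Type*} [Field F] [Fintype F]
variable {σ : F ≃+* F} {f : (ι → F) → (ι → F) → F}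

/-- A subfield of odd prime index is not fixed pointwise by the involution. -/
theorem ratU_ne (hf : Cfsg.Geo.IsUnitaryForm σ f) (F₀ : Subfield F) (r : ℕ) (hr : r.Prime)
    (hro : Odd r) (hcardF : Fintype.card F = Nat.card F₀ ^ r) : ∃ c : F, c ∈ F₀ ∧ σ c ≠ c := by
  by_contra hcon
  push Not at hcon
  have hcard' : Nat.card F = Nat.card F₀ ^ r := by
    rw [Nat.card_eq_fintype_card]
    exact hcardF
  have hgen := hgen_of_prime F₀ r hr hcard'
  have hle : ∀ t : F, σ t = t → t ∈ F₀ := by
    intro t ht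
    by_contra htF
    have hA := hgen t htF (fixK σ).toAddSubgroup
      (fun a ha z hz => (fixK σ).mul_mem (hcon a ha) hz)
      (fun z hz => (fixK σ).mul_mem ht hz) (fixK σ).one_mem
    obtain ⟨c, hc⟩ := exists_not_fixed hf
    apply hc
    have hmem : c ∈ (fixK σ).toAddSubgroup := by
      rw [hA]
      trivial
    exact hmem
  have e : fixK σ = F₀ := le_antisymm (fun t ht => hle t ht) (fun c hc => hcon c hc)
  have c1 : Nat.card F = Nat.card ↥(fixK σ) ^ 2 := by
    have h := card_fix_sq σ hf.involutive ⊤ (fun c _ => Subfield.mem_top _)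
      (by
        obtain ⟨c, hc⟩ := exists_not_fixed hf
        exact ⟨c, Subfield.mem_top _, hc⟩)
    rw [top_inf_eq] at h
    rw [← h]
    exact (Nat.card_congr Subfield.topEquiv.toEquiv).symm
  rw [e] at c1
  have h := c1.symm.trans hcard'
  have h2 := Nat.pow_right_injective (card_subfield_two_le F₀) h
  rw [← h2] at hro
  exact absurd hro (by decide)

/-- **Maximality of the unitary subfield group, odd prime degree.** -/
theorem maximalU_odd (hf : Cfsg.Geo.IsUnitaryForm σ f) (F₀ : Subfield F)
    (hrat : ∀ x y : ι → F₀, f (up F₀ x) (up F₀ y) ∈ F₀) (hstab : ∀ c : F, c ∈ F₀ → σ c ∈ F₀)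
    (r : ℕ) (hr : r.Prime) (hro : Odd r) (hcardF : Fintype.card F = Nat.card F₀ ^ r)
    (hcard : 13 ≤ Fintype.card ι) (K : Subgroup (Matrix.GeneralLinearGroup ι F))
    (hK : ∀ g : Matrix.GeneralLinearGroup ι F, g ∈ K ↔
      (∀ x y, f ((g : Matrix ι ι F) *ᵥ x) ((g : Matrix ι ι F) *ᵥ y) = f x y) ∧
        (g : Matrix ι ι F).det = 1) :
    Cfsg.Geo.IsMaximalIn K (((Phi F₀ (ι := ι)).range ⊔ Cfsg.Geo.scalars ι F) ⊓ K) := by
  have hR : RatU σ f F₀ :=
    { rat := hrat
      stab := hstab
      ne := ratU_ne hf F₀ r hr hro hcardF }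
  have hr2 : r ≠ 2 := by
    rintro rfl
    exact absurd hro (by decide)
  exact maximalU hf hR r hr hr2 hcardF hcard K hK

end Main

end Cfsg.Agent.Lib.Helper94.SfU7
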