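import Mathlib
import Cfsg.Prelude.Def_GeometricClasses
import Cfsg.Agent.Lib.Helper94.QExt5
import Cfsg.Agent.Lib.Helper94.SympRoot
import Cfsg.Agent.Lib.Helper94.SympGen
import Cfsg.Agent.Lib.Helper94.SfSp1

/-!
# A quadratic extension acting on a symplectic space by skew-adjoint maps (helper94)

`SCtx f J d` : `f` symplectic, `J` skew-adjoint with `J² = d` a non-square, characteristic not
two.  Then `Qf f J v = f v (J v)` is a non-degenerate quadratic form and `(Qf f J, J, 0, -d)` is a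
`JCtx`; the Siegel elements `T c.jctx a β` are isometries of `f`.  `zz v y` is the involution
that is `-1` on the plane `⟨v, y⟩` and `1` on its orthogonal.
-/

set_option autoImplicit false
set_option linter.unusedSimpArgs false

namespace Cfsg.Agent.Lib.Helper94.SpExt1

open scoped Matrix
open Module
open Cfsg.Agent.Lib.Helper94.Basic Cfsg.Agent.Lib.Helper94.GLAux Cfsg.Agent.Lib.Helper94.Tv
  Cfsg.Agent.Lib.Helper94.QuadAbs Cfsg.Agent.Lib.Helper94.OrthSiegel
  Cfsg.Agent.Lib.Helper94.SfOrth1 Cfsg.Agent.Lib.Helper94.SfOrth2 Cfsg.Agent.Lib.Helper94.QExt1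
  Cfsg.Agent.Lib.Helper94.QExt2 Cfsg.Agent.Lib.Helper94.QExt3 Cfsg.Agent.Lib.Helper94.QExt4
open Cfsg.Agent.Lib.Helper94.SympAbs (bil_zero_left bil_zero_right bil_neg_left bil_neg_right
  bil_sub_left bil_sub_right st st_mulVec st_isom st_inv)
open Cfsg.Agent.Lib.Helper94.SympRoot (ss ss_mulVec ss_isom ss_conj ss_mul_ss)

section Ex

variable {ι : Type} [Fintype ι] [DecidableEq ι] {K : Type*} [Field K] [Fintype K]
variable {Q : (ι → K) → K}

/-- A singular vector with prescribed pairings against a family of `k` vectors, `2k + 3 ≤ n`. -/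
lemma sing_adjust_fam3 (hQ : Cfsg.Geo.IsNondegenerateQuadraticForm Q) {k : ℕ}
    (v : Fin k → (ι → K)) (hk : 2 * k + 3 ≤ Fintype.card ι) (t : ι → K) :
    ∃ d, Q d = 0 ∧ ∀ i, QuadraticMap.polar Q (v i) d = QuadraticMap.polar Q (v i) t := by
  have hbl := hQ.polar_bilinear
  obtain ⟨y1, y2, h1, h2, h11, h22, h12⟩ := exists_hyp_fam3 hQ v hk
  obtain ⟨τ₁, hτ₁⟩ : ∃ τ₁ : K, τ₁ = QuadraticMap.polar Q t y1 := ⟨_, rfl⟩
  obtain ⟨τ₂, hτ₂⟩ : ∃ τ₂ : K, τ₂ = QuadraticMap.polar Q t y2 := ⟨_, rfl⟩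
  refine ⟨t + ((1 - τ₂) • y1 + (τ₁ * τ₂ - Q t - τ₁) • y2), ?_, fun i => ?_⟩
  · rw [Q_add Q, Q_add Q, hQ.smul, hQ.smul, h11, h22, hbl.add_right, hbl.smul_right,
      hbl.smul_right, hbl.smul_left, hbl.smul_right, h12, ← hτ₁, ← hτ₂]
    ring
  · rw [hbl.add_right, hbl.add_right, hbl.smul_right, hbl.smul_right, h1 i, h2 i]
    ring

/-- A singular vector orthogonal to two vectors and to neither of two others. -/
lemma exists_connect2 (hQ : Cfsg.Geo.IsNondegenerateQuadraticForm Q)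
    (hcard : 13 ≤ Fintype.card ι) (a₁ a₂ s s' : ι → K)
    (hs : ∀ α β : K, s ≠ α • a₁ + β • a₂) (hs' : ∀ α β : K, s' ≠ α • a₁ + β • a₂) :
    ∃ d, Q d = 0 ∧ QuadraticMap.polar Q a₁ d = 0 ∧ QuadraticMap.polar Q a₂ d = 0 ∧
      QuadraticMap.polar Q s d ≠ 0 ∧ QuadraticMap.polar Q s' d ≠ 0 := by
  have hbl := hQ.polar_bilinear
  have hfam : ∀ x : ι → K, (∀ α β : K, x ≠ α • a₁ + β • a₂) →
      ∀ c : Fin 2 → K, x ≠ ∑ i, c i • (![a₁, a₂] : Fin 2 → (ι → K)) i := by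
    intro x hx c h
    rw [Fin.sum_univ_two] at h
    exact hx (c 0) (c 1) h
  obtain ⟨y1, hy1, hsy1⟩ := exists_perp_ne_fam hQ _ s (hfam s hs)
  obtain ⟨y2, hy2, hsy2⟩ := exists_perp_ne_fam hQ _ s' (hfam s' hs')
  have h11 : QuadraticMap.polar Q a₁ y1 = 0 := hy1 0
  have h12 : QuadraticMap.polar Q a₂ y1 = 0 := hy1 1
  have h21 : QuadraticMap.polar Q a₁ y2 = 0 := hy2 0
  have h22 : QuadraticMap.polar Q a₂ y2 = 0 := hy2 1
  obtain ⟨y, hay1, hay2, hsy, hs'y⟩ : ∃ y, QuadraticMap.polar Q a₁ y = 0 ∧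
      QuadraticMap.polar Q a₂ y = 0 ∧ QuadraticMap.polar Q s y ≠ 0 ∧
      QuadraticMap.polar Q s' y ≠ 0 := by
    by_cases h1 : QuadraticMap.polar Q s' y1 = 0
    · by_cases h2 : QuadraticMap.polar Q s y2 = 0
      · refine ⟨y1 + y2, ?_, ?_, ?_, ?_⟩
        · rw [hbl.add_right, h11, h21, add_zero]
        · rw [hbl.add_right, h12, h22, add_zero]
        · rw [hbl.add_right, h2, add_zero]; exact hsy1
        · rw [hbl.add_right, h1, zero_add]; exact hsy2
      · exact ⟨y2, h21, h22, h2, hsy2⟩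
    · exact ⟨y1, h11, h12, hsy1, h1⟩
  obtain ⟨d, hd, hdv⟩ :=
    sing_adjust_fam3 hQ (![a₁, a₂, s, s'] : Fin 4 → (ι → K)) (by omega) y
  obtain ⟨e1, e2, e3, e4⟩ :=
    (fam4 (fun v => QuadraticMap.polar Q v d = QuadraticMap.polar Q v y) _ _ _ _).mp hdv
  exact ⟨d, hd, by rw [e1]; exact hay1, by rw [e2]; exact hay2, by rw [e3]; exact hsy,
    by rw [e4]; exact hs'y⟩

variable {J : Matrix ι ι K} {t N : K}

/-- A singular `b ⊥ v, Jv` not orthogonal to `s`, with a singular `h₂ ⊥ v, Jv`, `B(b, h₂) = 1`. -/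
lemma exists_bb (c : JCtx Q J t N) (hcard : 13 ≤ Fintype.card ι) (v s : ι → K)
    (hs : ∀ α β : K, s ≠ α • v + β • J *ᵥ v) :
    ∃ b h₂, Q b = 0 ∧ QuadraticMap.polar Q v b = 0 ∧ QuadraticMap.polar Q (J *ᵥ v) b = 0 ∧
      QuadraticMap.polar Q s b ≠ 0 ∧ Q h₂ = 0 ∧ QuadraticMap.polar Q v h₂ = 0 ∧
      QuadraticMap.polar Q (J *ᵥ v) h₂ = 0 ∧ QuadraticMap.polar Q b h₂ = 1 := by
  have hbl := c.nd.polar_bilinear
  obtain ⟨y₀, hy₀, hsy₀⟩ := exists_perp_ne_fam c.nd (![v, J *ᵥ v] : Fin 2 → (ι → K)) s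
    (by
      intro c' h
      rw [Fin.sum_univ_two] at h
      exact hs (c' 0) (c' 1) h)
  have h1 : QuadraticMap.polar Q v y₀ = 0 := hy₀ 0
  have h2 : QuadraticMap.polar Q (J *ᵥ v) y₀ = 0 := hy₀ 1
  obtain ⟨k₁, k₂, hk₁, hk₂, hQ₁, hQ₂, h12⟩ :=
    exists_hyp_fam3 c.nd (![v, J *ᵥ v, s, y₀] : Fin 4 → (ι → K)) (by omega)
  obtain ⟨a1, a2, a3, a4⟩ := (fam4 (fun x => QuadraticMap.polar Q x k₁ = 0) _ _ _ _).mp hk₁
  obtain ⟨b1, b2, b3, b4⟩ := (fam4 (fun x => QuadraticMap.polar Q x k₂ = 0) _ _ _ _).mp hk₂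
  refine ⟨y₀ + (k₁ + (-Q y₀) • k₂), k₂, ?_, ?_, ?_, ?_, hQ₂, b1, b2, ?_⟩
  · rw [Q_add Q, Q_add Q, c.nd.smul, hQ₁, hQ₂, hbl.add_right, hbl.smul_right, hbl.smul_right,
      a4, b4, h12]
    ring
  · rw [hbl.add_right, hbl.add_right, hbl.smul_right, h1, a1, b1]
    ring
  · rw [hbl.add_right, hbl.add_right, hbl.smul_right, h2, a2, b2]
    ring
  · rw [hbl.add_right, hbl.add_right, hbl.smul_right, a3, b3]
    simpa using hsy₀
  · rw [hbl.add_left, hbl.add_left, hbl.smul_left, b4, h12, polar_self_sing c.nd k₂ hQ₂]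
    ring

end Ex

section Ctx

variable {ι : Type} [Fintype ι] [DecidableEq ι] {F : Type*} [Field F]
variable {f : (ι → F) → (ι → F) → F} {J : Matrix ι ι F} {d : F}

/-- A symplectic form with a skew-adjoint `J`, `J² = d` a non-square. -/
structure SCtx (f : (ι → F) → (ι → F) → F) (J : Matrix ι ι F) (d : F) : Prop where
  sf : Cfsg.Geo.IsSymplecticForm f
  two : (2 : F) ≠ 0
  adj : ∀ x y, f (J *ᵥ x) y = - f x (J *ᵥ y)
  JJ : ∀ x, J *ᵥ (J *ᵥ x) = d • x
  norm : ∀ x y : F, x ^ 2 - d * y ^ 2 = 0 → x = 0 ∧ y = 0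

/-- The quadratic form `v ↦ f(v, J v)`. -/
def Qf (f : (ι → F) → (ι → F) → F) (J : Matrix ι ι F) (v : ι → F) : F := f v (J *ᵥ v)

lemma SCtx.d_ne (c : SCtx f J d) : d ≠ 0 := by
  intro h
  have := (c.norm 0 1 (by rw [h]; ring)).2
  exact one_ne_zero this

lemma SCtx.fJJ (c : SCtx f J d) (x y : ι → F) : f (J *ᵥ x) (J *ᵥ y) = -d * f x y := by
  rw [c.adj, c.JJ, c.sf.bilinear.smul_right]
  ring

lemma SCtx.pol (c : SCtx f J d) (x y : ι → F) :
    QuadraticMap.polar (Qf f J) x y = 2 * f x (J *ᵥ y) := by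
  unfold QuadraticMap.polar Qf
  have e : f y (J *ᵥ x) = f x (J *ᵥ y) := by rw [c.sf.skew y, c.adj, neg_neg]
  rw [Matrix.mulVec_add, c.sf.bilinear.add_left, c.sf.bilinear.add_right,
    c.sf.bilinear.add_right, e]
  ring

lemma SCtx.Qf_nd (c : SCtx f J d) : Cfsg.Geo.IsNondegenerateQuadraticForm (Qf f J) where
  smul := fun a v => by
    unfold Qf
    rw [Matrix.mulVec_smul, c.sf.bilinear.smul_left, c.sf.bilinear.smul_right]
    ring
  polar_bilinear :=
    { add_left := fun x y v => by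
        rw [c.pol, c.pol, c.pol, c.sf.bilinear.add_left]
        ring
      smul_left := fun a x v => by
        rw [c.pol, c.pol, c.sf.bilinear.smul_left]
        ring
      add_right := fun v x y => by
        rw [c.pol, c.pol, c.pol, Matrix.mulVec_add, c.sf.bilinear.add_right]
        ring
      smul_right := fun a v x => by
        rw [c.pol, c.pol, Matrix.mulVec_smul, c.sf.bilinear.smul_right]
        ring }
  nondegenerate := by
    intro v hv
    have hJv : J *ᵥ v ≠ 0 := by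
      intro h
      have h1 := c.JJ v
      rw [h, Matrix.mulVec_zero] at h1
      exact hv ((smul_eq_zero.mp h1.symm).resolve_left c.d_ne)
    obtain ⟨⟨x, hx⟩, -⟩ := c.sf.nondegenerate _ hJv
    have h1 : QuadraticMap.polar (Qf f J) x v ≠ 0 := by
      rw [c.pol]
      exact mul_ne_zero c.two hx
    exact ⟨⟨x, h1⟩, ⟨x, by rw [QuadraticMap.polar_comm]; exact h1⟩⟩

/-- The associated `JCtx`. -/
lemma SCtx.jctx (c : SCtx f J d) : JCtx (Qf f J) J 0 (-d) where
  nd := c.Qf_nd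
  QJ := fun x => by
    unfold Qf
    rw [c.JJ, c.sf.bilinear.smul_right, c.adj]
    ring
  BJ := fun x => by
    rw [c.pol, c.JJ, c.sf.bilinear.smul_right, c.sf.alternating]
    ring
  adj := fun x y => by
    rw [c.pol, c.pol, c.pol, c.JJ, c.sf.bilinear.smul_right, c.fJJ]
    ring
  BJJ := fun x y => by
    rw [c.pol, c.pol, c.JJ, c.sf.bilinear.smul_right, c.adj]
    ring
  JJ := fun x => by
    rw [c.JJ]
    module
  norm := fun x y h => c.norm x y (by linear_combination h)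

lemma SCtx.f_eq (c : SCtx f J d) (x y : ι → F) :
    f x y = (2 * d)⁻¹ * QuadraticMap.polar (Qf f J) x (J *ᵥ y) := by
  have h2 := c.two
  have hd := c.d_ne
  rw [c.pol, c.JJ, c.sf.bilinear.smul_right]
  field_simp

lemma SCtx.pol0 (c : SCtx f J d) {x y : ι → F} (h : QuadraticMap.polar (Qf f J) x y = 0) :
    f x (J *ᵥ y) = 0 := by
  rw [c.pol] at h
  exact (mul_eq_zero.mp h).resolve_left c.two

lemma SCtx.polJ0 (c : SCtx f J d) {x y : ι → F}
    (h : QuadraticMap.polar (Qf f J) (J *ᵥ x) y = 0) : f x y = 0 := by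
  rw [c.pol, c.fJJ] at h
  have h1 : (-2 * d) * f x y = 0 := by linear_combination h
  exact (mul_eq_zero.mp h1).resolve_left (mul_ne_zero (neg_ne_zero.mpr c.two) c.d_ne)

/-- An isometry of `Qf` commuting with `J` is an isometry of `f`. -/
lemma SCtx.isom_of (c : SCtx f J d) (g : Matrix.GeneralLinearGroup ι F)
    (hg : ∀ v, Qf f J ((g : Matrix ι ι F) *ᵥ v) = Qf f J v)
    (hJ : ∀ x, J *ᵥ ((g : Matrix ι ι F) *ᵥ x) = (g : Matrix ι ι F) *ᵥ (J *ᵥ x)) (x y : ι → F) :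
    f ((g : Matrix ι ι F) *ᵥ x) ((g : Matrix ι ι F) *ᵥ y) = f x y := by
  rw [c.f_eq, c.f_eq x y, hJ, polar_of_isom g hg]

lemma U_mulVec (c : SCtx f J d) {a : ι → F} (ha : f a (J *ᵥ a) = 0) (β : F) (x : ι → F) :
    ((T c.jctx a β : Matrix.GeneralLinearGroup ι F) : Matrix ι ι F) *ᵥ x
      = x + (2 * β * f x (J *ᵥ a)) • J *ᵥ a - (2 * β * d * f x a) • a := by
  have ha' : Qf f J a = 0 := ha
  rw [T_mulVec c.jctx ha', B_comm _ a x, B_comm _ (J *ᵥ a) x, c.pol, c.pol, c.JJ,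
    c.sf.bilinear.smul_right]
  module

lemma U_isom (c : SCtx f J d) {a : ι → F} (ha : f a (J *ᵥ a) = 0) (β : F) (x y : ι → F) :
    f (((T c.jctx a β : Matrix.GeneralLinearGroup ι F) : Matrix ι ι F) *ᵥ x)
      (((T c.jctx a β : Matrix.GeneralLinearGroup ι F) : Matrix ι ι F) *ᵥ y) = f x y :=
  c.isom_of _ (T_isom c.jctx a β) (T_comm c.jctx (show Qf f J a = 0 from ha) β) x y

end Ctx

section ZZ

variable {ι : Type} [Fintype ι] [DecidableEq ι] {F : Type*} [Field F]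
variable {f : (ι → F) → (ι → F) → F}

/-- The linear map `x ↦ x - (2 / f(v,y)) (f(x,y) v - f(x,v) y)`. -/
noncomputable def zzLin (hf : Cfsg.Geo.IsBilinearForm f) (v y : ι → F) :
    (ι → F) →ₗ[F] (ι → F) where
  toFun x := x - (2 / f v y) • (f x y • v - f x v • y)
  map_add' x x' := by
    rw [hf.add_left, hf.add_left]; module
  map_smul' r x := by
    rw [hf.smul_left, hf.smul_left]; simp only [RingHom.id_apply]; module

@[simp] lemma zzLin_apply (hf : Cfsg.Geo.IsBilinearForm f) (v y x : ι → F) :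
    zzLin hf v y x = x - (2 / f v y) • (f x y • v - f x v • y) := rfl

lemma zzLin_comp (hf : Cfsg.Geo.IsSymplecticForm f) (v y : ι → F) :
    zzLin hf.bilinear v y ∘ₗ zzLin hf.bilinear v y = LinearMap.id := by
  apply LinearMap.ext
  intro x
  simp only [LinearMap.comp_apply, zzLin_apply, LinearMap.id_apply]
  by_cases hp : f v y = 0
  · rw [hp]
    simp
  · have hyv : f y v = - f v y := hf.skew y v
    simp only [bil_sub_left hf.bilinear, hf.bilinear.smul_left, hf.alternating, hyv]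
    match_scalars <;> field_simp <;> ring

/-- The involution `-1` on `⟨v, y⟩`, `1` on the orthogonal (for `f v y ≠ 0`). -/
noncomputable def zz (hf : Cfsg.Geo.IsSymplecticForm f) (v y : ι → F) :
    Matrix.GeneralLinearGroup ι F :=
  glOfLin (zzLin hf.bilinear v y) (zzLin hf.bilinear v y) (zzLin_comp hf v y) (zzLin_comp hf v y)

lemma zz_mulVec (hf : Cfsg.Geo.IsSymplecticForm f) (v y x : ι → F) :
    ((zz hf v y : Matrix.GeneralLinearGroup ι F) : Matrix ι ι F) *ᵥ x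
      = x - (2 / f v y) • (f x y • v - f x v • y) := by
  unfold zz
  rw [glOfLin_mulVec]
  rfl

lemma zz_isom (hf : Cfsg.Geo.IsSymplecticForm f) (v y : ι → F) (hp : f v y ≠ 0)
    (x x' : ι → F) :
    f (((zz hf v y : Matrix.GeneralLinearGroup ι F) : Matrix ι ι F) *ᵥ x)
      (((zz hf v y : Matrix.GeneralLinearGroup ι F) : Matrix ι ι F) *ᵥ x') = f x x' := by
  rw [zz_mulVec, zz_mulVec]
  simp only [bil_sub_left hf.bilinear, bil_sub_right hf.bilinear, hf.bilinear.smul_left,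
    hf.bilinear.smul_right, hf.alternating]
  rw [hf.skew y v, hf.skew v x', hf.skew y x']
  field_simp
  ring

lemma zz_conj (hf : Cfsg.Geo.IsSymplecticForm f) (g : Matrix.GeneralLinearGroup ι F)
    (hg : ∀ x y, f ((g : Matrix ι ι F) *ᵥ x) ((g : Matrix ι ι F) *ᵥ y) = f x y)
    (v y : ι → F) :
    g * zz hf v y * g⁻¹ = zz hf ((g : Matrix ι ι F) *ᵥ v) ((g : Matrix ι ι F) *ᵥ y) := by
  apply gl_ext
  intro x
  have hx : x = (g : Matrix ι ι F) *ᵥ
      (((g⁻¹ : Matrix.GeneralLinearGroup ι F) : Matrix ι ι F) *ᵥ x) := by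
    rw [gl_mulVec_inv]
  have e1 : f x ((g : Matrix ι ι F) *ᵥ y)
      = f (((g⁻¹ : Matrix.GeneralLinearGroup ι F) : Matrix ι ι F) *ᵥ x) y := by
    conv_lhs => rw [hx]
    rw [hg]
  have e2 : f x ((g : Matrix ι ι F) *ᵥ v)
      = f (((g⁻¹ : Matrix.GeneralLinearGroup ι F) : Matrix ι ι F) *ᵥ x) v := by
    conv_lhs => rw [hx]
    rw [hg]
  rw [zz_mulVec, hg, e1, e2]
  simp only [Units.val_mul, ← Matrix.mulVec_mulVec]
  rw [zz_mulVec, Matrix.mulVec_sub, Matrix.mulVec_smul, Matrix.mulVec_sub, Matrix.mulVec_smul,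
    Matrix.mulVec_smul, gl_mulVec_inv]

/-- The product of two such involutions sharing `v` is a short root element. -/
lemma zz_mul (hf : Cfsg.Geo.IsSymplecticForm f) (v y y' : ι → F) (p : F) (hp : f v y = p)
    (hp' : f v y' = p) (hp0 : p ≠ 0) :
    zz hf v y * zz hf v y' = ss hf v (f y y' • v - p • y + p • y') (2 / p ^ 2) := by
  have hb := hf.bilinear
  have hr : f v (f y y' • v - p • y + p • y') = 0 := by
    rw [hb.add_right, bil_sub_right hb, hb.smul_right, hb.smul_right, hb.smul_right,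
      hf.alternating, hp, hp']
    ring
  apply gl_ext
  intro x
  rw [Units.val_mul, ← Matrix.mulVec_mulVec, zz_mulVec, zz_mulVec, ss_mulVec hf _ _ hr]
  simp only [bil_sub_left hb, hb.add_right, bil_sub_right hb, hb.smul_left, hb.smul_right,
    hf.alternating, hp, hp']
  rw [hf.skew y' v, hp', hf.skew y' y]
  match_scalars <;> field_simp <;> ring

end ZZ

end Cfsg.Agent.Lib.Helper94.SpExt1
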