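import Mathlib
import Cfsg.Prelude.Def_GeometricClasses
import Cfsg.Agent.Lib.Helper94.SpExt1

/-!
# Overgroups of the unitary group in the symplectic group (helper94)

* `tv_of_good` : from the involutions `zz v (J v)` and the Siegel elements of a second structure
  `J'`, the transvections with centre `v` (for `v` non-singular with `J' v ∉ F v + F J v`).
* `exists_good` : such `v` exists when `J' ∉ F + F J`.
* `tSet_univ` : the transvection centres of a group containing the Siegel elements `T a β` are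
  everything as soon as there is a nonzero one.
* `properSp` : a transvection does not normalise `F + F J`.
-/

set_option autoImplicit false
set_option linter.unusedSimpArgs false

namespace Cfsg.Agent.Lib.Helper94.SpExt2

open scoped Matrix
open Module
open Cfsg.Agent.Lib.Helper94.Basic Cfsg.Agent.Lib.Helper94.GLAux Cfsg.Agent.Lib.Helper94.Tv
  Cfsg.Agent.Lib.Helper94.QuadAbs Cfsg.Agent.Lib.Helper94.OrthSiegel
  Cfsg.Agent.Lib.Helper94.SfOrth1 Cfsg.Agent.Lib.Helper94.SfOrth2 Cfsg.Agent.Lib.Helper94.QExt1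
  Cfsg.Agent.Lib.Helper94.QExt2 Cfsg.Agent.Lib.Helper94.QExt3 Cfsg.Agent.Lib.Helper94.QExt4
  Cfsg.Agent.Lib.Helper94.SpExt1
open Cfsg.Agent.Lib.Helper94.SympAbs (bil_zero_left bil_zero_right bil_neg_left bil_neg_right
  bil_sub_left bil_sub_right st st_mulVec st_isom st_inv)
open Cfsg.Agent.Lib.Helper94.SympRoot (ss ss_mulVec ss_isom ss_conj ss_mul_ss)

section TSet

variable {ι : Type} [Fintype ι] [DecidableEq ι] {F : Type*} [Field F]
variable {f : (ι → F) → (ι → F) → F}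

/-- The transvection centres of `M`. -/
def tSet (hf : Cfsg.Geo.IsSymplecticForm f) (M : Subgroup (Matrix.GeneralLinearGroup ι F)) :
    Set (ι → F) := {v | ∀ γ : F, st hf v γ ∈ M}

lemma st_conj' (hf : Cfsg.Geo.IsSymplecticForm f) (g : Matrix.GeneralLinearGroup ι F)
    (hg : ∀ x y, f ((g : Matrix ι ι F) *ᵥ x) ((g : Matrix ι ι F) *ᵥ y) = f x y)
    (a : ι → F) (γ : F) : g * st hf a γ * g⁻¹ = st hf ((g : Matrix ι ι F) *ᵥ a) γ := by
  apply gl_ext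
  intro x
  have hx : x = (g : Matrix ι ι F) *ᵥ
      (((g⁻¹ : Matrix.GeneralLinearGroup ι F) : Matrix ι ι F) *ᵥ x) := by
    rw [gl_mulVec_inv]
  have e1 : f x ((g : Matrix ι ι F) *ᵥ a)
      = f (((g⁻¹ : Matrix.GeneralLinearGroup ι F) : Matrix ι ι F) *ᵥ x) a := by
    conv_lhs => rw [hx]
    rw [hg]
  rw [st_mulVec, e1]
  simp only [Units.val_mul, ← Matrix.mulVec_mulVec]
  rw [st_mulVec, Matrix.mulVec_add, Matrix.mulVec_smul, gl_mulVec_inv]

lemma st_smul' (hf : Cfsg.Geo.IsSymplecticForm f) (l : F) (a : ι → F) (γ : F) :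
    st hf (l • a) γ = st hf a (l ^ 2 * γ) := by
  apply gl_ext
  intro x
  rw [st_mulVec, st_mulVec, hf.bilinear.smul_right]
  module

lemma st_zero' (hf : Cfsg.Geo.IsSymplecticForm f) (γ : F) : st hf (0 : ι → F) γ = 1 := by
  apply gl_ext
  intro x
  rw [st_mulVec]
  simp

lemma tSet_map (hf : Cfsg.Geo.IsSymplecticForm f) (M : Subgroup (Matrix.GeneralLinearGroup ι F))
    {m : Matrix.GeneralLinearGroup ι F} (hm : m ∈ M)
    (hmi : ∀ x y, f ((m : Matrix ι ι F) *ᵥ x) ((m : Matrix ι ι F) *ᵥ y) = f x y)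
    {v : ι → F} (hv : v ∈ tSet hf M) : (m : Matrix ι ι F) *ᵥ v ∈ tSet hf M := by
  intro γ
  rw [← st_conj' hf m hmi]
  exact M.mul_mem (M.mul_mem hm (hv γ)) (M.inv_mem hm)

lemma tSet_smul (hf : Cfsg.Geo.IsSymplecticForm f) (M : Subgroup (Matrix.GeneralLinearGroup ι F))
    {v : ι → F} (hv : v ∈ tSet hf M) (l : F) : l • v ∈ tSet hf M := by
  intro γ
  rw [st_smul']
  exact hv _

lemma tSet_add (hf : Cfsg.Geo.IsSymplecticForm f) (M : Subgroup (Matrix.GeneralLinearGroup ι F))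
    {v w : ι → F} (hv : v ∈ tSet hf M) (hw : w ∈ tSet hf M) (hvw : f v w ≠ 0) (l : F) :
    v + l • w ∈ tSet hf M := by
  have h := tSet_map hf M (hw (l / f v w)) (st_isom hf w _) hv
  rw [st_mulVec] at h
  have e : l / f v w * f v w = l := by field_simp
  rw [e] at h
  exact h

end TSet

section Main

variable {ι : Type} [Fintype ι] [DecidableEq ι] {F : Type*} [Field F] [Fintype F]
variable {f : (ι → F) → (ι → F) → F} {J J' : Matrix ι ι F} {d : F}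

/-- From the involutions of `J` and the Siegel elements of `J'`, the transvections with centre a
non-singular `v` with `J' v ∉ F v + F J v`. -/
theorem tv_of_good (c : SCtx f J d) (c' : SCtx f J' d) (hcard : 13 ≤ Fintype.card ι)
    (M : Subgroup (Matrix.GeneralLinearGroup ι F))
    (hz : ∀ v, Qf f J v ≠ 0 → zz c.sf v (J *ᵥ v) ∈ M)
    (hT' : ∀ b, Qf f J' b = 0 → ∀ β, T c'.jctx b β ∈ M)
    {v : ι → F} (hv : Qf f J v ≠ 0) (hvK : ∀ α β : F, J' *ᵥ v ≠ α • v + β • J *ᵥ v) :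
    v ∈ tSet c.sf M := by
  have hf := c.sf
  have hb := hf.bilinear
  have h2 := c.two
  have hd := c.d_ne
  obtain ⟨p, hp⟩ : ∃ p, p = f v (J *ᵥ v) := ⟨_, rfl⟩
  have hp0 : p ≠ 0 := by rw [hp]; exact hv
  have hv0 : v ≠ 0 := by
    rintro rfl
    apply hv
    unfold Qf
    rw [bil_zero_left hb]
  have hs : ∀ α β : F, J *ᵥ v ≠ α • v + β • J' *ᵥ v := by
    intro α β h
    by_cases hβ : β = 0
    · rw [hβ, zero_smul, add_zero] at h
      have h1 : (-α) • v + (1 : F) • J *ᵥ v = 0 := by rw [h]; module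
      exact one_ne_zero (c.jctx.tf h1 hv0).2
    · apply hvK (-α / β) (1 / β)
      rw [h]
      match_scalars <;> field_simp <;> ring
  obtain ⟨b, h₂, hQb, hvb, hJvb, hsb, hQh, hvh, hJvh, hbh⟩ :=
    exists_bb c'.jctx hcard v (J *ᵥ v) hs
  have b0 : f b (J' *ᵥ b) = 0 := hQb
  have b1 : f v (J' *ᵥ b) = 0 := c'.pol0 hvb
  have b2 : f v b = 0 := c'.polJ0 hJvb
  have b3 : f (J *ᵥ v) (J' *ᵥ b) ≠ 0 := by
    intro h
    apply hsb
    rw [c'.pol, h, mul_zero]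
  have g0 : f h₂ (J' *ᵥ h₂) = 0 := hQh
  have g1 : f v (J' *ᵥ h₂) = 0 := c'.pol0 hvh
  have g2 : f v h₂ = 0 := c'.polJ0 hJvh
  have g3 : 2 * f b (J' *ᵥ h₂) = 1 := by
    rw [← c'.pol]
    exact hbh
  -- the element `t = T b 1` and `c₀ = t (J v) - J v`
  obtain ⟨lam, hlam⟩ : ∃ lam, lam = 2 * 1 * f (J *ᵥ v) (J' *ᵥ b) := ⟨_, rfl⟩
  obtain ⟨mu, hmu⟩ : ∃ mu, mu = 2 * 1 * d * f (J *ᵥ v) b := ⟨_, rfl⟩
  have hlam0 : lam ≠ 0 := by
    rw [hlam]
    exact mul_ne_zero (mul_ne_zero h2 one_ne_zero) b3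
  obtain ⟨c₀, hc₀⟩ : ∃ c₀, c₀ = lam • J' *ᵥ b - mu • b := ⟨_, rfl⟩
  have htv : ((T c'.jctx b 1 : Matrix.GeneralLinearGroup ι F) : Matrix ι ι F) *ᵥ v = v := by
    rw [U_mulVec c' b0, b1, b2]
    module
  have htJv : ((T c'.jctx b 1 : Matrix.GeneralLinearGroup ι F) : Matrix ι ι F) *ᵥ (J *ᵥ v)
      = J *ᵥ v + c₀ := by
    rw [U_mulVec c' b0, ← hlam, ← hmu, hc₀]
    module
  have hvc₀ : f v c₀ = 0 := by
    rw [hc₀, bil_sub_right hb, hb.smul_right, hb.smul_right, b1, b2]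
    ring
  have hpc : f v (J *ᵥ v + c₀) = p := by
    rw [hb.add_right, hvc₀, add_zero, hp]
  obtain ⟨r, hr⟩ : ∃ r, r = f (J *ᵥ v) (J *ᵥ v + c₀) • v - p • J *ᵥ v + p • (J *ᵥ v + c₀) :=
    ⟨_, rfl⟩
  obtain ⟨κ, hκ⟩ : ∃ κ, κ = 2 / p ^ 2 := ⟨_, rfl⟩
  have hκ0 : κ ≠ 0 := by
    rw [hκ]
    exact div_ne_zero h2 (pow_ne_zero 2 hp0)
  have hσ : ss hf v r κ ∈ M := by
    have h1 := zz_mul hf v (J *ᵥ v) (J *ᵥ v + c₀) p hp.symm hpc hp0
    rw [← hr, ← hκ] at h1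
    rw [← h1, ← htJv]
    have h3 := zz_conj hf (T c'.jctx b 1) (U_isom c' b0 1) v (J *ᵥ v)
    rw [htv] at h3
    rw [← h3]
    exact M.mul_mem (hz v hv) (M.mul_mem (M.mul_mem (hT' b hQb 1) (hz v hv))
      (M.inv_mem (hT' b hQb 1)))
  have hvr : f v r = 0 := by
    rw [hr, hb.add_right, bil_sub_right hb, hb.smul_right, hb.smul_right, hb.smul_right,
      hf.alternating, ← hp, hpc]
    ring
  -- the pairings of `r` with `h₂`, `J' h₂`
  obtain ⟨φ, hφ⟩ : ∃ φ, φ = f b h₂ := ⟨_, rfl⟩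
  have hX : f r (J' *ᵥ h₂) = p * (-d * lam * φ - mu * f b (J' *ᵥ h₂)) := by
    rw [hr, hb.add_left, bil_sub_left hb, hb.smul_left, hb.smul_left, hb.smul_left, hb.add_left,
      g1, hc₀, bil_sub_left hb, hb.smul_left, hb.smul_left, c'.fJJ, ← hφ]
    ring
  have hY : f r h₂ = p * (-lam * f b (J' *ᵥ h₂) - mu * φ) := by
    rw [hr, hb.add_left, bil_sub_left hb, hb.smul_left, hb.smul_left, hb.smul_left, hb.add_left,
      g2, hc₀, bil_sub_left hb, hb.smul_left, hb.smul_left, c'.adj, ← hφ]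
    ring
  obtain ⟨X, hXd⟩ : ∃ X, X = f r (J' *ᵥ h₂) := ⟨_, rfl⟩
  obtain ⟨Y, hYd⟩ : ∃ Y, Y = f r h₂ := ⟨_, rfl⟩
  have hXY : X ^ 2 - d * Y ^ 2 ≠ 0 := by
    intro h
    obtain ⟨hX0, hY0⟩ := c'.norm X Y h
    rw [hXd, hX] at hX0
    rw [hYd, hY] at hY0
    have e1 := (mul_eq_zero.mp hX0).resolve_left hp0
    have e2 := (mul_eq_zero.mp hY0).resolve_left hp0
    have e3 : lam * (1 ^ 2 - d * (2 * φ) ^ 2) = 0 := by
      linear_combination (-2) * e2 + (4 * φ) * e1 + (-lam + 2 * φ * mu) * g3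
    exact one_ne_zero (c'.norm 1 (2 * φ) ((mul_eq_zero.mp e3).resolve_left hlam0)).1
  have key : ∀ β : F, st hf v (2 * κ * κ * (β * (-2 * (X ^ 2 - d * Y ^ 2)))) ∈ M := by
    intro β
    have ht₂v : ((T c'.jctx h₂ β : Matrix.GeneralLinearGroup ι F) : Matrix ι ι F) *ᵥ v = v := by
      rw [U_mulVec c' g0, g1, g2]
      module
    have ht₂r : f (((T c'.jctx h₂ β : Matrix.GeneralLinearGroup ι F) : Matrix ι ι F) *ᵥ r) r
        = β * (-2 * (X ^ 2 - d * Y ^ 2)) := by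
      rw [U_mulVec c' g0, bil_sub_left hb, hb.add_left, hb.smul_left, hb.smul_left,
        hf.alternating, hf.skew (J' *ᵥ h₂) r, hf.skew h₂ r, ← hXd, ← hYd]
      ring
    have hvr' : f v (((T c'.jctx h₂ β : Matrix.GeneralLinearGroup ι F) : Matrix ι ι F) *ᵥ r)
        = 0 := by
      have h5 := U_isom c' g0 β v r
      rw [ht₂v] at h5
      rw [h5, hvr]
    have hσ₂ : ss hf v (((T c'.jctx h₂ β : Matrix.GeneralLinearGroup ι F) : Matrix ι ι F) *ᵥ r) κ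
        ∈ M := by
      have h5 := ss_conj hf (T c'.jctx h₂ β) (U_isom c' g0 β) v r hvr κ
      rw [ht₂v] at h5
      rw [← h5]
      exact M.mul_mem (M.mul_mem (hT' h₂ hQh β) hσ) (M.inv_mem (hT' h₂ hQh β))
    have hmul := ss_mul_ss hf v r
      (((T c'.jctx h₂ β : Matrix.GeneralLinearGroup ι F) : Matrix ι ι F) *ᵥ r) hvr hvr' κ κ
    rw [ht₂r] at hmul
    have e : st hf v (2 * κ * κ * (β * (-2 * (X ^ 2 - d * Y ^ 2))))
        = ss hf v r κ
          * ss hf v (((T c'.jctx h₂ β : Matrix.GeneralLinearGroup ι F) : Matrix ι ι F) *ᵥ r) κ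
          * (ss hf v (((T c'.jctx h₂ β : Matrix.GeneralLinearGroup ι F) : Matrix ι ι F) *ᵥ r) κ
            * ss hf v r κ)⁻¹ := by
      rw [hmul]
      group
    rw [e]
    exact M.mul_mem (M.mul_mem hσ hσ₂) (M.inv_mem (M.mul_mem hσ₂ hσ))
  intro γ
  have h6 := key (γ / (2 * κ * κ * (-2 * (X ^ 2 - d * Y ^ 2))))
  have e : 2 * κ * κ * (γ / (2 * κ * κ * (-2 * (X ^ 2 - d * Y ^ 2)))
      * (-2 * (X ^ 2 - d * Y ^ 2))) = γ := by
    field_simp
  rw [e] at h6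
  exact h6

/-- A non-singular vector `v` with `A v ∉ F v + F J v`, when `A ∉ F + F J`. -/
theorem exists_good (c : SCtx f J d) (hcard : 13 ≤ Fintype.card ι) (A : Matrix ι ι F)
    (hA : ¬ ∃ α β : F, A = α • (1 : Matrix ι ι F) + β • J) :
    ∃ v, Qf f J v ≠ 0 ∧ ∀ α β : F, A *ᵥ v ≠ α • v + β • J *ᵥ v := by
  have cj := c.jctx
  have hbl := cj.nd.polar_bilinear
  obtain ⟨x, hx, hxK⟩ : ∃ x, Qf f J x = 0 ∧ ∀ α β : F, A *ᵥ x ≠ α • x + β • J *ᵥ x := by
    by_contra hcon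
    push Not at hcon
    exact hA (step3 cj hcard A hcon)
  have hx0 : x ≠ 0 := by
    rintro rfl
    exact hxK 0 0 (by simp)
  obtain ⟨y₁, y₂, hy₁, hy₂, hQ₁, hQ₂, h12⟩ :=
    exists_hyp_fam3 cj.nd (![x, J *ᵥ x] : Fin 2 → (ι → F)) (by omega)
  have a1 : QuadraticMap.polar (Qf f J) x y₁ = 0 := hy₁ 0
  have b1 : QuadraticMap.polar (Qf f J) x y₂ = 0 := hy₂ 0
  have b2 : QuadraticMap.polar (Qf f J) (J *ᵥ x) y₂ = 0 := hy₂ 1
  obtain ⟨y, hyd⟩ : ∃ y, y = y₁ + y₂ := ⟨_, rfl⟩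
  have hQy : Qf f J y = 1 := by
    rw [hyd, Q_add (Qf f J), hQ₁, hQ₂, h12]
    ring
  have hxy : QuadraticMap.polar (Qf f J) x y = 0 := by
    rw [hyd, hbl.add_right, a1, b1, add_zero]
  have hQ1 : Qf f J (x + y) = 1 := by
    rw [Q_add (Qf f J), hx, hQy, hxy]
    ring
  have hQ2 : Qf f J (x - y) = 1 := by
    rw [Q_sub cj.nd, hx, hQy, hxy]
    ring
  by_contra hcon
  push Not at hcon
  obtain ⟨α, β, h0⟩ := hcon y (by rw [hQy]; exact one_ne_zero)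
  obtain ⟨α₁, β₁, h1⟩ := hcon (x + y) (by rw [hQ1]; exact one_ne_zero)
  obtain ⟨α₂, β₂, h2⟩ := hcon (x - y) (by rw [hQ2]; exact one_ne_zero)
  rw [Matrix.mulVec_add, Matrix.mulVec_add, h0] at h1
  rw [Matrix.mulVec_sub, Matrix.mulVec_sub, h0] at h2
  have e : (α₁ + α₂ - 2 * α) • y + (β₁ + β₂ - 2 * β) • J *ᵥ y
      = (α₂ - α₁) • x + (β₂ - β₁) • J *ᵥ x := by
    linear_combination (norm := module) h2 - h1
  obtain ⟨g1, g2⟩ := cj.perpJ b1 b2
  have hyy₂ : QuadraticMap.polar (Qf f J) y y₂ = 1 := by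
    rw [hyd, hbl.add_left, h12, polar_self_sing cj.nd y₂ hQ₂, add_zero]
  have k1 : QuadraticMap.polar (Qf f J)
      ((α₁ + α₂ - 2 * α) • y + (β₁ + β₂ - 2 * β) • J *ᵥ y) y₂ = 0 := by
    rw [e, hbl.add_left, hbl.smul_left, hbl.smul_left, b1, b2]
    ring
  have k2 : QuadraticMap.polar (Qf f J)
      ((α₁ + α₂ - 2 * α) • y + (β₁ + β₂ - 2 * β) • J *ᵥ y) (J *ᵥ y₂) = 0 := by
    rw [e, hbl.add_left, hbl.smul_left, hbl.smul_left, g1, g2]
    ring
  obtain ⟨k3, k4⟩ := cj.ext2 (Or.inl (by rw [hyy₂]; exact one_ne_zero)) k1 k2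
  rw [k3, k4, zero_smul, zero_smul, add_zero] at e
  obtain ⟨k5, k6⟩ := cj.tf e.symm hx0
  have hα : α₁ = α := by
    have h5 : 2 * (α₁ - α) = 0 := by linear_combination k3 - k5
    exact sub_eq_zero.mp ((mul_eq_zero.mp h5).resolve_left c.two)
  have hβ : β₁ = β := by
    have h5 : 2 * (β₁ - β) = 0 := by linear_combination k4 - k6
    exact sub_eq_zero.mp ((mul_eq_zero.mp h5).resolve_left c.two)
  apply hxK α₁ β₁
  rw [← hα, ← hβ] at h1
  linear_combination (norm := module) h1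

omit [Fintype F] in
/-- One step: from `v ∈ tSet` to a singular `a ⊥ v` with `J a` not orthogonal to `v`. -/
lemma tSet_step (c : SCtx f J d) (M : Subgroup (Matrix.GeneralLinearGroup ι F))
    (hT : ∀ a, Qf f J a = 0 → ∀ β, T c.jctx a β ∈ M) {v a : ι → F} (hv : v ∈ tSet c.sf M)
    (ha : Qf f J a = 0) (h1 : QuadraticMap.polar (Qf f J) a v = 0)
    (h2 : QuadraticMap.polar (Qf f J) (J *ᵥ a) v ≠ 0) : a ∈ tSet c.sf M := by
  have cj := c.jctx
  have hb := c.sf.bilinear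
  have hw := tSet_map c.sf M (hT a ha 1) (U_isom c ha 1) hv
  rw [T_mulVec cj ha, h1] at hw
  obtain ⟨μ, hμ⟩ : ∃ μ, μ = QuadraticMap.polar (Qf f J) (J *ᵥ a) v := ⟨_, rfl⟩
  rw [← hμ] at hw h2
  have e : v + ((1 : F) * 0) • J *ᵥ a - (1 * μ) • a = v + (-μ) • a := by module
  rw [e] at hw
  have hav : f a v ≠ 0 := by
    intro h
    apply h2
    rw [hμ, c.pol, c.fJJ, h]
    ring
  have hne : f (v + (-μ) • a) v ≠ 0 := by
    rw [hb.add_left, hb.smul_left, c.sf.alternating, zero_add]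
    exact mul_ne_zero (neg_ne_zero.mpr h2) hav
  have h3 := tSet_add c.sf M hw hv hne (-1)
  have e2 : v + (-μ) • a + (-1 : F) • v = (-μ) • a := by module
  rw [e2] at h3
  have h4 := tSet_smul c.sf M h3 (-μ)⁻¹
  rwa [smul_smul, inv_mul_cancel₀ (neg_ne_zero.mpr h2), one_smul] at h4

/-- A singular vector linking `p` and `q`. -/
lemma exists_mid (c : SCtx f J d) (hcard : 13 ≤ Fintype.card ι) {p q h₂ : ι → F}
    (hw1 : QuadraticMap.polar (Qf f J) p h₂ ≠ 0) (hw2 : QuadraticMap.polar (Qf f J) q h₂ = 0)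
    (hw3 : QuadraticMap.polar (Qf f J) (J *ᵥ q) h₂ = 0) (hq0 : q ≠ 0) :
    ∃ a, Qf f J a = 0 ∧ QuadraticMap.polar (Qf f J) a p = 0 ∧
      QuadraticMap.polar (Qf f J) a q = 0 ∧ QuadraticMap.polar (Qf f J) (J *ᵥ a) p ≠ 0 ∧
      QuadraticMap.polar (Qf f J) (J *ᵥ a) q ≠ 0 := by
  have cj := c.jctx
  have hbl := cj.nd.polar_bilinear
  obtain ⟨g1, g2⟩ := cj.perpJ hw2 hw3
  have hs : ∀ α β : F, J *ᵥ p ≠ α • p + β • q := by
    intro α β h
    have e1 : QuadraticMap.polar (Qf f J) (J *ᵥ p) h₂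
        = α * QuadraticMap.polar (Qf f J) p h₂ := by
      rw [h, hbl.add_left, hbl.smul_left, hbl.smul_left, hw2]
      ring
    have e2 : QuadraticMap.polar (Qf f J) (J *ᵥ p) (J *ᵥ h₂)
        = α * QuadraticMap.polar (Qf f J) p (J *ᵥ h₂) := by
      rw [h, hbl.add_left, hbl.smul_left, hbl.smul_left, g1]
      ring
    rw [cj.BJJ, cj.adj', e1] at e2
    have h5 : (α ^ 2 - d * 1 ^ 2) * QuadraticMap.polar (Qf f J) p h₂ = 0 := by
      linear_combination e2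
    exact one_ne_zero (c.norm α 1 ((mul_eq_zero.mp h5).resolve_right hw1)).2
  have hs' : ∀ α β : F, J *ᵥ q ≠ α • p + β • q := by
    intro α β h
    have e1 : QuadraticMap.polar (Qf f J) (J *ᵥ q) h₂
        = α * QuadraticMap.polar (Qf f J) p h₂ := by
      rw [h, hbl.add_left, hbl.smul_left, hbl.smul_left, hw2]
      ring
    rw [hw3] at e1
    have hα : α = 0 := (mul_eq_zero.mp e1.symm).resolve_right hw1
    rw [hα, zero_smul, zero_add] at h
    have h1 : (-β) • q + (1 : F) • J *ᵥ q = 0 := by rw [h]; module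
    exact one_ne_zero (cj.tf h1 hq0).2
  obtain ⟨a, ha, hap, haq, hJpa, hJqa⟩ :=
    exists_connect2 cj.nd hcard p q (J *ᵥ p) (J *ᵥ q) hs hs'
  refine ⟨a, ha, by rw [B_comm]; exact hap, by rw [B_comm]; exact haq, ?_, ?_⟩
  · rw [cj.adj, B_comm _ a (J *ᵥ p)]
    simpa using hJpa
  · rw [cj.adj, B_comm _ a (J *ᵥ q)]
    simpa using hJqa

/-- The transvection centres are everything as soon as there is a nonzero one. -/
theorem tSet_univ (c : SCtx f J d) (hcard : 13 ≤ Fintype.card ι)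
    (M : Subgroup (Matrix.GeneralLinearGroup ι F))
    (hT : ∀ a, Qf f J a = 0 → ∀ β, T c.jctx a β ∈ M) {v₀ : ι → F} (hv₀ : v₀ ∈ tSet c.sf M)
    (hv₀0 : v₀ ≠ 0) (x : ι → F) : x ∈ tSet c.sf M := by
  have cj := c.jctx
  have hbl := cj.nd.polar_bilinear
  have hb := c.sf.bilinear
  have up : ∀ p q h₂ : ι → F, q ∈ tSet c.sf M → Qf f J p = 0 →
      QuadraticMap.polar (Qf f J) p h₂ ≠ 0 → QuadraticMap.polar (Qf f J) q h₂ = 0 →
      QuadraticMap.polar (Qf f J) (J *ᵥ q) h₂ = 0 → q ≠ 0 → p ∈ tSet c.sf M := by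
    intro p q h₂ hq hp hw1 hw2 hw3 hq0
    obtain ⟨a, ha, hap, haq, hJap, hJaq⟩ := exists_mid c hcard hw1 hw2 hw3 hq0
    have haT : a ∈ tSet c.sf M := tSet_step c M hT hq ha haq hJaq
    refine tSet_step c M hT haT hp (by rw [B_comm]; exact hap) ?_
    rw [cj.adj, B_comm _ p (J *ᵥ a)]
    simpa using hJap
  have down : ∀ p q h₂ : ι → F, p ∈ tSet c.sf M → Qf f J q = 0 →
      QuadraticMap.polar (Qf f J) p h₂ ≠ 0 → QuadraticMap.polar (Qf f J) q h₂ = 0 →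
      QuadraticMap.polar (Qf f J) (J *ᵥ q) h₂ = 0 → q ≠ 0 → q ∈ tSet c.sf M := by
    intro p q h₂ hp hq hw1 hw2 hw3 hq0
    obtain ⟨a, ha, hap, haq, hJap, hJaq⟩ := exists_mid c hcard hw1 hw2 hw3 hq0
    have haT : a ∈ tSet c.sf M := tSet_step c M hT hp ha hap hJap
    refine tSet_step c M hT haT hq (by rw [B_comm]; exact haq) ?_
    rw [cj.adj, B_comm _ q (J *ᵥ a)]
    simpa using hJaq
  obtain ⟨h₁, h₂, hh₁, hh₂, hQ₁, hQ₂, h12⟩ :=
    exists_hyp_fam3 cj.nd (![v₀, J *ᵥ v₀] : Fin 2 → (ι → F)) (by omega)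
  have hh₁T : h₁ ∈ tSet c.sf M :=
    up h₁ v₀ h₂ hv₀ hQ₁ (by rw [h12]; exact one_ne_zero) (hh₂ 0) (hh₂ 1) hv₀0
  have hh₁0 : h₁ ≠ 0 := by
    rintro rfl
    rw [bil_zero_left hbl] at h12
    exact zero_ne_one h12
  have sing : ∀ c' : ι → F, Qf f J c' = 0 → c' ∈ tSet c.sf M := by
    intro c' hc'
    by_cases hc0 : c' = 0
    · rw [hc0]
      intro γ
      rw [st_zero']
      exact M.one_mem
    obtain ⟨k₁, k₂, hk₁, hk₂, hK₁, hK₂, k12⟩ :=
      exists_hyp_fam3 cj.nd (![h₁, J *ᵥ h₁, c', J *ᵥ c'] : Fin 4 → (ι → F)) (by omega)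
    obtain ⟨b1, b2, b3, b4⟩ :=
      (fam4 (fun v => QuadraticMap.polar (Qf f J) v k₂ = 0) _ _ _ _).mp hk₂
    have hne : QuadraticMap.polar (Qf f J) k₁ k₂ ≠ 0 := by rw [k12]; exact one_ne_zero
    have hk₁T := up k₁ h₁ k₂ hh₁T hK₁ hne b1 b2 hh₁0
    exact down k₁ c' k₂ hk₁T hc' hne b3 b4 hc0
  by_cases hx0 : x = 0
  · rw [hx0]
    intro γ
    rw [st_zero']
    exact M.one_mem
  have hJx0 : J *ᵥ x ≠ 0 := by
    intro h
    have h1 := c.JJ x
    rw [h, Matrix.mulVec_zero] at h1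
    exact hx0 ((smul_eq_zero.mp h1.symm).resolve_left c.d_ne)
  obtain ⟨s, hs, hxs, hJxs⟩ := exists_sing_both cj.nd hcard x (J *ᵥ x) hx0 hJx0
  obtain ⟨l, hl⟩ : ∃ l, l = -Qf f J x / QuadraticMap.polar (Qf f J) x s := ⟨_, rfl⟩
  have hc₂ : Qf f J (x + l • s) = 0 := by
    rw [Q_add_smul cj.nd, hs, hl]
    field_simp
    ring
  have hfs : f (x + l • s) s ≠ 0 := by
    rw [hb.add_left, hb.smul_left, c.sf.alternating, mul_zero, add_zero]
    intro h
    apply hJxs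
    rw [c.pol, c.fJJ, h]
    ring
  have h5 := tSet_add c.sf M (sing _ hc₂) (sing s hs) hfs (-l)
  have e : x + l • s + (-l) • s = x := by module
  rwa [e] at h5

/-- A transvection is an isometry not normalising `F + F J`. -/
theorem properSp (c : SCtx f J d) (hcard : 13 ≤ Fintype.card ι) :
    ∃ g : Matrix.GeneralLinearGroup ι F,
      (∀ x y, f ((g : Matrix ι ι F) *ᵥ x) ((g : Matrix ι ι F) *ᵥ y) = f x y) ∧
      ¬ ∃ α β : F, (g : Matrix ι ι F) * J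
        * ((g⁻¹ : Matrix.GeneralLinearGroup ι F) : Matrix ι ι F)
          = α • (1 : Matrix ι ι F) + β • J := by
  have cj := c.jctx
  obtain ⟨v, hv0, -, -⟩ :=
    exists_sing_perp_fam cj.nd (Fin.elim0 : Fin 0 → (ι → F)) (by omega)
  refine ⟨st c.sf v 1, st_isom c.sf v 1, ?_⟩
  rintro ⟨α, β, h⟩
  have hS : ∀ x, ((st c.sf v 1 : Matrix.GeneralLinearGroup ι F) : Matrix ι ι F) *ᵥ (J *ᵥ x)
      = α • ((st c.sf v 1 : Matrix.GeneralLinearGroup ι F) : Matrix ι ι F) *ᵥ x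
        + β • J *ᵥ (((st c.sf v 1 : Matrix.GeneralLinearGroup ι F) : Matrix ι ι F) *ᵥ x) := by
    intro x
    have h1 : ((st c.sf v 1 : Matrix.GeneralLinearGroup ι F) : Matrix ι ι F) * J
        = (α • (1 : Matrix ι ι F) + β • J)
          * ((st c.sf v 1 : Matrix.GeneralLinearGroup ι F) : Matrix ι ι F) := by
      rw [← h, mul_assoc, ← Units.val_mul, inv_mul_cancel, Units.val_one, mul_one]
    have h2 := congrArg (fun m : Matrix ι ι F => m *ᵥ x) h1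
    simp only [← Matrix.mulVec_mulVec, Matrix.add_mulVec, Matrix.smul_mulVec,
      Matrix.one_mulVec] at h2
    exact h2
  obtain ⟨x, hx0, -, hx⟩ :=
    exists_sing_perp_fam cj.nd (![v, J *ᵥ v] : Fin 2 → (ι → F)) (by omega)
  have x1 : QuadraticMap.polar (Qf f J) v x = 0 := hx 0
  have x2 : QuadraticMap.polar (Qf f J) (J *ᵥ v) x = 0 := hx 1
  have f1 : f x (J *ᵥ v) = 0 := c.pol0 (by rw [B_comm]; exact x1)
  have f2 : f x v = 0 := by
    have h5 := c.polJ0 x2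
    rw [c.sf.skew, h5, neg_zero]
  have f3 : f (J *ᵥ x) v = 0 := by rw [c.adj, f1, neg_zero]
  have e1 := hS x
  rw [st_mulVec, st_mulVec, f3, f2] at e1
  simp only [mul_zero, zero_smul, add_zero] at e1
  have e2 : α • x + (β - 1) • J *ᵥ x = 0 := by
    linear_combination (norm := module) -e1
  obtain ⟨hα, hβ⟩ := cj.tf e2 hx0
  have hβ1 : β = 1 := sub_eq_zero.mp hβ
  obtain ⟨⟨y, hy⟩, -⟩ := c.sf.nondegenerate v hv0
  have e3 := hS y
  rw [st_mulVec, st_mulVec, hα, hβ1, Matrix.mulVec_add, Matrix.mulVec_smul] at e3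
  have e4 : (-(f (J *ᵥ y) v)) • v + (f y v) • J *ᵥ v = 0 := by
    linear_combination (norm := module) -e3
  exact hy (cj.tf e4 hv0).2

end Main

end Cfsg.Agent.Lib.Helper94.SpExt2
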