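import Mathlib
import Cfsg.Prelude.Def_GeometricClasses
import Cfsg.Agent.Lib.Helper94.SpExt2

/-!
# Maximality of the normaliser of a quadratic extension field in the symplectic group (helper94)

`maximalSp` : for a symplectic form in dimension at least `13` over a finite field of odd
characteristic and a field subalgebra `K` of degree `2`, closed under adjoints and not
self-adjoint, the normaliser of `K` in the isometry group is maximal in the isometry group.
-/

set_option autoImplicit false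
set_option linter.unusedSimpArgs false

namespace Cfsg.Agent.Lib.Helper94.SpExt3

open scoped Matrix
open Module
open Cfsg.Agent.Lib.Helper94.Basic Cfsg.Agent.Lib.Helper94.GLAux Cfsg.Agent.Lib.Helper94.Tv
  Cfsg.Agent.Lib.Helper94.QuadAbs Cfsg.Agent.Lib.Helper94.OrthSiegel
  Cfsg.Agent.Lib.Helper94.SfOrth1 Cfsg.Agent.Lib.Helper94.SfOrth2 Cfsg.Agent.Lib.Helper94.QExt1
  Cfsg.Agent.Lib.Helper94.QExt2 Cfsg.Agent.Lib.Helper94.QExt3 Cfsg.Agent.Lib.Helper94.QExt4
  Cfsg.Agent.Lib.Helper94.SpExt1 Cfsg.Agent.Lib.Helper94.SpExt2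
open Cfsg.Agent.Lib.Helper94.QExt5 (mat_ext norm_of_comm)
open Cfsg.Agent.Lib.Helper94.SympAbs (bil_zero_left bil_zero_right bil_neg_left bil_neg_right
  bil_sub_left bil_sub_right st st_mulVec st_isom st_inv)
open Cfsg.Agent.Lib.Helper94.SympGen (isom_mem_of_st)

section Alg

variable {ι : Type} [Fintype ι] [DecidableEq ι] {F : Type*} [Field F]
variable {f : (ι → F) → (ι → F) → F}

lemma lin_indep_one_J [Nonempty ι] {J : Matrix ι ι F} (hJns : ∀ a : F, J ≠ a • (1 : Matrix ι ι F))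
    (x y : F) (h : x • (1 : Matrix ι ι F) + y • J = 0) : x = 0 ∧ y = 0 := by
  have hy : y = 0 := by
    by_contra hy
    apply hJns (-x / y)
    have h2 : y • J = (-x) • (1 : Matrix ι ι F) := by
      rw [neg_smul]
      exact eq_neg_of_add_eq_zero_right h
    have h3 : J = y⁻¹ • (y • J) := by rw [smul_smul, inv_mul_cancel₀ hy, one_smul]
    rw [h3, h2, smul_smul]
    congr 1
    field_simp
  refine ⟨?_, hy⟩
  rw [hy, zero_smul, add_zero] at h
  obtain ⟨i⟩ := (inferInstance : Nonempty ι)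
  have := congrFun (congrFun h i) i
  simpa using this

/-- A two-dimensional subalgebra is `F + F J` for any non-scalar `J` in it. -/
lemma span_one_J [Nonempty ι] (K : Subalgebra F (Matrix ι ι F)) (hfr : Module.finrank F K = 2)
    {J : Matrix ι ι F} (hJ : J ∈ K) (hJns : ∀ a : F, J ≠ a • (1 : Matrix ι ι F))
    (k : Matrix ι ι F) : k ∈ K ↔ ∃ α β : F, k = α • (1 : Matrix ι ι F) + β • J := by
  constructor
  · intro hk
    have hli : LinearIndependent F ![(1 : Matrix ι ι F), J] := by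
      rw [LinearIndependent.pair_iff]
      exact lin_indep_one_J hJns
    have hfr' := finrank_span_eq_card hli
    rw [Fintype.card_fin] at hfr'
    have hle : Submodule.span F (Set.range ![(1 : Matrix ι ι F), J])
        ≤ Subalgebra.toSubmodule K := by
      rw [Submodule.span_le]
      rintro _ ⟨i, rfl⟩
      fin_cases i
      · exact K.one_mem
      · exact hJ
    have heq : Submodule.span F (Set.range ![(1 : Matrix ι ι F), J])
        = Subalgebra.toSubmodule K := by
      apply Submodule.eq_of_le_of_finrank_eq hle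
      rw [hfr', Subalgebra.finrank_toSubmodule, hfr]
    have hk' : k ∈ Submodule.span F (Set.range ![(1 : Matrix ι ι F), J]) := by
      rw [heq]
      exact hk
    obtain ⟨c', hc'⟩ := (Submodule.mem_span_range_iff_exists_fun F).mp hk'
    rw [Fin.sum_univ_two] at hc'
    exact ⟨c' 0, c' 1, hc'.symm⟩
  · rintro ⟨α, β, rfl⟩
    exact K.add_mem (K.smul_mem K.one_mem _) (K.smul_mem hJ _)

/-- The context `SCtx` from an adjoint-closed, not self-adjoint field subalgebra of degree 2. -/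
theorem sctx_of [Nonempty ι] (hf : Cfsg.Geo.IsSymplecticForm f) (h2 : (2 : F) ≠ 0)
    (K : Subalgebra F (Matrix ι ι F)) (hK : Cfsg.Geo.IsFieldSubalgebra 2 K)
    (hac : Cfsg.Geo.IsAdjointClosedFor f K) (hnsa : ¬ Cfsg.Geo.IsSelfAdjointFor f K) :
    ∃ (J : Matrix ι ι F) (d : F), SCtx f J d ∧ J ∈ K ∧
      ∀ k, k ∈ K ↔ ∃ α β : F, k = α • (1 : Matrix ι ι F) + β • J := by
  have hb := hf.bilinear
  unfold Cfsg.Geo.IsSelfAdjointFor at hnsa
  push Not at hnsa
  obtain ⟨J₁, hJ₁, u₀, v₀, hne⟩ := hnsa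
  obtain ⟨J₁', hJ₁', hadj₁⟩ := hac J₁ hJ₁
  have hadj₁' : ∀ u v, f (J₁' *ᵥ u) v = f u (J₁ *ᵥ v) := by
    intro u v
    rw [hf.skew, ← hadj₁, hf.skew, neg_neg]
  obtain ⟨J, hJd⟩ : ∃ J, J = J₁ - J₁' := ⟨_, rfl⟩
  have hJK : J ∈ K := by
    rw [hJd]
    exact K.sub_mem hJ₁ hJ₁'
  have hadj : ∀ x y, f (J *ᵥ x) y = - f x (J *ᵥ y) := by
    intro x y
    rw [hJd, Matrix.sub_mulVec, Matrix.sub_mulVec, bil_sub_left hb, bil_sub_right hb, hadj₁,
      hadj₁']
    ring
  have hJ0 : J ≠ 0 := by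
    intro h
    apply hne
    have h1 : J₁ = J₁' := by
      rw [hJd] at h
      exact sub_eq_zero.mp h
    rw [hadj₁, ← h1]
  obtain ⟨i0⟩ := (inferInstance : Nonempty ι)
  have hfne : ∃ x y, f x y ≠ 0 := by
    have hv : (Pi.single i0 1 : ι → F) ≠ 0 := by
      intro h
      have := congrFun h i0
      simp at this
    obtain ⟨-, ⟨y, hy⟩⟩ := hf.nondegenerate _ hv
    exact ⟨_, y, hy⟩
  have hJns : ∀ a : F, J ≠ a • (1 : Matrix ι ι F) := by
    intro a h
    obtain ⟨x, y, hxy⟩ := hfne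
    have h1 := hadj x y
    rw [h, Matrix.smul_mulVec, Matrix.smul_mulVec, Matrix.one_mulVec, Matrix.one_mulVec,
      hb.smul_left, hb.smul_right] at h1
    have h3 : (2 * a) * f x y = 0 := by linear_combination h1
    have ha : a = 0 := by
      rcases mul_eq_zero.mp h3 with h4 | h4
      · exact (mul_eq_zero.mp h4).resolve_left h2
      · exact absurd h4 hxy
    apply hJ0
    rw [h, ha, zero_smul]
  have hKJ := span_one_J K hK.finrank_eq hJK hJns
  obtain ⟨d, e, hJJ⟩ := (hKJ (J * J)).mp (K.mul_mem hJK hJK)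
  have he : e = 0 := by
    by_contra he
    obtain ⟨x, hx⟩ : ∃ x, J *ᵥ x ≠ 0 := by
      by_contra hcon
      push Not at hcon
      exact hJ0 (mat_ext (fun x => by rw [hcon x, Matrix.zero_mulVec]))
    obtain ⟨-, ⟨y, hy⟩⟩ := hf.nondegenerate _ hx
    have h1 : f ((J * J) *ᵥ x) y = f x ((J * J) *ᵥ y) := by
      rw [← Matrix.mulVec_mulVec, ← Matrix.mulVec_mulVec, hadj, hadj, neg_neg]
    have h5 : f x (J *ᵥ y) = - f (J *ᵥ x) y := by rw [hadj]; ring
    rw [hJJ, Matrix.add_mulVec, Matrix.add_mulVec, Matrix.smul_mulVec, Matrix.smul_mulVec,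
      Matrix.smul_mulVec, Matrix.smul_mulVec, Matrix.one_mulVec, Matrix.one_mulVec, hb.add_left,
      hb.add_right, hb.smul_left, hb.smul_left, hb.smul_right, hb.smul_right, h5] at h1
    have h6 : (2 * e) * f (J *ᵥ x) y = 0 := by linear_combination h1
    rcases mul_eq_zero.mp h6 with h7 | h7
    · exact he ((mul_eq_zero.mp h7).resolve_left h2)
    · exact hy h7
  rw [he, zero_smul, add_zero] at hJJ
  have hJJv : ∀ x, J *ᵥ (J *ᵥ x) = d • x := by
    intro x
    rw [Matrix.mulVec_mulVec, hJJ, Matrix.smul_mulVec, Matrix.one_mulVec]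
  have hnorm : ∀ x y : F, x ^ 2 - d * y ^ 2 = 0 → x = 0 ∧ y = 0 := by
    intro x y hxy
    have hprod : (x • (1 : Matrix ι ι F) + y • J) * (x • (1 : Matrix ι ι F) - y • J) = 0 := by
      have e1 : (x • (1 : Matrix ι ι F) + y • J) * (x • (1 : Matrix ι ι F) - y • J)
          = (x ^ 2 - d * y ^ 2) • (1 : Matrix ι ι F) := by
        apply mat_ext
        intro w
        simp only [← Matrix.mulVec_mulVec, Matrix.add_mulVec, Matrix.sub_mulVec,
          Matrix.smul_mulVec, Matrix.one_mulVec, Matrix.mulVec_sub, Matrix.mulVec_smul, hJJv]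
        module
      rw [e1, hxy, zero_smul]
    by_contra hcon
    have hk0 : x • (1 : Matrix ι ι F) + y • J ≠ 0 :=
      fun h => hcon (lin_indep_one_J hJns x y h)
    have hkK : x • (1 : Matrix ι ι F) + y • J ∈ K :=
      K.add_mem (K.smul_mem K.one_mem _) (K.smul_mem hJK _)
    obtain ⟨k', hk', hkk'⟩ := hK.inv _ hkK hk0
    have hcomm := hK.comm _ hkK _ hk'
    have h5 : x • (1 : Matrix ι ι F) - y • J = 0 := by
      have e2 : x • (1 : Matrix ι ι F) - y • J
          = k' * ((x • (1 : Matrix ι ι F) + y • J) * (x • (1 : Matrix ι ι F) - y • J)) := by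
        rw [← mul_assoc, ← hcomm, hkk', one_mul]
      rw [e2, hprod, mul_zero]
    have h6 := lin_indep_one_J hJns x (-y) (by rw [neg_smul, ← sub_eq_add_neg]; exact h5)
    exact hcon ⟨h6.1, neg_eq_zero.mp h6.2⟩
  exact ⟨J, d, { sf := hf, two := h2, adj := hadj, JJ := hJJv, norm := hnorm }, hJK, hKJ⟩

end Alg

section Max

variable {ι : Type} [Fintype ι] [DecidableEq ι] {F : Type*} [Field F] [Fintype F]
variable {f : (ι → F) → (ι → F) → F}

/-- The normaliser in the symplectic group of a non-self-adjoint quadratic extension field is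
maximal (odd characteristic, dimension at least 13). -/
theorem maximalSp (hf : Cfsg.Geo.IsSymplecticForm f) (h2 : (2 : F) ≠ 0)
    (hcard : 13 ≤ Fintype.card ι) (K : Subalgebra F (Matrix ι ι F))
    (hK : Cfsg.Geo.IsFieldSubalgebra 2 K) (hac : Cfsg.Geo.IsAdjointClosedFor f K)
    (hnsa : ¬ Cfsg.Geo.IsSelfAdjointFor f K) (G : Subgroup (Matrix.GeneralLinearGroup ι F))
    (hG : ∀ g : Matrix.GeneralLinearGroup ι F, g ∈ G ↔
      ∀ x y, f ((g : Matrix ι ι F) *ᵥ x) ((g : Matrix ι ι F) *ᵥ y) = f x y) :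
    Cfsg.Geo.IsMaximalIn G (Cfsg.Geo.subalgebraNormalizer K ⊓ G) := by
  haveI : Nonempty ι := Fintype.card_pos_iff.mp (by omega)
  obtain ⟨J, d, c, hJ, hKJ⟩ := sctx_of hf h2 K hK hac hnsa
  have cj := c.jctx
  have hb := hf.bilinear
  have hTN : ∀ a, Qf f J a = 0 → ∀ β, T c.jctx a β ∈ Cfsg.Geo.subalgebraNormalizer K ⊓ G := by
    intro a ha β
    refine ⟨?_, (hG _).mpr (U_isom c ha β)⟩
    apply norm_of_comm K hKJ
    apply mat_ext
    intro x
    rw [← Matrix.mulVec_mulVec, ← Matrix.mulVec_mulVec, T_comm c.jctx ha]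
  have hzN : ∀ v, Qf f J v ≠ 0 → zz c.sf v (J *ᵥ v) ∈ Cfsg.Geo.subalgebraNormalizer K ⊓ G := by
    intro v hv
    refine ⟨?_, (hG _).mpr (zz_isom c.sf v _ hv)⟩
    apply norm_of_comm K hKJ
    apply mat_ext
    intro x
    rw [← Matrix.mulVec_mulVec, ← Matrix.mulVec_mulVec, zz_mulVec, zz_mulVec, Matrix.mulVec_sub,
      Matrix.mulVec_smul, Matrix.mulVec_sub, Matrix.mulVec_smul, Matrix.mulVec_smul, c.JJ,
      c.fJJ, c.adj x v]
    module
  refine ⟨lt_of_le_of_ne inf_le_right ?_, ?_⟩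
  · intro h
    obtain ⟨g, hg, hgJ⟩ := properSp c hcard
    have hgG : g ∈ G := (hG g).mpr hg
    rw [← h] at hgG
    exact hgJ ((hKJ _).mp ((hgG.1 J).mp hJ))
  · intro M hHM hMG
    by_cases hM : M = Cfsg.Geo.subalgebraNormalizer K ⊓ G
    · left
      exact hM
    right
    apply le_antisymm hMG
    obtain ⟨g, hgM, hgH⟩ : ∃ g ∈ M, g ∉ Cfsg.Geo.subalgebraNormalizer K ⊓ G := by
      by_contra hcon
      push Not at hcon
      exact hM (le_antisymm hcon hHM)
    have hgN : g ∉ Cfsg.Geo.subalgebraNormalizer K := fun h => hgH ⟨h, hMG hgM⟩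
    have hex : ∃ g' ∈ M, ∃ k ∈ K, (g' : Matrix ι ι F) * k
        * ((g'⁻¹ : Matrix.GeneralLinearGroup ι F) : Matrix ι ι F) ∉ K := by
      have h1 : ¬ ∀ k : Matrix ι ι F, k ∈ K ↔ (g : Matrix ι ι F) * k
          * ((g⁻¹ : Matrix.GeneralLinearGroup ι F) : Matrix ι ι F) ∈ K := hgN
      push Not at h1
      obtain ⟨k, hk⟩ := h1
      rcases hk with ⟨hkK, h⟩ | ⟨hkK, hk'⟩
      · exact ⟨g, hgM, k, hkK, h⟩
      · refine ⟨g⁻¹, M.inv_mem hgM, _, hk', ?_⟩
        have e : ((g⁻¹ : Matrix.GeneralLinearGroup ι F) : Matrix ι ι F)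
            * ((g : Matrix ι ι F) * k * ((g⁻¹ : Matrix.GeneralLinearGroup ι F) : Matrix ι ι F))
            * (((g⁻¹)⁻¹ : Matrix.GeneralLinearGroup ι F) : Matrix ι ι F) = k := by
          have h2' : ((g⁻¹ : Matrix.GeneralLinearGroup ι F) : Matrix ι ι F) * (g : Matrix ι ι F)
              = 1 := by
            rw [← Units.val_mul, inv_mul_cancel, Units.val_one]
          rw [inv_inv, ← mul_assoc, ← mul_assoc, h2', one_mul, mul_assoc, h2', mul_one]
        rw [e]
        exact hkK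
    obtain ⟨g', hg'M, k, hk, hgk⟩ := hex
    obtain ⟨α, β, rfl⟩ := (hKJ k).mp hk
    have hgJ : ¬ ∃ α' β' : F, (g' : Matrix ι ι F) * J
        * ((g'⁻¹ : Matrix.GeneralLinearGroup ι F) : Matrix ι ι F)
          = α' • (1 : Matrix ι ι F) + β' • J := by
      rintro ⟨α', β', h⟩
      apply hgk
      have h1 : (g' : Matrix ι ι F) * ((g'⁻¹ : Matrix.GeneralLinearGroup ι F) : Matrix ι ι F)
          = 1 := by
        rw [← Units.val_mul, mul_inv_cancel, Units.val_one]
      have e : (g' : Matrix ι ι F) * (α • (1 : Matrix ι ι F) + β • J)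
          * ((g'⁻¹ : Matrix.GeneralLinearGroup ι F) : Matrix ι ι F)
          = α • (1 : Matrix ι ι F) + β • (α' • (1 : Matrix ι ι F) + β' • J) := by
        rw [← h, mul_add, add_mul, Matrix.mul_smul, Matrix.mul_smul, Matrix.smul_mul,
          Matrix.smul_mul, mul_one, h1]
      rw [e]
      exact K.add_mem (K.smul_mem K.one_mem _)
        (K.smul_mem (K.add_mem (K.smul_mem K.one_mem _) (K.smul_mem hJ _)) _)
    -- the second structure
    obtain ⟨J', hJ'd⟩ : ∃ J', J' = (g' : Matrix ι ι F) * J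
        * ((g'⁻¹ : Matrix.GeneralLinearGroup ι F) : Matrix ι ι F) := ⟨_, rfl⟩
    rw [← hJ'd] at hgJ
    have hg'i := (hG g').mp (hMG hg'M)
    have hJ'v : ∀ x, J' *ᵥ x = (g' : Matrix ι ι F) *ᵥ (J *ᵥ
        (((g'⁻¹ : Matrix.GeneralLinearGroup ι F) : Matrix ι ι F) *ᵥ x)) := by
      intro x
      rw [hJ'd, Matrix.mulVec_mulVec, Matrix.mulVec_mulVec, mul_assoc]
    have hgl : ∀ a b, f ((g' : Matrix ι ι F) *ᵥ a) b
        = f a (((g'⁻¹ : Matrix.GeneralLinearGroup ι F) : Matrix ι ι F) *ᵥ b) := by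
      intro a b
      conv_lhs => rw [← gl_mulVec_inv g' b]
      rw [hg'i]
    have hgr : ∀ a b, f a ((g' : Matrix ι ι F) *ᵥ b)
        = f (((g'⁻¹ : Matrix.GeneralLinearGroup ι F) : Matrix ι ι F) *ᵥ a) b := by
      intro a b
      conv_lhs => rw [← gl_mulVec_inv g' a]
      rw [hg'i]
    have c' : SCtx f J' d :=
      { sf := hf
        two := h2
        adj := fun x y => by rw [hJ'v, hJ'v, hgl, hgr, c.adj]
        JJ := fun x => by
          rw [hJ'v, hJ'v, gl_inv_mulVec, c.JJ, Matrix.mulVec_smul, gl_mulVec_inv]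
        norm := c.norm }
    have hT' : ∀ b, Qf f J' b = 0 → ∀ β, T c'.jctx b β ∈ M := by
      intro b hb' β
      have hb0 : f b (J' *ᵥ b) = 0 := hb'
      have ha : Qf f J (((g'⁻¹ : Matrix.GeneralLinearGroup ι F) : Matrix ι ι F) *ᵥ b) = 0 := by
        unfold Qf
        rw [← hgr, ← hJ'v]
        exact hb0
      have e : T c'.jctx b β = g' * T c.jctx
          (((g'⁻¹ : Matrix.GeneralLinearGroup ι F) : Matrix ι ι F) *ᵥ b) β * g'⁻¹ := by
        apply gl_ext
        intro x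
        rw [Units.val_mul, Units.val_mul, ← Matrix.mulVec_mulVec, ← Matrix.mulVec_mulVec,
          U_mulVec c' hb0, U_mulVec c ha, Matrix.mulVec_sub, Matrix.mulVec_add,
          Matrix.mulVec_smul, Matrix.mulVec_smul, gl_mulVec_inv, gl_mulVec_inv, ← hJ'v, ← hgr,
          ← hJ'v, ← hgr, gl_mulVec_inv]
      rw [e]
      exact M.mul_mem (M.mul_mem hg'M (hHM (hTN _ ha β))) (M.inv_mem hg'M)
    obtain ⟨v, hv, hvK⟩ := exists_good c hcard J' hgJ
    have hvT := tv_of_good c c' hcard M (fun v hv => hHM (hzN v hv)) hT' hv hvK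
    have hv0 : v ≠ 0 := by
      rintro rfl
      apply hv
      unfold Qf
      rw [bil_zero_left hb]
    have hall := tSet_univ c hcard M (fun a ha β => hHM (hTN a ha β)) hvT hv0
    intro g₁ hg₁
    exact isom_mem_of_st hf M (fun a γ => hall a γ) (Fintype.card ι) g₁ ((hG g₁).mp hg₁)
      (by omega)

end Max

end Cfsg.Agent.Lib.Helper94.SpExt3
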