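import Mathlib
import Cfsg.Agent.Lib.Helper37.SpTStmt
import Cfsg.Agent.Lib.Helper37.EluStmt
import Cfsg.Agent.Lib.Helper65.EluFIXMOD
import Cfsg.Agent.Lib.Helper40.RootPow

/-!
# S5980, piece CYCVEC (helper94)

`A ^ r = w • 1`, `A` invertible and not scalar, `i = orderOf (q : ZMod r) ≥ 2`:
some `v` with `v, A v, ..., A^(i-1) v` linearly independent.
-/

set_option autoImplicit false

namespace Cfsg.Agent.Lib.Helper94.SpTCYCVEC

open Cfsg.Agent.Lib.Helper37.SpTStmt

universe u

/-- cyclic vectors for an endomorphism of order `r` without fixed points on the cyclic span -/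
theorem cyc_indep {F : Type u} [Field F] [Fintype F] (p : ℕ) [Fact p.Prime] [CharP F p]
    (r : ℕ) [Fact r.Prime] (hrp : r ≠ p) {V : Type u} [AddCommGroup V] [Module F V]
    [FiniteDimensional F V] (φ : Module.End F V) (hφr : φ ^ r = 1) (u : V) (hu : φ u ≠ u) :
    LinearIndependent F
      (fun s : Fin (orderOf ((Fintype.card F : ℕ) : ZMod r)) => (φ ^ (s : ℕ)) (φ u - u)) := by
  have hr : r.Prime := Fact.out
  have hp : p.Prime := Fact.out
  set c := orderOf ((Fintype.card F : ℕ) : ZMod r) with hcdef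
  obtain ⟨v, hv⟩ : ∃ v : V, v = φ u - u := ⟨_, rfl⟩
  rw [← hv]
  have hv0 : v ≠ 0 := by rw [hv]; exact sub_ne_zero.mpr hu
  obtain ⟨W, hW⟩ : ∃ W : Submodule F V,
      W = Submodule.span F (Set.range (fun s : ℕ => (φ ^ s) v)) := ⟨_, rfl⟩
  have hWinv : ∀ x ∈ W, φ x ∈ W := by
    have h1 : W ≤ W.comap φ := by
      rw [hW]
      apply Submodule.span_le.mpr
      rintro _ ⟨s, rfl⟩
      show φ ((φ ^ s) v) ∈ Submodule.span F (Set.range (fun s : ℕ => (φ ^ s) v))
      rw [← Module.End.mul_apply, ← pow_succ']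
      exact Submodule.subset_span ⟨s + 1, rfl⟩
    intro x hx
    exact h1 hx
  have hvW : v ∈ W := by
    rw [hW]
    exact Submodule.subset_span ⟨0, by simp⟩
  obtain ⟨N, hN⟩ : ∃ N : Module.End F V, N = ∑ s ∈ Finset.range r, φ ^ s := ⟨_, rfl⟩
  have hN1 : N * (φ - 1) = 0 := by rw [hN, geom_sum_mul, hφr, sub_self]
  have hNW : ∀ x ∈ W, N x = 0 := by
    intro x hx
    rw [hW] at hx
    induction hx using Submodule.span_induction with
    | mem x hx =>
      obtain ⟨s, rfl⟩ := hx
      have hcm : Commute (φ - 1) (φ ^ s) :=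
        ((Commute.refl φ).sub_left (Commute.one_left φ)).pow_right s
      have e : (φ ^ s) v = (φ - 1) ((φ ^ s) u) := by
        have e1 : v = (φ - 1) u := by
          rw [hv, LinearMap.sub_apply, Module.End.one_apply]
        rw [e1, ← Module.End.mul_apply, ← Module.End.mul_apply, hcm.eq]
      show N ((φ ^ s) v) = 0
      rw [e, ← Module.End.mul_apply, hN1]
      rfl
    | zero => exact map_zero N
    | add x y _ _ hx hy => rw [map_add, hx, hy, add_zero]
    | smul a x _ hx => rw [map_smul, hx, smul_zero]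
  have hrF : (r : F) ≠ 0 := by
    intro h
    rw [CharP.cast_eq_zero_iff F p] at h
    exact hrp ((Nat.prime_dvd_prime_iff_eq hp hr).mp h).symm
  have hfixW : W ⊓ LinearMap.ker (φ - 1) = ⊥ := by
    rw [eq_bot_iff]
    rintro x ⟨hxW, hxk⟩
    have hφx : φ x = x := by
      have h := LinearMap.mem_ker.mp hxk
      rw [LinearMap.sub_apply, Module.End.one_apply] at h
      exact sub_eq_zero.mp h
    have hpow : ∀ s, (φ ^ s) x = x := by
      intro s
      induction s with
      | zero => simp
      | succ s ih => rw [pow_succ, Module.End.mul_apply, hφx, ih]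
    have hNx : N x = (r : F) • x := by
      rw [hN, LinearMap.sum_apply, Finset.sum_congr rfl (fun s _ => hpow s), Finset.sum_const,
        Finset.card_range]
      exact (Nat.cast_smul_eq_nsmul F r x).symm
    rw [hNW x hxW] at hNx
    exact (Submodule.mem_bot F).mpr ((smul_eq_zero.mp hNx.symm).resolve_left hrF)
  obtain ⟨m, hm⟩ := Cfsg.Agent.Lib.Helper65.EluFIXMOD.main F p r hrp V φ hφr W hWinv
  rw [hfixW, finrank_bot, zero_add] at hm
  have hWpos : 0 < Module.finrank F W := by
    rw [Module.finrank_pos_iff_exists_ne_zero]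
    exact ⟨⟨v, hvW⟩, fun h => hv0 (congrArg Subtype.val h)⟩
  have hci : c ≤ Module.finrank F W := by
    rw [hm] at hWpos ⊢
    rcases Nat.eq_zero_or_pos m with h0 | hpos
    · rw [h0, mul_zero] at hWpos; omega
    · exact Nat.le_mul_of_pos_right c hpos
  have hind : ∀ j, j ≤ c → LinearIndependent F (fun s : Fin j => (φ ^ (s : ℕ)) v) := by
    intro j
    induction j with
    | zero => intro _; exact linearIndependent_empty_type
    | succ j ih =>
      intro hj
      have e : (fun s : Fin (j + 1) => (φ ^ (s : ℕ)) v) =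
          Fin.snoc (fun s : Fin j => (φ ^ (s : ℕ)) v) ((φ ^ j) v) := by
        funext s
        refine Fin.lastCases ?_ (fun s' => ?_) s
        · simp
        · simp
      rw [e, linearIndependent_finSnoc]
      refine ⟨ih (by omega), fun hmem => ?_⟩
      obtain ⟨U, hU⟩ : ∃ U : Submodule F V,
          U = Submodule.span F (Set.range (fun s : Fin j => (φ ^ (s : ℕ)) v)) := ⟨_, rfl⟩
      rw [← hU] at hmem
      have hUinv : U ≤ U.comap φ := by
        rw [hU]
        apply Submodule.span_le.mpr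
        rintro _ ⟨s, rfl⟩
        show φ ((φ ^ (s : ℕ)) v) ∈ Submodule.span F (Set.range (fun s : Fin j => (φ ^ (s : ℕ)) v))
        rw [← Module.End.mul_apply, ← pow_succ']
        by_cases hs : (s : ℕ) + 1 < j
        · exact Submodule.subset_span ⟨⟨(s : ℕ) + 1, hs⟩, rfl⟩
        · have hsj : (s : ℕ) + 1 = j := by have := s.2; omega
          rw [hsj, ← hU]; exact hmem
      have hall : ∀ s : ℕ, (φ ^ s) v ∈ U := by
        intro s
        induction s with
        | zero =>
          rcases Nat.eq_zero_or_pos j with h0 | hpos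
          · subst h0; exact hmem
          · rw [hU]; exact Submodule.subset_span ⟨⟨0, hpos⟩, rfl⟩
        | succ s ih' =>
          rw [pow_succ', Module.End.mul_apply]
          exact hUinv ih'
      have hWU : W ≤ U := by
        rw [hW]
        exact Submodule.span_le.mpr (by rintro _ ⟨s, rfl⟩; exact hall s)
      have h1 : Module.finrank F W ≤ Module.finrank F U := Submodule.finrank_mono hWU
      have h2 : Module.finrank F U ≤ j := by
        have h := finrank_range_le_card (R := F) (fun s : Fin j => (φ ^ (s : ℕ)) v)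
        rw [Fintype.card_fin] at h
        rw [hU]; exact h
      omega
  exact hind c le_rfl

theorem main : CycVec.{u} := by
  intro F _ _ p _ _ r _ hrp hc n A w hdet hAr hA
  have hr : r.Prime := Fact.out
  have hn : 0 < n := by
    rcases Nat.eq_zero_or_pos n with h0 | h
    · subst h0; exact absurd (Subsingleton.elim _ _) (hA 0)
    · exact h
  have hw0 : w ≠ 0 := by
    rintro rfl
    rw [zero_smul] at hAr
    have h := congrArg Matrix.det hAr
    have hne : Nonempty (Fin n) := ⟨⟨0, hn⟩⟩
    rw [Matrix.det_pow, Matrix.det_zero] at h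
    exact hdet ((pow_eq_zero_iff hr.ne_zero).mp h)
  have hc1 : orderOf ((Fintype.card F : ℕ) : ZMod r) ≠ 1 := by omega
  have hnd : ¬ r ∣ Fintype.card F - 1 := fun h =>
    hc1 ((Cfsg.Agent.Lib.Helper40.RootPow.order_eq_one_iff (F := F) r).mpr h)
  obtain ⟨δ, hδ⟩ := Cfsg.Agent.Lib.Helper40.RootPow.exists_root (F := F) r hr hnd w
  have hδ0 : δ ≠ 0 := by
    rintro rfl
    rw [zero_pow hr.ne_zero] at hδ
    exact hw0 hδ.symm
  obtain ⟨A1, hA1⟩ : ∃ A1 : Matrix (Fin n) (Fin n) F, A1 = δ⁻¹ • A := ⟨_, rfl⟩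
  have hAA1 : A = δ • A1 := by rw [hA1, smul_smul, mul_inv_cancel₀ hδ0, one_smul]
  have hA1r : A1 ^ r = 1 := by
    rw [hA1, smul_pow, hAr, smul_smul, inv_pow, hδ, inv_mul_cancel₀ hw0, one_smul]
  have hA1ne : A1 ≠ 1 := by
    intro h
    apply hA δ
    rw [hAA1, h]
  have hφr : (Matrix.toLin' A1) ^ r = 1 := by
    rw [← Matrix.toLin'_pow, hA1r, Matrix.toLin'_one]; rfl
  obtain ⟨u, hu⟩ : ∃ u, Matrix.toLin' A1 u ≠ u := by
    by_contra hcon
    push Not at hcon
    apply hA1ne
    apply Matrix.toLin'.injective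
    rw [Matrix.toLin'_one]
    exact LinearMap.ext hcon
  have hind := cyc_indep p r hrp (Matrix.toLin' A1) hφr u hu
  refine ⟨Matrix.toLin' A1 u - u, ?_⟩
  have e : (fun s : Fin (orderOf ((Fintype.card F : ℕ) : ZMod r)) =>
      (A ^ (s : ℕ)).mulVec (Matrix.toLin' A1 u - u)) =
      (fun s : Fin (orderOf ((Fintype.card F : ℕ) : ZMod r)) =>
        Units.mk0 (δ ^ (s : ℕ)) (pow_ne_zero _ hδ0)) •
      (fun s : Fin (orderOf ((Fintype.card F : ℕ) : ZMod r)) =>
        ((Matrix.toLin' A1) ^ (s : ℕ)) (Matrix.toLin' A1 u - u)) := by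
    funext s
    rw [Pi.smul_apply', Units.smul_def, Units.val_mk0, ← Matrix.toLin'_pow, Matrix.toLin'_apply,
      hAA1, smul_pow, Matrix.smul_mulVec, Matrix.toLin'_apply]
  rw [e]
  exact hind.units_smul _

end Cfsg.Agent.Lib.Helper94.SpTCYCVEC
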