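import Mathlib
import Cfsg.Agent.Lib.Helper37.TenStmt
import Cfsg.Agent.Lib.Helper37.EluStmt
import Cfsg.Agent.Lib.Helper65.EluFIXMOD
import Cfsg.Agent.Lib.Helper40.RootPow
import Cfsg.Agent.Lib.Helper40.PrimeElts

/-!
# S5979, piece BLKTEN (helper94)

An element of order `r` with a single non-trivial block is not a conjugate of a Kronecker
product `A ⊗ₖ B` with `2 ≤ a < b`.
-/

set_option autoImplicit false

namespace Cfsg.Agent.Lib.Helper94.TenBLKTEN

open scoped Kronecker
open Cfsg.Agent.Lib.Helper37.TenStmt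

universe u

section aux

variable {F : Type u} [Field F]

theorem kron_pow {a b : ℕ} (A : Matrix (Fin a) (Fin a) F) (B : Matrix (Fin b) (Fin b) F)
    (k : ℕ) : (A ⊗ₖ B) ^ k = (A ^ k) ⊗ₖ (B ^ k) := by
  induction k with
  | zero => rw [pow_zero, pow_zero, pow_zero, Matrix.one_kronecker_one]
  | succ k ih => rw [pow_succ, pow_succ, pow_succ, ih, Matrix.mul_kronecker_mul]

/-- rank-nullity for `x - 1` -/
theorem rank_sub_one {m : ℕ} (x : Matrix (Fin m) (Fin m) F) :
    (x - 1).rank + Module.finrank F (LinearMap.ker (Matrix.toLin' x - 1)) = m := by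
  have h := LinearMap.finrank_range_add_finrank_ker (Matrix.toLin' (x - 1))
  rw [Module.finrank_fin_fun] at h
  have e1 : Matrix.toLin' (x - 1) = Matrix.toLin' x - 1 := by
    rw [map_sub, Matrix.toLin'_one]; rfl
  rw [← e1]
  have e2 : (x - 1).rank = Module.finrank F (LinearMap.range (Matrix.toLin' (x - 1))) := by
    rw [Matrix.toLin'_apply']; rfl
  rw [e2]
  exact h

/-- FixMod applied to a matrix with `W = ⊤`. -/
theorem fixmod_matrix (hFM : Cfsg.Agent.Lib.Helper37.EluStmt.FixMod.{u})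
    [Fintype F] (p : ℕ) [Fact p.Prime] [CharP F p] (r : ℕ)
    [Fact r.Prime] (hrp : r ≠ p) {m : ℕ} (M : Matrix (Fin m) (Fin m) F) (hM : M ^ r = 1) :
    ∃ t : ℕ, (M - 1).rank = orderOf ((Fintype.card F : ℕ) : ZMod r) * t := by
  have hφ : (Matrix.toLin' M) ^ r = 1 := by
    rw [← Matrix.toLin'_pow, hM, Matrix.toLin'_one]; rfl
  obtain ⟨t, ht⟩ := hFM F p r hrp (Fin m → F)
    (Matrix.toLin' M) hφ ⊤ (fun v _ => Submodule.mem_top)
  refine ⟨t, ?_⟩
  have h1 := rank_sub_one M
  have h2 : Module.finrank F ↥(⊤ : Submodule F (Fin m → F)) = m := by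
    rw [finrank_top, Module.finrank_fin_fun]
  have h3 : Module.finrank F ↥((⊤ : Submodule F (Fin m → F)) ⊓
      LinearMap.ker (Matrix.toLin' M - 1)) =
      Module.finrank F ↥(LinearMap.ker (Matrix.toLin' M - 1)) := by
    rw [top_inf_eq]
  rw [h2, h3] at ht
  omega

theorem eq_zero_of_rank_eq_zero {m : ℕ} (M : Matrix (Fin m) (Fin m) F) (h : M.rank = 0) :
    M = 0 := by
  have h1 : LinearMap.range M.mulVecLin = ⊥ := Submodule.finrank_eq_zero.mp h
  have h2 : M.mulVecLin = 0 := LinearMap.range_eq_bot.mp h1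
  have h3 : Matrix.toLin' M = 0 := by rw [Matrix.toLin'_apply']; exact h2
  exact (LinearEquiv.map_eq_zero_iff Matrix.toLin').mp h3

theorem one_kron_sub {a b : ℕ} (B : Matrix (Fin b) (Fin b) F) :
    (1 : Matrix (Fin a) (Fin a) F) ⊗ₖ B - 1 = (1 : Matrix (Fin a) (Fin a) F) ⊗ₖ (B - 1) := by
  have h : (1 : Matrix (Fin a) (Fin a) F) ⊗ₖ B =
      (1 : Matrix (Fin a) (Fin a) F) ⊗ₖ (B - 1) + 1 := by
    rw [← Matrix.one_kronecker_one (m := Fin a) (n := Fin b) (α := F), ← Matrix.kronecker_add,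
      sub_add_cancel]
  rw [h, add_sub_cancel_right]

end aux

theorem main (hK : KRank.{u}) (hKS : KRankS.{u}) (hSc : KScal.{u})
    (hFM : Cfsg.Agent.Lib.Helper37.EluStmt.FixMod.{u}) : BlkTen.{u} := by
  intro F _ _ p _ _ r _ hrp hc n a b e ha hab x hxr hdim
  rintro ⟨S, A, B, hx⟩
  have hr : r.Prime := Fact.out
  set c := orderOf ((Fintype.card F : ℕ) : ZMod r) with hcdef
  -- the Kronecker product
  set K : Matrix (Fin a × Fin b) (Fin a × Fin b) F :=
    (A : Matrix (Fin a) (Fin a) F) ⊗ₖ (B : Matrix (Fin b) (Fin b) F) with hKdef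
  set R : Matrix (Fin n) (Fin n) F := Matrix.reindex e.symm e.symm K with hRdef
  have hRalg : R = Matrix.reindexAlgEquiv F F e.symm K := by
    rw [Matrix.coe_reindexAlgEquiv]
  -- `R ^ r = 1`
  have hxr' : (S : Matrix (Fin n) (Fin n) F) * R ^ r *
      ((S⁻¹ : Matrix.GeneralLinearGroup (Fin n) F) : Matrix (Fin n) (Fin n) F) = 1 := by
    rw [← Units.conj_pow, ← hx, hxr]
  have hSS : ((S⁻¹ : Matrix.GeneralLinearGroup (Fin n) F) : Matrix (Fin n) (Fin n) F) *
      (S : Matrix (Fin n) (Fin n) F) = 1 := by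
    rw [← Units.val_mul, inv_mul_cancel, Units.val_one]
  have hSS' : (S : Matrix (Fin n) (Fin n) F) *
      ((S⁻¹ : Matrix.GeneralLinearGroup (Fin n) F) : Matrix (Fin n) (Fin n) F) = 1 := by
    rw [← Units.val_mul, mul_inv_cancel, Units.val_one]
  have hRr : R ^ r = 1 := by
    calc R ^ r = ((S⁻¹ : Matrix.GeneralLinearGroup (Fin n) F) : Matrix (Fin n) (Fin n) F) *
          ((S : Matrix (Fin n) (Fin n) F) * R ^ r *
          ((S⁻¹ : Matrix.GeneralLinearGroup (Fin n) F) : Matrix (Fin n) (Fin n) F)) *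
          (S : Matrix (Fin n) (Fin n) F) := by
            rw [mul_assoc, mul_assoc, hSS, mul_one, ← mul_assoc, hSS, one_mul]
      _ = 1 := by rw [hxr', mul_one, hSS]
  have hKr : K ^ r = 1 := by
    apply (Matrix.reindexAlgEquiv F F e.symm).injective
    rw [map_pow, ← hRalg, hRr, map_one]
  -- scalars
  have hKr' : ((A : Matrix (Fin a) (Fin a) F) ^ r) ⊗ₖ ((B : Matrix (Fin b) (Fin b) F) ^ r)
      = 1 := by
    rw [← kron_pow]; exact hKr
  obtain ⟨w, hw0, hAw, hBw⟩ := hSc F a b (by omega) (by omega) _ _ hKr'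
  -- no `r`-th roots of unity, every element an `r`-th power
  have hc1 : c ≠ 1 := by omega
  have hnd : ¬ r ∣ Fintype.card F - 1 := by
    intro h
    exact hc1 ((Cfsg.Agent.Lib.Helper40.RootPow.order_eq_one_iff (F := F) r).mpr h)
  obtain ⟨d, hd⟩ := Cfsg.Agent.Lib.Helper40.RootPow.exists_root (F := F) r hr hnd w
  have hd0 : d ≠ 0 := by
    rintro rfl
    rw [zero_pow hr.ne_zero] at hd
    exact hw0 hd.symm
  set A1 : Matrix (Fin a) (Fin a) F := d⁻¹ • (A : Matrix (Fin a) (Fin a) F) with hA1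
  set B1 : Matrix (Fin b) (Fin b) F := d • (B : Matrix (Fin b) (Fin b) F) with hB1
  have hA1r : A1 ^ r = 1 := by
    rw [hA1, smul_pow, hAw, smul_smul, inv_pow, hd, inv_mul_cancel₀ hw0, one_smul]
  have hB1r : B1 ^ r = 1 := by
    rw [hB1, smul_pow, hBw, smul_smul, hd, mul_inv_cancel₀ hw0, one_smul]
  have hK1 : A1 ⊗ₖ B1 = K := by
    rw [hA1, hB1, Matrix.smul_kronecker, Matrix.kronecker_smul, smul_smul,
      inv_mul_cancel₀ hd0, one_smul]
  -- rank of `K - 1`
  have hrank_x : (x - 1).rank = c := by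
    have h := rank_sub_one x
    omega
  have hx1 : x - 1 = (S : Matrix (Fin n) (Fin n) F) * (R - 1) *
      ((S⁻¹ : Matrix.GeneralLinearGroup (Fin n) F) : Matrix (Fin n) (Fin n) F) := by
    rw [mul_sub, sub_mul, mul_one, hSS', ← hx]
  have hdetS : IsUnit (S : Matrix (Fin n) (Fin n) F).det :=
    (Matrix.isUnit_iff_isUnit_det _).mp S.isUnit
  have hdetSi : IsUnit ((S⁻¹ : Matrix.GeneralLinearGroup (Fin n) F) :
      Matrix (Fin n) (Fin n) F).det :=
    (Matrix.isUnit_iff_isUnit_det _).mp (S⁻¹).isUnit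
  have hrank_R : (R - 1).rank = c := by
    rw [← hrank_x, hx1, Matrix.rank_mul_eq_left_of_isUnit_det _ _ hdetSi,
      Matrix.rank_mul_eq_right_of_isUnit_det _ _ hdetS]
  have hR1 : R - 1 = Matrix.reindex e.symm e.symm (K - 1) := by
    rw [hRalg, ← Matrix.coe_reindexAlgEquiv F F, map_sub, map_one]
  have hrank_K : (A1 ⊗ₖ B1 - 1).rank = c := by
    rw [hK1, ← hrank_R, hR1, Matrix.rank_reindex]
  -- case distinction
  by_cases hsc : ∃ α : F, A1 = α • (1 : Matrix (Fin a) (Fin a) F)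
  · obtain ⟨α, hα⟩ := hsc
    have hαr : α ^ r = 1 := by
      have h := hA1r
      rw [hα, smul_pow, one_pow] at h
      have h0 := congrFun (congrFun h ⟨0, by omega⟩) ⟨0, by omega⟩
      rw [Matrix.smul_apply, Matrix.one_apply_eq, smul_eq_mul, mul_one] at h0
      exact h0
    have hα1 : α = 1 :=
      Cfsg.Agent.Lib.Helper40.PrimeElts.root_trivial (F := F) r hr hc1 α hαr
    rw [hα1, one_smul] at hα
    rw [hα, one_kron_sub, hKS F a b (B1 - 1)] at hrank_K
    obtain ⟨t, ht⟩ : ∃ t : ℕ, (B1 - 1).rank = c * t := fixmod_matrix hFM p r hrp B1 hB1r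
    rw [ht] at hrank_K
    rcases Nat.eq_zero_or_pos t with h0 | hpos
    · rw [h0] at hrank_K
      simp at hrank_K
      omega
    · have h1 : 2 * c ≤ a * (c * t) := by
        calc 2 * c = 2 * (c * 1) := by ring
          _ ≤ a * (c * t) := Nat.mul_le_mul ha (Nat.mul_le_mul_left c hpos)
      omega
  · have hns : ∀ α : F, A1 ≠ α • (1 : Matrix (Fin a) (Fin a) F) := fun α h => hsc ⟨α, h⟩
    have hdetB : B1.det ≠ 0 := by
      intro h0
      have h := congrArg Matrix.det hB1r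
      rw [Matrix.det_pow, h0, zero_pow hr.ne_zero, Matrix.det_one] at h
      exact zero_ne_one h
    have hb := hK F a b A1 B1 hdetB hns 1
    rw [one_smul, hrank_K] at hb
    obtain ⟨t, ht⟩ : ∃ t : ℕ, (A1 - 1).rank = c * t := fixmod_matrix hFM p r hrp A1 hA1r
    rcases Nat.eq_zero_or_pos t with h0 | hpos
    · rw [h0, mul_zero] at ht
      have hz : A1 - 1 = 0 := eq_zero_of_rank_eq_zero _ ht
      exact hns 1 (by rw [one_smul]; exact sub_eq_zero.mp hz)
    · have hle : (A1 - 1).rank ≤ a := by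
        have := Matrix.rank_le_card_width (A1 - 1)
        simpa using this
      have h1 : c ≤ c * t := Nat.le_mul_of_pos_right c hpos
      omega

/-- the same with the landed `FixMod` plugged in -/
theorem main' (hK : KRank.{u}) (hKS : KRankS.{u}) (hSc : KScal.{u}) : BlkTen.{u} :=
  main hK hKS hSc Cfsg.Agent.Lib.Helper65.EluFIXMOD.main

end Cfsg.Agent.Lib.Helper94.TenBLKTEN
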