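import Mathlib
import Cfsg.Agent.Lib.Helper37.SpTStmt
import Cfsg.Agent.Lib.Helper94.TenBLKTEN

/-!
# S5980, piece FIXRANK (helper94): `B ^ r = 1`, `r ≠ p`: `orderOf (q : ZMod r) ∣ rank (B - 1)`.
-/

set_option autoImplicit false

namespace Cfsg.Agent.Lib.Helper94.SpTFIXRANK

open Cfsg.Agent.Lib.Helper37.SpTStmt

universe u

theorem main : FixRank.{u} := by
  intro F _ _ p _ _ r _ hrp n B hB
  obtain ⟨t, ht⟩ := Cfsg.Agent.Lib.Helper94.TenBLKTEN.fixmod_matrix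
    Cfsg.Agent.Lib.Helper65.EluFIXMOD.main p r hrp B hB
  exact ⟨t, ht⟩

end Cfsg.Agent.Lib.Helper94.SpTFIXRANK
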