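import Mathlib
import Cfsg.Agent.Lib.Helper37.SpTStmt

/-!
# S5980, piece KRC (helper94)

If `v, A v, ..., A^(k-1) v` are linearly independent and `B` is invertible then
`rank (A ⊗ₖ B - μ) ≥ (k - 1) * b`.
-/

set_option autoImplicit false

namespace Cfsg.Agent.Lib.Helper94.SpTKRC

open scoped Kronecker
open Cfsg.Agent.Lib.Helper37.SpTStmt

universe u

theorem main : KRC.{u} := by
  intro F _ a b A B hB k v hli μ
  rcases Nat.eq_zero_or_pos k with hk0 | hkpos
  · subst hk0; simp
  obtain ⟨m, rfl⟩ : ∃ m, k = m + 1 := ⟨k - 1, by omega⟩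
  rw [Nat.add_sub_cancel]
  obtain ⟨M, hM⟩ : ∃ M : Matrix (Fin a × Fin b) (Fin a × Fin b) F,
      M = A ⊗ₖ B - μ • (1 : Matrix (Fin a × Fin b) (Fin a × Fin b) F) := ⟨_, rfl⟩
  rw [← hM]
  -- rank one tensors
  have key : ∀ (v' : Fin a → F) (w' : Fin b → F) (i : Fin a) (j : Fin b),
      (M.mulVec (fun p : Fin a × Fin b => v' p.1 * w' p.2)) (i, j) =
        (A.mulVec v') i * (B.mulVec w') j - μ * (v' i * w' j) := by
    intro v' w' i j
    rw [hM, Matrix.sub_mulVec, Matrix.smul_mulVec, Matrix.one_mulVec]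
    simp only [Pi.sub_apply, Pi.smul_apply, smul_eq_mul]
    congr 1
    simp only [Matrix.mulVec, dotProduct, Matrix.kroneckerMap_apply, Fintype.sum_prod_type]
    rw [Finset.sum_mul_sum]
    refine Finset.sum_congr rfl fun i' _ => Finset.sum_congr rfl fun j' _ => ?_
    ring
  let τ : (Fin m → Fin b → F) →ₗ[F] (Fin a × Fin b → F) :=
    { toFun := fun w p => ∑ s : Fin m, ((A ^ (s : ℕ)).mulVec v) p.1 * w s p.2
      map_add' := by
        intro x y; funext p
        simp only [Pi.add_apply, mul_add, Finset.sum_add_distrib]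
      map_smul' := by
        intro c x; funext p
        simp only [Pi.smul_apply, smul_eq_mul, RingHom.id_apply, Finset.mul_sum]
        apply Finset.sum_congr rfl
        intro s _; ring }
  have hτ : ∀ w p, τ w p = ∑ s : Fin m, ((A ^ (s : ℕ)).mulVec v) p.1 * w s p.2 :=
    fun _ _ => rfl
  have key2 : ∀ (w : Fin m → Fin b → F) (i : Fin a) (j : Fin b), (M.mulVec (τ w)) (i, j) =
      ∑ s : Fin m, (((A ^ ((s : ℕ) + 1)).mulVec v) i * (B.mulVec (w s)) j -
        μ * (((A ^ (s : ℕ)).mulVec v) i * w s j)) := by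
    intro w i j
    have e1 : τ w = ∑ s : Fin m,
        (fun p : Fin a × Fin b => ((A ^ (s : ℕ)).mulVec v) p.1 * w s p.2) := by
      funext p; rw [hτ, Finset.sum_apply]
    have e2 : M.mulVec (τ w) = M.mulVecLin (τ w) := rfl
    rw [e2, e1, map_sum, Finset.sum_apply]
    apply Finset.sum_congr rfl
    intro s _
    rw [Matrix.mulVecLin_apply, key, Matrix.mulVec_mulVec, ← pow_succ']
  have hinj : Function.Injective (M.mulVecLin ∘ₗ τ) := by
    rw [← LinearMap.ker_eq_bot, LinearMap.ker_eq_bot']
    intro w hw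
    have hw' : M.mulVec (τ w) = 0 := hw
    obtain ⟨W, hWdef⟩ : ∃ W : ℕ → (Fin b → F),
        W = fun s => if h : s < m then w ⟨s, h⟩ else 0 := ⟨_, rfl⟩
    have hWm : ∀ s, m ≤ s → W s = 0 := fun s hs => by
      rw [hWdef]; exact dif_neg (by omega)
    have hWs : ∀ s : Fin m, W (s : ℕ) = w s := fun s => by
      rw [hWdef]; exact dif_pos s.2
    have hrel : ∀ s, s < m → B.mulVec (W s) = μ • W (s + 1) := by
      intro s hs
      funext j
      obtain ⟨c, hc⟩ : ∃ c : Fin (m + 1) → F, c = fun t : Fin (m + 1) =>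
        (if 0 < (t : ℕ) then (B.mulVec (W ((t : ℕ) - 1))) j else 0) - μ * W (t : ℕ) j :=
        ⟨_, rfl⟩
      have hsum : ∑ t : Fin (m + 1), c t • ((A ^ (t : ℕ)).mulVec v) = 0 := by
        funext i
        have h0 := congrFun hw' (i, j)
        rw [key2] at h0
        simp only [Finset.sum_apply, Pi.smul_apply, smul_eq_mul, Pi.zero_apply] at h0 ⊢
        have hA : ∑ t : Fin (m + 1), c t * ((A ^ (t : ℕ)).mulVec v) i
            = ∑ t : Fin (m + 1),
                (if 0 < (t : ℕ) then (B.mulVec (W ((t : ℕ) - 1))) j else 0) *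
                  ((A ^ (t : ℕ)).mulVec v) i
              - ∑ t : Fin (m + 1), (μ * W (t : ℕ) j) * ((A ^ (t : ℕ)).mulVec v) i := by
          rw [← Finset.sum_sub_distrib]
          apply Finset.sum_congr rfl
          intro t _
          rw [hc]; ring
        rw [hA, Fin.sum_univ_succ,
          Fin.sum_univ_castSucc (f := fun t : Fin (m + 1) =>
            (μ * W (t : ℕ) j) * ((A ^ (t : ℕ)).mulVec v) i)]
        simp only [Fin.val_zero, lt_irrefl, if_false, zero_mul, zero_add, Fin.val_succ,
          Nat.succ_pos, if_true, Nat.add_sub_cancel, Fin.val_castSucc, Fin.val_last]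
        rw [hWm m le_rfl]
        simp only [Pi.zero_apply, mul_zero, zero_mul, add_zero]
        rw [← Finset.sum_sub_distrib, ← h0]
        apply Finset.sum_congr rfl
        intro s' _
        rw [hWs]; ring
      have hct := Fintype.linearIndependent_iff.mp hli c hsum ⟨s + 1, by omega⟩
      rw [hc] at hct
      simp only [Nat.succ_pos, if_true, Nat.add_sub_cancel] at hct
      rw [Pi.smul_apply, smul_eq_mul]
      exact sub_eq_zero.mp hct
    have hW0 : ∀ d s, s + d = m → W s = 0 := by
      intro d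
      induction d with
      | zero => intro s hs; exact hWm s (by omega)
      | succ d ih =>
        intro s hs
        have h1 := hrel s (by omega)
        rw [ih (s + 1) (by omega), smul_zero] at h1
        exact Matrix.eq_zero_of_mulVec_eq_zero hB h1
    funext s
    rw [← hWs s]
    exact hW0 (m - (s : ℕ)) s (by have := s.2; omega)
  have hr : Module.finrank F (LinearMap.range (M.mulVecLin ∘ₗ τ)) = m * b := by
    rw [LinearMap.finrank_range_of_inj hinj, Module.finrank_pi_fintype]
    simp
  calc m * b = Module.finrank F (LinearMap.range (M.mulVecLin ∘ₗ τ)) := hr.symm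
    _ ≤ Module.finrank F (LinearMap.range M.mulVecLin) :=
        Submodule.finrank_mono (LinearMap.range_comp_le_range _ _)
    _ = M.rank := rfl

end Cfsg.Agent.Lib.Helper94.SpTKRC
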