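import Mathlib
import Cfsg.Prelude.Def_GeometricClasses
import Cfsg.Agent.Lib.Helper94.SubfieldSp
import Cfsg.Agent.Lib.Helper94.OrthRel

set_option autoImplicit false

namespace Cfsg.Agent.Lib.Helper94.SubfieldOrth

open scoped Matrix
open Module
open Cfsg.Agent.Lib.Helper94
open Cfsg.Agent.Lib.Helper94.Basic Cfsg.Agent.Lib.Helper94.GLAux Cfsg.Agent.Lib.Helper94.Tv
  Cfsg.Agent.Lib.Helper94.UnitAbs Cfsg.Agent.Lib.Helper94.UnitGen
  Cfsg.Agent.Lib.Helper94.UnitRoot Cfsg.Agent.Lib.Helper94.SubfieldRat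
open Cfsg.Agent.Lib.Helper94.SubfieldSp (rat_of_mem mem_of_rat)
open Cfsg.Agent.Lib.Helper37.PlaneTwo (toQF toQF_coe toQF_sep)

section Abs

variable {ι : Type} [Fintype ι] [DecidableEq ι] {F : Type*} [Field F]
variable {σ : F ≃+* F} {f : (ι → F) → (ι → F) → F}

/-- A rational structure on which the unitary form `f` takes values in the subfield (so that it
restricts to a symmetric bilinear form), in odd characteristic. -/
structure RatOrth (σ : F ≃+* F) (f : (ι → F) → (ι → F) → F) (F₀ : Subfield F) : Prop where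
  fix : ∀ x : F, x ∈ F₀ ↔ σ x = x
  two : (2 : F) ≠ 0
  rat : ∀ u v : ι → F₀, f (up F₀ u) (up F₀ v) ∈ F₀

variable {F₀ : Subfield F}

/-- The induced symmetric bilinear form over the subfield. -/
def b0 (hR : RatOrth σ f F₀) (u v : ι → F₀) : F₀ :=
  ⟨f (up F₀ u) (up F₀ v), hR.rat u v⟩

lemma b0_coe (hR : RatOrth σ f F₀) (u v : ι → F₀) :
    ((b0 hR u v : F₀) : F) = f (up F₀ u) (up F₀ v) := rfl

lemma RatOrth.fixed (hR : RatOrth σ f F₀) (c : F₀) : σ (c : F) = c := (hR.fix c).mp c.2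

lemma coe_two (F₀ : Subfield F) : ((2 : F₀) : F) = 2 := rfl

lemma RatOrth.two0 (hR : RatOrth σ f F₀) : (2 : F₀) ≠ 0 := by
  intro h
  apply hR.two
  rw [← coe_two F₀, h]
  rfl

lemma b0_symm (hf : Cfsg.Geo.IsUnitaryForm σ f) (hR : RatOrth σ f F₀) (u v : ι → F₀) :
    b0 hR u v = b0 hR v u := by
  apply Subtype.ext
  rw [b0_coe, b0_coe]
  have h1 := (hR.fix _).mp (hR.rat u v)
  rw [herm' hf] at h1
  exact h1.symm

theorem b0_bil (hf : Cfsg.Geo.IsUnitaryForm σ f) (hR : RatOrth σ f F₀) :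
    Cfsg.Geo.IsBilinearForm (b0 hR) where
  add_left := fun x y v => by
    apply Subtype.ext
    rw [Subfield.coe_add, b0_coe, b0_coe, b0_coe, up_add, hf.add_left]
  smul_left := fun c x v => by
    apply Subtype.ext
    rw [Subfield.coe_mul, b0_coe, b0_coe, up_smul, hf.smul_left]
  add_right := fun v x y => by
    apply Subtype.ext
    rw [Subfield.coe_add, b0_coe, b0_coe, b0_coe, up_add, add_right hf]
  smul_right := fun c v x => by
    apply Subtype.ext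
    rw [Subfield.coe_mul, b0_coe, b0_coe, up_smul, smul_right hf, hR.fixed]

/-- The induced quadratic form over the subfield. -/
def Q0 (hR : RatOrth σ f F₀) (u : ι → F₀) : F₀ := 2⁻¹ * b0 hR u u

lemma b0_self (hR : RatOrth σ f F₀) (u : ι → F₀) : b0 hR u u = 2 * Q0 hR u := by
  unfold Q0
  rw [← mul_assoc, mul_inv_cancel₀ hR.two0, one_mul]

lemma polar_Q0 (hf : Cfsg.Geo.IsUnitaryForm σ f) (hR : RatOrth σ f F₀) :
    QuadraticMap.polar (Q0 hR) = b0 hR := by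
  funext u v
  have hb := b0_bil hf hR
  have h2 := hR.two0
  unfold QuadraticMap.polar Q0
  rw [hb.add_left, hb.add_right, hb.add_right, b0_symm hf hR v u]
  field_simp
  ring

theorem Q0_nd (hf : Cfsg.Geo.IsUnitaryForm σ f) (hR : RatOrth σ f F₀) :
    Cfsg.Geo.IsNondegenerateQuadraticForm (Q0 hR) where
  smul := fun c v => by
    have hb := b0_bil hf hR
    unfold Q0
    rw [hb.smul_left, hb.smul_right]
    ring
  polar_bilinear := by
    rw [polar_Q0 hf hR]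
    exact b0_bil hf hR
  nondegenerate := by
    rw [polar_Q0 hf hR]
    intro v hv
    have h1 : ∃ x, b0 hR x v ≠ 0 := by
      by_contra hcon
      push Not at hcon
      have hupv : up F₀ v ≠ 0 := fun h => hv ((up_eq_zero F₀ v).mp h)
      obtain ⟨x, hx⟩ := (hf.nondegenerate _ hupv).1
      apply hx
      have hz : fR hf (up F₀ v) = 0 := by
        apply LinearMap.pi_ext'
        intro i
        apply LinearMap.ext_ring
        have h2 := congrArg (fun x : F₀ => (x : F)) (hcon (Pi.single i 1))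
        simp only [b0_coe, ZeroMemClass.coe_zero] at h2
        rw [up_single] at h2
        simp [h2]
      have := congrArg (fun φ : Module.Dual F (ι → F) => φ x) hz
      simpa using this
    refine ⟨h1, ?_⟩
    obtain ⟨x, hx⟩ := h1
    refine ⟨x, ?_⟩
    rw [b0_symm hf hR]
    exact hx

lemma Q0_add (hf : Cfsg.Geo.IsUnitaryForm σ f) (hR : RatOrth σ f F₀) (x y : ι → F₀) :
    Q0 hR (x + y) = Q0 hR x + Q0 hR y + b0 hR x y := by
  rw [← polar_Q0 hf hR]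
  exact QuadAbs.Q_add (Q0 hR) x y

lemma Q0_smul (hf : Cfsg.Geo.IsUnitaryForm σ f) (hR : RatOrth σ f F₀) (c : F₀) (x : ι → F₀) :
    Q0 hR (c • x) = c ^ 2 * Q0 hR x := (Q0_nd hf hR).smul c x

lemma Q0_zero (hf : Cfsg.Geo.IsUnitaryForm σ f) (hR : RatOrth σ f F₀) :
    Q0 hR (0 : ι → F₀) = 0 := QuadAbs.Q_zero (Q0_nd hf hR)

/-- Singular rational vectors are isotropic. -/
lemma f_up_self (hR : RatOrth σ f F₀) (u : ι → F₀) (hu : Q0 hR u = 0) :
    f (up F₀ u) (up F₀ u) = 0 := by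
  rw [← b0_coe hR, b0_self, hu, mul_zero]
  rfl

lemma f_up_zero (hR : RatOrth σ f F₀) (u v : ι → F₀) (h : b0 hR u v = 0) :
    f (up F₀ u) (up F₀ v) = 0 := by
  rw [← b0_coe hR, h]
  rfl

lemma fL (hf : Cfsg.Geo.IsUnitaryForm σ f) (hR : RatOrth σ f F₀) (θ : F) (a₁ a₂ x : ι → F₀) :
    f (up F₀ a₁ + θ • up F₀ a₂) (up F₀ x) = (b0 hR a₁ x : F) + θ * (b0 hR a₂ x : F) := by
  rw [hf.add_left, hf.smul_left]
  rfl

lemma fRt (hf : Cfsg.Geo.IsUnitaryForm σ f) (hR : RatOrth σ f F₀) (θ : F) (a₁ a₂ x : ι → F₀) :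
    f (up F₀ x) (up F₀ a₁ + θ • up F₀ a₂) = (b0 hR x a₁ : F) + σ θ * (b0 hR x a₂ : F) := by
  rw [add_right hf, smul_right hf]
  rfl

lemma fS (hf : Cfsg.Geo.IsUnitaryForm σ f) (hR : RatOrth σ f F₀) (θ : F) (hθ : σ θ = -θ)
    (a₁ a₂ : ι → F₀) :
    f (up F₀ a₁ + θ • up F₀ a₂) (up F₀ a₁ + θ • up F₀ a₂)
      = 2 * (Q0 hR a₁ : F) - θ ^ 2 * (2 * (Q0 hR a₂ : F)) := by
  have e1 : ((b0 hR a₁ a₁ : F₀) : F) = 2 * (Q0 hR a₁ : F) := by
    rw [b0_self, Subfield.coe_mul, coe_two]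
  have e2 : ((b0 hR a₂ a₂ : F₀) : F) = 2 * (Q0 hR a₂ : F) := by
    rw [b0_self, Subfield.coe_mul, coe_two]
  rw [hf.add_left, hf.smul_left, fRt hf hR, fRt hf hR, hθ, b0_symm hf hR a₂ a₁, e1, e2]
  ring

/-- Uniqueness of components along `1, θ`. -/
lemma comp_zero (θ : F) (hθ : θ ∉ F₀) (s t : F₀) (h : (s : F) + θ * (t : F) = 0) :
    s = 0 ∧ t = 0 := by
  have ht : t = 0 := by
    by_contra ht
    have ht' : (t : F) ≠ 0 := fun h0 => ht (Subtype.ext h0)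
    apply hθ
    have e : θ = -(s : F) / (t : F) := by
      field_simp
      linear_combination h
    rw [e]
    exact F₀.div_mem (F₀.neg_mem s.2) t.2
  refine ⟨?_, ht⟩
  rw [ht] at h
  apply Subtype.ext
  simpa using h

end Abs

section Geo

variable {ι : Type} [Fintype ι] [DecidableEq ι] {F : Type*} [Field F] [Fintype F]
variable {σ : F ≃+* F} {f : (ι → F) → (ι → F) → F} {F₀ : Subfield F}

omit [Fintype F] in
lemma ex_perp_ne (hf : Cfsg.Geo.IsUnitaryForm σ f) (hR : RatOrth σ f F₀)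
    (U : Submodule F₀ (ι → F₀)) (x : ι → F₀) (hx : x ∉ U) :
    ∃ r, (∀ u ∈ U, b0 hR u r = 0) ∧ b0 hR x r ≠ 0 := by
  have h := QuadAbs.exists_perp_ne (Q0_nd hf hR) U x hx
  simpa only [polar_Q0 hf hR] using h

lemma ex_hyp_perp (hf : Cfsg.Geo.IsUnitaryForm σ f) (hR : RatOrth σ f F₀)
    (U : Submodule F₀ (ι → F₀)) (hU : 2 * finrank F₀ U + 6 < Fintype.card ι) :
    ∃ y1 y2, (∀ u ∈ U, b0 hR u y1 = 0) ∧ (∀ u ∈ U, b0 hR u y2 = 0) ∧ Q0 hR y1 = 0 ∧
      Q0 hR y2 = 0 ∧ b0 hR y1 y2 = 1 := by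
  have : Fintype F₀ := Fintype.ofFinite F₀
  have h := QuadAbs.exists_hyp_perp (Q0_nd hf hR) U hU
  simpa only [polar_Q0 hf hR] using h

lemma ex_norm_perp (hf : Cfsg.Geo.IsUnitaryForm σ f) (hR : RatOrth σ f F₀)
    (U : Submodule F₀ (ι → F₀)) (hU : 2 * finrank F₀ U + 6 < Fintype.card ι) (a : F₀) :
    ∃ x, (∀ u ∈ U, b0 hR u x = 0) ∧ Q0 hR x = a := by
  have : Fintype F₀ := Fintype.ofFinite F₀
  have h := QuadAbs.exists_norm_perp (Q0_nd hf hR) U hU a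
  simpa only [polar_Q0 hf hR] using h

lemma sing_sum0 (hf : Cfsg.Geo.IsUnitaryForm σ f) (hR : RatOrth σ f F₀)
    (U : Submodule F₀ (ι → F₀)) (hU : 2 * finrank F₀ U + 8 < Fintype.card ι) (x : ι → F₀)
    (hx : ∀ u ∈ U, b0 hR u x = 0) :
    ∃ y1 y2, (∀ u ∈ U, b0 hR u y1 = 0) ∧ (∀ u ∈ U, b0 hR u y2 = 0) ∧ Q0 hR y1 = 0 ∧
      Q0 hR y2 = 0 ∧ x = y1 + y2 := by
  have : Fintype F₀ := Fintype.ofFinite F₀
  have h := QuadAbs.sing_sum (Q0_nd hf hR) hR.two0 U hU x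
    (by simpa only [polar_Q0 hf hR] using hx)
  simpa only [polar_Q0 hf hR] using h

lemma ex_sing_both (hf : Cfsg.Geo.IsUnitaryForm σ f) (hR : RatOrth σ f F₀)
    (hcard : 13 ≤ Fintype.card ι) (a c : ι → F₀) (ha : a ≠ 0) (hc : c ≠ 0) :
    ∃ d, Q0 hR d = 0 ∧ b0 hR a d ≠ 0 ∧ b0 hR c d ≠ 0 := by
  have : Fintype F₀ := Fintype.ofFinite F₀
  have h := OrthSiegel.exists_sing_both (Q0_nd hf hR) hcard a c ha hc
  simpa only [polar_Q0 hf hR] using h

/-- A nonzero singular rational vector orthogonal to a subspace of less than half the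
dimension. -/
lemma ex_sing_perp (hf : Cfsg.Geo.IsUnitaryForm σ f) (hR : RatOrth σ f F₀)
    (U : Submodule F₀ (ι → F₀)) (hU : 2 * finrank F₀ U + 3 ≤ Fintype.card ι) :
    ∃ b : ι → F₀, b ≠ 0 ∧ Q0 hR b = 0 ∧ ∀ u ∈ U, b0 hR u b = 0 := by
  have hQ := Q0_nd hf hR
  have hbl := hQ.polar_bilinear
  obtain ⟨E, hE, hts⟩ := OrthRel.exists_ts (finrank F₀ U + 1) (ι → F₀) (toQF (Q0 hR) hQ)
    (toQF_sep _ hQ) (by rw [Module.finrank_fintype_fun_eq_card]; omega)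
  set Φ : E →ₗ[F₀] Module.Dual F₀ U :=
    (Submodule.dualRestrict U) ∘ₗ (SympAbs.fRL hbl) ∘ₗ E.subtype with hΦ
  have hker : LinearMap.ker Φ ≠ ⊥ := by
    apply LinearMap.ker_ne_bot_of_finrank_lt
    rw [Subspace.dual_finrank_eq]
    omega
  obtain ⟨x, hx, hx0⟩ := Submodule.exists_mem_ne_zero_of_ne_bot hker
  refine ⟨x, fun h => hx0 (Subtype.ext h), ?_, fun u hu => ?_⟩
  · have h1 := hts x x.2
    rwa [toQF_coe] at h1
  · rw [LinearMap.mem_ker] at hx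
    have h1 := congrArg (fun ψ : Module.Dual F₀ U => ψ ⟨u, hu⟩) hx
    rw [← polar_Q0 hf hR]
    simpa [hΦ, SympAbs.fRL, Submodule.dualRestrict_apply] using h1

/-- A singular rational vector orthogonal to `v` and pairing to one with `w`. -/
lemma ex_sing_pair (hf : Cfsg.Geo.IsUnitaryForm σ f) (hR : RatOrth σ f F₀)
    (hcard : 13 ≤ Fintype.card ι) (v w : ι → F₀) (h : w ∉ Submodule.span F₀ {v}) :
    ∃ x, Q0 hR x = 0 ∧ b0 hR v x = 0 ∧ b0 hR w x = 1 := by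
  have hb := b0_bil hf hR
  obtain ⟨r, hr, hwr⟩ := ex_perp_ne hf hR _ w h
  have hvr : b0 hR v r = 0 := hr v (Submodule.mem_span_singleton_self v)
  obtain ⟨r₁, hr₁⟩ : ∃ r₁, r₁ = (b0 hR w r)⁻¹ • r := ⟨_, rfl⟩
  have hvr₁ : b0 hR v r₁ = 0 := by rw [hr₁, hb.smul_right, hvr, mul_zero]
  have hwr₁ : b0 hR w r₁ = 1 := by rw [hr₁, hb.smul_right, inv_mul_cancel₀ hwr]
  obtain ⟨z, hz, hQz⟩ := ex_norm_perp hf hR (Submodule.span F₀ ({v, w, r₁} : Set (ι → F₀)))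
    (by have := QuadAbs.finrank_span_triple_le (F := F₀) v w r₁; omega) (-(Q0 hR r₁))
  have hvz : b0 hR v z = 0 := hz v (Submodule.subset_span (by simp))
  have hwz : b0 hR w z = 0 := hz w (Submodule.subset_span (by simp))
  have hrz : b0 hR r₁ z = 0 := hz r₁ (Submodule.subset_span (by simp))
  refine ⟨r₁ + z, ?_, ?_, ?_⟩
  · rw [Q0_add hf hR, hQz, hrz]; ring
  · rw [hb.add_right, hvr₁, hvz, add_zero]
  · rw [hb.add_right, hwr₁, hwz, add_zero]

omit [Fintype F] in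
/-- Rational short root elements act rationally. -/
lemma su_up_mulVec (hf : Cfsg.Geo.IsUnitaryForm σ f) (hR : RatOrth σ f F₀) (y x : ι → F₀)
    (hy : f (up F₀ y) (up F₀ y) = 0) (hx : f (up F₀ x) (up F₀ x) = 0)
    (hyx : f (up F₀ y) (up F₀ x) = 0) (c : F₀) (z : ι → F₀) :
    ((su hf (up F₀ y) (up F₀ x) (c : F) : Matrix.GeneralLinearGroup ι F) : Matrix ι ι F)
        *ᵥ up F₀ z
      = up F₀ (z + (c * b0 hR z x) • y - (c * b0 hR z y) • x) := by
  rw [su_mulVec hf _ _ hy hx hyx, hR.fixed, up_sub, up_add, up_smul, up_smul, Subfield.coe_mul,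
    Subfield.coe_mul, b0_coe, b0_coe]

omit [Fintype F] in
lemma su_up_mem_range (hf : Cfsg.Geo.IsUnitaryForm σ f) (hR : RatOrth σ f F₀) (y x : ι → F₀)
    (c : F₀) : su hf (up F₀ y) (up F₀ x) (c : F) ∈ (Phi F₀ (ι := ι)).range := by
  by_cases h : f (up F₀ y) (up F₀ y) = 0 ∧ f (up F₀ x) (up F₀ x) = 0 ∧
      f (up F₀ y) (up F₀ x) = 0
  · apply mem_range_of_entries
    intro i j
    have e := su_up_mulVec hf hR y x h.1 h.2.1 h.2.2 c (Pi.single j 1)
    rw [up_single] at e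
    have e' := congrFun e i
    rw [Matrix.mulVec_single_one] at e'
    simp only [Matrix.col_apply] at e'
    rw [e', up_apply]
    exact SetLike.coe_mem _
  · rw [su_not hf _ _ _ h]
    exact Subgroup.one_mem _

end Geo

end Cfsg.Agent.Lib.Helper94.SubfieldOrth
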