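import Mathlib
import Cfsg.Prelude.Def_GeometricClasses
import Cfsg.Agent.Lib.Helper94.SubfieldOrth

set_option autoImplicit false

namespace Cfsg.Agent.Lib.Helper94.SubfieldOrth2

open scoped Matrix
open Module
open Cfsg.Agent.Lib.Helper94
open Cfsg.Agent.Lib.Helper94.Basic Cfsg.Agent.Lib.Helper94.GLAux Cfsg.Agent.Lib.Helper94.Tv
  Cfsg.Agent.Lib.Helper94.UnitAbs Cfsg.Agent.Lib.Helper94.UnitGen
  Cfsg.Agent.Lib.Helper94.UnitRoot Cfsg.Agent.Lib.Helper94.SubfieldRat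
  Cfsg.Agent.Lib.Helper94.SubfieldOrth
open Cfsg.Agent.Lib.Helper94.SubfieldSp (rat_of_mem mem_of_rat)

section Rat

variable {ι : Type} [Fintype ι] [DecidableEq ι] {F : Type*} [Field F]
variable {σ : F ≃+* F} {f : (ι → F) → (ι → F) → F} {F₀ : Subfield F}

lemma scalar_mem (F₀ : Subfield F) (x z : ι → F₀) (l : F) (hx : x ≠ 0)
    (h : up F₀ x = l • up F₀ z) : l ∈ F₀ := by
  obtain ⟨i, hi⟩ : ∃ i, x i ≠ 0 := by
    by_contra hc
    push Not at hc
    exact hx (funext hc)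
  have hli : (x i : F) = l * (z i : F) := by
    have h1 := congrFun h i
    simpa using h1
  have hxi : (x i : F) ≠ 0 := fun h0 => hi (Subtype.ext h0)
  have hzi : (z i : F) ≠ 0 := by
    intro h0
    rw [h0, mul_zero] at hli
    exact hxi hli
  have e : l = (x i : F) / (z i : F) := by
    rw [hli]
    field_simp
  rw [e]
  exact F₀.div_mem (x i).2 (z i).2

lemma skew_notMem (hR : RatOrth σ f F₀) (θ : F) (hθ0 : θ ≠ 0) (hθ : σ θ = -θ) : θ ∉ F₀ := by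
  intro h
  have h1 := (hR.fix θ).mp h
  rw [hθ] at h1
  have h2 : (2 : F) * θ = 0 := by linear_combination -h1
  rcases mul_eq_zero.mp h2 with h3 | h3
  · exact hR.two h3
  · exact hθ0 h3

lemma gl_ker (g : Matrix.GeneralLinearGroup ι F) (x : ι → F)
    (hx : (g : Matrix ι ι F) *ᵥ x = 0) : x = 0 := by
  apply gl_mulVec_injective g
  show (g : Matrix ι ι F) *ᵥ x = (g : Matrix ι ι F) *ᵥ 0
  rw [hx, Matrix.mulVec_zero]

lemma Q0_sub (hf : Cfsg.Geo.IsUnitaryForm σ f) (hR : RatOrth σ f F₀) (x y : ι → F₀) :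
    Q0 hR (x - y) = Q0 hR x + Q0 hR y - b0 hR x y := by
  rw [← polar_Q0 hf hR]
  exact QuadAbs.Q_sub (Q0_nd hf hR) x y

/-- One step of the comparison of scalars. -/
lemma ratio_step (hf : Cfsg.Geo.IsUnitaryForm σ f) (hR : RatOrth σ f F₀)
    (g : Matrix.GeneralLinearGroup ι F)
    (h : ∀ c : ι → F₀, Q0 hR c = 0 →
      ∃ (l : F) (z : ι → F₀), (g : Matrix ι ι F) *ᵥ up F₀ c = l • up F₀ z)
    (l : F) (hl : l ≠ 0) (s s₂ : ι → F₀) (hs : Q0 hR s = 0) (hs₂ : Q0 hR s₂ = 0)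
    (hss : b0 hR s s₂ = 0) (hs0 : s ≠ 0) (hind : s₂ ∉ Submodule.span F₀ {s})
    (hz : ∃ z : ι → F₀, (g : Matrix ι ι F) *ᵥ up F₀ s = l • up F₀ z) :
    ∃ z₂ : ι → F₀, (g : Matrix ι ι F) *ᵥ up F₀ s₂ = l • up F₀ z₂ := by
  obtain ⟨z, hz⟩ := hz
  obtain ⟨m, z₂, hz₂⟩ := h s₂ hs₂
  have hsum : Q0 hR (s + s₂) = 0 := by rw [Q0_add hf hR, hs, hs₂, hss]; ring
  obtain ⟨ν, z₃, hz₃⟩ := h (s + s₂) hsum
  by_cases hm : m / l ∈ F₀
  · refine ⟨(⟨m / l, hm⟩ : F₀) • z₂, ?_⟩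
    rw [hz₂, up_smul, smul_smul]
    congr 1
    show m = l * (m / l)
    field_simp
  · exfalso
    have hσ : σ (m / l) ≠ m / l := fun e => hm ((hR.fix _).mpr e)
    have e1 : l • up F₀ z + m • up F₀ z₂ = ν • up F₀ z₃ := by
      rw [← hz, ← hz₂, ← Matrix.mulVec_add, ← up_add, hz₃]
    obtain ⟨m1, m2, hmm⟩ := decomp F₀ hf.involutive hR.fix (m / l) hσ (ν / l)
    have e2 : up F₀ z + (m / l) • up F₀ z₂
        = up F₀ (m1 • z₃) + (m / l) • up F₀ (m2 • z₃) := by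
      have e3 : up F₀ z + (m / l) • up F₀ z₂ = l⁻¹ • (l • up F₀ z + m • up F₀ z₂) := by
        rw [smul_add, smul_smul, smul_smul, inv_mul_cancel₀ hl, one_smul, div_eq_inv_mul]
      rw [e3, e1, smul_smul, ← div_eq_inv_mul, hmm, up_smul, up_smul, add_smul, smul_smul,
        mul_comm]
    obtain ⟨h1, h2⟩ := decomp_unique F₀ _ hm _ _ _ _ e2
    have hm1 : m1 ≠ 0 := by
      intro h0
      apply hs0
      have h3 : (g : Matrix ι ι F) *ᵥ up F₀ s = 0 := by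
        rw [hz, h1, h0, zero_smul, up_zero, smul_zero]
      exact (up_eq_zero F₀ s).mp (gl_ker g _ h3)
    have e4 : (g : Matrix ι ι F) *ᵥ ((m * (m2 : F)) • up F₀ s
        - (l * (m1 : F)) • up F₀ s₂) = 0 := by
      rw [Matrix.mulVec_sub, Matrix.mulVec_smul, Matrix.mulVec_smul, hz, hz₂, h1, h2, up_smul,
        up_smul, smul_smul, smul_smul, smul_smul, smul_smul, sub_eq_zero]
      congr 1
      ring
    have e5 := gl_ker g _ e4
    have e6 : ∀ j, (m * (m2 : F)) * (s j : F) = (l * (m1 : F)) * (s₂ j : F) := by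
      intro j
      have h3 := congrFun e5 j
      simp only [Pi.sub_apply, Pi.smul_apply, up_apply, smul_eq_mul, Pi.zero_apply] at h3
      exact sub_eq_zero.mp h3
    have hlm1 : l * (m1 : F) ≠ 0 := mul_ne_zero hl (fun h0 => hm1 (Subtype.ext h0))
    obtain ⟨i, hi⟩ : ∃ i, s i ≠ 0 := by
      by_contra hc
      push Not at hc
      exact hs0 (funext hc)
    have key : ∀ j, s₂ i * s j = s₂ j * s i := by
      intro j
      apply Subtype.ext
      rw [Subfield.coe_mul, Subfield.coe_mul]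
      have h3 : (l * (m1 : F)) * ((s₂ i : F) * (s j : F))
          = (l * (m1 : F)) * ((s₂ j : F) * (s i : F)) := by
        linear_combination (s i : F) * e6 j - (s j : F) * e6 i
      exact mul_left_cancel₀ hlm1 h3
    apply hind
    rw [Submodule.mem_span_singleton]
    refine ⟨s₂ i / s i, ?_⟩
    funext j
    rw [Pi.smul_apply, smul_eq_mul, div_mul_eq_mul_div, key j, mul_div_assoc, div_self hi, mul_one]

end Rat

section Fin

variable {ι : Type} [Fintype ι] [DecidableEq ι] {F : Type*} [Field F] [Fintype F]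
variable {σ : F ≃+* F} {f : (ι → F) → (ι → F) → F} {F₀ : Subfield F}

/-- An isometry mapping every singular rational point to a rational point lies in the subfield
group. -/
theorem mem_of_sing_rat (hf : Cfsg.Geo.IsUnitaryForm σ f) (hR : RatOrth σ f F₀)
    (hcard : 13 ≤ Fintype.card ι) (g : Matrix.GeneralLinearGroup ι F)
    (h : ∀ c : ι → F₀, Q0 hR c = 0 →
      ∃ (l : F) (z : ι → F₀), (g : Matrix ι ι F) *ᵥ up F₀ c = l • up F₀ z) :
    g ∈ (Phi F₀ (ι := ι)).range ⊔ Cfsg.Geo.scalars ι F := by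
  have hb := b0_bil hf hR
  have hne : Nonempty ι := by
    rw [← Fintype.card_pos_iff]; omega
  obtain ⟨i0⟩ := hne
  obtain ⟨c₀, y₀, -, -, hc₀, -, hcy⟩ := ex_hyp_perp hf hR ⊥ (by rw [finrank_bot]; omega)
  have hc₀0 : c₀ ≠ 0 := by
    intro h0
    rw [h0, SympAbs.bil_zero_left hb] at hcy
    exact zero_ne_one hcy
  obtain ⟨l, z₀, hz₀⟩ := h c₀ hc₀
  have hl : l ≠ 0 := by
    intro h0
    apply hc₀0
    rw [h0, zero_smul] at hz₀
    exact (up_eq_zero F₀ c₀).mp (gl_ker g _ hz₀)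
  have hall : ∀ d : ι → F₀, Q0 hR d = 0 →
      ∃ z : ι → F₀, (g : Matrix ι ι F) *ᵥ up F₀ d = l • up F₀ z := by
    intro d hd
    by_cases hd0 : d = 0
    · exact ⟨0, by rw [hd0, up_zero, Matrix.mulVec_zero, smul_zero]⟩
    obtain ⟨e, y, he1, hy1, hQe, -, hey⟩ := ex_hyp_perp hf hR
      (Submodule.span F₀ ({c₀, d} : Set (ι → F₀)))
      (by have := QuadAbs.finrank_span_pair_le (F := F₀) c₀ d; omega)
    have hce : b0 hR c₀ e = 0 := he1 c₀ (Submodule.subset_span (by simp))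
    have hde : b0 hR d e = 0 := he1 d (Submodule.subset_span (by simp))
    have hcy' : b0 hR c₀ y = 0 := hy1 c₀ (Submodule.subset_span (by simp))
    have hdy : b0 hR d y = 0 := hy1 d (Submodule.subset_span (by simp))
    have he0 : e ≠ 0 := by
      intro h0
      rw [h0, SympAbs.bil_zero_left hb] at hey
      exact zero_ne_one hey
    have h1 : e ∉ Submodule.span F₀ {c₀} := by
      intro hmem
      obtain ⟨t, ht⟩ := Submodule.mem_span_singleton.mp hmem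
      rw [← ht, hb.smul_left, hcy', mul_zero] at hey
      exact zero_ne_one hey
    have h2 : d ∉ Submodule.span F₀ {e} := by
      intro hmem
      obtain ⟨t, ht⟩ := Submodule.mem_span_singleton.mp hmem
      have ht0 : t = 0 := by
        have h3 := hdy
        rw [← ht, hb.smul_left, hey, mul_one] at h3
        exact h3
      apply hd0
      rw [← ht, ht0, zero_smul]
    have hze := ratio_step hf hR g h l hl c₀ e hc₀ hQe hce hc₀0 h1 ⟨z₀, hz₀⟩
    exact ratio_step hf hR g h l hl e d hQe hd (by rw [b0_symm hf hR]; exact hde) he0 h2 hze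
  apply mem_of_rat F₀ hf.involutive hR.fix i0 g
  intro u
  obtain ⟨y1, y2, -, -, h1, h2, hu⟩ := sing_sum0 hf hR ⊥ (by rw [finrank_bot]; omega) u
    (fun v hv => by rw [(Submodule.mem_bot F₀).mp hv]; exact SympAbs.bil_zero_left hb _)
  obtain ⟨z1, hz1⟩ := hall y1 h1
  obtain ⟨z2, hz2⟩ := hall y2 h2
  exact ⟨l, z1 + z2, by rw [hu, up_add, Matrix.mulVec_add, hz1, hz2, up_add, smul_add]⟩

/-- If `g` maps a singular rational point off the rational points, some conjugate of a rational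
short root element by `g` lies outside the subfield group. -/
lemma exists_root_not_rat (hf : Cfsg.Geo.IsUnitaryForm σ f) (hR : RatOrth σ f F₀)
    (hcard : 13 ≤ Fintype.card ι) (θ : F) (hθ : σ θ = -θ) (hθF : θ ∉ F₀)
    (g : Matrix.GeneralLinearGroup ι F)
    (hg : ∀ x y, f ((g : Matrix ι ι F) *ᵥ x) ((g : Matrix ι ι F) *ᵥ y) = f x y)
    (c : ι → F₀) (hc : Q0 hR c = 0)
    (hnr : ¬ ∃ (l : F) (z : ι → F₀), (g : Matrix ι ι F) *ᵥ up F₀ c = l • up F₀ z) :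
    ∃ w : ι → F₀, Q0 hR w = 0 ∧ b0 hR w c = 0 ∧
      su hf ((g : Matrix ι ι F) *ᵥ up F₀ w) ((g : Matrix ι ι F) *ᵥ up F₀ c) 1 ∉
        (Phi F₀ (ι := ι)).range ⊔ Cfsg.Geo.scalars ι F := by
  have hb := b0_bil hf hR
  have hσθ : σ θ ≠ θ := fun e => hθF ((hR.fix θ).mpr e)
  by_contra hcon
  push Not at hcon
  obtain ⟨b₁, b₂, hbd⟩ := decomp_vec F₀ hf.involutive hR.fix θ hσθ
    ((g : Matrix ι ι F) *ᵥ up F₀ c)
  obtain ⟨x₀, hx₀0, -, hx₀⟩ := ex_sing_perp hf hR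
    (Submodule.span F₀ ({b₁, b₂} : Set (ι → F₀)))
    (by have := QuadAbs.finrank_span_pair_le (F := F₀) b₁ b₂; omega)
  have hx₀b₁ : b0 hR b₁ x₀ = 0 := hx₀ b₁ (Submodule.subset_span (by simp))
  have hx₀b₂ : b0 hR b₂ x₀ = 0 := hx₀ b₂ (Submodule.subset_span (by simp))
  have hx₀b : f (up F₀ x₀) ((g : Matrix ι ι F) *ᵥ up F₀ c) = 0 := by
    rw [hbd, fRt hf hR, b0_symm hf hR x₀ b₁, b0_symm hf hR x₀ b₂, hx₀b₁, hx₀b₂]
    simp
  have hbb : f ((g : Matrix ι ι F) *ᵥ up F₀ c) ((g : Matrix ι ι F) *ᵥ up F₀ c) = 0 := by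
    rw [hg]; exact f_up_self hR c hc
  have stepb : ∀ w : ι → F₀, Q0 hR w = 0 → b0 hR w c = 0 →
      f (up F₀ x₀) ((g : Matrix ι ι F) *ᵥ up F₀ w) = 0 := by
    intro w hw hwc
    have hT := hcon w hw hwc
    obtain ⟨l, hl⟩ := rat_of_mem F₀ _ hT
    have huu : f ((g : Matrix ι ι F) *ᵥ up F₀ w) ((g : Matrix ι ι F) *ᵥ up F₀ w) = 0 := by
      rw [hg]; exact f_up_self hR w hw
    have hub : f ((g : Matrix ι ι F) *ᵥ up F₀ w) ((g : Matrix ι ι F) *ᵥ up F₀ c) = 0 := by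
      rw [hg]; exact f_up_zero hR w c hwc
    obtain ⟨u₁, u₂, hud⟩ := decomp_vec F₀ hf.involutive hR.fix θ hσθ
      ((g : Matrix ι ι F) *ᵥ up F₀ w)
    obtain ⟨x₁, hx₁0, -, hx₁⟩ := ex_sing_perp hf hR
      (Submodule.span F₀ ({b₁, b₂, u₁, u₂} : Set (ι → F₀)))
      (by have := QuadAbs.finrank_span_quad_le (F := F₀) b₁ b₂ u₁ u₂; omega)
    have hx₁b : f (up F₀ x₁) ((g : Matrix ι ι F) *ᵥ up F₀ c) = 0 := by
      rw [hbd, fRt hf hR, b0_symm hf hR x₁ b₁, b0_symm hf hR x₁ b₂,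
        hx₁ b₁ (Submodule.subset_span (by simp)), hx₁ b₂ (Submodule.subset_span (by simp))]
      simp
    have hx₁u : f (up F₀ x₁) ((g : Matrix ι ι F) *ᵥ up F₀ w) = 0 := by
      rw [hud, fRt hf hR, b0_symm hf hR x₁ u₁, b0_symm hf hR x₁ u₂,
        hx₁ u₁ (Submodule.subset_span (by simp)), hx₁ u₂ (Submodule.subset_span (by simp))]
      simp
    obtain ⟨z₁, hz₁⟩ := hl x₁
    rw [su_mulVec hf _ _ huu hbb hub, hx₁b, hx₁u] at hz₁
    have hz₁' : up F₀ x₁ = l • up F₀ z₁ := by simpa using hz₁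
    have hlF : l ∈ F₀ := scalar_mem F₀ x₁ z₁ l hx₁0 hz₁'
    obtain ⟨z₀, hz₀⟩ := hl x₀
    rw [su_mulVec hf _ _ huu hbb hub, hx₀b] at hz₀
    by_contra hne
    apply hnr
    refine ⟨(f (up F₀ x₀) ((g : Matrix ι ι F) *ᵥ up F₀ w))⁻¹, x₀ - (⟨l, hlF⟩ : F₀) • z₀, ?_⟩
    have e : f (up F₀ x₀) ((g : Matrix ι ι F) *ᵥ up F₀ w) • ((g : Matrix ι ι F) *ᵥ up F₀ c)
        = up F₀ x₀ - l • up F₀ z₀ := by
      rw [← hz₀]
      simp
    rw [up_sub, up_smul, ← e, smul_smul, inv_mul_cancel₀ hne, one_smul]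
  obtain ⟨y, hy⟩ : ∃ y, y = ((g⁻¹ : Matrix.GeneralLinearGroup ι F) : Matrix ι ι F)
      *ᵥ up F₀ x₀ := ⟨_, rfl⟩
  have hgy : (g : Matrix ι ι F) *ᵥ y = up F₀ x₀ := by rw [hy, gl_mulVec_inv]
  have hyw : ∀ w : ι → F₀, b0 hR w c = 0 → f y (up F₀ w) = 0 := by
    intro w hwc
    obtain ⟨s₁, s₂, hs₁c, hs₂c, hs₁, hs₂, hw⟩ := sing_sum0 hf hR (Submodule.span F₀ {c})
      (by have := QuadAbs.finrank_span_singleton_le (F := F₀) c; omega) w
      (fun v hv => by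
        obtain ⟨t, rfl⟩ := Submodule.mem_span_singleton.mp hv
        rw [hb.smul_left, b0_symm hf hR c w, hwc, mul_zero])
    have e1 : ∀ s : ι → F₀, Q0 hR s = 0 → b0 hR s c = 0 → f y (up F₀ s) = 0 := by
      intro s hs hsc
      rw [← hg, hgy]
      exact stepb s hs hsc
    rw [hw, up_add, add_right hf,
      e1 s₁ hs₁ (by rw [b0_symm hf hR]; exact hs₁c c (Submodule.mem_span_singleton_self c)),
      e1 s₂ hs₂ (by rw [b0_symm hf hR]; exact hs₂c c (Submodule.mem_span_singleton_self c)),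
      add_zero]
  obtain ⟨y₁, y₂, hyd⟩ := decomp_vec F₀ hf.involutive hR.fix θ hσθ y
  have hy12 : ∀ w : ι → F₀, b0 hR w c = 0 → b0 hR y₁ w = 0 ∧ b0 hR y₂ w = 0 := by
    intro w hwc
    have h1 := hyw w hwc
    rw [hyd, fL hf hR] at h1
    exact comp_zero θ hθF _ _ h1
  have hspan : ∀ v : ι → F₀, (∀ w, b0 hR w c = 0 → b0 hR v w = 0) →
      v ∈ Submodule.span F₀ {c} := by
    intro v hv
    by_contra hnot
    obtain ⟨r, hr, hvr⟩ := ex_perp_ne hf hR _ v hnot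
    exact hvr (hv r (by rw [b0_symm hf hR]; exact hr c (Submodule.mem_span_singleton_self c)))
  obtain ⟨t₁, ht₁⟩ := Submodule.mem_span_singleton.mp (hspan y₁ (fun w hw => (hy12 w hw).1))
  obtain ⟨t₂, ht₂⟩ := Submodule.mem_span_singleton.mp (hspan y₂ (fun w hw => (hy12 w hw).2))
  have hyc : y = ((t₁ : F) + θ * (t₂ : F)) • up F₀ c := by
    rw [hyd, ← ht₁, ← ht₂, up_smul, up_smul, add_smul, smul_smul]
  have hx₀e : up F₀ x₀ = ((t₁ : F) + θ * (t₂ : F)) • ((g : Matrix ι ι F) *ᵥ up F₀ c) := by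
    rw [← hgy, hyc, Matrix.mulVec_smul]
  have hne : (t₁ : F) + θ * (t₂ : F) ≠ 0 := by
    intro h0
    rw [h0, zero_smul] at hx₀e
    exact hx₀0 ((up_eq_zero F₀ x₀).mp hx₀e)
  apply hnr
  refine ⟨((t₁ : F) + θ * (t₂ : F))⁻¹, x₀, ?_⟩
  rw [hx₀e, smul_smul, inv_mul_cancel₀ hne, one_smul]

end Fin

end Cfsg.Agent.Lib.Helper94.SubfieldOrth2
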