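import Mathlib
import Cfsg.Prelude.Def_GeometricClasses
import Cfsg.Agent.Lib.Helper94.SubfieldOrth2

set_option autoImplicit false

namespace Cfsg.Agent.Lib.Helper94.SubfieldOrth3

open scoped Matrix
open Module
open Cfsg.Agent.Lib.Helper94
open Cfsg.Agent.Lib.Helper94.Basic Cfsg.Agent.Lib.Helper94.GLAux Cfsg.Agent.Lib.Helper94.Tv
  Cfsg.Agent.Lib.Helper94.UnitAbs Cfsg.Agent.Lib.Helper94.UnitGen
  Cfsg.Agent.Lib.Helper94.UnitRoot Cfsg.Agent.Lib.Helper94.SubfieldRat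
  Cfsg.Agent.Lib.Helper94.SubfieldOrth Cfsg.Agent.Lib.Helper94.SubfieldOrth2
open Cfsg.Agent.Lib.Helper94.SubfieldSp (rat_of_mem mem_of_rat)

section Fin

variable {ι : Type} [Fintype ι] [DecidableEq ι] {F : Type*} [Field F] [Fintype F]
variable {σ : F ≃+* F} {f : (ι → F) → (ι → F) → F} {F₀ : Subfield F}

lemma finrank_span_five_le (F₀ : Subfield F) (u v w x y : ι → F₀) :
    finrank F₀ (Submodule.span F₀ ({u, v, w, x, y} : Set (ι → F₀))) ≤ 5 := by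
  rw [Submodule.span_insert]
  have h1 := Submodule.finrank_add_le_finrank_add_finrank (Submodule.span F₀ {u})
    (Submodule.span F₀ ({v, w, x, y} : Set (ι → F₀)))
  have h2 := QuadAbs.finrank_span_singleton_le (F := F₀) u
  have h3 := QuadAbs.finrank_span_quad_le (F := F₀) v w x y
  omega

/-- **Extraction of a transvection.** A subgroup of the special isometry group properly
containing the orthogonal subfield group contains all unitary transvections centred at some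
nonzero singular rational vector. -/
theorem exists_rat_centre (hf : Cfsg.Geo.IsUnitaryForm σ f) (hR : RatOrth σ f F₀)
    (hcard : 13 ≤ Fintype.card ι) (K : Subgroup (Matrix.GeneralLinearGroup ι F))
    (hK : ∀ g : Matrix.GeneralLinearGroup ι F, g ∈ K ↔
      (∀ x y, f ((g : Matrix ι ι F) *ᵥ x) ((g : Matrix ι ι F) *ᵥ y) = f x y) ∧
        (g : Matrix ι ι F).det = 1)
    (M : Subgroup (Matrix.GeneralLinearGroup ι F))
    (hHM : ((Phi F₀ (ι := ι)).range ⊔ Cfsg.Geo.scalars ι F) ⊓ K ≤ M) (hMK : M ≤ K)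
    (hne : M ≠ ((Phi F₀ (ι := ι)).range ⊔ Cfsg.Geo.scalars ι F) ⊓ K) :
    ∃ w₀ : ι → F₀, w₀ ≠ 0 ∧ Q0 hR w₀ = 0 ∧ up F₀ w₀ ∈ utSet hf M := by
  have hb := b0_bil hf hR
  obtain ⟨θ, hθ0, hθ⟩ := exists_skew_ne hf
  have hθF : θ ∉ F₀ := skew_notMem hR θ hθ0 hθ
  have hσθ : σ θ ≠ θ := fun e => hθF ((hR.fix θ).mpr e)
  have hMiso : ∀ g ∈ M, ∀ x y,
      f ((g : Matrix ι ι F) *ᵥ x) ((g : Matrix ι ι F) *ᵥ y) = f x y :=
    fun g hg => ((hK g).mp (hMK hg)).1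
  have hsuK : ∀ a b c, su hf a b c ∈ K := fun a b c =>
    (hK _).mpr ⟨su_isom hf a b c, (mem_specialLinear_iff _).mp (su_mem_SL hf a b c)⟩
  have hsuM : ∀ (y x : ι → F₀) (c : F₀), su hf (up F₀ y) (up F₀ x) (c : F) ∈ M := fun y x c =>
    hHM ⟨Subgroup.mem_sup_left (su_up_mem_range hf hR y x c), hsuK _ _ _⟩
  obtain ⟨g, hgM, hgH⟩ := SetLike.exists_of_lt (lt_of_le_of_ne hHM (Ne.symm hne))
  have hgR : g ∉ (Phi F₀ (ι := ι)).range ⊔ Cfsg.Geo.scalars ι F := fun h => hgH ⟨h, hMK hgM⟩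
  have hgiso := hMiso g hgM
  -- Step 1
  obtain ⟨c, hc, hnr⟩ : ∃ c : ι → F₀, Q0 hR c = 0 ∧
      ¬ ∃ (l : F) (z : ι → F₀), (g : Matrix ι ι F) *ᵥ up F₀ c = l • up F₀ z := by
    by_contra hcon
    push Not at hcon
    exact hgR (mem_of_sing_rat hf hR hcard g hcon)
  -- Step 2
  obtain ⟨w, hw, hwc, hg'R⟩ := exists_root_not_rat hf hR hcard θ hθ hθF g hgiso c hc hnr
  obtain ⟨b, hbdef⟩ : ∃ b, b = (g : Matrix ι ι F) *ᵥ up F₀ c := ⟨_, rfl⟩
  obtain ⟨u, hudef⟩ : ∃ u, u = (g : Matrix ι ι F) *ᵥ up F₀ w := ⟨_, rfl⟩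
  rw [← hbdef, ← hudef] at hg'R
  have hg'M : su hf u b 1 ∈ M := by
    rw [hudef, hbdef, ← su_conj hf g hgiso]
    have h1 := hsuM w c 1
    rw [OneMemClass.coe_one] at h1
    exact M.mul_mem (M.mul_mem hgM h1) (M.inv_mem hgM)
  have huu : f u u = 0 := by rw [hudef, hgiso]; exact f_up_self hR w hw
  have hbb : f b b = 0 := by rw [hbdef, hgiso]; exact f_up_self hR c hc
  have hub : f u b = 0 := by rw [hudef, hbdef, hgiso]; exact f_up_zero hR w c hwc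
  have hg'iso := hMiso _ hg'M
  -- Step 3
  obtain ⟨x, hx, hxnr⟩ : ∃ x : ι → F₀, Q0 hR x = 0 ∧
      ¬ ∃ z : ι → F₀, ((su hf u b 1 : Matrix.GeneralLinearGroup ι F) : Matrix ι ι F)
        *ᵥ up F₀ x = up F₀ z := by
    by_contra hcon
    push Not at hcon
    apply hg'R
    apply Subgroup.mem_sup_left
    apply mem_range_of_entries
    intro i j
    obtain ⟨y1, y2, -, -, h1, h2, hsum⟩ := sing_sum0 hf hR ⊥ (by rw [finrank_bot]; omega)
      (Pi.single j 1)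
      (fun v hv => by rw [(Submodule.mem_bot F₀).mp hv]; exact SympAbs.bil_zero_left hb _)
    obtain ⟨z1, hz1⟩ := hcon y1 h1
    obtain ⟨z2, hz2⟩ := hcon y2 h2
    have e : ((su hf u b 1 : Matrix.GeneralLinearGroup ι F) : Matrix ι ι F) *ᵥ Pi.single j 1
        = up F₀ (z1 + z2) := by
      rw [← up_single F₀ j, hsum, up_add, Matrix.mulVec_add, hz1, hz2, up_add]
    have e' := congrFun e i
    rw [Matrix.mulVec_single_one] at e'
    simp only [Matrix.col_apply] at e'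
    rw [e', up_apply]
    exact SetLike.coe_mem _
  obtain ⟨b'', hb''⟩ : ∃ b'', b'' = ((su hf u b 1 : Matrix.GeneralLinearGroup ι F) :
      Matrix ι ι F) *ᵥ up F₀ x := ⟨_, rfl⟩
  rw [← hb''] at hxnr
  -- Step 4
  obtain ⟨u₁, u₂, hud⟩ := decomp_vec F₀ hf.involutive hR.fix θ hσθ u
  obtain ⟨b₁, b₂, hbd⟩ := decomp_vec F₀ hf.involutive hR.fix θ hσθ b
  obtain ⟨w₀, hw₀0, hw₀, hw₀U⟩ := ex_sing_perp hf hR
    (Submodule.span F₀ ({b₁, b₂, u₁, u₂, x} : Set (ι → F₀)))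
    (by have := finrank_span_five_le F₀ b₁ b₂ u₁ u₂ x; omega)
  have hw₀b : f (up F₀ w₀) b = 0 := by
    rw [hbd, fRt hf hR, b0_symm hf hR w₀ b₁, b0_symm hf hR w₀ b₂,
      hw₀U b₁ (Submodule.subset_span (by simp)), hw₀U b₂ (Submodule.subset_span (by simp))]
    simp
  have hw₀u : f (up F₀ w₀) u = 0 := by
    rw [hud, fRt hf hR, b0_symm hf hR w₀ u₁, b0_symm hf hR w₀ u₂,
      hw₀U u₁ (Submodule.subset_span (by simp)), hw₀U u₂ (Submodule.subset_span (by simp))]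
    simp
  have hw₀x : b0 hR w₀ x = 0 := by
    rw [b0_symm hf hR]; exact hw₀U x (Submodule.subset_span (by simp))
  have hfix : ((su hf u b 1 : Matrix.GeneralLinearGroup ι F) : Matrix ι ι F) *ᵥ up F₀ w₀
      = up F₀ w₀ := by
    rw [su_mulVec hf _ _ huu hbb hub, hw₀b, hw₀u]
    simp
  have hw₀w₀ := f_up_self hR w₀ hw₀
  have hconj : ∀ c' : F₀, su hf (up F₀ w₀) b'' (c' : F) ∈ M := by
    intro c'
    have h1 := su_conj hf (su hf u b 1) hg'iso (up F₀ w₀) (up F₀ x) (c' : F)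
    rw [hfix, ← hb''] at h1
    rw [← h1]
    exact M.mul_mem (M.mul_mem hg'M (hsuM w₀ x c')) (M.inv_mem hg'M)
  have hw₀b'' : f (up F₀ w₀) b'' = 0 := by
    have h1 := hg'iso (up F₀ w₀) (up F₀ x)
    rw [hfix, ← hb''] at h1
    rw [h1]
    exact f_up_zero hR w₀ x hw₀x
  have hb''b'' : f b'' b'' = 0 := by rw [hb'', hg'iso]; exact f_up_self hR x hx
  -- Step 5
  obtain ⟨v₁, v₂, hvd⟩ := decomp_vec F₀ hf.involutive hR.fix θ hσθ b''
  have hv₂0 : v₂ ≠ 0 := by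
    intro h0
    apply hxnr
    exact ⟨v₁, by rw [hvd, h0, up_zero, smul_zero, add_zero]⟩
  have h2F : σ (2 : F) = 2 := map_ofNat σ 2
  refine ⟨w₀, hw₀0, hw₀, hw₀w₀, fun κ => ?_⟩
  by_cases hκ : σ κ = -κ
  swap
  · rw [ut_not hf _ _ (fun h => hκ h.2)]; exact M.one_mem
  by_cases hcase : v₂ ∈ Submodule.span F₀ {w₀}
  · obtain ⟨t, ht⟩ := Submodule.mem_span_singleton.mp hcase
    have ht0 : (t : F) ≠ 0 := by
      intro h0
      apply hv₂0
      have ht' : t = 0 := Subtype.ext h0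
      rw [← ht, ht', zero_smul]
    have hb''e : b'' = (θ * (t : F)) • up F₀ w₀ + up F₀ v₁ := by
      rw [hvd, ← ht, up_smul, smul_smul, add_comm]
    have hw₀v₁ : f (up F₀ w₀) (up F₀ v₁) = 0 := by
      have h1 := hw₀b''
      rw [hb''e, add_right hf, smul_right hf, hw₀w₀, mul_zero, zero_add] at h1
      exact h1
    have hv₁w₀ : f (up F₀ v₁) (up F₀ w₀) = 0 := (eq_zero_comm hf _ _).mp hw₀v₁
    have hv₁v₁ : f (up F₀ v₁) (up F₀ v₁) = 0 := by
      have h1 := hb''b''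
      rw [hb''e] at h1
      simp only [hf.add_left, add_right hf, hf.smul_left, smul_right hf, hw₀w₀, hw₀v₁, hv₁w₀,
        mul_zero, zero_add, add_zero] at h1
      exact h1
    have hc'F : κ / (-2 * θ * (t : F)) ∈ F₀ := by
      rw [hR.fix, map_div₀, map_mul, map_mul, map_neg, hκ, hθ, hR.fixed, h2F]
      field_simp
    have h1 := su_add_self hf (up F₀ w₀) (up F₀ v₁) hw₀w₀ hv₁v₁ hw₀v₁ (θ * (t : F))
      ((⟨_, hc'F⟩ : F₀) : F)
    rw [← hb''e] at h1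
    have hκe : κ / (-2 * θ * (t : F)) * σ (θ * (t : F))
        - σ (κ / (-2 * θ * (t : F))) * (θ * (t : F)) = κ := by
      rw [(hR.fix _).mp hc'F, map_mul, hθ, hR.fixed]
      have h2 := hR.two
      field_simp
      ring
    rw [hκe] at h1
    have h2 : ut hf (up F₀ w₀) κ = su hf (up F₀ w₀) b'' ((⟨_, hc'F⟩ : F₀) : F)
        * (su hf (up F₀ w₀) (up F₀ v₁) ((⟨_, hc'F⟩ : F₀) : F))⁻¹ := by
      rw [h1]; group
    rw [h2]
    exact M.mul_mem (hconj _) (M.inv_mem (hsuM w₀ v₁ _))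
  · obtain ⟨v', hv', hw₀v', hv₂v'⟩ := ex_sing_pair hf hR hcard w₀ v₂ hcase
    have hc'F : κ / (2 * θ) ∈ F₀ := by
      rw [hR.fix, map_div₀, map_mul, hκ, hθ, h2F]
      field_simp
    have h1 := su_mul_su hf (up F₀ w₀) b'' (up F₀ v') hw₀w₀ hb''b'' (f_up_self hR v' hv')
      hw₀b'' (f_up_zero hR w₀ v' hw₀v') 1 ((⟨_, hc'F⟩ : F₀) : F)
    have hκe : κ / (2 * θ) * σ 1 * f b'' (up F₀ v') - 1 * σ (κ / (2 * θ)) * f (up F₀ v') b''
        = κ := by
      rw [(hR.fix _).mp hc'F, hvd, fL hf hR, fRt hf hR, hθ, map_one, b0_symm hf hR v' v₁,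
        b0_symm hf hR v' v₂, hv₂v']
      have h2 := hR.two
      simp only [OneMemClass.coe_one]
      field_simp
      ring
    rw [hκe] at h1
    have h2 : ut hf (up F₀ w₀) κ = (su hf (up F₀ w₀) b'' 1
        * su hf (up F₀ w₀) (up F₀ v') ((⟨_, hc'F⟩ : F₀) : F))
        * (su hf (up F₀ w₀) (up F₀ v') ((⟨_, hc'F⟩ : F₀) : F) * su hf (up F₀ w₀) b'' 1)⁻¹ := by
      rw [h1]; group
    have h3 : su hf (up F₀ w₀) b'' 1 ∈ M := by
      have h4 := hconj 1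
      rwa [OneMemClass.coe_one] at h4
    rw [h2]
    exact M.mul_mem (M.mul_mem h3 (hsuM w₀ v' _)) (M.inv_mem (M.mul_mem (hsuM w₀ v' _) h3))

end Fin

end Cfsg.Agent.Lib.Helper94.SubfieldOrth3
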