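import Mathlib
import Cfsg.Prelude.Def_GeometricClasses
import Cfsg.Agent.Lib.Helper94.SubfieldOrth3

set_option autoImplicit false

namespace Cfsg.Agent.Lib.Helper94.SubfieldOrth4

open scoped Matrix
open Module
open Cfsg.Agent.Lib.Helper94
open Cfsg.Agent.Lib.Helper94.Basic Cfsg.Agent.Lib.Helper94.GLAux Cfsg.Agent.Lib.Helper94.Tv
  Cfsg.Agent.Lib.Helper94.UnitAbs Cfsg.Agent.Lib.Helper94.UnitGen
  Cfsg.Agent.Lib.Helper94.UnitRoot Cfsg.Agent.Lib.Helper94.SubfieldRat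
  Cfsg.Agent.Lib.Helper94.SubfieldOrth Cfsg.Agent.Lib.Helper94.SubfieldOrth2
  Cfsg.Agent.Lib.Helper94.SubfieldOrth3
open Cfsg.Agent.Lib.Helper94.SubfieldSp (rat_of_mem mem_of_rat)

section Fin

variable {ι : Type} [Fintype ι] [DecidableEq ι] {F : Type*} [Field F] [Fintype F]
variable {σ : F ≃+* F} {f : (ι → F) → (ι → F) → F} {F₀ : Subfield F}

/-- Moving a transvection centre to an orthogonal singular rational vector. -/
lemma step_perp (hf : Cfsg.Geo.IsUnitaryForm σ f) (hR : RatOrth σ f F₀)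
    (hcard : 13 ≤ Fintype.card ι) (M : Subgroup (Matrix.GeneralLinearGroup ι F))
    (hM : ∀ g ∈ M, ∀ x y, f ((g : Matrix ι ι F) *ᵥ x) ((g : Matrix ι ι F) *ᵥ y) = f x y)
    (hsu : ∀ y x : ι → F₀, su hf (up F₀ y) (up F₀ x) 1 ∈ M)
    (w d : ι → F₀) (hw : Q0 hR w = 0) (hd : Q0 hR d = 0) (hwd : b0 hR w d = 0)
    (hind : d ∉ Submodule.span F₀ {w}) (hw0 : w ≠ 0) (hwS : up F₀ w ∈ utSet hf M) :
    up F₀ d ∈ utSet hf M := by
  have hb := b0_bil hf hR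
  have hQy : Q0 hR (d - w) = 0 := by
    rw [Q0_sub hf hR, hd, hw, b0_symm hf hR, hwd]; ring
  have hwy : w ∉ Submodule.span F₀ {d - w} := by
    intro hmem
    obtain ⟨t, ht⟩ := Submodule.mem_span_singleton.mp hmem
    apply hind
    have ht0 : t ≠ 0 := by
      intro h0
      rw [h0, zero_smul] at ht
      exact hw0 ht.symm
    have h1 : t • d = (1 + t) • w := by
      rw [smul_sub, sub_eq_iff_eq_add] at ht
      rw [ht, add_smul, one_smul]
    rw [Submodule.mem_span_singleton]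
    refine ⟨(1 + t) / t, ?_⟩
    rw [div_eq_inv_mul, mul_smul, ← h1, smul_smul, inv_mul_cancel₀ ht0, one_smul]
  obtain ⟨x, hx, hyx, hwx⟩ := ex_sing_pair hf hR hcard (d - w) w hwy
  have hT := hsu (d - w) x
  have e : ((su hf (up F₀ (d - w)) (up F₀ x) 1 : Matrix.GeneralLinearGroup ι F) :
      Matrix ι ι F) *ᵥ up F₀ w = up F₀ d := by
    have h1 := su_up_mulVec hf hR (d - w) x (f_up_self hR _ hQy) (f_up_self hR x hx)
      (f_up_zero hR _ _ hyx) 1 w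
    rw [OneMemClass.coe_one] at h1
    have h2 : b0 hR w (d - w) = 0 := by
      rw [SympAbs.bil_sub_right hb, hwd, b0_self, hw]; ring
    rw [h1, hwx, h2]
    congr 1
    simp
  rw [← e]
  exact utSet_map hf M hM hT hwS

/-- All singular rational vectors are transvection centres. -/
lemma utSet_sing (hf : Cfsg.Geo.IsUnitaryForm σ f) (hR : RatOrth σ f F₀)
    (hcard : 13 ≤ Fintype.card ι) (M : Subgroup (Matrix.GeneralLinearGroup ι F))
    (hM : ∀ g ∈ M, ∀ x y, f ((g : Matrix ι ι F) *ᵥ x) ((g : Matrix ι ι F) *ᵥ y) = f x y)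
    (hsu : ∀ y x : ι → F₀, su hf (up F₀ y) (up F₀ x) 1 ∈ M)
    (w₀ : ι → F₀) (hw₀0 : w₀ ≠ 0) (hw₀ : Q0 hR w₀ = 0) (hw₀S : up F₀ w₀ ∈ utSet hf M) :
    ∀ d : ι → F₀, Q0 hR d = 0 → up F₀ d ∈ utSet hf M := by
  intro d hd
  have hb := b0_bil hf hR
  by_cases hspan : d ∈ Submodule.span F₀ {w₀}
  · obtain ⟨t, rfl⟩ := Submodule.mem_span_singleton.mp hspan
    rw [up_smul]
    exact utSet_smul hf M hw₀S _
  by_cases hwd : b0 hR w₀ d = 0
  · exact step_perp hf hR hcard M hM hsu w₀ d hw₀ hd hwd hspan hw₀0 hw₀S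
  obtain ⟨e, y, he1, hy1, hQe, -, hey⟩ := ex_hyp_perp hf hR
    (Submodule.span F₀ ({w₀, d} : Set (ι → F₀)))
    (by have := QuadAbs.finrank_span_pair_le (F := F₀) w₀ d; omega)
  have hwe : b0 hR w₀ e = 0 := he1 w₀ (Submodule.subset_span (by simp))
  have hde : b0 hR d e = 0 := he1 d (Submodule.subset_span (by simp))
  have hwy : b0 hR w₀ y = 0 := hy1 w₀ (Submodule.subset_span (by simp))
  have he0 : e ≠ 0 := by
    intro h0
    rw [h0, SympAbs.bil_zero_left hb] at hey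
    exact zero_ne_one hey
  have h1 : e ∉ Submodule.span F₀ {w₀} := by
    intro hmem
    obtain ⟨t, ht⟩ := Submodule.mem_span_singleton.mp hmem
    rw [← ht, hb.smul_left, hwy, mul_zero] at hey
    exact zero_ne_one hey
  have heS := step_perp hf hR hcard M hM hsu w₀ e hw₀ hQe hwe h1 hw₀0 hw₀S
  have h2 : d ∉ Submodule.span F₀ {e} := by
    intro hmem
    obtain ⟨t, ht⟩ := Submodule.mem_span_singleton.mp hmem
    apply hwd
    rw [← ht, hb.smul_right, hwe, mul_zero]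
  exact step_perp hf hR hcard M hM hsu e d hQe hd (by rw [b0_symm hf hR]; exact hde) h2 he0 heS

/-- Isotropic vectors with singular rational components are transvection centres. -/
lemma utSet_S (hf : Cfsg.Geo.IsUnitaryForm σ f) (hR : RatOrth σ f F₀)
    (hcard : 13 ≤ Fintype.card ι) (M : Subgroup (Matrix.GeneralLinearGroup ι F))
    (hM : ∀ g ∈ M, ∀ x y, f ((g : Matrix ι ι F) *ᵥ x) ((g : Matrix ι ι F) *ᵥ y) = f x y)
    (θ : F) (hθ : σ θ = -θ)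
    (hsing : ∀ d : ι → F₀, Q0 hR d = 0 → up F₀ d ∈ utSet hf M)
    (a₁ a₂ : ι → F₀) (h1 : Q0 hR a₁ = 0) (h2 : Q0 hR a₂ = 0) :
    up F₀ a₁ + θ • up F₀ a₂ ∈ utSet hf M := by
  have hb := b0_bil hf hR
  have hiso : ∀ p₁ p₂ : ι → F₀, Q0 hR p₁ = 0 → Q0 hR p₂ = 0 →
      f (up F₀ p₁ + θ • up F₀ p₂) (up F₀ p₁ + θ • up F₀ p₂) = 0 := by
    intro p₁ p₂ hp₁ hp₂
    rw [fS hf hR θ hθ, hp₁, hp₂]
    simp
  by_cases ha₁ : a₁ = 0
  · rw [ha₁, up_zero, zero_add]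
    exact utSet_smul hf M (hsing a₂ h2) θ
  by_cases hspan : a₂ ∈ Submodule.span F₀ {a₁}
  · obtain ⟨t, rfl⟩ := Submodule.mem_span_singleton.mp hspan
    have e : up F₀ a₁ + θ • up F₀ (t • a₁) = (1 + θ * (t : F)) • up F₀ a₁ := by
      rw [up_smul, add_smul, one_smul, smul_smul]
    rw [e]
    exact utSet_smul hf M (hsing a₁ h1) _
  by_cases h12 : b0 hR a₁ a₂ = 0
  · have hspan' : a₁ ∉ Submodule.span F₀ {a₂} := by
      intro hmem
      obtain ⟨t, ht⟩ := Submodule.mem_span_singleton.mp hmem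
      apply hspan
      have ht0 : t ≠ 0 := by
        intro h0
        rw [h0, zero_smul] at ht
        exact ha₁ ht.symm
      rw [Submodule.mem_span_singleton]
      exact ⟨t⁻¹, by rw [← ht, smul_smul, inv_mul_cancel₀ ht0, one_smul]⟩
    obtain ⟨d, hd, ha₂d, ha₁d⟩ := ex_sing_pair hf hR hcard a₂ a₁ hspan'
    have hQ2 : Q0 hR (a₂ + d) = 0 := by rw [Q0_add hf hR, h2, hd, ha₂d]; ring
    have hp : up F₀ a₁ + θ • up F₀ (a₂ + d) ∈ utSet hf M := by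
      apply utSet_hyp hf M hM (hsing a₁ h1) (hsing _ hQ2) ?_ θ (hiso _ _ h1 hQ2)
      rw [← b0_coe hR, hb.add_right, h12, ha₁d, zero_add]
      simp
    have e : up F₀ a₁ + θ • up F₀ a₂
        = (up F₀ a₁ + θ • up F₀ (a₂ + d)) + (-θ) • up F₀ d := by
      rw [up_add]; module
    rw [e]
    apply utSet_hyp hf M hM hp (hsing d hd) ?_ (-θ) (by rw [← e]; exact hiso _ _ h1 h2)
    rw [fL hf hR, hb.add_left, ha₁d, ha₂d, b0_self, hd]
    simp
  · exact utSet_hyp hf M hM (hsing a₁ h1) (hsing a₂ h2)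
      (fun h0 => h12 (Subtype.ext h0)) θ (hiso _ _ h1 h2)

/-- From one singular rational transvection centre, every isotropic vector is a transvection
centre. -/
theorem utSet_all (hf : Cfsg.Geo.IsUnitaryForm σ f) (hR : RatOrth σ f F₀)
    (hcard : 13 ≤ Fintype.card ι) (M : Subgroup (Matrix.GeneralLinearGroup ι F))
    (hM : ∀ g ∈ M, ∀ x y, f ((g : Matrix ι ι F) *ᵥ x) ((g : Matrix ι ι F) *ᵥ y) = f x y)
    (hsu : ∀ y x : ι → F₀, su hf (up F₀ y) (up F₀ x) 1 ∈ M)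
    (w₀ : ι → F₀) (hw₀0 : w₀ ≠ 0) (hw₀ : Q0 hR w₀ = 0) (hw₀S : up F₀ w₀ ∈ utSet hf M) :
    ∀ a, f a a = 0 → a ∈ utSet hf M := by
  have hb := b0_bil hf hR
  obtain ⟨θ, hθ0, hθ⟩ := exists_skew_ne hf
  have hθF : θ ∉ F₀ := skew_notMem hR θ hθ0 hθ
  have hσθ : σ θ ≠ θ := fun e => hθF ((hR.fix θ).mpr e)
  have hsing := utSet_sing hf hR hcard M hM hsu w₀ hw₀0 hw₀ hw₀S
  intro a ha
  obtain ⟨a₁, a₂, had⟩ := decomp_vec F₀ hf.involutive hR.fix θ hσθ a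
  have hrel : 2 * (Q0 hR a₁ : F) - θ ^ 2 * (2 * (Q0 hR a₂ : F)) = 0 := by
    rw [← fS hf hR θ hθ, ← had]; exact ha
  by_cases h2 : Q0 hR a₂ = 0
  · have h1 : Q0 hR a₁ = 0 := by
      rw [h2] at hrel
      apply Subtype.ext
      have h3 : (2 : F) * (Q0 hR a₁ : F) = 0 := by simpa using hrel
      exact (mul_eq_zero.mp h3).resolve_left hR.two
    rw [had]
    exact utSet_S hf hR hcard M hM θ hθ hsing a₁ a₂ h1 h2
  · have h1 : Q0 hR a₁ ≠ 0 := by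
      intro h1
      rw [h1] at hrel
      have h3 : θ ^ 2 * (2 * (Q0 hR a₂ : F)) = 0 := by simpa using hrel
      rcases mul_eq_zero.mp h3 with h4 | h4
      · exact hθ0 (pow_eq_zero_iff (two_ne_zero)|>.mp h4)
      · rcases mul_eq_zero.mp h4 with h5 | h5
        · exact hR.two h5
        · exact h2 (Subtype.ext h5)
    have ha₁0 : a₁ ≠ 0 := fun h0 => h1 (by rw [h0]; exact Q0_zero hf hR)
    have ha₂0 : a₂ ≠ 0 := fun h0 => h2 (by rw [h0]; exact Q0_zero hf hR)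
    obtain ⟨d, hd, hd1, hd2⟩ := ex_sing_both hf hR hcard a₁ a₂ ha₁0 ha₂0
    obtain ⟨μ₁, hμ₁⟩ : ∃ μ₁ : F₀, μ₁ = -(Q0 hR a₁) / b0 hR a₁ d := ⟨_, rfl⟩
    obtain ⟨μ₂, hμ₂⟩ : ∃ μ₂ : F₀, μ₂ = -(Q0 hR a₂) / b0 hR a₂ d := ⟨_, rfl⟩
    have hp₁ : Q0 hR (a₁ + μ₁ • d) = 0 := by
      rw [Q0_add hf hR, Q0_smul hf hR, hd, hb.smul_right, hμ₁]
      field_simp
      ring
    have hp₂ : Q0 hR (a₂ + μ₂ • d) = 0 := by
      rw [Q0_add hf hR, Q0_smul hf hR, hd, hb.smul_right, hμ₂]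
      field_simp
      ring
    have hp := utSet_S hf hR hcard M hM θ hθ hsing _ _ hp₁ hp₂
    have e : a = (up F₀ (a₁ + μ₁ • d) + θ • up F₀ (a₂ + μ₂ • d))
        + (-((μ₁ : F) + θ * (μ₂ : F))) • up F₀ d := by
      rw [had, up_add, up_add, up_smul, up_smul]; module
    rw [e]
    apply utSet_hyp hf M hM hp (hsing d hd) ?_ _ (by rw [← e]; exact ha)
    rw [fL hf hR, hb.add_left, hb.add_left, hb.smul_left, hb.smul_left, b0_self, hd]
    intro h0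
    have h3 := comp_zero θ hθF _ _ h0
    apply hd1
    simpa using h3.1

/-- **The orthogonal subfield group is maximal in the special unitary group.** -/
theorem maximal (hf : Cfsg.Geo.IsUnitaryForm σ f) (hcard : 13 ≤ Fintype.card ι)
    (hR : RatOrth σ f F₀) (K : Subgroup (Matrix.GeneralLinearGroup ι F))
    (hK : ∀ g : Matrix.GeneralLinearGroup ι F, g ∈ K ↔
      (∀ x y, f ((g : Matrix ι ι F) *ᵥ x) ((g : Matrix ι ι F) *ᵥ y) = f x y) ∧
        (g : Matrix ι ι F).det = 1) :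
    Cfsg.Geo.IsMaximalIn K (((Phi F₀ (ι := ι)).range ⊔ Cfsg.Geo.scalars ι F) ⊓ K) := by
  have hb := b0_bil hf hR
  obtain ⟨θ, hθ0, hθ⟩ := exists_skew_ne hf
  have hθF : θ ∉ F₀ := skew_notMem hR θ hθ0 hθ
  have hutK : ∀ a κ, ut hf a κ ∈ K := fun a κ =>
    (hK _).mpr ⟨ut_isom hf a κ, (mem_specialLinear_iff _).mp (ut_mem_SL hf a κ)⟩
  have hsuK : ∀ a b c, su hf a b c ∈ K := fun a b c =>
    (hK _).mpr ⟨su_isom hf a b c, (mem_specialLinear_iff _).mp (su_mem_SL hf a b c)⟩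
  refine ⟨lt_of_le_of_ne inf_le_right ?_, ?_⟩
  · intro heq
    obtain ⟨w₀, d₀, -, -, hw₀, -, hwd⟩ := ex_hyp_perp hf hR ⊥ (by rw [finrank_bot]; omega)
    have hw₀0 : w₀ ≠ 0 := by
      intro h0
      rw [h0, SympAbs.bil_zero_left hb] at hwd
      exact zero_ne_one hwd
    have hk : ut hf (up F₀ w₀) θ ∈ (Phi F₀ (ι := ι)).range ⊔ Cfsg.Geo.scalars ι F := by
      have h1 : ut hf (up F₀ w₀) θ ∈ K := hutK _ _
      rw [← heq] at h1
      exact h1.1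
    obtain ⟨l, hl⟩ := rat_of_mem F₀ _ hk
    have hiso := f_up_self hR w₀ hw₀
    obtain ⟨z₁, hz₁⟩ := hl w₀
    rw [ut_mulVec hf _ _ hiso hθ, hiso, mul_zero, zero_smul, add_zero] at hz₁
    have hlF : l ∈ F₀ := scalar_mem F₀ w₀ z₁ l hw₀0 hz₁
    obtain ⟨z₂, hz₂⟩ := hl d₀
    rw [ut_mulVec hf _ _ hiso hθ] at hz₂
    have hdw : f (up F₀ d₀) (up F₀ w₀) = 1 := by
      rw [← b0_coe hR, b0_symm hf hR, hwd]; rfl
    rw [hdw, mul_one] at hz₂
    have e : up F₀ d₀ + θ • up F₀ w₀ = up F₀ ((⟨l, hlF⟩ : F₀) • z₂) + θ • up F₀ 0 := by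
      rw [hz₂, up_smul, up_zero, smul_zero, add_zero]
    exact hw₀0 (decomp_unique F₀ θ hθF _ _ _ _ e).2
  · intro M hHM hMK
    by_cases hMH : M = ((Phi F₀ (ι := ι)).range ⊔ Cfsg.Geo.scalars ι F) ⊓ K
    · exact Or.inl hMH
    right
    have hMiso : ∀ g ∈ M, ∀ x y,
        f ((g : Matrix ι ι F) *ᵥ x) ((g : Matrix ι ι F) *ᵥ y) = f x y :=
      fun g hg => ((hK g).mp (hMK hg)).1
    have hsuM : ∀ y x : ι → F₀, su hf (up F₀ y) (up F₀ x) 1 ∈ M := by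
      intro y x
      have h1 := su_up_mem_range hf hR y x 1
      rw [OneMemClass.coe_one] at h1
      exact hHM ⟨Subgroup.mem_sup_left h1, hsuK _ _ _⟩
    obtain ⟨w₀, hw₀0, hw₀, hw₀S⟩ := exists_rat_centre hf hR hcard K hK M hHM hMK hMH
    have hall := utSet_all hf hR hcard M hMiso hsuM w₀ hw₀0 hw₀ hw₀S
    apply le_antisymm hMK
    intro k hk
    obtain ⟨hk1, hk2⟩ := (hK k).mp hk
    exact mem_of_utSet_univ hf (by omega) M hall k hk1 hk2

end Fin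

end Cfsg.Agent.Lib.Helper94.SubfieldOrth4
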