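import Mathlib
import Cfsg.Prelude.Def_GeometricClasses
import Cfsg.Agent.Lib.Helper94.Basic
import Cfsg.Agent.Lib.Helper94.GLAux
import Cfsg.Agent.Lib.Helper94.Tv
import Cfsg.Agent.Lib.Helper94.Tv2
import Cfsg.Agent.Lib.Helper94.SympAbs
import Cfsg.Agent.Lib.Helper94.SympGen
import Cfsg.Agent.Lib.Helper94.SympBlock

set_option autoImplicit false

namespace Cfsg.Agent.Lib.Helper94.SympSwap

open scoped Matrix
open Cfsg.Agent.Lib.Helper94.Basic Cfsg.Agent.Lib.Helper94.GLAux Cfsg.Agent.Lib.Helper94.Tv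
  Cfsg.Agent.Lib.Helper94.Tv2 Cfsg.Agent.Lib.Helper94.SympAbs Cfsg.Agent.Lib.Helper94.SympGen
  Cfsg.Agent.Lib.Helper94.SympBlock

section Swap

variable {ι : Type} [Fintype ι] [DecidableEq ι] {F : Type*} [Field F]
variable {f : (ι → F) → (ι → F) → F}

/-- The linear map `x ↦ x - f(x,v) u + f(x,u) v`. -/
def hsLin (hf : Cfsg.Geo.IsBilinearForm f) (u v : ι → F) : (ι → F) →ₗ[F] (ι → F) where
  toFun x := x - f x v • u + f x u • v
  map_add' x y := by
    rw [hf.add_left, hf.add_left]; module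
  map_smul' c x := by
    simp only [hf.smul_left, RingHom.id_apply]; module

@[simp] lemma hsLin_apply (hf : Cfsg.Geo.IsBilinearForm f) (u v x : ι → F) :
    hsLin hf u v x = x - f x v • u + f x u • v := rfl

lemma hsLin_comp (hf : Cfsg.Geo.IsSymplecticForm f) (u v : ι → F) (huv : f u v = 2) :
    hsLin hf.bilinear u v ∘ₗ hsLin hf.bilinear u v = LinearMap.id := by
  apply LinearMap.ext
  intro x
  have hvu : f v u = -2 := by rw [hf.skew, huv]
  simp only [LinearMap.comp_apply, hsLin_apply, LinearMap.id_apply, hf.bilinear.add_left,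
    bil_sub_left hf.bilinear, hf.bilinear.smul_left, hf.alternating, huv, hvu]
  module

/-- The involutive isometry `x ↦ x - f(x,v) u + f(x,u) v` for `f u v = 2`. -/
def hs (hf : Cfsg.Geo.IsSymplecticForm f) (u v : ι → F) (huv : f u v = 2) :
    Matrix.GeneralLinearGroup ι F :=
  glOfLin (hsLin hf.bilinear u v) (hsLin hf.bilinear u v) (hsLin_comp hf u v huv)
    (hsLin_comp hf u v huv)

lemma hs_mulVec (hf : Cfsg.Geo.IsSymplecticForm f) (u v : ι → F) (huv : f u v = 2) (x : ι → F) :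
    ((hs hf u v huv : Matrix.GeneralLinearGroup ι F) : Matrix ι ι F) *ᵥ x
      = x - f x v • u + f x u • v := by
  simp [hs]

lemma hs_isom (hf : Cfsg.Geo.IsSymplecticForm f) (u v : ι → F) (huv : f u v = 2) (x y : ι → F) :
    f (((hs hf u v huv : Matrix.GeneralLinearGroup ι F) : Matrix ι ι F) *ᵥ x)
      (((hs hf u v huv : Matrix.GeneralLinearGroup ι F) : Matrix ι ι F) *ᵥ y) = f x y := by
  have hvu : f v u = -2 := by rw [hf.skew, huv]
  simp only [hs_mulVec, hf.bilinear.add_left, hf.bilinear.add_right, bil_sub_left hf.bilinear,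
    bil_sub_right hf.bilinear, hf.bilinear.smul_left, hf.bilinear.smul_right, hf.alternating,
    huv, hvu]
  rw [hf.skew u y, hf.skew v y]
  ring

/-- Splitting off a hyperbolic pair from a subspace. -/
lemma sub_block (hf : Cfsg.Geo.IsSymplecticForm f) (A : Submodule F (ι → F)) (e1 e2 : ι → F)
    (he1 : e1 ∈ A) (he2 : e2 ∈ A) (h12 : f e1 e2 = 1) :
    ∃ A1 : Submodule F (ι → F), (∀ a, a ∈ A1 ↔ a ∈ A ∧ f a e1 = 0 ∧ f a e2 = 0) ∧
      Module.finrank F A1 + 2 = Module.finrank F A := by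
  have h21 : f e2 e1 = -1 := by rw [hf.skew, h12]
  set ψ : A →ₗ[F] F × F :=
    ((fR hf.bilinear e1).prod (fR hf.bilinear e2)) ∘ₗ A.subtype with hψ
  have hψa : ∀ a : A, ψ a = (f (a : ι → F) e1, f (a : ι → F) e2) := by
    intro a
    simp [hψ]
  have hsurj : Function.Surjective ψ := by
    rintro ⟨α, β⟩
    refine ⟨⟨β • e1 - α • e2, A.sub_mem (A.smul_mem _ he1) (A.smul_mem _ he2)⟩, ?_⟩
    rw [hψa]
    simp only [bil_sub_left hf.bilinear, hf.bilinear.smul_left, hf.alternating, h12, h21]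
    ext <;> simp
  refine ⟨(LinearMap.ker ψ).map A.subtype, ?_, ?_⟩
  · intro a
    constructor
    · rintro ⟨a', hker, rfl⟩
      have hker' : ψ a' = 0 := LinearMap.mem_ker.mp hker
      rw [hψa] at hker'
      have h := Prod.ext_iff.mp hker'
      exact ⟨a'.2, h.1, h.2⟩
    · rintro ⟨ha, h1, h2⟩
      refine ⟨⟨a, ha⟩, ?_, rfl⟩
      have hker' : ψ ⟨a, ha⟩ = 0 := by
        rw [hψa]
        ext <;> simp [h1, h2]
      exact LinearMap.mem_ker.mpr hker'
  · rw [Submodule.finrank_map_subtype_eq]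
    have h := LinearMap.finrank_range_add_finrank_ker ψ
    rw [LinearMap.range_eq_top.mpr hsurj, finrank_top, Module.finrank_prod, Module.finrank_self] at h
    omega

lemma sub_proj (hf : Cfsg.Geo.IsSymplecticForm f) (e1 e2 a : ι → F) (h12 : f e1 e2 = 1) :
    f (a - f a e2 • e1 + f a e1 • e2) e1 = 0 ∧ f (a - f a e2 • e1 + f a e1 • e2) e2 = 0 := by
  have h21 : f e2 e1 = -1 := by rw [hf.skew, h12]
  constructor
  · simp only [hf.bilinear.add_left, bil_sub_left hf.bilinear, hf.bilinear.smul_left,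
      hf.alternating, h21]
    ring
  · simp only [hf.bilinear.add_left, bil_sub_left hf.bilinear, hf.bilinear.smul_left,
      hf.alternating, h12]
    ring

lemma sub_block_nondeg (hf : Cfsg.Geo.IsSymplecticForm f) (A A1 : Submodule F (ι → F))
    (e1 e2 : ι → F) (he1 : e1 ∈ A) (he2 : e2 ∈ A) (h12 : f e1 e2 = 1)
    (hA1 : ∀ a, a ∈ A1 ↔ a ∈ A ∧ f a e1 = 0 ∧ f a e2 = 0)
    (hA : Cfsg.Geo.IsNondegenerateOn f A) : Cfsg.Geo.IsNondegenerateOn f A1 := by
  intro a1 ha1 ha10
  obtain ⟨ha1A, h1, h2⟩ := (hA1 a1).mp ha1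
  obtain ⟨x, hx, hxa⟩ := (hA a1 ha1A ha10).1
  have hp := sub_proj hf e1 e2 x h12
  have hpm : x - f x e2 • e1 + f x e1 • e2 ∈ A1 :=
    (hA1 _).mpr ⟨A.add_mem (A.sub_mem hx (A.smul_mem _ he1)) (A.smul_mem _ he2), hp.1, hp.2⟩
  have hval : f (x - f x e2 • e1 + f x e1 • e2) a1 = f x a1 := by
    simp only [hf.bilinear.add_left, bil_sub_left hf.bilinear, hf.bilinear.smul_left]
    rw [hf.skew e1 a1, hf.skew e2 a1, h1, h2]
    ring
  refine ⟨⟨_, hpm, by rw [hval]; exact hxa⟩, _, hpm, ?_⟩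
  rw [hf.skew, hval]
  exact neg_ne_zero.mpr hxa

/-- Two orthogonal non-degenerate subspaces of the same dimension are interchanged by an isometry
fixing every vector orthogonal to both. -/
theorem exists_swap (hf : Cfsg.Geo.IsSymplecticForm f) :
    ∀ (n : ℕ) (A B : Submodule F (ι → F)), Module.finrank F A = n → Module.finrank F B = n →
      Cfsg.Geo.IsNondegenerateOn f A → Cfsg.Geo.IsNondegenerateOn f B →
      Cfsg.Geo.AreOrthogonalFor f A B →
      ∃ h : Matrix.GeneralLinearGroup ι F,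
        (∀ x y, f ((h : Matrix ι ι F) *ᵥ x) ((h : Matrix ι ι F) *ᵥ y) = f x y) ∧
        (∀ a ∈ A, (h : Matrix ι ι F) *ᵥ a ∈ B) ∧ (∀ b ∈ B, (h : Matrix ι ι F) *ᵥ b ∈ A) ∧
        (∀ x, (∀ a ∈ A, f x a = 0) → (∀ b ∈ B, f x b = 0) → (h : Matrix ι ι F) *ᵥ x = x) := by
  intro n
  induction n using Nat.strong_induction_on with
  | _ n ih =>
    intro A B hA hB hAn hBn hAB
    by_cases hA0 : A = ⊥
    · have hn : n = 0 := by rw [← hA, hA0]; simp
      have hB0 : B = ⊥ := by
        rw [hn] at hB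
        exact Submodule.finrank_eq_zero.mp hB
      refine ⟨1, fun x y => by simp, ?_, ?_, fun x _ _ => by simp⟩
      · intro a ha
        rw [hA0] at ha
        rw [(Submodule.mem_bot F).mp ha]
        simp
      · intro b hb
        rw [hB0] at hb
        rw [(Submodule.mem_bot F).mp hb]
        simp
    · have hB0 : B ≠ ⊥ := by
        intro h
        apply hA0
        rw [h] at hB
        have h0 : n = 0 := by rw [← hB]; simp
        rw [h0] at hA
        exact Submodule.finrank_eq_zero.mp hA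
      obtain ⟨e1, he1, he10⟩ := Submodule.exists_mem_ne_zero_of_ne_bot hA0
      obtain ⟨x, hx, hxe⟩ := (hAn e1 he1 he10).2
      obtain ⟨d1, hd1, hd10⟩ := Submodule.exists_mem_ne_zero_of_ne_bot hB0
      obtain ⟨y, hy, hyd⟩ := (hBn d1 hd1 hd10).2
      have key : ∀ (e2 d2 : ι → F), e2 ∈ A → d2 ∈ B → f e1 e2 = 1 → f d1 d2 = 1 →
          ∃ h : Matrix.GeneralLinearGroup ι F,
            (∀ x y, f ((h : Matrix ι ι F) *ᵥ x) ((h : Matrix ι ι F) *ᵥ y) = f x y) ∧
            (∀ a ∈ A, (h : Matrix ι ι F) *ᵥ a ∈ B) ∧ (∀ b ∈ B, (h : Matrix ι ι F) *ᵥ b ∈ A) ∧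
            (∀ x, (∀ a ∈ A, f x a = 0) → (∀ b ∈ B, f x b = 0) → (h : Matrix ι ι F) *ᵥ x = x) := by
        intro e2 d2 he2 hd2 h12 k12
        have h21 : f e2 e1 = -1 := by rw [hf.skew, h12]
        have k21 : f d2 d1 = -1 := by rw [hf.skew, k12]
        have c11 : f e1 d1 = 0 := hAB e1 he1 d1 hd1
        have c12 : f e1 d2 = 0 := hAB e1 he1 d2 hd2
        have c21 : f e2 d1 = 0 := hAB e2 he2 d1 hd1
        have c22 : f e2 d2 = 0 := hAB e2 he2 d2 hd2
        have c11' : f d1 e1 = 0 := by rw [hf.skew, c11, neg_zero]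
        have c12' : f d2 e1 = 0 := by rw [hf.skew, c12, neg_zero]
        have c21' : f d1 e2 = 0 := by rw [hf.skew, c21, neg_zero]
        have c22' : f d2 e2 = 0 := by rw [hf.skew, c22, neg_zero]
        obtain ⟨A1, hA1, hA1d⟩ := sub_block hf A e1 e2 he1 he2 h12
        obtain ⟨B1, hB1, hB1d⟩ := sub_block hf B d1 d2 hd1 hd2 k12
        have hA1n := sub_block_nondeg hf A A1 e1 e2 he1 he2 h12 hA1 hAn
        have hB1n := sub_block_nondeg hf B B1 d1 d2 hd1 hd2 k12 hB1 hBn
        have hAB1 : Cfsg.Geo.AreOrthogonalFor f A1 B1 :=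
          fun a ha b hb => hAB a ((hA1 a).mp ha).1 b ((hB1 b).mp hb).1
        obtain ⟨h1, h1iso, h1A, h1B, h1fix⟩ :=
          ih (n - 2) (by omega) A1 B1 (by omega) (by omega) hA1n hB1n hAB1
        have huv : f (e1 - d1) (e2 - d2) = 2 := by
          simp only [bil_sub_left hf.bilinear, bil_sub_right hf.bilinear, h12, k12, c12, c21']
          ring
        have fixA : ∀ a ∈ A, (∀ a1 ∈ A1, f a a1 = 0) → (h1 : Matrix ι ι F) *ᵥ a = a :=
          fun a ha h => h1fix a h (fun b hb => hAB a ha b ((hB1 b).mp hb).1)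
        have fixB : ∀ b ∈ B, (∀ b1 ∈ B1, f b b1 = 0) → (h1 : Matrix ι ι F) *ᵥ b = b :=
          fun b hb h => h1fix b
            (fun a ha => by rw [hf.skew, hAB a ((hA1 a).mp ha).1 b hb, neg_zero]) h
        have he1fix : (h1 : Matrix ι ι F) *ᵥ e1 = e1 :=
          fixA e1 he1 (fun a1 ha1 => by rw [hf.skew, ((hA1 a1).mp ha1).2.1, neg_zero])
        have he2fix : (h1 : Matrix ι ι F) *ᵥ e2 = e2 :=
          fixA e2 he2 (fun a1 ha1 => by rw [hf.skew, ((hA1 a1).mp ha1).2.2, neg_zero])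
        have hd1fix : (h1 : Matrix ι ι F) *ᵥ d1 = d1 :=
          fixB d1 hd1 (fun b1 hb1 => by rw [hf.skew, ((hB1 b1).mp hb1).2.1, neg_zero])
        have hd2fix : (h1 : Matrix ι ι F) *ᵥ d2 = d2 :=
          fixB d2 hd2 (fun b1 hb1 => by rw [hf.skew, ((hB1 b1).mp hb1).2.2, neg_zero])
        have se1 : ((hs hf (e1 - d1) (e2 - d2) huv : Matrix.GeneralLinearGroup ι F) :
            Matrix ι ι F) *ᵥ e1 = d1 := by
          rw [hs_mulVec]
          simp only [bil_sub_right hf.bilinear, h12, c12, hf.alternating, c11]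
          module
        have se2 : ((hs hf (e1 - d1) (e2 - d2) huv : Matrix.GeneralLinearGroup ι F) :
            Matrix ι ι F) *ᵥ e2 = d2 := by
          rw [hs_mulVec]
          simp only [bil_sub_right hf.bilinear, hf.alternating, c22, h21, c21]
          module
        have sd1 : ((hs hf (e1 - d1) (e2 - d2) huv : Matrix.GeneralLinearGroup ι F) :
            Matrix ι ι F) *ᵥ d1 = e1 := by
          rw [hs_mulVec]
          simp only [bil_sub_right hf.bilinear, c21', k12, c11', hf.alternating]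
          module
        have sd2 : ((hs hf (e1 - d1) (e2 - d2) huv : Matrix.GeneralLinearGroup ι F) :
            Matrix ι ι F) *ᵥ d2 = e2 := by
          rw [hs_mulVec]
          simp only [bil_sub_right hf.bilinear, c22', hf.alternating, c12', k21]
          module
        have sfix : ∀ x, f x e1 = 0 → f x e2 = 0 → f x d1 = 0 → f x d2 = 0 →
            ((hs hf (e1 - d1) (e2 - d2) huv : Matrix.GeneralLinearGroup ι F) :
              Matrix ι ι F) *ᵥ x = x := by
          intro x a b c d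
          rw [hs_mulVec]
          simp only [bil_sub_right hf.bilinear, a, b, c, d]
          simp
        refine ⟨hs hf (e1 - d1) (e2 - d2) huv * h1, ?_, ?_, ?_, ?_⟩
        · intro x y
          rw [Units.val_mul, ← Matrix.mulVec_mulVec, ← Matrix.mulVec_mulVec, hs_isom hf, h1iso]
        · intro a ha
          have hp := sub_proj hf e1 e2 a h12
          obtain ⟨pa, hpa⟩ : ∃ pa, pa = a - f a e2 • e1 + f a e1 • e2 := ⟨_, rfl⟩
          have hpm : pa ∈ A1 := by
            rw [hpa]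
            exact (hA1 _).mpr
              ⟨A.add_mem (A.sub_mem ha (A.smul_mem _ he1)) (A.smul_mem _ he2), hp.1, hp.2⟩
          have ha_eq : a = pa + f a e2 • e1 - f a e1 • e2 := by rw [hpa]; module
          have hb1 := h1A pa hpm
          obtain ⟨hb1B, hb1d1, hb1d2⟩ := (hB1 _).mp hb1
          have sb1 := sfix _ (by rw [hf.skew, hAB e1 he1 _ hb1B, neg_zero])
            (by rw [hf.skew, hAB e2 he2 _ hb1B, neg_zero]) hb1d1 hb1d2
          have e1' : (h1 : Matrix ι ι F) *ᵥ a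
              = (h1 : Matrix ι ι F) *ᵥ pa + f a e2 • e1 - f a e1 • e2 := by
            conv_lhs => rw [ha_eq]
            rw [Matrix.mulVec_sub, Matrix.mulVec_add, Matrix.mulVec_smul, Matrix.mulVec_smul,
              he1fix, he2fix]
          rw [Units.val_mul, ← Matrix.mulVec_mulVec, e1', Matrix.mulVec_sub, Matrix.mulVec_add,
            Matrix.mulVec_smul, Matrix.mulVec_smul, se1, se2, sb1]
          exact B.sub_mem (B.add_mem hb1B (B.smul_mem _ hd1)) (B.smul_mem _ hd2)
        · intro b hb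
          have hp := sub_proj hf d1 d2 b k12
          obtain ⟨pb, hpb⟩ : ∃ pb, pb = b - f b d2 • d1 + f b d1 • d2 := ⟨_, rfl⟩
          have hpm : pb ∈ B1 := by
            rw [hpb]
            exact (hB1 _).mpr
              ⟨B.add_mem (B.sub_mem hb (B.smul_mem _ hd1)) (B.smul_mem _ hd2), hp.1, hp.2⟩
          have hb_eq : b = pb + f b d2 • d1 - f b d1 • d2 := by rw [hpb]; module
          have ha1 := h1B pb hpm
          obtain ⟨ha1A, ha1e1, ha1e2⟩ := (hA1 _).mp ha1
          have sa1 := sfix _ ha1e1 ha1e2 (hAB _ ha1A d1 hd1) (hAB _ ha1A d2 hd2)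
          have e1' : (h1 : Matrix ι ι F) *ᵥ b
              = (h1 : Matrix ι ι F) *ᵥ pb + f b d2 • d1 - f b d1 • d2 := by
            conv_lhs => rw [hb_eq]
            rw [Matrix.mulVec_sub, Matrix.mulVec_add, Matrix.mulVec_smul, Matrix.mulVec_smul,
              hd1fix, hd2fix]
          rw [Units.val_mul, ← Matrix.mulVec_mulVec, e1', Matrix.mulVec_sub, Matrix.mulVec_add,
            Matrix.mulVec_smul, Matrix.mulVec_smul, sd1, sd2, sa1]
          exact A.sub_mem (A.add_mem ha1A (A.smul_mem _ he1)) (A.smul_mem _ he2)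
        · intro x hxA hxB
          rw [Units.val_mul, ← Matrix.mulVec_mulVec,
            h1fix x (fun a ha => hxA a ((hA1 a).mp ha).1) (fun b hb => hxB b ((hB1 b).mp hb).1)]
          exact sfix x (hxA e1 he1) (hxA e2 he2) (hxB d1 hd1) (hxB d2 hd2)
      exact key ((f e1 x)⁻¹ • x) ((f d1 y)⁻¹ • y) (A.smul_mem _ hx) (B.smul_mem _ hy)
        (by rw [hf.bilinear.smul_right, inv_mul_cancel₀ hxe])
        (by rw [hf.bilinear.smul_right, inv_mul_cancel₀ hyd])

end Swap

end Cfsg.Agent.Lib.Helper94.SympSwap
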